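import Mathlib
import Cfsg.Agent.H10.Wedge
import Cfsg.Agent.H10.NdA

/-!
# Klein correspondence with Clifford products
* `du`, `φ6`, `cl_L2`, `wd`, `sg_mat`, `ex_dec`
-/

set_option autoImplicit false
open Cfsg Matrix Cfsg.Geo Module H10
open scoped MatrixGroups

namespace H16.Kl

section alg
variable {F : Type*} [Field F]

local notation "M" => Matrix (Fin 4) (Fin 4) F
local notation "W" => Fin 3 ⊕ Fin 3 → F

/-- dual alternating matrix -/
def du (v : W) : M := alt6 (v ∘ Sum.swap)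

/-- the form -/
noncomputable def φ6 (F : Type*) [Field F] : Form F (Fin 3 ⊕ Fin 3 → F) := Form.ofQuad (qPlus 3 F)

instance nd6 : (φ6 F).Nondeg := qPlus_nondeg

theorem q6 : (φ6 F).IsQuad := Form.isQuad_ofQuad _

theorem Q6 (x : W) : (φ6 F).Q x = x (.inl 0) * x (.inr 0) + x (.inl 1) * x (.inr 1) + x (.inl 2) * x (.inr 2) := by
  change quadFormPlus 3 F x = _; simp [quadFormPlus, Fin.sum_univ_three]

theorem B6 (x y : W) : (φ6 F).B x y = x (.inl 0) * y (.inr 0) + x (.inl 1) * y (.inr 1) + x (.inl 2) * y (.inr 2) +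
    (x (.inr 0) * y (.inl 0) + x (.inr 1) * y (.inl 1) + x (.inr 2) * y (.inl 2)) := by
  have := q6.Q_add x y
  simp only [Q6, Pi.add_apply] at this
  linear_combination -this

theorem alt6_add (v w : W) : alt6 (v + w) = alt6 v + alt6 w := by
  ext i j; fin_cases i <;> fin_cases j <;> simp [alt6, add_comm]

theorem alt6_sub (v w : W) : alt6 (v - w) = alt6 v - alt6 w := by
  ext i j; fin_cases i <;> fin_cases j <;> simp [alt6] <;> ring

theorem du_add (v w : W) : du (v + w) = du v + du w := alt6_add _ _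
theorem du_smul (c : F) (v : W) : du (c • v) = c • du v := alt6_smul _ _
theorem alt6_T (v : W) : (alt6 v)ᵀ = -alt6 v := by ext i j; fin_cases i <;> fin_cases j <;> simp [alt6]
theorem du_T (v : W) : (du v)ᵀ = -du v := alt6_T _
theorem du_inj : Function.Injective (du (F := F)) := fun x y h => funext fun i => by
  simpa using congrFun (alt6_injective h) i.swap

theorem ad_self (v : W) : alt6 v * du v = -(φ6 F).Q v • (1 : M) := by
  rw [Q6]; ext i j; fin_cases i <;> fin_cases j <;> simp [alt6, du, mul_apply, Fin.sum_univ_four] <;> ring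

theorem da_self (v : W) : du v * alt6 v = -(φ6 F).Q v • (1 : M) := by
  rw [Q6]; ext i j; fin_cases i <;> fin_cases j <;> simp [alt6, du, mul_apply, Fin.sum_univ_four] <;> ring

theorem ad_jor (x y : W) : alt6 x * du y + alt6 y * du x = -(φ6 F).B x y • (1 : M) := by
  have := ad_self (x + y)
  rw [q6.Q_add, alt6_add, du_add, neg_add, neg_add, add_smul, add_smul, ← ad_self, ← ad_self] at this
  linear_combination (norm := noncomm_ring) this

theorem da_jor (x y : W) : du x * alt6 y + du y * alt6 x = -(φ6 F).B x y • (1 : M) := by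
  have := da_self (x + y)
  rw [q6.Q_add, alt6_add, du_add, neg_add, neg_add, add_smul, add_smul, ← da_self, ← da_self] at this
  linear_combination (norm := noncomm_ring) this

set_option maxHeartbeats 2000000 in
theorem du_L2 (g : M) (v : W) : gᵀ * du (L2 g *ᵥ v) * g = g.det • du v := by
  ext i j
  fin_cases i <;> fin_cases j <;>
    simp [du, alt6, L2, pa6, pb6, mul_apply, Matrix.mulVec, dotProduct, Fintype.sum_sum_type, Fin.sum_univ_three,
      Matrix.det_succ_row_zero, Fin.sum_univ_succ, Fin.succAbove] <;> ring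

theorem Q_L2 (g : M) (v : W) : (φ6 F).Q (L2 g *ᵥ v) = g.det * (φ6 F).Q v := quad_L2 g v

theorem B_L2 (g : M) (v w : W) : (φ6 F).B (L2 g *ᵥ v) (L2 g *ᵥ w) = g.det * (φ6 F).B v w := by
  have := Q_L2 g (v + w)
  rw [mulVec_add, q6.Q_add, q6.Q_add, Q_L2, Q_L2] at this
  linear_combination this

theorem cl_L2 (g : M) (v w : W) : alt6 (L2 g *ᵥ v) * du (L2 g *ᵥ w) * g = g.det • (g * (alt6 v * du w)) := by
  rw [alt6_L2, mul_assoc, mul_assoc, ← mul_assoc gᵀ, du_L2]; simp [mul_assoc]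

theorem sg_mat {p w : W} (hp : (φ6 F).Q p = 0) (hw : (φ6 F).B p w = 0) : ∃ g : GL (Fin 4) F,
    g.1 = 1 - alt6 p * du w ∧ (g⁻¹).1 = 1 + alt6 p * du w ∧ g.1.det = 1 ∧ ∀ x, L2 g.1 *ᵥ x =
      x + (φ6 F).B w x • p - (φ6 F).B p x • w - ((φ6 F).Q w * (φ6 F).B p x) • p := by
  have pp : alt6 p * du p = 0 := by rw [ad_self, hp]; simp
  have pp' : du p * alt6 p = 0 := by rw [da_self, hp]; simp
  have wp : du w * alt6 p = -(du p * alt6 w) := by
    have := da_jor p w; rw [hw, neg_zero, zero_smul] at this; linear_combination (norm := noncomm_ring) this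
  have z : alt6 p * du w * alt6 p = 0 := by rw [mul_assoc, wp, mul_neg, ← mul_assoc, pp]; simp
  have key : ∀ x, L2 (1 - alt6 p * du w) *ᵥ x =
      x + (φ6 F).B w x • p - (φ6 F).B p x • w - ((φ6 F).Q w * (φ6 F).B p x) • p := fun x => alt6_injective (by
    rw [alt6_L2, transpose_sub, transpose_mul, alt6_T, du_T, transpose_one, neg_mul_neg]
    simp only [alt6_sub, alt6_add, alt6_smul]
    have e1 := da_jor w x
    have e2 := ad_jor x p
    have e3 := ad_self w
    have f1 : alt6 p * du w * alt6 x = -((φ6 F).B w x • alt6 p) - alt6 p * du x * alt6 w := by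
      rw [← neg_smul, ← mul_one (alt6 p), ← mul_smul_comm, ← e1]; noncomm_ring
    have f2 : alt6 x * (du w * alt6 p) = (φ6 F).B p x • alt6 w + alt6 p * du x * alt6 w := by
      rw [wp, q6.B_comm p, ← one_mul (alt6 w), ← smul_mul_assoc, ← neg_neg ((φ6 F).B x p), neg_smul, ← e2]; noncomm_ring
    have f3 : alt6 p * du x * alt6 p = -((φ6 F).B p x • alt6 p) := by
      rw [q6.B_comm p, ← neg_smul, ← one_mul (alt6 p), ← smul_mul_assoc, ← e2]
      linear_combination (norm := noncomm_ring) -alt6 x * pp'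
    have f4 : alt6 p * du w * alt6 x * (du w * alt6 p) = -(((φ6 F).Q w * (φ6 F).B p x) • alt6 p) := by
      rw [f1, sub_mul, neg_mul, smul_mul_assoc, ← mul_assoc, z, show alt6 p * du x * alt6 w * (du w * alt6 p) =
        alt6 p * du x * (alt6 w * du w) * alt6 p by noncomm_ring, e3, mul_smul_comm, mul_one, smul_mul_assoc, f3]
      simp [smul_smul]
    rw [show (1 - alt6 p * du w) * alt6 x * (1 - du w * alt6 p) = alt6 x - alt6 p * du w * alt6 x - alt6 x * (du w * alt6 p) +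
      alt6 p * du w * alt6 x * (du w * alt6 p) by noncomm_ring, f4, f2, f1]
    abel)
  refine ⟨⟨1 - alt6 p * du w, 1 + alt6 p * du w, by linear_combination (norm := noncomm_ring) -z * du w,
    by linear_combination (norm := noncomm_ring) -z * du w⟩, rfl, rfl, ?_, key⟩
  have a := Q_L2 (1 - alt6 p * du w) (Sum.elim ![1, 0, 0] ![1, 0, 0])
  have b := Form.Isom.Q_map ((φ6 F).sg p w) (Sum.elim ![1, 0, 0] ![1, 0, 0])
  rw [q6.sg_apply hp hw, ← key, a] at b
  simpa [Q6] using b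

/-- wedge product -/
def wd (u v : Fin 4 → F) : W := fun i => u (pa6 i) * v (pb6 i) - v (pa6 i) * u (pb6 i)

theorem L2_wd (g : M) (u v : Fin 4 → F) : L2 g *ᵥ wd u v = wd (g *ᵥ u) (g *ᵥ v) := by
  ext (i | i) <;> fin_cases i <;> simp [wd, L2, pa6, pb6, mulVec, dotProduct, Fin.sum_univ_three, Fin.sum_univ_four] <;> ring

theorem wd_comb (a b c d : F) (u v : Fin 4 → F) : wd (a • u + b • v) (c • u + d • v) = (a * d - b * c) • wd u v := by
  ext i; simp [wd]; ring

theorem du_wd (a b : F) (u v : Fin 4 → F) : du (wd u v) *ᵥ (a • u + b • v) = 0 := by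
  ext i; fin_cases i <;> simp [du, alt6, wd, pa6, pb6, mulVec, dotProduct, Fin.sum_univ_four] <;> ring

theorem Q_wd (u v : Fin 4 → F) : (φ6 F).Q (wd u v) = 0 := by simp [Q6, wd, pa6, pb6]; ring

theorem B_wd (u : Fin 4 → Fin 4 → F) : (φ6 F).B (wd (u 0) (u 1)) (wd (u 2) (u 3)) = (Matrix.of u).det := by
  simp [B6, wd, pa6, pb6, Matrix.det_succ_row_zero, Fin.sum_univ_succ, Fin.succAbove]; ring

/-- a decomposition into two planes and its pair of singular points -/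
theorem ex_dec {D : Fin 2 → Submodule F (Fin 4 → F)} (hD : IsMDecomposition 2 D) : ∃ u : Fin 4 → Fin 4 → F,
    (∀ z, z ∈ D 0 ↔ ∃ a b : F, a • u 0 + b • u 1 = z) ∧ (∀ z, z ∈ D 1 ↔ ∃ a b : F, a • u 2 + b • u 3 = z) ∧
    (φ6 F).B (wd (u 0) (u 1)) (wd (u 2) (u 3)) ≠ 0 ∧ ∀ g : GL (Fin 4) F, g ∈ decompositionStabilizer D ↔
      ∀ z ∈ Submodule.span F {wd (u 0) (u 1), wd (u 2) (u 3)}, L2 g.1 *ᵥ z ∈ Submodule.span F {wd (u 0) (u 1), wd (u 2) (u 3)} := by
  have c := isCompl_of_fin_two hD.indep hD.iSup_eq_top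
  have bs : ∀ i, ∃ x y, ∀ z, z ∈ D i ↔ ∃ a b : F, a • x + b • y = z := fun i => by
    let b := finBasisOfFinrankEq F (D i) (hD.finrank_eq i)
    refine ⟨b 0, b 1, fun z => ⟨fun hz => ⟨b.repr ⟨z, hz⟩ 0, b.repr ⟨z, hz⟩ 1, ?_⟩, ?_⟩⟩
    · have := congrArg Subtype.val (b.sum_repr ⟨z, hz⟩)
      rw [Fin.sum_univ_two] at this; exact this
    · rintro ⟨a, c, rfl⟩; exact add_mem ((D i).smul_mem _ (b 0).2) ((D i).smul_mem _ (b 1).2)
  obtain ⟨x, y, h0⟩ := bs 0
  obtain ⟨x', y', h1⟩ := bs 1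
  have sp : ∀ v, ∃ a ∈ D 0, ∃ b ∈ D 1, a + b = v := fun v => Submodule.mem_sup.1 (c.sup_eq_top ▸ Submodule.mem_top)
  have hB : (φ6 F).B (wd x y) (wd x' y') ≠ 0 := by
    refine (B_wd ![x, y, x', y']).trans_ne (IsUnit.ne_zero ((isUnit_iff_isUnit_det _).1 (vecMul_surjective_iff_isUnit.1 fun v => ?_)))
    obtain ⟨_, ha, _, hb, rfl⟩ := sp v
    obtain ⟨a, b, rfl⟩ := (h0 _).1 ha
    obtain ⟨c, d, rfl⟩ := (h1 _).1 hb
    exact ⟨![a, b, c, d], by ext i; simp [vecMul, dotProduct, Fin.sum_univ_four]; ring⟩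
  have k0 : ∀ z, z ∈ D 0 ↔ du (wd x y) *ᵥ z = 0 := fun z => ⟨fun h => by
    obtain ⟨a, b, rfl⟩ := (h0 z).1 h; exact du_wd _ _ _ _, fun h => by
    obtain ⟨_, ha, _, hb, rfl⟩ := sp z
    obtain ⟨a, b, rfl⟩ := (h0 _).1 ha
    obtain ⟨c, d, rfl⟩ := (h1 _).1 hb
    rw [mulVec_add, du_wd, zero_add] at h
    have := congrArg (· *ᵥ (c • x' + d • y')) (ad_jor (wd x y) (wd x' y'))
    simp only [add_mulVec, ← mulVec_mulVec, h, du_wd, mulVec_zero, add_zero, smul_mulVec, one_mulVec] at this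
    rwa [(smul_eq_zero.1 this.symm).resolve_left (neg_ne_zero.2 hB), add_zero]⟩
  have k1 : ∀ z, z ∈ D 1 ↔ du (wd x' y') *ᵥ z = 0 := fun z => ⟨fun h => by
    obtain ⟨a, b, rfl⟩ := (h1 z).1 h; exact du_wd _ _ _ _, fun h => by
    obtain ⟨_, ha, _, hb, rfl⟩ := sp z
    obtain ⟨a, b, rfl⟩ := (h0 _).1 ha
    obtain ⟨c, d, rfl⟩ := (h1 _).1 hb
    rw [mulVec_add, du_wd, add_zero] at h
    have := congrArg (· *ᵥ (a • x + b • y)) (ad_jor (wd x y) (wd x' y'))
    simp only [add_mulVec, ← mulVec_mulVec, h, du_wd, mulVec_zero, add_zero, smul_mulVec, one_mulVec] at this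
    rwa [(smul_eq_zero.1 this.symm).resolve_left (neg_ne_zero.2 hB), zero_add]⟩
  refine ⟨![x, y, x', y'], h0, h1, hB, fun g => ⟨fun ⟨σ, h⟩ => ?_, fun h => ?_⟩⟩
  · have k : ∀ i, ∀ v ∈ D i, g.1 *ᵥ v ∈ D (σ i) := fun i v hv => h i ▸ ⟨v, hv, rfl⟩
    have m : ∀ j, ∀ u ∈ D j, ∀ v ∈ D j, wd u v ∈ Submodule.span F {wd x y, wd x' y'} := Fin.forall_fin_two.2
      ⟨fun u hu v hv => by
        obtain ⟨a, b, rfl⟩ := (h0 _).1 hu
        obtain ⟨c, d, rfl⟩ := (h0 _).1 hv
        exact wd_comb a b c d x y ▸ Submodule.smul_mem _ _ (Submodule.subset_span (by simp)), fun u hu v hv => by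
        obtain ⟨a, b, rfl⟩ := (h1 _).1 hu
        obtain ⟨c, d, rfl⟩ := (h1 _).1 hv
        exact wd_comb a b c d x' y' ▸ Submodule.smul_mem _ _ (Submodule.subset_span (by simp))⟩
    intro z hz
    obtain ⟨a, b, rfl⟩ := Submodule.mem_span_pair.1 hz
    simp only [mulVec_add, mulVec_smul, L2_wd]
    exact add_mem (Submodule.smul_mem _ _ (m _ _ (k 0 _ ((h0 _).2 ⟨1, 0, by simp⟩)) _ (k 0 _ ((h0 _).2 ⟨0, 1, by simp⟩))))
      (Submodule.smul_mem _ _ (m _ _ (k 1 _ ((h1 _).2 ⟨1, 0, by simp⟩)) _ (k 1 _ ((h1 _).2 ⟨0, 1, by simp⟩))))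
  have d0 : g.1.det ≠ 0 := ((isUnit_iff_isUnit_det _).1 g.isUnit).ne_zero
  have k : ∀ i j, (∀ v ∈ D i, g.1 *ᵥ v ∈ D j) → (D i).map (toLin' g.1) = D j := fun i j h =>
    Submodule.eq_of_le_of_finrank_eq (by rintro _ ⟨v, hv, rfl⟩; exact h v hv) ((LinearEquiv.finrank_map_eq
      (Matrix.toLinearEquiv' g.1 (Units.invertible g)) _).trans ((hD.finrank_eq i).trans (hD.finrank_eq j).symm))
  have t : ∀ {s t : W} {a : F}, a ≠ 0 → a • t = L2 g.1 *ᵥ s → ∀ v, du s *ᵥ v = 0 → du t *ᵥ (g.1 *ᵥ v) = 0 :=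
    fun {s t a} a0 e v hv => by
      have := congrArg (· *ᵥ v) (du_L2 g.1 s)
      simp only [← e, du_smul, smul_mulVec, hv, smul_zero, ← mulVec_mulVec, mul_smul_comm, smul_mul_assoc] at this
      exact (mulVec_injective_iff_isUnit.2 ((isUnit_iff_isUnit_det _).2 (by simpa using d0.isUnit)))
        (((smul_eq_zero.1 this).resolve_left a0).trans (mulVec_zero _).symm)
  obtain ⟨a, b, e1⟩ := Submodule.mem_span_pair.1 (h _ (Submodule.subset_span (.inl rfl)))
  obtain ⟨a', b', e2⟩ := Submodule.mem_span_pair.1 (h _ (Submodule.subset_span (.inr rfl)))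
  simp only [cons_val] at e1 e2
  have q1 := Q_L2 g.1 (wd x y)
  have q2 := Q_L2 g.1 (wd x' y')
  have q3 := B_L2 g.1 (wd x y) (wd x' y')
  rw [← e1] at q1 q3
  rw [← e2] at q2 q3
  simp only [q6.Q_add, q6.Q_smul, Q_wd, map_add, map_smul, LinearMap.add_apply, q6.B_smul_left, smul_eq_mul, mul_zero, zero_add,
    q6.B_self, q6.B_comm (wd x' y') (wd x y), mul_eq_zero, hB, or_false, add_zero] at q1 q2 q3
  have q4 := mul_ne_zero d0 hB
  rw [← q3] at q4
  rcases q1 with rfl | rfl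
  · have a0 : b ≠ 0 := by rintro rfl; simp at q4
    have b0 : a' ≠ 0 := by rintro rfl; simp at q4
    obtain rfl := q2.resolve_left b0
    exact ⟨Equiv.swap 0 1, Fin.forall_fin_two.2 ⟨k 0 1 fun v hv => (k1 _).2 (t a0 (by simpa using e1) v ((k0 _).1 hv)),
      k 1 0 fun v hv => (k0 _).2 (t b0 (by simpa using e2) v ((k1 _).1 hv))⟩⟩
  · have a0 : a ≠ 0 := by rintro rfl; simp at q4
    have b0 : b' ≠ 0 := by rintro rfl; simp at q4
    obtain rfl := q2.resolve_right b0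
    exact ⟨1, Fin.forall_fin_two.2 ⟨k 0 0 fun v hv => (k0 _).2 (t a0 (by simpa using e1) v ((k0 _).1 hv)),
      k 1 1 fun v hv => (k1 _).2 (t b0 (by simpa using e2) v ((k1 _).1 hv))⟩⟩

end alg
end H16.Kl
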