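import Mathlib
import Cfsg.Agent.H16.Sl4A
import Cfsg.Agent.H18.W1

/-!
# Abstract models `Md` of `SL₄ → O₆⁺`, `SU₄ → O₆⁻`
* `Md`, `Md.transfer`, `Md.plane`, `Md.point`, `mdSL`
-/

set_option autoImplicit false
open Cfsg Matrix Cfsg.Geo Module H10
open scoped MatrixGroups

namespace H16.Kl

variable {K F V : Type*} [Field K] [Field F] [Algebra K F] [AddCommGroup V] [Module K V]

/-- a model of the Klein correspondence -/
structure Md (φ : Form K V) (G : Subgroup (GL (Fin 4) F)) (ε : V →ₗ[K] (Fin 3 ⊕ Fin 3 → F)) (π : G →* φ.Isom) : Prop where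
  q : φ.IsQuad
  n6 : finrank K V = 6
  inj : Function.Injective ε
  hQ : ∀ x, algebraMap K F (φ.Q x) = (φ6 F).Q (ε x)
  act : ∀ g x, ε ((π g).1 x) = L2 g.1.1 *ᵥ ε x
  sg : ∀ p w, φ.Q p = 0 → φ.B p w = 0 → ∀ g : GL (Fin 4) F, g.1 = 1 - alt6 (ε p) * du (ε w) →
    (g⁻¹).1 = 1 + alt6 (ε p) * du (ε w) → g.1.det = 1 → g ∈ G
  perf : commutator G = ⊤

namespace Md
variable {φ : Form K V} {G : Subgroup (GL (Fin 4) F)} {ε : V →ₗ[K] (Fin 3 ⊕ Fin 3 → F)} {π : G →* φ.Isom}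
  (m : Md φ G ε π)
include m

theorem hB (x y : V) : algebraMap K F (φ.B x y) = (φ6 F).B (ε x) (ε y) := by
  have := m.hQ (x + y)
  rw [m.q.Q_add, map_add ε, q6.Q_add, map_add, map_add, m.hQ, m.hQ] at this
  linear_combination this

variable [φ.Nondeg] [FiniteDimensional K V]

theorem E_le_range : φ.E ≤ π.range := (Subgroup.closure_le _).2 (by
  rintro _ ⟨p, w, s, hp, hw, hs, rfl⟩
  obtain ⟨g, g1, g2, g3, g4⟩ := sg_mat (p := ε p) (w := ε w) (by rw [← m.hQ, hp, map_zero]) (by rw [← m.hB, hw, map_zero])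
  refine ⟨⟨g, m.sg p w hp hw g g1 g2 g3⟩, Form.Isom.ext fun x => m.inj ?_⟩
  rw [m.act, g4, Form.siegel_apply _ hp hw hs, m.q.ε_eq, ← m.q.T_eq s, hs]
  simp only [map_sub, map_add, map_smul, one_mul, ← m.hB, ← m.hQ, ← map_mul, algebraMap_smul])

variable [Finite K]

theorem pi_mem_E (g : G) : π g ∈ φ.E := by
  rw [m.q.E_eq_commutator (m.q.good_of_finrank (by simp [m.n6])) (by simp [m.n6])]
  have h := Subgroup.mem_map_of_mem π (m.perf.ge (Subgroup.mem_top g))
  rw [commutator_def, Subgroup.map_commutator] at h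
  exact Subgroup.commutator_mono le_top le_top h

/-- maximality transfer -/
theorem transfer {H : Subgroup (GL (Fin 4) F)} {L : Subgroup φ.Isom} (hK : ∀ g : G, π g ∈ L ↔ g.1 ∈ H) (hE : ¬ φ.E ≤ L)
    (hm : ∀ N : Subgroup φ.Isom, φ.E ⊓ L ≤ N → N ≤ φ.E → ∀ g ∈ N, g ∉ L → φ.E ≤ N) : IsMaximalIn G (H ⊓ G) := by
  refine ⟨lt_of_le_of_ne inf_le_right fun e => hE fun x hx => ?_, fun N h1 h3 => ?_⟩
  · obtain ⟨g, rfl⟩ := m.E_le_range hx
    exact (hK g).2 (e.ge g.2).1
  have a : L.comap π ≤ N.subgroupOf G := fun g hg => h1 ⟨(hK g).1 hg, g.2⟩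
  by_cases b : ∀ g ∈ N.subgroupOf G, π g ∈ L
  · exact .inl (le_antisymm (fun g hg => ⟨(hK ⟨g, h3 hg⟩).1 (b _ hg), h3 hg⟩) h1)
  push Not at b
  obtain ⟨g, g1, g2⟩ := b
  have c := hm ((N.subgroupOf G).map π) (fun x hx => by
    obtain ⟨y, rfl⟩ := m.E_le_range hx.1
    exact ⟨y, a hx.2, rfl⟩) (by rintro _ ⟨x, -, rfl⟩; exact m.pi_mem_E x) _ ⟨g, g1, rfl⟩ g2
  refine .inr (le_antisymm h3 fun x hx => ?_)
  obtain ⟨y, y1, y2⟩ := c (m.pi_mem_E ⟨x, hx⟩)
  have := mul_mem y1 (a (show y⁻¹ * ⟨x, hx⟩ ∈ L.comap π by simp [y2]))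
  simpa [Subgroup.mem_subgroupOf] using this

theorem nd {H : Subgroup (GL (Fin 4) F)} {P : Submodule K V} (hP : φ.NondegOn P) (h0 : P ≠ ⊥) (h2 : finrank K P ≤ 2)
    (h3 : ∃ c : K, c * c ≠ c) (h4 : ¬ (finrank K P = 2 ∧ (φ.restrict P).HasTS 1 ∧ Nat.card K ≤ 3))
    (hK : ∀ g : G, (∀ x ∈ P, (π g).1 x ∈ P) ↔ g.1 ∈ H) : IsMaximalIn G (H ⊓ G) := by
  have s := m.q.std (by simp [m.n6])
  have h5 := φ.finrank_perp P
  rw [m.n6] at h5
  refine m.transfer (L := φ.stab P) (fun g => ⟨fun a => (hK g).1 fun x hx => (a x).1 hx,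
    fun a => φ.mem_stab_of_le ((hK g).2 a)⟩) (s.not_E_le_stab (by simp [m.n6]) h0 (by rintro rfl; simp [m.n6] at h2))
    fun N a _ g hg b => ?_
  rw [← φ.stab_perp] at a b
  refine m.q.E_le_of_stab_nondeg4 s hP.perp (by omega) (fun A hA x hx hxA hx0 => m.q.le_of_wittClosed hA hP.perp.perp
    (by rwa [φ.perp_perp]) hx hxA hx0) a (fun _ j => (h3.elim fun c hc => hc (j c)).elim) hg b fun i => ?_
  have := Submodule.finrank_mono i
  rw [LinearEquiv.finrank_map_eq, φ.perp_perp] at this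
  omega

/-- stabilisers of non-singular points -/
theorem point {H : Subgroup (GL (Fin 4) F)} {v : V} (hv : φ.Q v ≠ 0)
    (hK : ∀ g : G, (∃ c : K, c • v = (π g).1 v) ↔ g.1 ∈ H) : IsMaximalIn G (H ⊓ G) := by
  have v0 : v ≠ 0 := by rintro rfl; simp at hv
  have k : ∀ g : G, (∀ x ∈ K ∙ v, (π g).1 x ∈ K ∙ v) ↔ g.1 ∈ H := fun g => by
    rw [← hK, ← Submodule.mem_span_singleton]
    refine ⟨fun a => a _ (Submodule.mem_span_singleton_self v), fun a x hx => ?_⟩
    obtain ⟨c, rfl⟩ := Submodule.mem_span_singleton.1 hx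
    rw [map_smul]; exact Submodule.smul_mem _ _ a
  by_cases h : φ.B v v = 0
  · exact m.transfer (L := φ.stab (K ∙ v)) (fun g => ⟨fun a => (k g).1 fun x hx => (a x).1 hx,
      fun a => φ.mem_stab_of_le ((k g).2 a)⟩) ((m.q.std (by simp [m.n6])).not_E_le_stab (by simp [m.n6]) (by simpa)
      fun e => by have := finrank_span_singleton (K := K) v0; rw [e, finrank_top, m.n6] at this; omega)
      fun N a _ g hg b => H18.W1.E_le_of_stab_vec m.q hv h (by simp [m.n6]) a hg b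
  refine m.nd (fun x hx a => ?_) (by simpa) (by simp [finrank_span_singleton v0]) ⟨-1, fun e => h ?_⟩
    (by simp [finrank_span_singleton v0]) k
  · obtain ⟨c, rfl⟩ := Submodule.mem_span_singleton.1 hx
    have := a v (Submodule.mem_span_singleton_self v)
    rw [m.q.B_smul_left] at this
    simp [(mul_eq_zero.1 this).resolve_right h]
  · rw [m.q.B_self]; linear_combination φ.Q v * e

/-- stabilisers of non-degenerate planes -/
theorem plane {H : Subgroup (GL (Fin 4) F)} {x y : V} {s t : Fin 3 ⊕ Fin 3 → F} (hs : (φ6 F).Q s = 0) (ht : (φ6 F).Q t = 0)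
    (hB : (φ6 F).B s t ≠ 0) (hP : ∀ z, ε z ∈ Submodule.span F {s, t} ↔ z ∈ Submodule.span K {x, y})
    (hP' : Submodule.span F {s, t} ≤ Submodule.span F {ε x, ε y}) (h3 : ∃ c : K, c * c ≠ c)
    (h4 : 4 ≤ Nat.card K ∨ ∀ z ∈ Submodule.span K {x, y}, φ.Q z = 0 → z = 0)
    (hK : ∀ g : G, (∀ z ∈ Submodule.span F {s, t}, L2 g.1.1 *ᵥ z ∈ Submodule.span F {s, t}) ↔ g.1 ∈ H) :
    IsMaximalIn G (H ⊓ G) := by
  have o : ∀ z ∈ Submodule.span K {x, y}, φ.B z x = 0 → φ.B z y = 0 → z = 0 := fun z hz a b => by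
    have e : ∀ w ∈ Submodule.span F {s, t}, (φ6 F).B (ε z) w = 0 := fun w hw => by
      obtain ⟨c, d, rfl⟩ := Submodule.mem_span_pair.1 (hP' hw)
      simp [← m.hB, a, b]
    obtain ⟨c, d, e'⟩ := Submodule.mem_span_pair.1 ((hP z).2 hz)
    have e1 := e s (Submodule.subset_span (by simp))
    have e2 := e t (Submodule.subset_span (by simp))
    simp only [← e', map_add, LinearMap.add_apply, q6.B_smul_left, q6.B_self, hs, ht, q6.B_comm t s, mul_zero, zero_add,
      add_zero, mul_eq_zero, hB, or_false] at e1 e2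
    exact m.inj (by simp [← e', e1, e2])
  refine m.nd (P := Submodule.span K {x, y}) (fun z hz a => o z hz (a _ (Submodule.subset_span (by simp)))
    (a _ (Submodule.subset_span (by simp)))) (fun e => hB ?_)
    (by classical exact (finrank_span_le_card _).trans (by simp [Finset.card_le_two])) h3 (fun a => ?_) fun g => ?_
  · have hx : x = 0 := (Submodule.eq_bot_iff _).1 e x (Submodule.subset_span (by simp))
    have hy : y = 0 := (Submodule.eq_bot_iff _).1 e y (Submodule.subset_span (by simp))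
    have := hP' (Submodule.subset_span (.inl rfl))
    simp [hx, hy] at this
    simp [this]
  · obtain ⟨z, z0, z1⟩ := Form.hasTS_one_iff.1 a.2.1
    exact z0 (Subtype.ext (h4.resolve_left (by omega) z z.2 z1))
  rw [← hK]
  refine ⟨fun a z hz => ?_, fun a z hz => (hP _).1 (by rw [m.act]; exact a _ ((hP z).2 hz))⟩
  obtain ⟨c, d, rfl⟩ := Submodule.mem_span_pair.1 (hP' hz)
  rw [mulVec_add, mulVec_smul, mulVec_smul, ← m.act, ← m.act]
  exact add_mem (Submodule.smul_mem _ _ ((hP _).2 (a _ (Submodule.subset_span (by simp)))))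
    (Submodule.smul_mem _ _ ((hP _).2 (a _ (Submodule.subset_span (by simp)))))

end Md

theorem perf_of {A B : Type*} [Group A] [Group B] (f : A →* B) (h : commutator A = ⊤) {G : Subgroup B} (e : f.range = G) :
    commutator G = ⊤ := by
  subst e
  have := congrArg (Subgroup.map f.rangeRestrict) h
  rwa [commutator_def, Subgroup.map_commutator, Subgroup.map_top_of_surjective _ f.rangeRestrict_surjective] at this

/-- `SL₄ → O₆⁺` -/
noncomputable def piSL (F : Type*) [Field F] : specialLinear (Fin 4) F →* (φ6 F).Isom :=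
  (φ6 F).homOfFun (fun g x => L2 g.1.1 *ᵥ x) (fun g => (mulVecLin _).isLinear) (fun a b x => by simp [L2_mul])
    fun g => q6.isIsom (g := mulVecLin (L2 g.1.1)) fun x => (Q_L2 _ _).trans (by rw [H09.mem_specialLinear.1 g.2, one_mul])

theorem mdSL [Finite F] : Md (φ6 F) (specialLinear (Fin 4) F) LinearMap.id (piSL F) :=
  ⟨q6, by simp, fun _ _ h => h, fun _ => rfl, fun g x => Form.homOfFun_apply (φ := φ6 F) (fun (g : specialLinear (Fin 4) F) x => L2 g.1.1 *ᵥ x) _ _ _ g x,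
    fun _ _ _ _ g _ _ h => H09.mem_specialLinear.2 h, perf_of SpecialLinearGroup.toGL (H09.SL_commutator_eq_top (by simp))
      (SetLike.ext fun g => ⟨by rintro ⟨g, rfl⟩; exact H09.mem_specialLinear.2 g.2,
        fun h => MonoidHom.mem_range.2 ⟨⟨g, H09.mem_specialLinear.1 h⟩, Units.ext rfl⟩⟩)⟩

theorem ex_sq [Finite K] (h : 3 ≤ Nat.card K) : ∃ c : K, c * c ≠ c := by
  classical
  have := Fintype.ofFinite K
  by_contra! a
  have : (Finset.univ : Finset K) ⊆ {0, 1} := fun c _ => by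
    by_cases e : c = 0
    · simp [e]
    simp [mul_left_cancel₀ (b := c) (c := 1) e ((a c).trans (mul_one c).symm)]
  have := (Finset.card_le_card this).trans Finset.card_le_two
  simp at this h; omega

theorem sl4_3 [Fintype F] : 4 ≤ Fintype.card F → ∀ D : Fin 2 → Submodule F (Fin 4 → F), IsMDecomposition 2 D →
    IsMaximalIn (specialLinear (Fin 4) F) (decompositionStabilizer D ⊓ specialLinear (Fin 4) F) := fun h D hD => by
  obtain ⟨u, -, -, hB, k⟩ := ex_dec hD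
  exact mdSL.plane (Q_wd _ _) (Q_wd _ _) hB (fun z => Iff.rfl) le_rfl (ex_sq (by simp; omega)) (.inl (by simpa))
    fun g => (k g.1).symm

theorem sl4_8 [Fintype F] : ∀ f : (Fin 4 → F) → (Fin 4 → F) → F, IsSymplecticForm f →
    IsMaximalIn (specialLinear (Fin 4) F) (similarityGroup f ⊓ specialLinear (Fin 4) F) := fun f hf => by
  let b : (Fin 4 → F) →ₗ[F] (Fin 4 → F) →ₗ[F] F := LinearMap.mk₂ F f hf.bilinear.1 hf.bilinear.2 hf.bilinear.3 hf.bilinear.4
  obtain ⟨A, hA⟩ : ∃ A : Matrix (Fin 4) (Fin 4) F, ∀ u v, f u v = u ⬝ᵥ A *ᵥ v :=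
    ⟨LinearMap.toMatrix₂' F b, fun u v => by rw [← toLinearMap₂'_apply', toLinearMap₂'_toMatrix']; rfl⟩
  have e : ∀ i j, A i j = f (Pi.single i 1) (Pi.single j 1) := fun i j => by simp [hA]
  have hv : du (coord6 A ∘ Sum.swap) = A := by
    rw [du, Function.comp_assoc, Sum.swap_swap_eq, Function.comp_id]
    exact alt6_coord6 (fun i j => by rw [e, e, hf.skew]) fun i => by rw [e, hf.alternating]
  generalize coord6 A ∘ Sum.swap = v at hv
  subst hv
  have ext : ∀ {X Y : Matrix (Fin 4) (Fin 4) F}, (∀ u v, u ⬝ᵥ X *ᵥ v = u ⬝ᵥ Y *ᵥ v) → X = Y := fun h => by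
    ext i j; simpa using h (Pi.single i 1) (Pi.single j 1)
  have hQ : (φ6 F).Q v ≠ 0 := fun h => by
    have : alt6 v = 0 := by
      ext i j
      by_contra a
      obtain ⟨u, hu⟩ := (hf.nondegenerate (alt6 v *ᵥ Pi.single j 1) fun b => a (by simpa using congrFun b i)).1
      exact hu (by rw [hA, mulVec_mulVec, da_self, h, neg_zero, zero_smul, zero_mulVec, dotProduct_zero])
    have v0 : v = 0 := alt6_injective (by rw [this, ← zero_smul F v, alt6_smul, zero_smul])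
    obtain ⟨u, hu⟩ := (hf.nondegenerate (Pi.single 0 1) (by simp)).1
    exact hu (by rw [hA, v0, ← zero_smul F v, du_smul, zero_smul, zero_mulVec, dotProduct_zero])
  refine mdSL.point hQ fun g => ?_
  have d := H09.mem_specialLinear.1 g.2
  have k := du_L2 g.1.1 v
  have a : (piSL F g).1 v = L2 g.1.1 *ᵥ v := mdSL.act g v
  rw [d, one_smul, ← a] at k
  have u : IsUnit g.1.1ᵀ := (isUnit_transpose _).2 g.1.isUnit
  have t : ∀ u w, f (g.1.1 *ᵥ u) (g.1.1 *ᵥ w) = u ⬝ᵥ (g.1.1ᵀ * du v * g.1.1) *ᵥ w := fun u w => by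
    rw [hA, mul_assoc, ← mulVec_mulVec, ← mulVec_mulVec, dotProduct_mulVec u, vecMul_transpose]
  refine ⟨fun ⟨c, hc⟩ => ?_, fun ⟨c, hc⟩ => ⟨(c⁻¹).1, du_inj (u.mul_left_cancel (g.1.isUnit.mul_right_cancel ?_))⟩⟩
  · have c0 : c ≠ 0 := by
      rintro rfl
      exact hQ (by rw [← Form.Isom.Q_map (piSL F g), ← hc]; simp)
    refine ⟨(Units.mk0 c c0)⁻¹, fun u w => ?_⟩
    rw [← hc, du_smul, mul_smul_comm, smul_mul_assoc] at k
    rw [t, hA]; nth_rw 2 [← k]; simp [smul_mulVec, c0]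
  rw [k, du_smul, mul_smul_comm, smul_mul_assoc, ext (X := _ * _ * _) (Y := c.1 • du v) fun u w => by
    rw [← t, hc, hA]; simp [smul_mulVec]]
  simp [smul_smul]

end H16.Kl
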