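import Mathlib
import Cfsg.Agent.H16.CntBlk
import Cfsg.Agent.H16.Eo5

/-!
# Types of endomorphisms of prime order (namespace `H16.Cc`)
* `CS F r` the irreducible factors of the cyclotomic polynomial, `ty r y` the multiset of non-trivial constituents
* `isConj_iff_ty`, `count_dual`, `card_classes_of`, `card_multiset`
-/

set_option autoImplicit false
set_option linter.unusedSectionVars false
set_option linter.style.haveILetI false

namespace H16.Cc
open Module Polynomial H10 H10.Form H24.Sim H28.El H16.Cnt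

theorem card_classes_of {G β : Type*} [Group G] (P : G → Prop) (c : G → β) (Q : β → Prop)
    (h1 : ∀ g h, P g → P h → (IsConj g h ↔ c g = c h)) (h2 : ∀ b, (∃ g, P g ∧ c g = b) ↔ Q b) :
    Nat.card {C : ConjClasses G // ∃ g, ConjClasses.mk g = C ∧ P g} = Nat.card {b // Q b} := by
  refine card_eq_of_ker (α := {g // P g}) (φ := fun g => ⟨ConjClasses.mk g.1, g.1, rfl, g.2⟩)
    (ψ := fun g => ⟨c g.1, (h2 _).1 ⟨g.1, g.2, rfl⟩⟩) ?_ ?_ fun g h => ?_
  · rintro ⟨_, g, rfl, hg⟩; exact ⟨⟨g, hg⟩, rfl⟩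
  · rintro ⟨b, hb⟩
    obtain ⟨g, hg, rfl⟩ := (h2 b).2 hb
    exact ⟨⟨g, hg⟩, rfl⟩
  · rw [Subtype.ext_iff, Subtype.ext_iff, ConjClasses.mk_eq_mk_iff_isConj]
    exact h1 _ _ g.2 h.2

theorem card_multiset {α : Type*} [DecidableEq α] (R : Finset α) (T : Finset ℕ) :
    Nat.card {A : Multiset α // (∀ f ∈ A, f ∈ R) ∧ A.card ∈ T} = ∑ k ∈ T, R.card.multichoose k := by
  have e : (Σ k : T, Sym R k) ≃ {A : Multiset α // (∀ f ∈ A, f ∈ R) ∧ A.card ∈ T} := Equiv.ofBijective
    (fun B => ⟨B.2.1.map Subtype.val, fun f hf => by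
      obtain ⟨a, -, rfl⟩ := Multiset.mem_map.1 hf
      exact a.2, by rw [Multiset.card_map, B.2.2]; exact B.1.2⟩) ⟨by
      rintro ⟨⟨k, hk⟩, B, hB⟩ ⟨⟨k', hk'⟩, B', hB'⟩ e
      obtain rfl : B = B' := Multiset.map_injective Subtype.val_injective (congrArg Subtype.val e)
      obtain rfl : k = k' := hB.symm.trans hB'
      rfl, fun A => ⟨⟨⟨A.1.card, A.2.2⟩, ⟨A.1.pmap Subtype.mk A.2.1, by simp⟩⟩, Subtype.ext (by
        simp [Multiset.map_pmap, Multiset.pmap_eq_map])⟩⟩
  rw [← Nat.card_congr e, Nat.card_sigma, ← Finset.sum_coe_sort T]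
  exact Finset.sum_congr rfl fun k _ => by simp [Sym.card_sym_eq_multichoose]

variable {F : Type*} [Field F] [Fintype F] [DecidableEq F] {r : ℕ} [hr : Fact r.Prime]

local notation "bb" => orderOf ((Fintype.card F : ℕ) : ZMod r)

variable (F r) in
/-- irreducible factors of the cyclotomic polynomial -/
noncomputable def CS : Finset F[X] := (UniqueFactorizationMonoid.normalizedFactors (cyclotomic r F)).toFinset

theorem mem_CS {f : F[X]} : f ∈ CS F r ↔ Irreducible f ∧ f.Monic ∧ f ∣ cyclotomic r F := by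
  rw [CS, Multiset.mem_toFinset, Polynomial.mem_normalizedFactors_iff (cyclotomic_ne_zero r F)]

theorem dvd_of_CS {f : F[X]} (h : f ∈ CS F r) : f ∣ X ^ r - 1 := (mem_CS.1 h).2.2.trans (cyclotomic.dvd_X_pow_sub_one r F)

theorem mc_pow : MC (X ^ r - 1 : F[X]) :=
  ⟨by simpa using monic_X_pow_sub_C (1 : F) hr.out.ne_zero, by simp [coeff_X_pow, hr.out.ne_zero.symm]⟩

theorem mc_of_dvd {f g : F[X]} (hg : MC g) (hf : f.Monic) (h : f ∣ g) : MC f :=
  ⟨hf, fun e => hg.2 (X_dvd_iff.1 ((X_dvd_iff.2 e).trans h))⟩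

theorem mc_CS {f : F[X]} (h : f ∈ CS F r) : MC f := mc_of_dvd mc_pow (mem_CS.1 h).2.1 (dvd_of_CS h)

theorem mem_or {f : F[X]} (h1 : Irreducible f) (h2 : f.Monic) (h : f ∣ X ^ r - 1) : f = X - 1 ∨ f ∈ CS F r := by
  rw [← cyclotomic_prime_mul_X_sub_one] at h
  rcases h1.prime.dvd_or_dvd h with e | e
  · exact Or.inr (mem_CS.2 ⟨h1, h2, e⟩)
  · exact Or.inl (eq_of_monic_of_associated h2 monic_X_sub_one (h1.associated_of_dvd irred_X_sub_one e))

variable (h0 : (r : F) ≠ 0)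
include h0

theorem not_mem_CS : (X - 1 : F[X]) ∉ CS F r := fun h => h0 (by
  have := dvd_iff_isRoot.1 (show X - C 1 ∣ cyclotomic r F by rw [map_one]; exact (mem_CS.1 h).2.2)
  rwa [IsRoot, eval_one_cyclotomic_prime] at this)

theorem not_dvd_CS {f : F[X]} (h : f ∈ CS F r) : ¬ f ∣ X - 1 := fun e => not_mem_CS h0
  (eq_of_monic_of_associated (mem_CS.1 h).2.1 monic_X_sub_one ((mem_CS.1 h).1.associated_of_dvd irred_X_sub_one e) ▸ h)

theorem deg_CS {f : F[X]} (h : f ∈ CS F r) : f.natDegree = bb :=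
  natDegree_of_dvd h0 (mem_CS.1 h).1 (dvd_of_CS h) (not_dvd_CS h0 h)

theorem card_CS : (CS F r).card = (r - 1) / bb := by
  obtain ⟨p, _⟩ := CharP.exists F
  haveI : Fact p.Prime := ⟨CharP.char_is_prime F p⟩
  obtain ⟨f, -, hf⟩ := FiniteField.card F p
  have hc : p.Coprime r := (Nat.Prime.coprime_iff_not_dvd Fact.out).2 fun h => h0 ((CharP.cast_eq_zero_iff F p r).2 h)
  rw [CS, normalizedFactors_cyclotomic_card hf hc, Nat.totient_prime hr.out, ← orderOf_units, ZMod.coe_unitOfCoprime, ← hf]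

theorem dual_mem_CS {σ : F →+* F} (hσ : ∀ a, σ (σ a) = a) {f : F[X]} (h : f ∈ CS F r) : dual σ f ∈ CS F r := by
  have h1 := mc_CS h
  have key : ∀ k : ℕ, 0 < k → dual σ (X ^ k - 1) = X ^ k - 1 := fun k hk => by
    rw [dual, Polynomial.map_sub, Polynomial.map_pow, map_X, Polynomial.map_one, ← C_1, sub_eq_add_neg, ← C_neg,
      reverse_add_C, natDegree_X_pow, ← one_mul (X ^ k : F[X]), reverse_mul_X_pow]
    simp [coeff_X_pow, hk.ne, reverse]
  obtain ⟨g, hg⟩ := dvd_of_CS h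
  have h2 := key r hr.out.pos
  rw [hg, (tw_dual σ).mul _ _ h1 (mc_of_dvd mc_pow (h1.1.of_mul_monic_left (hg ▸ mc_pow.1)) (Dvd.intro_left _ hg.symm)),
    ← hg] at h2
  refine (mem_or (irreducible_dual hσ h1 (mem_CS.1 h).1) ((tw_dual σ).mc f h1).1 (Dvd.intro _ h2)).resolve_left fun e => ?_
  have h3 := key 1 one_pos
  rw [pow_one] at h3
  rw [← dual_dual hσ h1, e, h3] at h
  exact not_mem_CS h0 h

variable {V V' : Type*} [AddCommGroup V] [Module F V] [FiniteDimensional F V] [AddCommGroup V'] [Module F V']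
  [FiniteDimensional F V'] {y : End F V} {y' : End F V'}

omit h0 in
variable (r) in
/-- the non-trivial constituents -/
noncomputable def ty (y : End F V) : Multiset F[X] := (exists_hasTyp y).choose.filter (· ∈ CS F r)

omit h0 in
theorem mem_ty {f : F[X]} (h : f ∈ ty r y) : f ∈ CS F r := (Multiset.mem_filter.1 h).2

omit h0 in
theorem ty_eq_of_hasTyp {M : Multiset F[X]} (hM : IsTyp M) (h : HasTyp y M) : ty r y = M.filter (· ∈ CS F r) := by
  rw [ty, HasTyp.unique (exists_hasTyp y).choose_spec.1 hM (exists_hasTyp y).choose_spec.2 h]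

omit h0 in
theorem isTyp_CS {A : Multiset F[X]} (hA : ∀ f ∈ A, f ∈ CS F r) : IsTyp A := fun f hf =>
  ⟨f, 1, (mem_CS.1 (hA f hf)).2.1, (mem_CS.1 (hA f hf)).1, one_pos, (pow_one f).symm⟩

omit h0 in
theorem ty_of_hasTyp {A : Multiset F[X]} (hA : ∀ f ∈ A, f ∈ CS F r) (h : HasTyp y A) : ty r y = A ∧ y ^ r = 1 := by
  refine ⟨by rw [ty_eq_of_hasTyp (isTyp_CS hA) h, Multiset.filter_eq_self.2 hA], ?_⟩
  simpa [sub_eq_zero] using (h.aeval_eq_zero_iff _).2 fun f hf => dvd_of_CS (hA f hf)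

omit h0 in
theorem Iso.ty_eq (h : Iso y y') : ty r y = ty r y' :=
  ty_eq_of_hasTyp (exists_hasTyp y').choose_spec.1 ((exists_hasTyp y').choose_spec.2.of_iso h)

theorem hasTyp_ty (hy : y ^ r = 1) : ∃ k, HasTyp y (ty r y + .replicate k (X - 1)) := by
  obtain ⟨h1, h2⟩ := (exists_hasTyp y).choose_spec
  have hs : Squarefree (X ^ r - 1 : F[X]) := (X_pow_sub_one_separable_iff.2 h0).squarefree
  refine ⟨((exists_hasTyp y).choose.filter (¬ · ∈ CS F r)).card, ?_⟩
  rw [← Multiset.eq_replicate_card.2 fun f hf => ?_, ty, Multiset.filter_add_not]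
  · exact h2
  rw [Multiset.mem_filter] at hf
  have h3 := (h2.aeval_eq_zero_iff (X ^ r - 1)).1 (by simp [hy]) f hf.1
  obtain ⟨q, e, k1, hq, he, rfl⟩ := h1 f hf.1
  obtain rfl : e = 1 := by
    by_contra hne
    exact hq.not_isUnit (hs.squarefree_of_dvd h3 q (by rw [← pow_two]; exact pow_dvd_pow q (by omega)))
  rw [pow_one] at h3 hf ⊢
  exact (mem_or hq k1 h3).resolve_right hf.2

theorem sum_deg {A : Multiset F[X]} (hA : ∀ f ∈ A, f ∈ CS F r) : (A.map natDegree).sum = A.card * bb := by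
  rw [Multiset.map_congr rfl fun f hf => deg_CS h0 (hA f hf)]; simp

theorem ne_zero_aux (k : ℕ) : ∀ f ∈ ty r y + .replicate k (X - 1), f ≠ 0 := fun f hf => by
  rcases Multiset.mem_add.1 hf with h | h
  · exact (mem_CS.1 (mem_ty h)).1.ne_zero
  · rw [Multiset.eq_of_mem_replicate h]; exact irred_X_sub_one.ne_zero

theorem count_ty (hy : y ^ r = 1) {f : F[X]} (hf : f ∈ CS F r) : (ty r y).count f * bb = kd y f := by
  obtain ⟨k, h⟩ := hasTyp_ty h0 hy
  have h1 := mem_CS.1 hf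
  rw [h.kd (ne_zero_aux h0 k), Multiset.map_add, Multiset.sum_add, Multiset.map_replicate, kd1_of_coprime
    (h1.1.coprime_iff_not_dvd.2 (not_dvd_CS h0 hf)).symm, Multiset.map_congr rfl
      (g := fun g => if f = g then bb else 0) fun g hg => ?_]
  · generalize ty r y = A
    induction A using Multiset.induction_on with
    | empty => simp
    | cons a A ih =>
      rw [Multiset.count_cons, Multiset.map_cons, Multiset.sum_cons, add_mul, ih]
      split_ifs <;> simp [add_assoc, add_comm]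
  · have h2 := mem_CS.1 (mem_ty hg)
    split_ifs with e
    · rw [← e, kd1_of_dvd dvd_rfl, deg_CS h0 hf]
    · exact kd1_of_coprime (coprime_of_ne h2.2.1 h1.2.1 h2.1 h1.1 (Ne.symm e))

theorem card_ty (hy : y ^ r = 1) : (ty r y).card * bb = finrank F (mv y) := by
  obtain ⟨k, h⟩ := hasTyp_ty h0 hy
  have h1 := h.finrank (ne_zero_aux h0 k)
  have h2 := h.kd (ne_zero_aux h0 k) (X - 1)
  rw [← finrank_fx_eq_kd, Multiset.map_add, Multiset.map_congr rfl (g := fun _ => 0) fun g hg => kd1_of_coprime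
    ((mem_CS.1 (mem_ty hg)).1.coprime_iff_not_dvd.2 (not_dvd_CS h0 (mem_ty hg)))] at h2
  rw [Multiset.map_add, Multiset.sum_add, sum_deg h0 fun f => mem_ty] at h1
  have h3 := finrank_fx_add (g := y)
  simp [kd1_of_dvd, natDegree_X_sub_one] at h1 h2
  omega

theorem iso_of_ty (hy : y ^ r = 1) (hy' : y' ^ r = 1) (hd : finrank F V = finrank F V') (h : ty r y = ty r y') :
    Iso y y' := by
  obtain ⟨k, h1⟩ := hasTyp_ty h0 hy
  obtain ⟨k', h2⟩ := hasTyp_ty h0 hy'
  have h3 := h1.finrank (ne_zero_aux h0 k)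
  rw [hd, h2.finrank (ne_zero_aux h0 k'), h] at h3
  simp [natDegree_X_sub_one] at h3
  rw [h, ← h3] at h1
  exact h1.iso h2

theorem ty_le (hy : y ^ r = 1) (hy' : y' ^ r = 1) {e : V →ₗ[F] V'} (he : Function.Injective e)
    (h : ∀ v, e (y v) = y' (e v)) : ty r y ≤ ty r y' := by
  refine Multiset.le_iff_count.2 fun f => ?_
  by_cases hf : f ∈ CS F r
  · rw [← mul_le_mul_iff_left₀ (ord_pos h0), count_ty h0 hy hf, count_ty h0 hy' hf, kd, kd,
      (Submodule.equivMapOfInjective e he _).finrank_eq]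
    refine Submodule.finrank_mono ?_
    rintro _ ⟨v, hv, rfl⟩
    rw [LinearMap.mem_ker, ← intertwine_aeval h, LinearMap.mem_ker.1 hv, map_zero]
  · rw [Multiset.count_eq_zero.2 fun h => hf (mem_ty h)]; omega

theorem ty_eq_zero (hy : y ^ r = 1) : ty r y = 0 ↔ y = 1 := by
  rw [← Multiset.card_eq_zero, ← mul_eq_zero_iff_right (ord_pos h0).ne', card_ty h0 hy, Submodule.finrank_eq_zero]
  exact ⟨fun h => by_contra fun e => mv_ne_bot e h, fun h => h ▸ mv_one⟩

variable {φ : Form F V} [φ.Nondeg]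

theorem isConj_iff_ty (ho : Odd r) {g h : φ.Isom} (hg : g ^ r = 1) (hh : h ^ r = 1) :
    IsConj g h ↔ ty r (g.1 : End F V) = ty r (h.1 : End F V) := by
  constructor
  · intro e
    obtain ⟨k, rfl⟩ := isConj_iff.1 e
    exact Iso.ty_eq ⟨k.1, fun v => by simp [Isom.mul_apply, Isom.inv_apply]⟩
  · intro e
    obtain ⟨k, hk⟩ := iso_of_ty h0 (by rw [← coe_isom_pow, hg]; rfl) (by rw [← coe_isom_pow, hh]; rfl) rfl e
    exact H24.Adj.isConj_odd h0 ho hg k hk

omit h0 in
theorem kd_dual (hx : φ.IsIsom y) {f : F[X]} (hf : MC f) : kd y (dual φ.σ f) = kd y f := by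
  have h1 := H24.Adj.adj_mul_self_iff.2 hx.B
  have h2 := mul_eq_one_comm.1 h1
  have h3 : ∀ g : F[X], H24.Adj.adj φ (aeval y g) = aeval (H24.Adj.adj φ y) (g.map φ.σ) := fun g => by
    induction g using Polynomial.induction_on with
    | C a => simp [Algebra.algebraMap_eq_smul_one, H24.Adj.adj_smul, H24.Adj.adj_one]
    | add p q hp hq => simp [hp, hq]
    | monomial n a ih =>
      rw [pow_succ', ← mul_assoc, mul_comm (C a), mul_assoc, map_mul, H24.Adj.adj_mul, ih, mul_comm X]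
      simp
  have h4 := aeval_reverse_mul h2 (f.map φ.σ)
  have h5 : LinearMap.ker (aeval y (dual φ.σ f)) = LinearMap.ker (aeval y (f.map φ.σ).reverse) := by
    rw [dual, map_mul, aeval_C, ← Algebra.smul_def, LinearMap.ker_smul _ _ (inv_ne_zero ((_root_.map_ne_zero _).2 hf.2))]
  have h6 : LinearMap.ker (H24.Adj.adj φ (aeval y f)) = φ.perp (LinearMap.range (aeval y f)) := by
    ext v
    simp only [LinearMap.mem_ker, φ.mem_perp', LinearMap.mem_range, forall_exists_index, forall_apply_eq_imp_iff,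
      ← H24.Adj.B_adj]
    exact ⟨fun h w => by simp [h], φ.eq_zero_of_B_left⟩
  have h7 := φ.finrank_perp (LinearMap.range (aeval y f))
  have h8 := LinearMap.finrank_range_add_finrank_ker (aeval y f)
  have h9 := LinearMap.finrank_range_add_finrank_ker (aeval y (f.map φ.σ).reverse)
  have h10 := LinearMap.finrank_range_add_finrank_ker (H24.Adj.adj φ (aeval y f))
  rw [h6, h3, ← h4, End.mul_eq_comp, LinearMap.range_comp_of_range_eq_top _ (LinearMap.range_eq_top.2
    ((End.isUnit_iff _).1 ((IsUnit.of_mul_eq_one _ h1).pow _)).2)] at h10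
  rw [kd, kd, h5]
  omega

theorem count_dual (hx : φ.IsIsom y) (hy : y ^ r = 1) {f : F[X]} (hf : f ∈ CS F r) :
    (ty r y).count (dual φ.σ f) = (ty r y).count f := by
  rw [← mul_left_inj' (ord_pos h0).ne', count_ty h0 hy hf, count_ty h0 hy (dual_mem_CS h0 φ.σσ hf), kd_dual hx (mc_CS hf)]

end H16.Cc
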