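import Mathlib
import Cfsg.Agent.H16.Cc1
import Cfsg.Agent.H28.El20

/-!
# Counting classes of isometries of odd prime order (namespace `H16.Cc`)
* `RS`, `block`, `real_S`, `count_S` (self-dual case), `dual_ne`, `count_N` (dual pairs), `sum_T`
* `count_alt`, `count_quad`, `count_unit`
-/

set_option autoImplicit false
set_option linter.unusedSectionVars false
set_option linter.style.haveILetI false

namespace H16.Cc
open Module Polynomial H10 H10.Form H24.Sim H28.El H16.Cnt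

theorem sum_T (t N : ℕ) (c : Prop) [Decidable c] (ht : 0 < t) :
    ∑ k ∈ (Finset.Icc 1 N).filter (fun k => ¬ (k = N ∧ c)), t.multichoose k =
      (N + t).choose t - 1 - if c then (N + t - 1).choose (t - 1) else 0 := by
  have h1 : ∑ k ∈ Finset.Icc 1 N, t.multichoose k + 1 = (N + t).choose t := by
    rw [← Nat.sum_range_multichoose, Finset.sum_range_succ', Nat.multichoose_zero_right, ← Finset.Ico_add_one_right_eq_Icc,
      Finset.sum_Ico_eq_sum_range]
    simp [add_comm]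
  have h2 : t.multichoose N = (N + t - 1).choose (t - 1) := by
    rw [Nat.multichoose_eq, add_comm t]; exact Nat.choose_symm_of_eq_add (by omega)
  split_ifs with hc
  · obtain rfl | hN := N.eq_zero_or_pos
    · simp
    have h3 := Finset.add_sum_erase _ (t.multichoose ·) (show N ∈ Finset.Icc 1 N by simp; omega)
    rw [show (Finset.Icc 1 N).filter (fun k => ¬ (k = N ∧ c)) = (Finset.Icc 1 N).erase N by ext; simp [hc]; omega]
    omega
  · rw [Finset.filter_true_of_mem (by simp [hc])]; omega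

variable {F : Type*} [Field F] [Fintype F] [DecidableEq F] {r : ℕ} [hr : Fact r.Prime]

local notation "bb" => orderOf ((Fintype.card F : ℕ) : ZMod r)

variable {V : Type*} [AddCommGroup V] [Module F V] [FiniteDimensional F V] {x y : End F V} {U W : Submodule F V}
  {A B : Multiset F[X]}

theorem ty_compl (hc : IsCompl U W) (hU : Inv y U) (hW : Inv y W) :
    ty r y = ty r (y.restrict hU : End F U) + ty r (y.restrict hW : End F W) := by
  rw [ty, ty, ty, ← Multiset.filter_add, ← hasTyp_add hc hU hW (exists_hasTyp _).choose_spec.1 (exists_hasTyp _).choose_spec.1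
    (exists_hasTyp _).choose_spec.1 (exists_hasTyp _).choose_spec.2 (exists_hasTyp _).choose_spec.2
    (exists_hasTyp _).choose_spec.2]

variable (h0 : (r : F) ≠ 0)
include h0

theorem ty_of_fix (hc : IsCompl U W) (hU : Inv y U) (h : ∀ w ∈ W, y w = w) : ty r y = ty r (y.restrict hU : End F U) := by
  have h1 : Inv y W := fun w hw => by rw [h w hw]; exact hw
  rw [ty_compl hc hU h1, show (y.restrict h1 : End F W) = 1 from LinearMap.ext fun w => Subtype.ext (h w w.2),
    (ty_eq_zero h0 (one_pow r)).2 rfl, add_zero]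

theorem ty_of_ker (hy : y ^ r = 1) {f : F[X]} (hf : f ∈ CS F r) (h : aeval y f = 0) (hd : finrank F V = bb) :
    ty r y = {f} := by
  have h1 := count_ty h0 hy hf
  have h2 := card_ty h0 hy
  have h3 := (mv y).finrank_le
  have h4 := ord_pos h0
  rw [kd, h, LinearMap.ker_zero, finrank_top, hd, mul_eq_right₀ h4.ne'] at h1
  rw [← h2, hd, mul_le_iff_le_one_left h4] at h3
  exact (Multiset.eq_of_le_of_card_le (Multiset.singleton_le.2 (Multiset.count_pos.1 (by omega))) h3).symm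

theorem dual_ne {σ : F →+* F} {s : ℕ} (hσ : ∀ a, σ a = a ^ s) (hs : s ∣ Fintype.card F)
    (h : ∀ j, ¬ r ∣ Fintype.card F ^ j + s) {f : F[X]} (hf : f ∈ CS F r) : dual σ f ≠ f := fun e => by
  obtain ⟨p, _, m, hp, hm⟩ := FiniteField.card' F
  obtain ⟨k, -, rfl⟩ := (Nat.dvd_prime_pow hp).1 (hm ▸ hs)
  haveI := Fact.mk hp
  haveI := Fact.mk (mem_CS.1 hf).1
  haveI := (AdjoinRoot.powerBasis (mem_CS.1 hf).1.ne_zero).finite
  haveI : Finite (AdjoinRoot f) := Module.finite_of_finite F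
  haveI : ExpChar (AdjoinRoot f) p := expChar_of_injective_algebraMap (algebraMap F _).injective p
  set α := AdjoinRoot.root f
  have h1 : aeval α f = 0 := AdjoinRoot.aeval_eq f |>.trans AdjoinRoot.mk_self
  have h2 : α ^ r = 1 := by simpa [sub_eq_zero] using aeval_eq_zero_of_dvd_aeval_eq_zero (dvd_of_CS hf) h1
  have h3 : α ≠ 1 := fun e => not_dvd_CS h0 hf (AdjoinRoot.mk_eq_zero.1 (by simp [← AdjoinRoot.aeval_eq, α] at e ⊢; simp [e]))
  have h4 : α ≠ 0 := fun e => by simp [e, hr.out.ne_zero] at h2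
  have h5 : aeval (α ^ p ^ k) (f.map σ) = 0 := by
    rw [aeval_def, eval₂_map, ← iterateFrobenius_def, show (algebraMap F (AdjoinRoot f)).comp σ =
      (iterateFrobenius _ p k).comp (algebraMap F _) by ext a; simp [hσ, iterateFrobenius_def], ← hom_eval₂, ← aeval_def, h1,
      map_zero]
  have h6 : aeval (α ^ p ^ k)⁻¹ (dual σ f) = 0 := by
    letI := invertibleOfNonzero (pow_ne_zero (p ^ k) h4)
    rw [dual, map_mul, aeval_def, aeval_def, ← invOf_eq_inv, (eval₂_reverse_eq_zero_iff (algebraMap F _) _ _).2 h5,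
      mul_zero]
  rw [e] at h6
  obtain ⟨j, hj⟩ := FiniteField.exists_forall_apply_eq_pow F p (AdjoinRoot f)
    (AlgEquiv.ofBijective _ (AdjoinRoot.liftAlgHom f (Algebra.ofId _ _) (α ^ p ^ k)⁻¹ h6).bijective)
  have h7 := (AdjoinRoot.liftAlgHom_root f (Algebra.ofId _ _) (α ^ p ^ k)⁻¹ h6).symm.trans (hj α)
  rw [Nat.card_eq_fintype_card] at h7
  refine h j (orderOf_eq_prime h2 h3 ▸ orderOf_dvd_of_pow_eq_one ?_)
  rw [pow_add, ← h7, inv_mul_cancel₀ (pow_ne_zero _ h4)]

variable {φ : Form F V} [φ.Nondeg]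

omit h0 in
variable (φ r) in
/-- realisation of a type inside `U` -/
def RS (U : Submodule F V) (A : Multiset F[X]) : Prop := ∃ y : End F V, φ.IsIsom y ∧ y ^ r = 1 ∧ mv y ≤ U ∧ ty r y = A

theorem RS.sup (h : RS r φ U A) (h' : RS r φ W B) (hU : φ.NondegOn U) (ho : W ≤ φ.perp U) : RS r φ (U ⊔ W) (A + B) := by
  obtain ⟨x, h1, h2, h3, rfl⟩ := h
  obtain ⟨y, k1, k2, k3, rfl⟩ := h'
  obtain ⟨l1, l2, l3, l4⟩ := glue h1 k1 hU h3 (k3.trans ho)
  have m1 := inv_of_mv_le h3
  have m2 := inv_of_mv_le (k3.trans ho)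
  have m3 : Inv (x * y) U := fun u hu => by rw [l2 u hu]; exact m1 u hu
  have m4 : Inv (x * y) (φ.perp U) := fun u hu => by rw [l3 u hu]; exact m2 u hu
  refine ⟨x * y, isom_mul h1 k1, by rw [l1.mul_pow, h2, k2, mul_one], l4 ▸ sup_le_sup h3 k3, ?_⟩
  rw [ty_compl hU.isCompl_perp m3 m4, ty_of_fix h0 hU.isCompl_perp m1 fun w => fix_of_mv h1 h3,
    ty_of_fix h0 hU.isCompl_perp.symm m2 fun w hw => fix_of_mv k1 (k3.trans ho) (φ.le_perp_perp U hw)]
  congr 2 <;> ext v
  exacts [l2 _ v.2, l3 _ v.2]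

theorem block (ψ : Form F (ZMod r → F)) (hg : ψ.IsIsom (sh F r)) (hn : ψ.NondegOn (mv (sh F r))) (hS : SCase F r ψ.σ)
    {f : F[X]} (hf : f ∈ CS F r) (hU : φ.NondegOn U) (he : ∀ (g : End F (mv (sh F r))) (A : Submodule F (mv (sh F r))),
      (ψ.restrict _).IsIsom g → g ^ r = 1 → Inv g A → A ≤ mv g → (ψ.restrict _).NondegOn A → finrank F A = bb →
      ∃ e, IsEquiv ((ψ.restrict _).restrict A) (φ.restrict U) e) : RS r φ U {f} := by
  haveI := hn.nondeg
  let g : End F (mv (sh F r)) := (sh F r).restrict inv_mv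
  have h1 : (ψ.restrict _).IsIsom g := ⟨fun a b => hg.B _ _, fun a => hg.Q _⟩
  have h2 : g ^ r = 1 := restrict_pow_eq_one inv_mv sh_pow
  have hs := H24.Adj.semisimple_of_pow h0 h2
  have hb := ord_pos h0
  have h3 : ty r (sh F r) = ty r g :=
    ty_of_fix h0 (isCompl_fx (H24.Adj.semisimple_of_pow h0 sh_pow)).symm inv_mv fun w => mem_fx.1
  have h4 : ty r (sh F r) = (CS F r).val := by
    refine Multiset.eq_of_le_of_card_le (Multiset.le_iff_count.2 fun a => ?_) ?_
    · by_cases ha : a ∈ CS F r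
      · rw [Multiset.count_eq_one_of_mem (CS F r).nodup ha, ← mul_le_iff_le_one_left hb, count_ty h0 sh_pow ha,
          ← deg_CS h0 ha]
        exact finrank_ker_le_of_cyc cyc_sh (mem_CS.1 ha).1.ne_zero
      · rw [Multiset.count_eq_zero.2 fun h => ha (mem_ty h)]; omega
    · rw [← mul_le_mul_iff_left₀ hb, card_ty h0 sh_pow, Finset.card_val, card_CS h0]
      exact (Nat.div_mul_le_self _ _).trans le_mv_sh
  have h5 := count_ty h0 h2 hf
  rw [← h3, h4, Multiset.count_eq_one_of_mem (CS F r).nodup hf, one_mul] at h5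
  obtain ⟨p, e, hp, _, ⟨k, hk⟩, k5⟩ := hS
  haveI := Fact.mk hp
  have h6 := nd_ker h1 (by rw [hk, pow_mul, h2, one_pow]) k5 hs inv_top (nondegOn_top _) f
  rw [top_inf_eq] at h6
  have h7 := inv_ker (commute_aeval g f)
  obtain ⟨e, he⟩ := he g _ h1 h2 h7 (le_mv_of_fpf h7 fun v hv h => eq_zero_of_coprime
    ((mem_CS.1 hf).1.coprime_iff_not_dvd.2 (not_dvd_CS h0 hf)) hv (by simp [h])) h6 h5.symm
  obtain ⟨y, l1, l2, l3⟩ := exists_embed h1 h7 hU he
  have l4 := mv_le_of_fix l1 l3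
  have l5 : Iso (g.restrict h7 : End F _) (y.restrict (inv_of_mv_le l4) : End F U) := ⟨e, fun a => Subtype.ext (l2 a).symm⟩
  have l6 := restrict_pow_eq_one h7 h2
  refine ⟨y, l1, ext_of_perp hU (fun v hv => ?_) fun v hv => ?_, l4, ?_⟩
  · obtain ⟨a, ha⟩ := e.surjective ⟨v, hv⟩
    have := intertwine_aeval (s := g.restrict h7) (t := y) (e := U.subtype ∘ₗ e.toLinearMap) (fun a => by exact (l2 a).symm) (X ^ r) a
    simpa [l6, ha] using this.symm
  · rw [End.pow_apply]; exact Function.IsFixedPt.iterate (l3 _ hv) r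
  rw [ty_of_fix h0 hU.isCompl_perp (inv_of_mv_le l4) l3, ← Iso.ty_eq l5]
  refine ty_of_ker h0 l6 hf (LinearMap.ext fun v => Subtype.ext ?_) h5.symm
  exact (intertwine_aeval (e := Submodule.subtype _) (fun _ => rfl) f v).trans v.2

theorem real_S {Ok : Submodule F V → ℕ → Prop} (h1 : ∀ U f, f ∈ CS F r → φ.NondegOn U → finrank F U = bb → Ok U 1 → RS r φ U {f})
    (h2 : ∀ U k, φ.NondegOn U → finrank F U = (k + 1) * bb → Ok U (k + 1) →
      ∃ W ≤ U, φ.NondegOn W ∧ finrank F W = bb ∧ Ok W 1 ∧ Ok (U ⊓ φ.perp W) k) (hA : ∀ f ∈ A, f ∈ CS F r)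
    (hU : φ.NondegOn U) (hd : finrank F U = A.card * bb) (h : Ok U A.card) : RS r φ U A := by
  induction A using Multiset.induction_on generalizing U with
  | empty => exact ⟨1, isom_one, one_pow r, mv_one.le.trans bot_le, (ty_eq_zero h0 (one_pow r)).2 rfl⟩
  | cons f A ih =>
    rw [Multiset.card_cons] at hd h
    obtain ⟨W, k1, k2, k3, k4, k5⟩ := h2 U _ hU hd h
    have k6 := finrank_inf_perp hU k1
    have := (h1 W f (hA f (by simp)) k2 k3 k4).sup h0 (ih (fun g hg => hA g (by simp [hg])) (rel_nd hU k2 k1)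
      (by rw [add_mul] at hd; omega) k5) k2 inf_le_right
    rwa [rel_sup hU k2 k1, Multiset.singleton_add] at this

omit h0 in
theorem ord_isom {g : φ.Isom} : orderOf g = r ↔ (g.1 : End F V) ^ r = 1 ∧ (g.1 : End F V) ≠ 1 := by
  rw [orderOf_eq_prime_iff, isom_eq_iff, Ne, isom_eq_iff, coe_isom_pow]; rfl

theorem count_gen (ho : Odd r) (R : Finset F[X]) {N : ℕ} {c : Prop} [Decidable c] (hR' : 0 < R.card)
    (h1 : ∀ x y : End F V, φ.IsIsom x → φ.IsIsom y → x ^ r = 1 → y ^ r = 1 →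
      (ty r x).filter (· ∈ R) = (ty r y).filter (· ∈ R) → ty r x = ty r y)
    (h2 : ∀ A : Multiset F[X], (∀ f ∈ A, f ∈ R) → ((∃ y : End F V, φ.IsIsom y ∧ y ^ r = 1 ∧ (ty r y).filter (· ∈ R) = A) ↔
      A.card ≤ N ∧ ¬ (A.card = N ∧ c))) :
    Nat.card {C : ConjClasses φ.Isom // ∃ g, ConjClasses.mk g = C ∧ orderOf g = r} =
      (N + R.card).choose R.card - 1 - if c then (N + R.card - 1).choose (R.card - 1) else 0 := by
  rw [← sum_T _ _ _ hR', ← card_multiset]
  have h3 : ∀ y : End F V, φ.IsIsom y → y ^ r = 1 → ((ty r y).filter (· ∈ R) = 0 ↔ y = 1) := fun y hy hy' => by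
    have := (ty_eq_zero h0 (one_pow r : (1 : End F V) ^ r = 1)).2 rfl
    refine ⟨fun h => (ty_eq_zero h0 hy').1 ((h1 y 1 hy isom_one hy' (one_pow r) (by rw [h, this]; rfl)).trans this), ?_⟩
    rintro rfl; rw [this]; rfl
  refine card_classes_of _ (fun g => (ty r (g.1 : End F V)).filter (· ∈ R)) _ (fun g h hg hh => ?_) fun A => ⟨?_, ?_⟩
  · rw [isConj_iff_ty h0 ho (hg ▸ pow_orderOf_eq_one g) (hh ▸ pow_orderOf_eq_one h)]
    exact ⟨fun e => by rw [e], h1 _ _ g.2 h.2 (ord_isom.1 hg).1 (ord_isom.1 hh).1⟩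
  · rintro ⟨g, hg, rfl⟩
    have k1 : ∀ f ∈ (ty r (g.1 : End F V)).filter (· ∈ R), f ∈ R := fun f hf => (Multiset.mem_filter.1 hf).2
    have k2 := (h2 _ k1).1 ⟨_, g.2, (ord_isom.1 hg).1, rfl⟩
    refine ⟨k1, Finset.mem_filter.2 ⟨Finset.mem_Icc.2 ⟨Multiset.card_pos.2 fun e => ?_, k2.1⟩, k2.2⟩⟩
    exact (ord_isom.1 hg).2 ((h3 _ g.2 (ord_isom.1 hg).1).1 e)
  · rintro ⟨k1, k2⟩
    rw [Finset.mem_filter, Finset.mem_Icc] at k2
    obtain ⟨y, l1, l2, rfl⟩ := (h2 A k1).2 ⟨k2.1.2, k2.2⟩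
    have l3 : ((φ.toIsom y).1 : End F V) = y := LinearMap.ext (φ.toIsom_apply l1)
    refine ⟨φ.toIsom y, ord_isom.2 (l3.symm ▸ ⟨l2, fun e => ?_⟩), by rw [l3]⟩
    rw [(h3 y l1 l2).2 e] at k2; simp at k2

theorem card_CS_pos : 0 < (CS F r).card := by
  rw [card_CS h0]
  exact Nat.div_pos (Nat.le_of_dvd (by have := hr.out.two_le; omega) (ord_dvd h0)) (ord_pos h0)

theorem count_S (ho : Odd r) {c : Prop} [Decidable c]
    (h1 : ∀ y : End F V, φ.IsIsom y → y ^ r = 1 → (ty r y).card = finrank F V / bb → ¬ c)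
    (h2 : ∀ A : Multiset F[X], (∀ f ∈ A, f ∈ CS F r) → A.card * bb ≤ finrank F V → ¬ (A.card = finrank F V / bb ∧ c) →
      ∃ U, RS r φ U A) {t : ℕ} (ht : t * bb = r - 1) :
    Nat.card {C : ConjClasses φ.Isom // ∃ g, ConjClasses.mk g = C ∧ orderOf g = r} =
      (finrank F V / bb + t).choose t - 1 - if c then (finrank F V / bb + t - 1).choose (t - 1) else 0 := by
  have hb := ord_pos h0
  obtain rfl : (CS F r).card = t := by rw [card_CS h0, ← ht, Nat.mul_div_cancel _ hb]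
  have h3 : ∀ y : End F V, (ty r y).filter (· ∈ CS F r) = ty r y := fun y => Multiset.filter_eq_self.2 fun _ => mem_ty
  refine count_gen h0 ho _ (card_CS_pos h0) (fun x y _ _ _ _ h => by rwa [h3, h3] at h) fun A hA => ⟨?_, fun h => ?_⟩
  · rintro ⟨y, k1, k2, rfl⟩
    rw [h3, Nat.le_div_iff_mul_le hb, card_ty h0 k2]
    exact ⟨(mv y).finrank_le, fun h => h1 y k1 k2 h.1 h.2⟩
  · obtain ⟨U, y, k1, k2, -, k3⟩ := h2 A hA ((Nat.le_div_iff_mul_le hb).1 h.1) h.2
    exact ⟨y, k1, k2, by rw [h3, k3]⟩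

theorem count_N (ho : Odd r) (hK : Kd φ) (hN : ∀ f ∈ CS F r, dual φ.σ f ≠ f)
    (hP : ∀ y : End F V, φ.IsIsom y → y ^ r = 1 → mv y = ⊤ → 2 * bb ∣ finrank F V → Pl φ ⊤) {c : Prop} [Decidable c]
    (hc : c ↔ 2 * bb ∣ finrank F V ∧ ¬ Pl φ ⊤) {t : ℕ} (ht : t * bb = r - 1) :
    Nat.card {C : ConjClasses φ.Isom // ∃ g, ConjClasses.mk g = C ∧ orderOf g = r} =
      (finrank F V / (2 * bb) + t / 2).choose (t / 2) - 1 -
        if c then (finrank F V / (2 * bb) + t / 2 - 1).choose (t / 2 - 1) else 0 := by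
  have hb := ord_pos h0
  letI := IsWellOrder.linearOrder (WellOrderingRel (α := F[X]))
  let R := (CS F r).filter fun f => f < dual φ.σ f
  have hd : ∀ f ∈ CS F r, dual φ.σ (dual φ.σ f) = f := fun f hf => dual_dual φ.σσ (mc_CS hf)
  have h1 : ∀ f ∈ CS F r, (dual φ.σ f ∈ R ↔ f ∉ R) := fun f hf => by
    simp only [R, Finset.mem_filter, hf, dual_mem_CS h0 φ.σσ hf, hd f hf, true_and, not_lt]
    exact ⟨le_of_lt, fun h => lt_of_le_of_ne h (hN f hf)⟩
  have h2 : ∀ A : Multiset F[X], (∀ f ∈ A, f ∈ CS F r) → (∀ f ∈ CS F r, A.count (dual φ.σ f) = A.count f) →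
      A = A.filter (· ∈ R) + (A.filter (· ∈ R)).map (dual φ.σ) := fun A hA h => by
    conv_lhs => rw [← Multiset.filter_add_not (· ∈ R) A]
    congr 1
    ext f
    by_cases hf : f ∈ CS F r
    · rw [Multiset.count_map, Multiset.filter_congr (p := fun a => f = dual φ.σ a) (q := fun a => dual φ.σ f = a) fun a ha =>
        ⟨fun e => by rw [e, hd a (hA a (Multiset.mem_filter.1 ha).1)], fun e => by rw [← e, hd f hf]⟩,
        ← Multiset.count_eq_card_filter_eq, Multiset.count_filter, Multiset.count_filter, h f hf]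
      simp only [h1 f hf]
    · rw [Multiset.count_eq_zero.2 fun h => hf (hA f (Multiset.mem_filter.1 h).1), eq_comm, Multiset.count_eq_zero,
        Multiset.mem_map]
      rintro ⟨g, hg, rfl⟩
      exact hf (dual_mem_CS h0 φ.σσ (hA g (Multiset.mem_filter.1 hg).1))
  have h3 : ∀ y : End F V, φ.IsIsom y → y ^ r = 1 → 2 * (((ty r y).filter (· ∈ R)).card * bb) = finrank F (mv y) :=
    fun y hy hy' => by
    rw [← card_ty h0 hy']
    conv_rhs => rw [h2 _ (fun _ => mem_ty) fun _ => count_dual h0 hy hy']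
    rw [Multiset.card_add, Multiset.card_map]; ring
  have h4 : (CS F r).card = 2 * R.card := by
    have := congrArg Multiset.card (h2 (CS F r).val (fun _ h => h) fun f hf => by
      rw [Multiset.count_eq_one_of_mem (CS F r).nodup hf, Multiset.count_eq_one_of_mem (CS F r).nodup (dual_mem_CS h0 φ.σσ hf)])
    rw [Multiset.card_add, Multiset.card_map, ← Finset.filter_val, Finset.filter_mem_eq_inter,
      Finset.inter_eq_right.2 (Finset.filter_subset _ _)] at this
    exact this.trans (two_mul _).symm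
  have h5 := card_CS_pos h0
  obtain rfl : (CS F r).card = t := by rw [card_CS h0, ← ht, Nat.mul_div_cancel _ hb]
  rw [h4, Nat.mul_div_cancel_left _ two_pos]
  refine count_gen h0 ho R (by omega) (fun x y k1 k2 k3 k4 h => by
    rw [h2 _ (fun _ => mem_ty) fun _ => count_dual h0 k1 k3, h, ← h2 _ (fun _ => mem_ty) fun _ => count_dual h0 k2 k4])
    fun A hA => ⟨?_, fun h => ?_⟩
  · rintro ⟨y, k1, k2, rfl⟩
    have k3 := h3 y k1 k2
    rw [Nat.le_div_iff_mul_le (by omega), mul_left_comm, k3, hc]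
    refine ⟨(mv y).finrank_le, fun h => h.2.2 (hP y k1 k2 (Submodule.eq_top_of_finrank_eq ?_) h.2.1)⟩
    rw [← k3, h.1, mul_left_comm, Nat.div_mul_cancel h.2.1]
  · have hA' : ∀ f ∈ A, f ∈ CS F r := fun f hf => (Finset.mem_filter.1 (hA f hf)).1
    rw [Nat.le_div_iff_mul_le (by omega), mul_left_comm, hc] at h
    obtain ⟨Z, -, k1, k2⟩ := (hK.ts_iff (nondegOn_top φ) (A.card * bb)).2 (by
      rw [finrank_top]
      refine ⟨h.1, fun e => by_contra fun e' => h.2 ⟨?_, ?_, e'⟩⟩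
      · rw [← e, mul_left_comm, Nat.mul_div_cancel _ (by omega)]
      · rw [← e, mul_left_comm]; exact dvd_mul_left _ _)
    obtain ⟨H, -, k3, k4, k5⟩ := exists_hull (nondegOn_top φ) k1 le_top
    obtain ⟨g, hg⟩ := exists_end_typ (V := Z) (fun f hf => (mem_CS.1 (hA' f hf)).1.ne_zero) ((sum_deg h0 hA').trans k2.symm)
    obtain ⟨l1, l2⟩ := ty_of_hasTyp hA' hg
    obtain ⟨y, m1, m2, m3, m4⟩ := exists_levi k4 k1 k3 k5 h0 l2
    refine ⟨y, m1, m2, (Multiset.eq_of_le_of_card_le (Multiset.le_filter.2 ⟨l1 ▸ ty_le h0 l2 m2 Z.injective_subtype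
      fun v => (m3 v).symm, hA⟩) ?_).symm⟩
    have := Submodule.finrank_mono (mv_le_of_fix m1 m4)
    rw [← h3 y m1 m2, k5, k2] at this
    exact Nat.le_of_mul_le_mul_right (Nat.le_of_mul_le_mul_left this two_pos) hb

theorem dual_id (ho : Odd r) {σ : F →+* F} (hσ : ∀ a, σ a = a) (h : ¬ Even bb) : ∀ f ∈ CS F r, dual σ f ≠ f := fun _ =>
  dual_ne h0 (s := 1) (by simpa using hσ) (one_dvd _) fun j hj => by
    obtain rfl | hj' := j.eq_zero_or_pos
    · exact two_ne_zmod ho ((ZMod.natCast_eq_zero_iff 2 r).2 hj)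
    · exact (even_of_dvd_add ho hj' hj).2 ((Nat.coprime_two_right.2 (Nat.not_even_iff_odd.1 h)).dvd_of_dvd_mul_left
        (even_of_dvd_add ho hj' hj).1)

theorem count_alt (ho : Odd r) (h : H09.IsAltF φ) {t : ℕ} (ht : t * bb = r - 1) :
    Nat.card {C : ConjClasses φ.Isom // ∃ g, ConjClasses.mk g = C ∧ orderOf g = r} =
      if Odd bb then (finrank F V / (2 * bb) + t / 2).choose (t / 2) - 1 else (finrank F V / bb + t).choose t - 1 := by
  have hp := pl_alt h (nondegOn_top φ)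
  split_ifs with he
  · simpa using count_N h0 ho (kd_alt h) (dual_id h0 ho h.σ_eq (Nat.not_even_iff_odd.2 he)) (fun _ _ _ _ _ => hp)
      (c := False) (by simp [hp]) ht
  obtain ⟨b, hb⟩ := Nat.not_odd_iff_even.1 he
  have h1 : LinearMap.BilinForm.IsAlt (shD F r - (shD F r).flip) := fun v => sub_self _
  have h2 : (ofAlt _ h1).IsIsom (sh F r) := ⟨fun u v => by simp [shD_sh], fun _ => rfl⟩
  simpa using count_S h0 ho (c := False) (fun _ _ _ _ => id) (fun A hA k1 _ => by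
    obtain ⟨U, -, k2, k3⟩ := exists_nd_alt h (nondegOn_top φ) (k := A.card * b) (by rw [finrank_top]; linarith [hb ▸ k1])
    refine ⟨U, real_S h0 (Ok := fun _ _ => True) (fun U f hf hU hd _ => block h0 _ h2 (nd_sh h0 ho h2 (c := -1) (by simp)
      (by simp [sub_eq_add_neg])) (scase_id h0 ⟨b, hb⟩ fun _ => rfl) hf hU fun g A _ _ _ _ l1 l2 => ?_)
      (fun U k hU hd _ => ?_) hA k2 (by rw [k3, hb]; ring) trivial⟩
    · haveI := l1.nondeg
      haveI := hU.nondeg
      obtain ⟨e, k3⟩ := (((H09.isAltF_ofAlt _ h1).restrict _).restrict A).exists_isEquiv (m := b) (by omega)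
      obtain ⟨e', k4⟩ := (h.restrict U).exists_isEquiv (m := b) (by omega)
      exact ⟨_, k3.trans k4.symm⟩
    · obtain ⟨W, l1, l2, l3⟩ := exists_nd_alt h hU (k := b) (by rw [hd, add_mul]; omega)
      exact ⟨W, l1, l2, by omega, trivial, trivial⟩) ht

theorem count_quad (ho : Odd r) (h : φ.IsQuad) {t : ℕ} (ht : t * bb = r - 1) {c d : Prop} [Decidable c] [Decidable d]
    (hc : c ↔ 2 * bb ∣ finrank F V ∧ ¬ Pl φ ⊤) (hd : Even bb → (d ↔ bb ∣ finrank F V ∧ ¬ (Pl φ ⊤ ↔ Even (finrank F V / bb)))) :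
    Nat.card {C : ConjClasses φ.Isom // ∃ g, ConjClasses.mk g = C ∧ orderOf g = r} =
      if Odd bb then (finrank F V / (2 * bb) + t / 2).choose (t / 2) - 1 -
        (if c then (finrank F V / (2 * bb) + t / 2 - 1).choose (t / 2 - 1) else 0)
      else (finrank F V / bb + t).choose t - 1 - if d then (finrank F V / bb + t - 1).choose (t - 1) else 0 := by
  have hb := ord_pos h0
  by_cases he : Even bb
  swap
  · rw [if_pos (Nat.not_even_iff_odd.1 he)]
    refine count_N h0 ho (kd_quad h) (dual_id h0 ho h.σ_eq he) (fun y k1 k2 k3 _ => ?_) hc ht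
    rcases par_quad h0 ho h with ⟨h1, -⟩ | ⟨-, -, h1⟩
    · exact pl_N h0 h1 k1 k2 inv_top k3.ge (nondegOn_top φ)
    · rw [cc, if_neg he] at h1; omega
  rw [if_neg (Nat.not_odd_iff_even.2 he)]
  replace hd := hd he
  obtain ⟨b, hb'⟩ := id he
  have h2 : (ofQuad (shD F r).toQuadraticMap).IsIsom (sh F r) := ofQuad_isIsom fun v => shD_sh v v
  have h3 := (isQuad_ofQuad (shD F r).toQuadraticMap).restrict (mv (sh F r))
  refine count_S h0 ho (fun y k1 k2 k3 k4 => ?_) (fun A hA k1 k2 => ?_) ht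
  · rw [hd] at k4
    have k5 := Nat.div_mul_cancel k4.1
    have k6 := Submodule.eq_top_of_finrank_eq ((card_ty h0 k2).symm.trans (k3 ▸ k5))
    exact k4.2 (pl_S h0 ho h he k1 k2 inv_top k6.ge (nondegOn_top φ) (by rw [finrank_top, k5]))
  · have k3 : 2 * (A.card * b) = A.card * bb := by rw [hb']; ring
    obtain ⟨U, -, l1, l2, l3⟩ := exists_nd_type h (nondegOn_top φ) (Even A.card) (k := A.card * b)
      (by rwa [finrank_top, k3]) (fun e => by rw [(mul_eq_zero.1 e).resolve_right (by omega)]; simp) fun e => by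
        rw [finrank_top, k3] at e
        rw [hd, ← e, Nat.mul_div_cancel _ hb] at k2
        simpa using k2
    refine ⟨U, real_S h0 (Ok := fun U k => Pl φ U ↔ Even k) (fun U f hf hU m1 m2 => block h0 _ h2 (nd_sh h0 ho h2 (c := 1)
      (by simp) (by simp [LinearMap.BilinMap.polar_toQuadraticMap])) (scase_id h0 he fun _ => rfl) hf hU
      fun g A n1 n2 n3 n4 n5 n6 => exists_equiv_pl h3 h n5 hU (n6 ▸ he) (n6.trans m1.symm) (by
        rw [m2, pl_S h0 ho h3 he n1 n2 n3 n4 n5 (n6.trans (one_mul _).symm)])) (fun U k hU m1 m2 => ?_) hA l1 (l2.trans k3) l3⟩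
    obtain ⟨W, n1, n2, n3, n4⟩ := exists_nd_type h hU (Even 1) (k := b) (by rw [m1, add_mul]; omega) (by omega) fun e => by
      rw [m2, show k = 0 from (mul_eq_zero.1 (by rw [add_mul] at m1; omega : k * bb = 0)).resolve_right hb.ne']
    refine ⟨W, n1, n2, by omega, n4, ?_⟩
    rw [pl_rel h hU n2 n1 (m1 ▸ he.mul_left _) (n3 ▸ even_two_mul b), m2, n4]
    simp [parity_simps]

theorem count_unit (ho : Odd r) {q : ℕ} (h : φ.IsUnitary q) {t : ℕ} (ht : t * bb = r - 1) :
    Nat.card {C : ConjClasses φ.Isom // ∃ g, ConjClasses.mk g = C ∧ orderOf g = r} =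
      if orderOf (q : ZMod r) % 4 = 2 then (finrank F V / bb + t).choose t - 1
      else (finrank F V / (2 * bb) + t / 2).choose (t / 2) - 1 := by
  have hq : Fintype.card F = q ^ 2 := Nat.card_eq_fintype_card.symm.trans h.card
  have hb := ord_pos h0
  split_ifs with he
  swap
  · have key : ∀ k, Odd k → ¬ r ∣ q ^ k + 1 := fun k hk e => by
      obtain ⟨⟨a, h1⟩, h2⟩ := even_of_dvd_add ho hk.pos e
      obtain ⟨b, h3 | h3⟩ := Nat.even_or_odd' (orderOf (q : ZMod r))
      · rw [h3, mul_assoc, mul_right_inj' two_ne_zero] at h1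
        have := Nat.odd_iff.1 (Nat.odd_mul.1 (h1 ▸ hk)).1
        omega
      · exact h2 ((Nat.coprime_two_right.2 ⟨b, h3⟩).dvd_of_dvd_mul_left ⟨a, h1⟩)
    simpa using count_N h0 ho (kd_unit h) (fun f => dual_ne h0 h.σ_eq (hq ▸ dvd_pow_self q two_ne_zero) fun j hj => by
      obtain _ | j := j
      · exact key 1 odd_one (by simpa [add_comm] using hj)
      rw [hq, show (q ^ 2) ^ (j + 1) + q = q * (q ^ (2 * j + 1) + 1) by ring, hr.out.dvd_mul] at hj
      refine key _ (odd_two_mul_add_one j) (hj.resolve_left fun e => ?_)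
      rw [hq, Nat.cast_pow, (ZMod.natCast_eq_zero_iff q r).2 e] at hb
      simp at hb)
      (fun _ _ _ _ e => pl_unit h (nondegOn_top φ) (by rw [finrank_top]; exact even_iff_two_dvd.2 (dvd_of_mul_right_dvd e)))
      (c := False) ⟨False.elim, fun e => e.2 (pl_unit h (nondegOn_top φ)
        (by rw [finrank_top]; exact even_iff_two_dvd.2 (dvd_of_mul_right_dvd e.1)))⟩ ht
  obtain ⟨k, hk⟩ : ∃ k, orderOf (q : ZMod r) = 2 * (2 * k + 1) := ⟨orderOf (q : ZMod r) / 4, by omega⟩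
  let B : (ZMod r → F) →ₛₗ[φ.σ] (ZMod r → F) →ₗ[F] F := LinearMap.mk₂'ₛₗ φ.σ (RingHom.id F) (fun u v => ∑ i, φ.σ (u i) * v i)
    (by simp [add_mul, Finset.sum_add_distrib]) (by simp [Finset.mul_sum, mul_assoc])
    (by simp [mul_add, Finset.sum_add_distrib]) (by simp [Finset.mul_sum, mul_left_comm])
  have hB : B.IsSymm := ⟨fun u v => by simp [B, mul_comm]⟩
  let ψ := ofHerm φ.σ φ.σσ (exists_theta (fun e => h.exists_σ_ne.elim fun a ha => ha (by rw [e]; rfl)) φ.σσ) B hB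
  have h1 : ψ.IsUnitary q := ⟨isHerm_ofHerm _ _ _ _ _, h.card, h.σ_eq⟩
  haveI : ψ.Nondeg := ⟨fun u hu => funext fun i => by simpa [ψ, B, Pi.single_apply] using hu (Pi.single i 1)⟩
  have h2 : ψ.IsIsom (sh F r) := h1.herm.isIsom fun u v => sum_sh fun i => φ.σ (u i) * v i
  have h3 : SCase F r ψ.σ := exists_pe (n := 1) (k := 2 * k + 1) hq (by
    rw [← ZMod.natCast_eq_zero_iff]; push_cast; rw [half_pow (by omega) hk, neg_add_cancel]) fun a => by
      rw [pow_succ, pow_mul q, ← hq, pow_mul, FiniteField.pow_card_pow, h1.σ_eq]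
  simpa using count_S h0 ho (c := False) (fun _ _ _ _ => id) (fun A hA k1 _ => by
    have hn := fun U k => nb_one (φ := φ) (U := U) (k := k) (fun v => by rw [h.herm.Q_eq]; exact id) h.exists_T
    obtain ⟨U, -, k2, k3⟩ := hn _ _ (nondegOn_top φ) (finrank_top F V ▸ k1)
    refine ⟨U, real_S h0 (Ok := fun _ _ => True) (fun U f hf hU hd _ => block h0 _ h2
      (nd_mv h2 (H24.Adj.semisimple_of_pow h0 sh_pow)) h3 hf hU fun g A _ _ _ _ l1 l2 => ?_)
      (fun U k hU hd _ => ?_) hA k2 k3 trivial⟩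
    · haveI := l1.nondeg
      haveI := hU.nondeg
      exact ((h1.restrict _).restrict A).exists_isEquiv (h.restrict U) (l2.trans hd.symm)
    · obtain ⟨W, l1, l2, l3⟩ := hn U bb hU (by rw [hd, add_mul]; omega)
      exact ⟨W, l1, l2, l3, trivial, trivial⟩) ht

end H16.Cc
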