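import Mathlib
import Cfsg.Agent.H16.Cc1
import Cfsg.Agent.H16.Wal3

/-!
# Unipotent classes of symplectic groups in odd characteristic : signed partitions (namespace `H16.Cc`)
* `Sg`, `sg_iff`, `flip`, `isConj_of_sg`, `count_unip`
-/

set_option autoImplicit false
set_option linter.unusedSectionVars false
set_option linter.style.haveILetI false

namespace H16.Cc
open Module H10 H10.Form H24.Wall H16.Wal H16.Eo H28.El

theorem card_classes_succ {G : Type*} [Group G] [Finite G] {p : ℕ} [Fact p.Prime] :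
    Nat.card {C : ConjClasses G // ∃ g, ConjClasses.mk g = C ∧ orderOf g = p} =
      Nat.card {C : ConjClasses G // ∃ g, ConjClasses.mk g = C ∧ g ^ p = 1} - 1 := by
  classical
  rw [← Nat.card_congr (Equiv.optionSubtypeNe (⟨_, 1, rfl, one_pow p⟩ : {C : ConjClasses G // ∃ g, ConjClasses.mk g = C ∧ g ^ p = 1})),
    Finite.card_option, Nat.add_sub_cancel]
  have h : ∀ g : G, ConjClasses.mk g = ConjClasses.mk 1 ↔ g = 1 := fun g => by
    rw [ConjClasses.mk_eq_mk_iff_isConj, isConj_one_left]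
  refine Nat.card_eq_of_bijective (fun C => ⟨⟨C.1, C.2.imp fun g hg => ⟨hg.1, (orderOf_eq_prime_iff.1 hg.2).1⟩⟩, fun e => ?_⟩)
    ⟨fun C D e => Subtype.ext (congrArg (·.1.1) e), ?_⟩
  · obtain ⟨g, h1, h2⟩ := C.2
    exact (orderOf_eq_prime_iff.1 h2).2 ((h g).1 (h1.trans (congrArg Subtype.val e)))
  · rintro ⟨⟨_, g, rfl, h1⟩, h2⟩
    exact ⟨⟨_, g, rfl, orderOf_eq_prime h1 fun e => h2 (Subtype.ext ((h g).2 e))⟩, rfl⟩

variable {F V : Type*} [Field F] [AddCommGroup V] [Module F V] [FiniteDimensional F V] {φ : Form F V} [φ.Nondeg]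
  {g g' : φ.Isom} {W : Submodule F V} {μ : Multiset ℕ} {k m : ℕ}

theorem JT.no_part {n : End F V} (h : JT n W μ) (hW : ∀ x ∈ W, n x ∈ W) (hk : k + 1 ∉ μ) {x : V} (hx : x ∈ W)
    (h0 : (n ^ (k + 1)) x = 0) : ∃ z ∈ W, (n ^ (k + 1)) z = (n ^ k) x := by
  have h1 : ∀ j, finrank F ↥(W.map (n ^ j) ⊓ LinearMap.ker n) + rk μ (j + 1) = rk μ j := fun j => by
    have := LinearMap.finrank_range_add_finrank_ker (n.domRestrict (W.map (n ^ j)))
    rwa [LinearMap.range_domRestrict, LinearMap.ker_domRestrict, ← Submodule.finrank_map_subtype_eq (W.map (n ^ j)),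
      Submodule.map_comap_subtype, ← Submodule.map_comp, ← End.mul_eq_comp, ← pow_succ', h.2, h.2, add_comm] at this
  have h2 := rk_count μ k
  have h3 := h1 k
  have h4 := h1 (k + 1)
  rw [Multiset.count_eq_zero.2 hk] at h2
  have h5 : W.map (n ^ (k + 1)) ⊓ LinearMap.ker n = W.map (n ^ k) ⊓ LinearMap.ker n :=
    Submodule.eq_of_le_of_finrank_eq (inf_le_inf_right _ (by
      rintro _ ⟨z, hz, rfl⟩; exact ⟨_, hW z hz, by rw [pow_succ]; rfl⟩)) (by rw [add_assoc k, one_add_one_eq_two] at h4; omega)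
  exact (h5.ge ⟨⟨x, hx, rfl⟩, by rwa [pow_succ'] at h0⟩).1

theorem compl_jt (h2 : (2 : F) ≠ 0) (hJ : JT (N g) ⊤ μ) {v : Fin m → V} (h : Blk g k v) :
    ∃ ν, μ = .replicate m (k + 1) + ν ∧ JT (N g) (φ.perp (bsp g k v)) ν := by
  obtain ⟨ν, ν', h3, h4, h5, -⟩ := sub_of_inv (fun _ => h2) hJ (stab_top g) nd_top le_top h.stab h.nondeg
  exact ⟨ν', by rw [← h3, h4.unique (blk_jt h)], by rwa [top_inf_eq] at h5⟩

theorem rad (h2 : (2 : F) ≠ 0) (hJ : JT (N g) ⊤ μ) {v : Fin m → V} (h : Blk g k v) (hm : m = μ.count (k + 1)) {x y : V}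
    (hx : (N g ^ (k + 1)) x = 0) (hy : (N g ^ (k + 1)) y = 0) (h0 : ∀ a, φ.B (v a) ((N g ^ k) x) = 0) :
    φ.B y ((N g ^ k) x) = 0 := by
  obtain ⟨ν, rfl, h3⟩ := compl_jt h2 hJ h
  have h4 : k + 1 ∉ ν := Multiset.count_eq_zero.1 (by simpa using hm)
  have h5 := φ.stab_le_stab_perp _ h.stab
  have key : ∀ x, (N g ^ (k + 1)) x = 0 → ∃ a ∈ bsp g k v, ∃ b ∈ φ.perp (bsp g k v), a + b = x ∧ (N g ^ (k + 1)) b = 0 :=
    fun x hx => by
    obtain ⟨a, b, rfl⟩ := exists_add_of_isCompl h.nondeg.isCompl_perp x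
    refine ⟨a, a.2, b, b.2, rfl, ?_⟩
    rwa [map_add, ((blk_jt h).pow_iff _).2 (fun e he => (Multiset.eq_of_mem_replicate he).le) _ a.2, zero_add] at hx
  obtain ⟨a, a1, b, b1, rfl, b2⟩ := key y hy
  have h6 : φ.B a ((N g ^ k) x) = 0 := by
    refine φ.mem_perp.1 (?_ : _ ∈ φ.perp (bsp g k v)) a a1
    refine φ.le_perp_comm.1 (bsp_le fun z => ?_) (Submodule.mem_span_singleton_self _)
    rw [φ.mem_perp_singleton, φ.B_eq_zero_comm, bf]
    obtain e | e := z.1.1.eq_zero_or_pos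
    · rw [e]; exact h0 _
    · rw [B_N_pow, show z.1.1 + k = (z.1.1 - 1) + (k + 1) by omega, pow_add, End.mul_apply, hx]; simp
  obtain ⟨c, c1, d, d1, rfl, d2⟩ := key x hx
  obtain ⟨z, -, hz⟩ := JT.no_part h3 (N_inv h5) h4 d1 d2
  rw [map_add φ.B, LinearMap.add_apply, h6, map_add, map_add, ← hz, B_N_zero g b2, φ.mem_perp'.1 b1 _ (N_mem g h.stab c1 k)]
  simp

variable (g μ k) in
/-- the sign of the blocks of size `k + 1` -/
def Sg : Prop := ∃ v : Fin (μ.count (k + 1)) → V, Blk g k v ∧ IsSquare (lead g k v).det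

theorem sg_iff (hA : H09.IsAltF φ) (h2 : (2 : F) ≠ 0) (hk : Odd k) (hJ : JT (N g) ⊤ μ) {v : Fin m → V} (h : Blk g k v)
    (hm : m = μ.count (k + 1)) : Sg g μ k ↔ IsSquare (lead g k v).det := by
  subst hm
  refine ⟨fun ⟨w, h', r, hr⟩ => ?_, fun e => ⟨v, h, e⟩⟩
  have sy : ∀ x y, (N g ^ (k + 1)) x = 0 → φ.B x ((N g ^ k) y) = φ.B y ((N g ^ k) x) := fun x y hx => by
    have := B_N_pow g k 0 y x
    rw [pow_zero, End.one_apply, add_zero, B_fix g (by rw [← End.mul_apply, ← pow_succ', hx])] at this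
    rw [φ.symm, this, eps_of_alt hA, hA.σ_eq, hk.neg_one_pow]; simp
  let M : Matrix _ _ F := Matrix.of fun a b => φ.B (w a) ((N g ^ k) (v b))
  let P := (lead g k w)⁻¹ * M
  have h3 : lead g k w * P = M := Matrix.mul_nonsing_inv_cancel_left _ _ (Ne.isUnit h'.det)
  have h4 : lead g k v = M.transpose * P := by
    ext a b
    have := rad h2 hJ h' rfl (x := v b - ∑ c, P c b • w c) (by simp [h.nil, h'.nil]) (h.nil a) fun c => by
      have := congrFun (congrFun h3 c) b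
      simp only [Matrix.mul_apply, lead, M, Matrix.of_apply] at this
      simp [← this, mul_comm]
    simp only [map_sub, map_sum, map_smul, smul_eq_mul, sub_eq_zero, sy _ (w _) (h.nil a)] at this
    simp [lead, this, Matrix.mul_apply, M, mul_comm]
  refine ⟨r * P.det, ?_⟩
  rw [h4, ← h3, Matrix.det_mul, Matrix.det_transpose, Matrix.det_mul, hr]; ring

theorem jt_sup {S : Finset ℕ} {v : ℕ → Σ m, (Fin m → V)} (h : Wal.OD φ S fun i => bsp g i (v i).2)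
    (h1 : ∀ i ∈ S, Blk g i (v i).2) : g ∈ φ.stab (S.sup fun i => bsp g i (v i).2) ∧
      JT (N g) (S.sup fun i => bsp g i (v i).2) (∑ i ∈ S, .replicate (v i).1 (i + 1)) := by
  induction S using Finset.induction_on with
  | empty => exact ⟨φ.mem_stab_of_le (by simp), jt_bot⟩
  | insert a S ha ih =>
    obtain ⟨k1, k2⟩ := ih (h.mono (Finset.subset_insert _ _)) fun i hi => h1 i (by simp [hi])
    have k3 := h1 a (by simp)
    rw [Finset.sup_insert, Finset.sum_insert ha]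
    exact ⟨stab_sup k3.stab k1, (blk_jt k3).sup k2 (N_inv k3.stab) (N_inv k1)
      (disj_of_perp k3.nondeg (h.sup_le (Finset.subset_insert _ _) (by simp) ha))⟩

theorem exists_lv (hσ : ∀ a, φ.σ a = a) (hW : g ∈ φ.stab W) (hn : φ.NondegOn W) (hJ : JT (N g) W μ) {K : ℕ}
    (hK : ∀ e ∈ μ, e ≤ K) : ∃ v : ℕ → Σ m, (Fin m → V), (∀ i < K, Blk g i (v i).2 ∧ (v i).1 = μ.count (i + 1)) ∧
      Wal.OD φ (Finset.range K) (fun i => bsp g i (v i).2) ∧ (Finset.range K).sup (fun i => bsp g i (v i).2) = W := by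
  obtain ⟨v, h1, h2, h3⟩ := exists_blks hσ K hW hn ((hJ.pow_iff K).2 hK)
  have h4 : Wal.OD φ (Finset.range K) fun i => bsp g i (v i).2 :=
    ⟨fun i hi => (h1 i (by simpa using hi)).nondeg, fun i hi j hj => h2 i (by simpa using hi) j (by simpa using hj)⟩
  refine ⟨v, fun i hi => ⟨h1 i hi, ?_⟩, h4, h3⟩
  rw [hJ.unique (h3 ▸ (jt_sup h4 fun i hi => h1 i (by simpa using hi)).2), Multiset.count_sum']
  simp [Multiset.count_replicate, hi]

theorem exists_lv' (hσ : ∀ a, φ.σ a = a) (hW : g ∈ φ.stab W) (hn : φ.NondegOn W) (hJ : JT (N g) W μ) (k : ℕ) :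
    ∃ v : Fin (μ.count (k + 1)) → V, Blk g k v ∧ ∀ a, v a ∈ W := by
  obtain ⟨v, h1, -, h3⟩ := exists_lv hσ hW hn hJ (K := μ.sum + (k + 1)) fun e he => (Multiset.le_sum_of_mem he).trans (by omega)
  have h4 := h3 ▸ Finset.le_sup (f := fun i => bsp g i (v i).2) (Finset.mem_range.2 (by omega : k < μ.sum + (k + 1)))
  obtain ⟨h5, h6⟩ := h1 k (by omega)
  rw [← h6]
  exact ⟨_, h5, fun a => h4 (bf_mem g k _ (0, a))⟩

theorem isConj_of_sg [Finite F] (hA : H09.IsAltF φ) (h2 : (2 : F) ≠ 0) (hJ : JT (N g) ⊤ μ) (hJ' : JT (N g') ⊤ μ)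
    (h : ∀ k, Odd k → k + 1 ∈ μ → (Sg g μ k ↔ Sg g' μ k)) : IsConj g g' := by
  obtain ⟨v, h1, h3, h4⟩ := exists_lv hA.σ_eq (stab_top g) nd_top hJ (K := μ.sum) fun e he => Multiset.le_sum_of_mem he
  obtain ⟨w, k1, k3, k4⟩ := exists_lv hA.σ_eq (stab_top g') nd_top hJ' (K := μ.sum) fun e he => Multiset.le_sum_of_mem he
  have := eqv_sup (g' := (g'.1 : End F V)) h2 h3 k3 fun i hi x => (φ.mem_stab.1 (h1 i (by simpa using hi)).1.stab x).1
  rw [h4, k4] at this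
  refine Eqv.isConj (this fun i hi => ?_)
  obtain ⟨l1, l2⟩ := h1 i (by simpa using hi)
  obtain ⟨m1, m2⟩ := k1 i (by simpa using hi)
  refine Blk.eqv' h2 hA.σ_eq l1 m1 (l2.trans m2.symm) fun e => ?_
  rw [eps_of_alt hA, ← pow_succ', neg_one_pow_eq_one_iff' h2, Nat.even_add_one, Nat.not_even_iff_odd] at e
  have : IsSquare (lead g i (v i).2).det ↔ IsSquare (lead g' i (w i).2).det := by
    by_cases hc : i + 1 ∈ μ
    · rw [← sg_iff hA h2 e hJ l1 l2, ← sg_iff hA h2 e hJ' m1 m2, h i e hc]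
    · rw [Multiset.count_eq_zero.2 hc] at l2 m2
      haveI : IsEmpty (Fin (v i).1) := l2 ▸ inferInstance
      haveI : IsEmpty (Fin (w i).1) := m2 ▸ inferInstance
      simp
  by_cases hc : IsSquare (lead g i (v i).2).det
  · rw [chi_eq_one_iff.2 hc, chi_eq_one_iff.2 (this.1 hc)]
  · rw [chi_eq_neg_one_iff.2 hc, chi_eq_neg_one_iff.2 (this.not.1 hc)]

theorem pow_conj {s : V ≃ₗ[F] V} (h : ∀ x, g'.1 (s x) = s (g.1 x)) (j : ℕ) (x : V) : (N g' ^ j) (s x) = s ((N g ^ j) x) := by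
  induction j with
  | zero => rfl
  | succ j ih => rw [pow_succ', pow_succ', End.mul_apply, End.mul_apply, ih, N_apply, N_apply, h, map_sub]

theorem jt_conj {s : V ≃ₗ[F] V} (h : ∀ x, g'.1 (s x) = s (g.1 x)) (hJ : JT (N g) ⊤ μ) : JT (N g') ⊤ μ :=
  ⟨hJ.1, fun j => by
    rw [← hJ.2, ← LinearEquiv.finrank_map_eq s (Submodule.map _ _), eq_comm, ← LinearEquiv.finrank_map_eq s, eq_comm,
      LinearEquiv.finrank_map_eq, ← Submodule.map_comp, show s.toLinearMap ∘ₗ N g ^ j = (N g' ^ j) ∘ₗ s.toLinearMap from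
      LinearMap.ext fun x => (pow_conj h j x).symm, Submodule.map_comp, Submodule.map_top s.toLinearMap, LinearEquiv.range]⟩

theorem sg_conj (h : IsConj g g') : Sg g μ k → Sg g' μ k := by
  obtain ⟨c, rfl⟩ := isConj_iff.1 h
  have h1 := pow_conj (g := g) (g' := c * g * c⁻¹) (s := c.1) fun x => by simp
  rintro ⟨v, h2, h3⟩
  have h4 : lead (c * g * c⁻¹) k (c.1 ∘ v) = lead g k v := by ext a b; simp [lead, h1, c.2.B]
  exact ⟨c.1 ∘ v, ⟨fun a => by simp [h1, h2.nil], h4 ▸ h2.det⟩, h4 ▸ h3⟩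

theorem flip [Finite F] (hA : H09.IsAltF φ) (h2 : (2 : F) ≠ 0) (hk : Odd k) (hJ : JT (N g) ⊤ μ) (hm : k + 1 ∈ μ) :
    ∃ g' : φ.Isom, JT (N g') ⊤ μ ∧ (Sg g' μ k ↔ ¬ Sg g μ k) ∧ ∀ j, Odd j → j ≠ k → (Sg g' μ j ↔ Sg g μ j) := by
  have hb : ¬ Bad φ (k + 1) := by rw [bad_alt hA h2, Nat.not_odd_iff_even]; exact hk.add_one
  obtain ⟨X, -, h1, h3, h4⟩ := exists_inv_of_le (fun _ => h2) hJ (stab_top g) nd_top (ν := .replicate 1 (k + 1))
    (by simpa using hm) (parT_replicate fun h => absurd h hb)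
  obtain ⟨m, u, h5, -, ⟨rfl, -⟩ | ⟨-, h6⟩⟩ := exists_atom (fun _ => h2) h1 h3 (k := k) ((h4.pow_iff _).2 (by simp))
    (by rw [h4.pow_iff]; simp)
  swap; · exact absurd h6 hb
  obtain ⟨ν, rfl, h6⟩ := compl_jt h2 hJ h5
  set A := bsp g k u
  have h7 := φ.stab_le_stab_perp _ h5.stab
  obtain ⟨c, c0, hc⟩ := exists_chi_eq_neg_one h2
  haveI := h5.nondeg.nondeg
  obtain ⟨d, hd⟩ := even_of_alt hA h5.nondeg
  have l1 : LinearMap.BilinForm.IsAlt (c • (hA.restrict A).bilin) := (hA.restrict A).bilin_alt.smul c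
  haveI : (ofAlt _ l1).Nondeg := ⟨fun x hx => (φ.restrict A).eq_zero_of_B_left fun y => (mul_eq_zero.1 (hx y)).resolve_left c0⟩
  obtain ⟨e, he⟩ := (H09.isAltF_ofAlt _ l1).exists_isEquiv (m := d) (hd.trans (two_mul d).symm)
  obtain ⟨e', he'⟩ := (hA.restrict A).exists_isEquiv (m := d) (hd.trans (two_mul d).symm)
  have l2 : ∀ x y : A, φ.B ((e.trans e'.symm) x : A) ((e.trans e'.symm) y : A) = c * φ.B x y := (he.trans he'.symm).B
  generalize e.trans e'.symm = t at l2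
  let E := Submodule.prodEquivOfIsCompl _ _ h5.nondeg.isCompl_perp
  let s := (E.symm.trans (t.prodCongr (LinearEquiv.refl F _))).trans E
  have l3 : ∀ (a : A) (b : φ.perp A), s (a + b) = t a + b := fun a b => by
    simp only [s, LinearEquiv.trans_apply, show (a + b : V) = E (a, b) from rfl, E.symm_apply_apply]; rfl
  have o1 : ∀ (a : A) (b : φ.perp A), φ.B a b = 0 := fun a b => φ.mem_perp.1 b.2 _ a.2
  have o2 : ∀ (a : A) (b : φ.perp A), φ.B b a = 0 := fun a b => φ.mem_perp'.1 b.2 _ a.2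
  have dec := exists_add_of_isCompl h5.nondeg.isCompl_perp
  have l4 : ∀ a ∈ A, ∀ y, φ.B (s a) (s y) = c * φ.B a y := fun a ha y => by
    obtain ⟨a', b', rfl⟩ := dec y
    have := l3 ⟨a, ha⟩ 0
    simp only [ZeroMemClass.coe_zero, add_zero] at this
    rw [this, l3, map_add, map_add, o1, l2, o1 ⟨a, ha⟩]; simp
  have l5 : ∀ b ∈ φ.perp A, ∀ y, φ.B (s b) (s y) = φ.B b y := fun b hb y => by
    obtain ⟨a', b', rfl⟩ := dec y
    have := l3 0 ⟨b, hb⟩
    simp only [ZeroMemClass.coe_zero, zero_add, map_zero] at this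
    rw [this, l3, map_add, map_add, o2 _ ⟨b, hb⟩, o2 _ ⟨b, hb⟩]
  let g' : φ.Isom := ⟨s * g.1 * s⁻¹, ⟨fun x y => by
    obtain ⟨x, rfl⟩ := s.surjective x
    obtain ⟨y, rfl⟩ := s.surjective y
    obtain ⟨a, b, rfl⟩ := dec x
    simp only [LinearEquiv.mul_apply, LinearEquiv.coe_inv, LinearEquiv.symm_apply_apply, map_add, LinearMap.add_apply,
      l4 _ a.2, l5 _ b.2, l4 _ ((φ.mem_stab.1 h5.stab _).1 a.2), l5 _ ((φ.mem_stab.1 h7 _).1 b.2), g.2.B],
    fun x => by rw [hA.Q_eq, hA.Q_eq]⟩⟩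
  have l6 : ∀ x, g'.1 (s x) = s (g.1 x) := fun x => by simp [g']
  have l7 := pow_conj l6
  have hJ' := jt_conj l6 hJ
  refine ⟨g', hJ', ?_, fun j hj hjk => ?_⟩
  · obtain ⟨w, k1, k2⟩ := exists_lv' hA.σ_eq h7 h5.nondeg.perp h6 k
    have k3 : u 0 ∈ A := bf_mem g k u (0, 0)
    have k4 : ∀ a, (N g ^ (k + 1)) ((Fin.cons (u 0) w : Fin (_ + 1) → V) a) = 0 := Fin.cases (h5.nil 0) k1.nil
    have k5 : ∀ a, φ.B (u 0) ((N g ^ k) (w a)) = 0 := fun a => o1 ⟨_, k3⟩ ⟨_, N_mem g h7 (k2 a) k⟩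
    have k6 : (lead g k (Fin.cons (u 0) w)).det = (lead g k u).det * (lead g k w).det := by
      simp [Matrix.det_succ_row_zero, Fin.sum_univ_succ, lead, k5]; left; rfl
    have k7 : (lead g' k (s ∘ Fin.cons (u 0) w)).det = c * ((lead g k u).det * (lead g k w).det) := by
      simp [Matrix.det_succ_row_zero, Fin.sum_univ_succ, lead, l7, l4 _ k3, k5, mul_assoc, c0]
      left; congr 1; ext a b; simp [l5 _ (k2 _)]
    have k8 := mul_ne_zero h5.det k1.det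
    rw [sg_iff hA h2 hk hJ ⟨k4, k6 ▸ k8⟩ (by simp [add_comm]), sg_iff hA h2 hk hJ' (v := s ∘ Fin.cons (u 0) w)
      ⟨fun a => by simp [l7, k4], k7 ▸ mul_ne_zero c0 k8⟩ (by simp [add_comm]), k6, k7, ← chi_eq_one_iff, chi_mul c0 k8, hc,
      ← chi_eq_neg_one_iff, neg_one_mul, neg_eq_iff_eq_neg]
  · obtain ⟨w, k1, k2⟩ := exists_lv' hA.σ_eq h7 h5.nondeg.perp h6 j
    have k3 : lead g' j (s ∘ w) = lead g j w := by ext a b; simp [lead, l7, l5 _ (k2 _)]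
    rw [sg_iff hA h2 hj hJ k1 (by simp [hjk]), sg_iff hA h2 hj hJ' (v := s ∘ w)
      ⟨fun a => by simp [l7, k1.nil], k3 ▸ k1.det⟩ (by simp [hjk]), k3]

theorem exists_sg [Finite F] (hA : H09.IsAltF φ) (h2 : (2 : F) ≠ 0) (hJ : JT (N g) ⊤ μ) (S T : Finset ℕ)
    (hT : ∀ e ∈ T, e ∈ μ ∧ Even e) : ∃ g : φ.Isom, JT (N g) ⊤ μ ∧ ∀ e ∈ T, (Sg g μ (e - 1) ↔ e ∈ S) := by
  induction T using Finset.induction_on with
  | empty => exact ⟨g, hJ, by simp⟩
  | insert a T ha ih =>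
    obtain ⟨g, h1, h3⟩ := ih fun e he => hT e (by simp [he])
    have key : ∀ e ∈ insert a T, Odd (e - 1) ∧ e - 1 + 1 = e := fun e he => by
      have := h1.1 e (hT e he).1; have := Nat.even_iff.1 (hT e he).2; rw [Nat.odd_iff]; omega
    by_cases h : Sg g μ (a - 1) ↔ a ∈ S
    · exact ⟨g, h1, by simpa [h] using h3⟩
    obtain ⟨g', k1, k2, k3⟩ := flip hA h2 (key a (by simp)).1 h1 (by rw [(key a (by simp)).2]; exact (hT a (by simp)).1)
    refine ⟨g', k1, fun e he => ?_⟩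
    rcases Finset.mem_insert.1 he with rfl | he'
    · tauto
    · rw [k3 _ (key e he).1 fun h => ha (by rwa [← (key a (by simp)).2, ← h, (key e he).2]), h3 e he']

open scoped Classical in
theorem count_unip [Finite F] {p : ℕ} [Fact p.Prime] [CharP F p] (hA : H09.IsAltF φ) (h2 : (2 : F) ≠ 0) {n : ℕ}
    (hn : finrank F V = n) : Nat.card {C : ConjClasses φ.Isom // ∃ g, ConjClasses.mk g = C ∧ orderOf g = p} =
      (∑ μ ∈ Finset.univ.filter (fun μ : Nat.Partition n => (∀ a ∈ μ.parts, a ≤ p) ∧ ∀ j : ℕ, Odd j → Even (μ.parts.count j)),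
        2 ^ ((μ.parts.toFinset.filter (fun j : ℕ => Even j)).card)) - 1 := by
  haveI : Finite V := Module.finite_of_finite F
  have h1 : ∀ g : φ.Isom, g ^ p = 1 ↔ (g.1 : End F V) ^ p = 1 := fun g => by rw [isom_eq_iff, coe_isom_pow]; rfl
  let t : φ.Isom → Multiset ℕ := fun g => Classical.epsilon (JT (N g) ⊤)
  have h3 : ∀ g μ, JT (N g) ⊤ μ → t g = μ := fun g μ h => (Classical.epsilon_spec ⟨μ, h⟩).unique h
  have h4 : ∀ g, g ^ p = 1 → JT (N g) ⊤ (t g) := fun g h =>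
    (exists_jt (fun _ => h2) ((h1 g).1 h)).elim fun μ hμ => (h3 g μ hμ.1).symm ▸ hμ.1
  have h5 : ∀ μ, ParT φ μ ↔ ∀ j, Odd j → Even (μ.count j) := fun μ => by simp only [ParT, bad_alt hA h2]
  rw [card_classes_succ, card_classes_of _ (fun g => (t g, (t g).toFinset.filter fun e => Even e ∧ Sg g (t g) (e - 1)))
    (fun b => ((∀ e ∈ b.1, 0 < e) ∧ b.1.sum = n) ∧ ((∀ a ∈ b.1, a ≤ p) ∧ ∀ j, Odd j → Even (b.1.count j)) ∧
      b.2 ⊆ b.1.toFinset.filter fun j => Even j) (fun g h hg hh => ⟨fun e => ?_, fun e => ?_⟩) fun b => ⟨?_, ?_⟩]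
  · simp only [← Finset.card_powerset]
    rw [← Finset.card_sigma, ← Nat.card_eq_finsetCard]
    congr 1
    refine (Nat.card_eq_of_bijective (fun x => ⟨(x.1.1.parts, x.1.2), ⟨fun _ => x.1.1.parts_pos, x.1.1.parts_sum⟩,
      (Finset.mem_filter.1 (Finset.mem_sigma.1 x.2).1).2, Finset.mem_powerset.1 (Finset.mem_sigma.1 x.2).2⟩) ⟨?_, ?_⟩).symm
    · rintro ⟨⟨a, S⟩, _⟩ ⟨⟨b, T⟩, _⟩ e
      obtain ⟨e, rfl⟩ := Prod.ext_iff.1 (congrArg Subtype.val e)
      obtain rfl : a = b := Nat.Partition.ext e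
      rfl
    · rintro ⟨⟨μ, S⟩, ⟨k1, k2⟩, k3⟩
      exact ⟨⟨⟨⟨μ, fun h => k1 _ h, k2⟩, S⟩, by simpa using k3⟩, rfl⟩
  · have k1 : t h = t g := by
      obtain ⟨c, rfl⟩ := isConj_iff.1 e
      exact h3 _ _ (jt_conj (s := c.1) (fun x => by simp) (h4 g hg))
    simp only [k1, show ∀ μ k, Sg g μ k ↔ Sg h μ k from fun _ _ => ⟨sg_conj e, sg_conj e.symm⟩]
  · obtain ⟨k1, k2⟩ := Prod.ext_iff.1 e
    refine isConj_of_sg hA h2 (h4 g hg) ((show t g = t h from k1) ▸ h4 h hh) fun k k3 k4 => ?_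
    simpa [← show t g = t h from k1, k4, k3.add_one] using Finset.ext_iff.1 k2 (k + 1)
  · rintro ⟨g, hg, rfl⟩
    have k1 := h4 g hg
    exact ⟨⟨k1.1, by rw [← k1.finrank_eq, finrank_top, hn]⟩, ⟨k1.pow_char.1 ((h1 g).1 hg),
      (h5 _).1 (k1.parT (fun _ => h2) (stab_top g) nd_top)⟩, Finset.monotone_filter_right _ fun _ _ h => h.1⟩
  · obtain ⟨μ, S⟩ := b
    rintro ⟨⟨k1, k2⟩, ⟨k3, k4⟩, k5⟩
    obtain ⟨g, -, l1⟩ := real_alt' hA h2 nd_top k1 ((h5 μ).2 k4) (by rw [finrank_top, hn]; exact k2)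
    obtain ⟨g, l2, l3⟩ := exists_sg hA h2 l1 S (μ.toFinset.filter fun j => Even j) (by simp)
    refine ⟨g, (h1 g).2 (l2.pow_char.2 k3), Prod.ext (h3 g μ l2) (Finset.ext fun e => ?_)⟩
    simp only [h3 g μ l2, Finset.mem_filter, ← and_assoc] at l3 ⊢
    exact ⟨fun h => (l3 e h.1).1 h.2, fun h => ⟨Finset.mem_filter.1 (k5 h), (l3 e (Finset.mem_filter.1 (k5 h))).2 h⟩⟩

end H16.Cc
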