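import Mathlib

/-!
# Cuspidal characters of `GL_n(q)`, part 1

For an endomorphism `g` of a finite vector space and a function `a` on polynomials, `d a g W` is
the Moebius inverse, over the lattice of `g`-invariant subspaces, of `W ↦ a (charpoly (g|W))`.
-/

namespace Cfsg.Agent.H16.Cu

open Polynomial Module

variable {F : Type*} [Field F] {V V' : Type*} [AddCommGroup V] [Module F V] [AddCommGroup V']
  [Module F V']

/-- `W` is `g`-invariant. -/
def Inv (g : End F V) (W : Submodule F V) : Prop := ∀ x ∈ W, g x ∈ W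

theorem Inv.top (g : End F V) : Inv g ⊤ := fun _ _ => trivial

theorem Inv.bot (g : End F V) : Inv g ⊥ := fun x hx => by
  rw [(Submodule.mem_bot F).1 hx]; simp

theorem Inv.inf {g : End F V} {W Y : Submodule F V} (h : Inv g W) (h' : Inv g Y) :
    Inv g (W ⊓ Y) := fun x hx => ⟨h x hx.1, h' x hx.2⟩

theorem Inv.map {g : End F V} {g' : End F V'} {W : Submodule F V} (h : Inv g W) {j : V →ₗ[F] V'}
    (hj : ∀ x ∈ W, j (g x) = g' (j x)) : Inv g' (W.map j) := by
  rintro _ ⟨x, hx, rfl⟩
  exact ⟨g x, h x hx, hj x hx⟩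

open Module.Basis in
theorem charpoly_eq_mul [FiniteDimensional F V] (W : Submodule F V) (e : V →ₗ[F] V)
    (he : W ≤ W.comap e) :
    e.charpoly = (e.restrict he).charpoly * (W.mapQ W e he).charpoly := by
  classical
  let m := Module.Free.ChooseBasisIndex F W
  let bW : Basis m F W := Module.Free.chooseBasis F W
  let n := Module.Free.ChooseBasisIndex F (V ⧸ W)
  let bQ : Basis n F (V ⧸ W) := Module.Free.chooseBasis F (V ⧸ W)
  let b := sumQuot bW bQ
  let A : Matrix m m F := LinearMap.toMatrix bW bW (e.restrict he)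
  let B : Matrix m n F := Matrix.of fun i l ↦
    ((sumQuot bW bQ).repr (e ((sumQuot bW bQ) (Sum.inr l)))) (Sum.inl i)
  let D : Matrix n n F := LinearMap.toMatrix bQ bQ (W.mapQ W e he)
  suffices LinearMap.toMatrix b b e = Matrix.fromBlocks A B 0 D by
    rw [← LinearMap.charpoly_toMatrix e b, this, ← LinearMap.charpoly_toMatrix _ bW,
      ← LinearMap.charpoly_toMatrix _ bQ, Matrix.charpoly_fromBlocks_zero₂₁]
  ext u v
  cases u with
  | inl i =>
    cases v with
    | inl k =>
      simp only [b, sumQuot_inl, Matrix.fromBlocks_apply₁₁, A, LinearMap.toMatrix_apply]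
      apply sumQuot_repr_inl_of_mem
    | inr l => simp [b, LinearMap.toMatrix_apply, Matrix.fromBlocks_apply₁₂, B]
  | inr j =>
    cases v with
    | inl k =>
      suffices W.mkQ (e (bW k)) = 0 by simp [LinearMap.toMatrix_apply, b, this]
      rw [← LinearMap.mem_ker, Submodule.ker_mkQ]
      exact he (Submodule.coe_mem (bW k))
    | inr l =>
      simp only [LinearMap.toMatrix_apply, sumQuot_repr_inr,
        Matrix.fromBlocks_apply₂₂, b, D]
      rw [← sumQuot_inr bW bQ l, W.mapQ_apply]
      simp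

theorem charpoly_eq_of_bij [FiniteDimensional F V] [FiniteDimensional F V'] {g : End F V}
    {g' : End F V'} (j : V →ₗ[F] V') (hb : Function.Bijective j) (hj : ∀ x, j (g x) = g' (j x)) :
    g.charpoly = g'.charpoly := by
  let e := LinearEquiv.ofBijective j hb
  rw [← e.charpoly_conj g]
  congr 1
  ext y
  obtain ⟨x, rfl⟩ := e.surjective y
  simp only [LinearEquiv.conj_apply_apply, LinearEquiv.symm_apply_apply]
  exact hj x

section cp
variable [FiniteDimensional F V] [FiniteDimensional F V']

open Classical in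
/-- The characteristic polynomial of `g` on an invariant subspace. -/
noncomputable def cp (g : End F V) (W : Submodule F V) : F[X] :=
  if h : Inv g W then (g.restrict h).charpoly else 1

theorem cp_eq {g : End F V} {W : Submodule F V} (h : Inv g W) :
    cp g W = (g.restrict h).charpoly := dif_pos h

theorem cp_monic (g : End F V) (W : Submodule F V) : (cp g W).Monic := by
  unfold cp
  split_ifs
  · exact LinearMap.charpoly_monic _
  · exact monic_one

theorem cp_natDegree {g : End F V} {W : Submodule F V} (h : Inv g W) :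
    (cp g W).natDegree = finrank F W := by
  rw [cp_eq h, LinearMap.charpoly_natDegree]

theorem cp_bot (g : End F V) : cp g ⊥ = 1 := by
  apply (cp_monic g ⊥).natDegree_eq_zero.1
  rw [cp_natDegree (Inv.bot g), finrank_bot]

theorem cp_top (g : End F V) : cp g ⊤ = g.charpoly := by
  rw [cp_eq (Inv.top g)]
  exact charpoly_eq_of_bij (⊤ : Submodule F V).subtype
    ⟨Subtype.val_injective, fun x => ⟨⟨x, trivial⟩, rfl⟩⟩ (fun _ => rfl)

theorem cp_mul {g : End F V} {g' : End F V'} {X : Submodule F V} (hX : Inv g X)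
    {j : V →ₗ[F] V'} (hj : ∀ x ∈ X, j (g x) = g' (j x)) :
    cp g X = cp g (X ⊓ LinearMap.ker j) * cp g' (X.map j) := by
  have hA : Inv g (X ⊓ LinearMap.ker j) := fun x hx =>
    ⟨hX x hx.1, by
      have h0 : j x = 0 := hx.2
      show j (g x) = 0
      rw [hj x hx.1, h0, map_zero]⟩
  have hM := hX.map hj
  let B : Submodule F X := (LinearMap.ker j).comap X.subtype
  have hB : B ≤ B.comap (g.restrict hX) := fun x hx => (hA x ⟨x.2, hx⟩).2
  rw [cp_eq hX, cp_eq hA, cp_eq hM, charpoly_eq_mul B _ hB]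
  congr 1
  · refine charpoly_eq_of_bij
      ((X.subtype ∘ₗ B.subtype).codRestrict _ (fun x => ⟨x.1.2, x.2⟩)) ⟨?_, ?_⟩ (fun _ => rfl)
    · intro x y h
      have h' := congrArg Subtype.val h
      exact Subtype.ext (Subtype.ext h')
    · rintro ⟨x, hx⟩
      exact ⟨⟨⟨x, hx.1⟩, hx.2⟩, rfl⟩
  · let k : X →ₗ[F] X.map j := (j ∘ₗ X.subtype).codRestrict _ (fun x => ⟨x.1, x.2, rfl⟩)
    have hk : LinearMap.ker k = B := by
      ext x
      exact Subtype.ext_iff
    refine charpoly_eq_of_bij (B.liftQ k hk.ge) ⟨?_, ?_⟩ ?_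
    · rw [← LinearMap.ker_eq_bot]
      exact Submodule.ker_liftQ_eq_bot _ _ _ hk.le
    · rintro ⟨_, x, hx, rfl⟩
      exact ⟨B.mkQ ⟨x, hx⟩, rfl⟩
    · intro y
      obtain ⟨x, rfl⟩ := B.mkQ_surjective y
      exact Subtype.ext (hj x.1 x.2)

theorem cp_map {g : End F V} {g' : End F V'} {X : Submodule F V} (hX : Inv g X)
    {j : V →ₗ[F] V'} (hj : ∀ x ∈ X, j (g x) = g' (j x)) (hi : X ⊓ LinearMap.ker j = ⊥) :
    cp g X = cp g' (X.map j) := by
  rw [cp_mul hX hj, hi, cp_bot, one_mul]

theorem cp_congr {g g' : End F V} {X : Submodule F V} (hX : Inv g X)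
    (h : ∀ x ∈ X, g x = g' x) : cp g X = cp g' X := by
  have := cp_map (j := LinearMap.id) (g' := g') hX h (by simp)
  simpa using this

end cp

section d
variable [Finite V] [Finite V']

instance finSub : Finite (Submodule F V) :=
  Finite.of_injective (fun W : Submodule F V => (W : Set V)) SetLike.coe_injective

noncomputable instance (priority := low) ftSub : Fintype (Submodule F V) := Fintype.ofFinite _

open Classical in
/-- The Moebius inverse of `W ↦ a (cp g W)`. -/
noncomputable def d (a : F[X] → ℂ) (g : End F V) (W : Submodule F V) : ℂ :=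
  a (cp g W) - ∑ Y : Submodule F V, if _h : Y < W ∧ Inv g Y then d a g Y else 0
termination_by finrank F W
decreasing_by exact Submodule.finrank_lt_finrank_of_lt _h.1

open Classical in
theorem d_eq (a : F[X] → ℂ) (g : End F V) (W : Submodule F V) :
    d a g W = a (cp g W) - ∑ Y : Submodule F V, if Y < W ∧ Inv g Y then d a g Y else 0 := by
  rw [d]; rfl

open Classical in
theorem sum_d (a : F[X] → ℂ) {g : End F V} {W : Submodule F V} (h : Inv g W) :
    ∑ Y : Submodule F V, (if Y ≤ W ∧ Inv g Y then d a g Y else 0) = a (cp g W) := by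
  have h1 : ∀ Y : Submodule F V, (if Y ≤ W ∧ Inv g Y then d a g Y else 0) =
      (if Y = W then d a g W else 0) + if Y < W ∧ Inv g Y then d a g Y else 0 := by
    intro Y
    by_cases hY : Y = W
    · subst hY; simp [h]
    · simp [hY, lt_iff_le_and_ne]
  simp only [h1, Finset.sum_add_distrib, Finset.sum_ite_eq', Finset.mem_univ, if_true]
  rw [d_eq]; ring

theorem d_bot {a : F[X] → ℂ} (ha : a 1 = 0) (g : End F V) : d a g ⊥ = 0 := by
  rw [d_eq, cp_bot, ha]; simp

theorem ind {P : Submodule F V → Prop} (h : ∀ W, (∀ Y, Y < W → P Y) → P W) (W : Submodule F V) :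
    P W := WellFoundedLT.induction W h

theorem d_map (a : F[X] → ℂ) {g : End F V} {g' : End F V'} {j : V →ₗ[F] V'} (X : Submodule F V) :
    Inv g X → (∀ x ∈ X, j (g x) = g' (j x)) → X ⊓ LinearMap.ker j = ⊥ →
      d a g X = d a g' (X.map j) := by
  classical
  induction X using ind with
  | h X ih =>
  intro hX hj hi
  have inj : ∀ x ∈ X, ∀ y ∈ X, j x = j y → x = y := fun x hx y hy h => by
    have : x - y ∈ X ⊓ LinearMap.ker j := ⟨X.sub_mem hx hy, by simp [h]⟩
    rw [hi] at this
    exact sub_eq_zero.1 ((Submodule.mem_bot F).1 this)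
  have back : ∀ Y ≤ X, (Y.map j).comap j ⊓ X = Y := fun Y hY => by
    apply le_antisymm
    · rintro x ⟨⟨y, hy, h⟩, hx⟩
      rw [← inj y (hY hy) x hx h]; exact hy
    · exact le_inf (Submodule.le_comap_map _ _) hY
  rw [d_eq, d_eq a g', cp_map hX hj hi]
  congr 1
  rw [← Finset.sum_filter, ← Finset.sum_filter]
  refine Finset.sum_nbij' (fun Y => Y.map j) (fun Y => Y.comap j ⊓ X) ?_ ?_ ?_ ?_ ?_
  · intro Y hY
    simp only [Finset.mem_filter, Finset.mem_univ, true_and] at hY ⊢
    refine ⟨lt_of_le_of_ne (Submodule.map_mono hY.1.le) fun h => hY.1.ne ?_,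
      hY.2.map fun x hx => hj x (hY.1.le hx)⟩
    rw [← back Y hY.1.le, h, back X le_rfl]
  · intro Y hY
    simp only [Finset.mem_filter, Finset.mem_univ, true_and] at hY ⊢
    refine ⟨lt_of_le_of_ne inf_le_right fun h => hY.1.not_ge ?_, fun x hx => ⟨?_, hX x hx.2⟩⟩
    · exact Submodule.map_le_iff_le_comap.2 (h.ge.trans inf_le_left)
    · show j (g x) ∈ Y
      rw [hj x hx.2]; exact hY.2 _ hx.1
  · intro Y hY
    simp only [Finset.mem_filter, Finset.mem_univ, true_and] at hY
    exact back Y hY.1.le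
  · intro Y hY
    simp only [Finset.mem_filter, Finset.mem_univ, true_and] at hY
    apply le_antisymm
    · rintro _ ⟨x, hx, rfl⟩; exact hx.1
    · intro y hy
      obtain ⟨x, hx, rfl⟩ := hY.1.le hy
      exact ⟨x, ⟨hy, hx⟩, rfl⟩
  · intro Y hY
    simp only [Finset.mem_filter, Finset.mem_univ, true_and] at hY
    refine ih Y hY.1 hY.2 (fun x hx => hj x (hY.1.le hx)) ?_
    exact eq_bot_iff.2 ((inf_le_inf_right _ hY.1.le).trans hi.le)

theorem d_congr (a : F[X] → ℂ) {g g' : End F V} {X : Submodule F V} (hX : Inv g X)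
    (h : ∀ x ∈ X, g x = g' x) : d a g X = d a g' X := by
  have := d_map a (j := LinearMap.id) (g' := g') X hX h (by simp)
  simpa using this

theorem d_top_eq (a : F[X] → ℂ) {g : End F V} {g' : End F V'} (j : V →ₗ[F] V')
    (hb : Function.Bijective j) (hj : ∀ x, j (g x) = g' (j x)) : d a g ⊤ = d a g' ⊤ := by
  rw [d_map a (j := j) (g' := g') ⊤ (Inv.top g) (fun x _ => hj x)
    (by rw [LinearMap.ker_eq_bot.2 hb.1]; simp), Submodule.map_top,
    LinearMap.range_eq_top.2 hb.2]

theorem d_sum {ι : Type*} (s : Finset ι) (c : ι → ℂ) (a : ι → F[X] → ℂ) (g : End F V)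
    (W : Submodule F V) :
    d (fun P => ∑ i ∈ s, c i * a i P) g W = ∑ i ∈ s, c i * d (a i) g W := by
  classical
  induction W using ind with
  | h W ih =>
  rw [d_eq]
  have : ∀ i, d (a i) g W = _ := fun i => d_eq (a i) g W
  simp only [this, mul_sub, Finset.sum_sub_distrib, Finset.mul_sum]
  congr 1
  rw [Finset.sum_comm]
  refine Finset.sum_congr rfl fun Y _ => ?_
  split_ifs with h
  · exact ih Y h.1
  · simp

theorem d_eq_zero {a : F[X] → ℂ} {g : End F V} (h : ∀ W, Inv g W → a (cp g W) = 0)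
    (W : Submodule F V) : Inv g W → d a g W = 0 := by
  classical
  induction W using ind with
  | h W ih =>
  intro hW
  rw [d_eq, h W hW, Finset.sum_eq_zero, sub_zero]
  intro Y _
  split_ifs with hY
  · exact ih Y hY.1 hY.2
  · rfl

end d

end Cfsg.Agent.H16.Cu
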