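import Cfsg.Agent.H16.Cu1

/-!
# Cuspidal characters of `GL_n(q)`, part 2: cuspidality of `d`
-/

namespace Cfsg.Agent.H16.Cu

open Polynomial Module

variable {F : Type*} [Field F] {V : Type*} [AddCommGroup V] [Module F V]

/-- Maps with range in `A` that kill `W`. -/
def Phi (A W : Submodule F V) : Submodule F (End F V) where
  carrier := {ψ | (∀ x, ψ x ∈ A) ∧ ∀ x ∈ W, ψ x = 0}
  add_mem' := fun ha hb => ⟨fun x => A.add_mem (ha.1 x) (hb.1 x), fun x hx => by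
    simp [ha.2 x hx, hb.2 x hx]⟩
  zero_mem' := ⟨fun _ => A.zero_mem, fun _ _ => rfl⟩
  smul_mem' := fun c _ ha => ⟨fun x => A.smul_mem c (ha.1 x), fun x hx => by simp [ha.2 x hx]⟩

theorem exists_ret {Y W : Submodule F V} (h : Y ⊓ W = ⊥) :
    ∃ r : End F V, (∀ x, r x ∈ Y) ∧ (∀ x ∈ W, r x = 0) ∧ (∀ y ∈ Y, r y = y) ∧
      ∀ x, W.mkQ x ∈ Y.map W.mkQ → x - r x ∈ W := by
  obtain ⟨r, hr⟩ := (W.mkQ ∘ₗ Y.subtype).exists_leftInverse_of_injective (by
    rw [LinearMap.ker_comp, Submodule.ker_mkQ, ← Submodule.disjoint_iff_comap_eq_bot]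
    exact disjoint_iff.2 h)
  have h1 : ∀ y ∈ Y, (r (W.mkQ y) : V) = y := fun y hy =>
    congrArg Subtype.val (LinearMap.congr_fun hr ⟨y, hy⟩)
  refine ⟨Y.subtype ∘ₗ r ∘ₗ W.mkQ, fun x => (r _).2, fun x hx => ?_, h1, ?_⟩
  · have : W.mkQ x = 0 := (Submodule.Quotient.mk_eq_zero W).2 hx
    simp [this]
  · rintro x ⟨y, hy, e⟩
    show x - (r (W.mkQ x) : V) ∈ W
    rw [← e, h1 y hy]
    exact (Submodule.Quotient.eq W).1 e.symm

theorem exists_lift (X W : Submodule F V) {Z : Submodule F (V ⧸ W)} (hZ : Z ≤ X.map W.mkQ) :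
    ∃ Y, Y ≤ X ∧ Y ⊓ W = ⊥ ∧ Y.map W.mkQ = Z := by
  obtain ⟨Y, hY1, hY2⟩ := IsModularLattice.exists_disjoint_and_sup_eq
    (inf_le_left : (X ⊓ Z.comap W.mkQ) ⊓ W ≤ X ⊓ Z.comap W.mkQ)
  have h1 : Y ≤ X ⊓ Z.comap W.mkQ := hY2 ▸ le_sup_right
  refine ⟨Y, h1.trans inf_le_left, ?_, le_antisymm ?_ ?_⟩
  · rw [eq_bot_iff]
    intro x hx
    exact hY1.le_bot ⟨⟨h1 hx.1, hx.2⟩, hx.1⟩
  · exact Submodule.map_le_iff_le_comap.2 (h1.trans inf_le_right)
  · intro z hz
    obtain ⟨x, hx, rfl⟩ := hZ hz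
    have : x ∈ ((X ⊓ Z.comap W.mkQ) ⊓ W) ⊔ Y := hY2.symm ▸ ⟨hx, hz⟩
    obtain ⟨u, hu, y, hy, rfl⟩ := Submodule.mem_sup.1 this
    have h0 : W.mkQ u = 0 := (Submodule.Quotient.mk_eq_zero W).2 hu.2
    exact ⟨y, hy, by rw [map_add, h0, zero_add]⟩

section
variable [Finite V]

instance finEnd {V' : Type*} [AddCommGroup V'] [Module F V'] [Finite V'] :
    Finite (V →ₗ[F] V') := Finite.of_injective (fun f : V →ₗ[F] V' => (f : V → V'))
      DFunLike.coe_injective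

instance finQuot (W : Submodule F V) : Finite (V ⧸ W) := Finite.of_surjective _ W.mkQ_surjective

noncomputable instance (priority := low) ftPhi (S : Submodule F (End F V)) : Fintype S :=
  Fintype.ofFinite _

theorem sum_eq_zero_of_le {S T : Submodule F (End F V)} (h : T ≤ S) (f : End F V → ℂ)
    (hf : ∀ ψ ∈ S, ∑ φ : T, f (ψ + φ) = 0) : ∑ ψ : S, f ψ = 0 := by
  have h1 : ∀ φ : T, ∑ ψ : S, f (ψ + φ) = ∑ ψ : S, f ψ := fun φ =>
    Equiv.sum_comp (Equiv.addRight (⟨φ, h φ.2⟩ : S)) (fun ψ : S => f ψ)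
  have h2 : ∑ φ : T, ∑ ψ : S, f (ψ + φ) = 0 := by
    rw [Finset.sum_comm]
    exact Finset.sum_eq_zero fun ψ _ => hf ψ ψ.2
  simp only [h1, Finset.sum_const, Finset.card_univ, nsmul_eq_mul] at h2
  exact (mul_eq_zero.1 h2).resolve_left (Nat.cast_ne_zero.2 Fintype.card_ne_zero)

open Classical in
theorem count_lift {g : End F V} {W X : Submodule F V} (hW : Inv g W) (hX : Inv g X)
    {Z : Submodule F (V ⧸ W)} (hZ : Z ≤ X.map W.mkQ) (hZ' : Inv (W.mapQ W g hW) Z) :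
    ∑ Y : Submodule F V, ∑ ψ : Phi (X ⊓ W) W,
      (if (Y ≤ X ∧ Y ⊓ W = ⊥ ∧ Y.map W.mkQ = Z) ∧ Inv (g + ψ.1) Y then (1 : ℂ) else 0) =
        Fintype.card (Phi (X ⊓ W) W) := by
  obtain ⟨Y0, h01, h02, h03⟩ := exists_lift X W hZ
  obtain ⟨r0, a0, b0, c0, e0⟩ := exists_ret h02
  have key : ∀ Y : Submodule F V, ∑ ψ : Phi (X ⊓ W) W,
      (if (Y ≤ X ∧ Y ⊓ W = ⊥ ∧ Y.map W.mkQ = Z) ∧ Inv (g + ψ.1) Y then (1 : ℂ) else 0) =
      ∑ ψ : Phi (X ⊓ W) W, if Y0.map (1 + ψ.1) = Y then (1 : ℂ) else 0 := by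
    intro Y
    by_cases hY : Y ≤ X ∧ Y ⊓ W = ⊥ ∧ Y.map W.mkQ = Z
    · obtain ⟨h1, h2, h3⟩ := hY
      obtain ⟨r, a, b, c, e⟩ := exists_ret h2
      have zero : ∀ x ∈ Y, x ∈ W → x = 0 := fun x hx hx' =>
        (Submodule.mem_bot F).1 (h2 ▸ ⟨hx, hx'⟩)
      let p : Phi (X ⊓ W) W := ⟨(r * g - g) * r, fun x => ⟨X.sub_mem (h1 (a _)) (hX _ (h1 (a _))), by
        have := W.neg_mem (e (g (r x)) (by
          rw [h3]
          exact hZ' (W.mkQ (r x)) (h3 ▸ ⟨r x, a x, rfl⟩)))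
        simpa using this⟩, fun x hx => by simp [b x hx]⟩
      let p' : Phi (X ⊓ W) W := ⟨(r - 1) * r0, fun x => ⟨X.sub_mem (h1 (a _)) (h01 (a0 _)), by
        have := W.neg_mem (e (r0 x) (by rw [h3, ← h03]; exact ⟨r0 x, a0 x, rfl⟩))
        simpa using this⟩, fun x hx => by simp [b0 x hx]⟩
      have hp : ∀ ψ : Phi (X ⊓ W) W, Inv (g + (ψ + p : Phi (X ⊓ W) W).1) Y ↔ ∀ y ∈ Y, ψ.1 y = 0 := by
        intro ψ
        have h4 : ∀ y ∈ Y, (g + (ψ + p : Phi (X ⊓ W) W).1 : End F V) y = ψ.1 y + r (g y) := by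
          intro y hy
          simp only [p, Submodule.coe_add, LinearMap.add_apply, End.mul_apply, LinearMap.sub_apply,
            c y hy]
          abel
        constructor
        · intro h y hy
          have := h y hy
          rw [h4 y hy, Y.add_mem_iff_left (a _)] at this
          exact zero _ this (ψ.2.1 y).2
        · intro h y hy
          rw [h4 y hy, h y hy, zero_add]; exact a _
      have hp' : ∀ ψ : Phi (X ⊓ W) W,
          Y0.map (1 + (ψ + p' : Phi (X ⊓ W) W).1) = Y ↔ ∀ y ∈ Y, ψ.1 y = 0 := by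
        intro ψ
        have h4 : ∀ y ∈ Y0, (1 + (ψ + p' : Phi (X ⊓ W) W).1 : End F V) y = ψ.1 (r y) + r y := by
          intro y hy
          have h5 : ψ.1 (y - r y) = 0 := ψ.2.2 _ (e y (by rw [h3, ← h03]; exact ⟨y, hy, rfl⟩))
          rw [map_sub, sub_eq_zero] at h5
          simp only [p', Submodule.coe_add, LinearMap.add_apply, End.mul_apply, LinearMap.sub_apply,
            c0 y hy, End.one_apply, ← h5]
          abel
        have h6 : ∀ y ∈ Y, ∃ y0 ∈ Y0, r y0 = y := by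
          intro y hy
          refine ⟨r0 y, a0 y, ?_⟩
          have := b _ (e0 y (by rw [h03, ← h3]; exact ⟨y, hy, rfl⟩))
          rw [map_sub, sub_eq_zero, c y hy] at this
          exact this.symm
        constructor
        · intro h y hy
          obtain ⟨y0, hy0, rfl⟩ := h6 y hy
          have : (1 + (ψ + p' : Phi (X ⊓ W) W).1 : End F V) y0 ∈ Y := h ▸ ⟨y0, hy0, rfl⟩
          rw [h4 y0 hy0, Y.add_mem_iff_left (a _)] at this
          exact zero _ this (ψ.2.1 _).2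
        · intro h
          apply le_antisymm
          · rintro _ ⟨y, hy, rfl⟩
            rw [h4 y hy, h _ (a y), zero_add]; exact a y
          · intro y hy
            obtain ⟨y0, hy0, rfl⟩ := h6 y hy
            exact ⟨y0, hy0, by rw [h4 y0 hy0, h _ (a y0), zero_add]⟩
      rw [← Equiv.sum_comp (Equiv.addRight p), ← Equiv.sum_comp (Equiv.addRight p') (fun ψ =>
        if Y0.map (1 + ψ.1) = Y then (1 : ℂ) else 0)]
      refine Finset.sum_congr rfl fun ψ _ => ?_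
      simp only [Equiv.coe_addRight, hp, hp', h1, h2, h3, true_and]
    · simp only [hY, false_and, if_false]
      refine Finset.sum_congr rfl fun ψ _ => (if_neg fun h => hY ?_).symm
      subst h
      refine ⟨?_, ?_, ?_⟩
      · rintro _ ⟨y, hy, rfl⟩
        exact X.add_mem (h01 hy) (ψ.2.1 y).1
      · rw [eq_bot_iff]
        rintro _ ⟨⟨y, hy, rfl⟩, hw⟩
        have h1 : y ∈ W := (W.add_mem_iff_left (ψ.2.1 y).2).1 hw
        have h2 : y = 0 := (Submodule.mem_bot F).1 (h02 ▸ ⟨hy, h1⟩)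
        simp [h2]
      · rw [← Submodule.map_comp, ← h03]
        congr 1
        ext x
        have : W.mkQ (ψ.1 x) = 0 := (Submodule.Quotient.mk_eq_zero W).2 (ψ.2.1 x).2
        show W.mkQ (x + ψ.1 x) = W.mkQ x
        rw [map_add, this, add_zero]
  simp only [key]
  rw [Finset.sum_comm]
  simp

/-- Additivity on products of monic polynomials. -/
structure Addv (a : F[X] → ℂ) : Prop where
  one : a 1 = 0
  mul : ∀ P Q : F[X], P.Monic → Q.Monic → a (P * Q) = a P + a Q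

theorem Inv.add_phi {g : End F V} {W A X : Submodule F V} (hX : Inv g X) (hA : A ≤ X)
    {ψ : End F V} (hψ : ψ ∈ Phi A W) : Inv (g + ψ) X := fun x hx =>
  X.add_mem (hX x hx) (hA (hψ.1 x))

theorem cusp_aux {a : F[X] → ℂ} (ha : Addv a) {W : Submodule F V} (X : Submodule F V) :
    ∀ g : End F V, Inv g W → Inv g X → X ⊓ W ≠ ⊥ → ¬ X ≤ W →
      ∑ ψ : Phi (X ⊓ W) W, d a (g + ψ.1) X = 0 := by
  classical
  induction X using ind with
  | h X ih =>
  intro g hW hX h1 h2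
  let S : Submodule F V → ℂ := fun Y =>
    ∑ ψ : Phi (X ⊓ W) W, if Y ≤ X ∧ Inv (g + ψ.1) Y then d a (g + ψ.1) Y else 0
  let gb := W.mapQ W g hW
  let N : ℂ := Fintype.card (Phi (X ⊓ W) W)
  have hj : ∀ ψ : Phi (X ⊓ W) W, ∀ x, W.mkQ ((g + ψ.1) x) = gb (W.mkQ x) := by
    intro ψ x
    have : W.mkQ (ψ.1 x) = 0 := (Submodule.Quotient.mk_eq_zero W).2 (ψ.2.1 x).2
    rw [LinearMap.add_apply, map_add, this, add_zero]; rfl
  have hXb : Inv gb (X.map W.mkQ) := hX.map fun _ _ => rfl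
  have hgW : ∀ ψ : Phi (X ⊓ W) W, ∀ x ∈ W, (g + ψ.1) x = g x := fun ψ x hx => by
    rw [LinearMap.add_apply, ψ.2.2 x hx, add_zero]
  have hψX : ∀ ψ : Phi (X ⊓ W) W, Inv (g + ψ.1) X := fun ψ => hX.add_phi inf_le_left ψ.2
  have e0 : ∑ Y, S Y = N * (a (cp g (X ⊓ W)) + a (cp gb (X.map W.mkQ))) := by
    rw [Finset.sum_comm]
    rw [Finset.sum_congr rfl fun ψ _ => sum_d a (hψX ψ)]
    have : ∀ ψ : Phi (X ⊓ W) W, a (cp (g + ψ.1) X) =
        a (cp g (X ⊓ W)) + a (cp gb (X.map W.mkQ)) := by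
      intro ψ
      rw [cp_mul (hψX ψ) (fun x _ => hj ψ x), ha.mul _ _ (cp_monic _ _) (cp_monic _ _),
        Submodule.ker_mkQ, ← cp_congr (hX.inf hW) fun x hx => (hgW ψ x hx.2).symm]
    simp only [this, Finset.sum_const, Finset.card_univ, nsmul_eq_mul, N]
  have e1 : ∑ Y, (if Y ≤ W then S Y else 0) = N * a (cp g (X ⊓ W)) := by
    rw [← sum_d a (hX.inf hW), Finset.mul_sum]
    refine Finset.sum_congr rfl fun Y _ => ?_
    by_cases hY : Y ≤ W
    · have : ∀ ψ : Phi (X ⊓ W) W, (if Y ≤ X ∧ Inv (g + ψ.1) Y then d a (g + ψ.1) Y else 0) =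
          if Y ≤ X ⊓ W ∧ Inv g Y then d a g Y else 0 := by
        intro ψ
        have h3 : Inv (g + ψ.1) Y ↔ Inv g Y :=
          forall₂_congr fun x hx => by rw [hgW ψ x (hY hx)]
        simp only [h3, le_inf_iff, hY, and_true]
        split_ifs with h4
        · exact (d_congr a h4.2 fun x hx => (hgW ψ x (hY hx)).symm).symm
        · rfl
      simp only [hY, if_true, S, this, Finset.sum_const, Finset.card_univ, nsmul_eq_mul, N]
    · simp [hY]
  have e2 : ∑ Y, (if Y ⊓ W = ⊥ then S Y else 0) = N * a (cp gb (X.map W.mkQ)) := by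
    rw [← sum_d a hXb, Finset.mul_sum]
    have h3 : ∀ Y, (if Y ⊓ W = ⊥ then S Y else 0) = ∑ Z : Submodule F (V ⧸ W),
        (∑ ψ : Phi (X ⊓ W) W,
          (if (Y ≤ X ∧ Y ⊓ W = ⊥ ∧ Y.map W.mkQ = Z) ∧ Inv (g + ψ.1) Y then (1 : ℂ) else 0)) *
            d a gb Z := by
      intro Y
      rw [Finset.sum_eq_single (Y.map W.mkQ) (fun Z _ hZ => by simp [hZ.symm]) (by simp)]
      split_ifs with hY
      · rw [Finset.sum_mul]
        refine Finset.sum_congr rfl fun ψ _ => ?_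
        simp only [hY, and_true]
        split_ifs with h4
        · rw [one_mul]
          exact d_map a Y h4.2 (fun x _ => hj ψ x) (by rw [Submodule.ker_mkQ, hY])
        · simp
      · simp [hY]
    simp only [h3]
    rw [Finset.sum_comm]
    refine Finset.sum_congr rfl fun Z _ => ?_
    rw [← Finset.sum_mul]
    split_ifs with hZ
    · rw [count_lift hW hX hZ.1 hZ.2]
    · rw [mul_zero, Finset.sum_eq_zero, zero_mul]
      intro Y _
      refine Finset.sum_eq_zero fun ψ _ => if_neg ?_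
      rintro ⟨⟨h4, -, rfl⟩, h5⟩
      exact hZ ⟨Submodule.map_mono h4, h5.map fun x _ => hj ψ x⟩
  have e3 : ∀ Y, S Y = (if Y ≤ W then S Y else 0) + (if Y ⊓ W = ⊥ then S Y else 0) +
      if Y = X then S X else 0 := by
    intro Y
    by_cases hY : Y = X
    · subst hY; simp [h1, h2]
    by_cases hY1 : Y ≤ W
    · by_cases hY2 : Y ⊓ W = ⊥
      · have : Y = ⊥ := by rw [← hY2, inf_eq_left.2 hY1]
        subst this
        have : S ⊥ = 0 := by simp [S, d_bot ha.one]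
        simp [this, hY]
      · rw [if_pos hY1, if_neg hY2, if_neg hY]; simp
    by_cases hY2 : Y ⊓ W = ⊥
    · simp [hY, hY1, hY2]
    simp only [hY, hY1, hY2, if_false, add_zero]
    by_cases hYX : Y ≤ X
    swap
    · simp [S, hYX]
    have hle : Phi (Y ⊓ W) W ≤ Phi (X ⊓ W) W := fun ψ hψ =>
      ⟨fun x => inf_le_inf_right W hYX (hψ.1 x), hψ.2⟩
    refine sum_eq_zero_of_le hle
      (fun ψ => if Y ≤ X ∧ Inv (g + ψ) Y then d a (g + ψ) Y else 0) fun ψ hψ => ?_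
    by_cases h4 : Inv (g + ψ) Y
    · rw [← ih Y (lt_of_le_of_ne hYX hY) (g + ψ) (hW.add_phi inf_le_right hψ) h4 hY2 hY1]
      refine Finset.sum_congr rfl fun φ _ => ?_
      rw [← add_assoc, if_pos ⟨hYX, h4.add_phi inf_le_left φ.2⟩]
    · refine Finset.sum_eq_zero fun φ _ => if_neg fun h => h4 ?_
      have := h.2.add_phi inf_le_left (neg_mem φ.2)
      rwa [← add_assoc, add_neg_cancel_right] at this
  have e4 : ∑ Y, S Y = N * a (cp g (X ⊓ W)) + N * a (cp gb (X.map W.mkQ)) + S X := by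
    rw [Finset.sum_congr rfl fun Y _ => e3 Y, Finset.sum_add_distrib, Finset.sum_add_distrib,
      e1, e2]
    simp
  have e5 : S X = 0 := by linear_combination e0 - e4
  rw [← e5]
  exact Finset.sum_congr rfl fun ψ _ => (if_pos ⟨le_rfl, hψX ψ⟩).symm

theorem cusp {a : F[X] → ℂ} (ha : Addv a) {W : Submodule F V} {g : End F V} (hW : Inv g W)
    (h1 : W ≠ ⊥) (h2 : W ≠ ⊤) : ∑ ψ : Phi W W, d a (g + ψ.1) ⊤ = 0 := by
  have := cusp_aux ha ⊤ g hW (Inv.top g) (by simpa using h1) (by simpa using h2)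
  rwa [top_inf_eq] at this

end

end Cfsg.Agent.H16.Cu
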