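import Cfsg.Agent.H16.Cu2
import Cfsg.Agent.H09.SpStab

/-!
# Cuspidal characters of `GL_n(q)`, part 3: support of `d`, and its value in the field case
-/

namespace Cfsg.Agent.H16.Cu

open Polynomial Module

variable {F : Type*} [Field F] {V V' : Type*} [AddCommGroup V] [Module F V] [AddCommGroup V']
  [Module F V']

theorem aeval_comm {g : End F V} {g' : End F V'} {j : V →ₗ[F] V'} (hj : ∀ x, j (g x) = g' (j x))
    (p : F[X]) (x : V) : j (aeval g p x) = aeval g' p (j x) := by
  induction p using Polynomial.induction_on generalizing x with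
  | C c => simp [Module.algebraMap_end_apply]
  | add p q hp hq => simp [hp, hq]
  | monomial n c h =>
    rw [pow_succ, ← mul_assoc, map_mul (aeval g), map_mul (aeval g'), aeval_X, aeval_X,
      End.mul_apply, End.mul_apply, h, hj]

theorem not_inj_of_dvd [FiniteDimensional F V] {g : End F V} {h : F[X]} (hi : Irreducible h)
    (hd : h ∣ g.charpoly) : ¬ Function.Injective (aeval g h) := by
  intro hinj
  haveI := Fact.mk hi
  let K := AdjoinRoot h
  have h0 : aeval (AdjoinRoot.root h) h = 0 := by simp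
  have h1 : (g.baseChange K).charpoly.IsRoot (AdjoinRoot.root h) := by
    rw [LinearMap.charpoly_baseChange, IsRoot.def, eval_map_algebraMap]
    obtain ⟨r, hr⟩ := hd
    rw [hr, map_mul, h0, zero_mul]
  obtain ⟨v, hv⟩ := ((End.hasEigenvalue_iff_isRoot_charpoly _ _).2 h1).exists_hasEigenvector
  have h2 := End.aeval_apply_of_hasEigenvector (p := h.map (algebraMap F K)) hv
  rw [eval_map_algebraMap, h0, zero_smul, aeval_map_algebraMap] at h2
  have h3 : IsUnit (aeval g h) := (LinearMap.isUnit_iff_ker_eq_bot _).2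
    (LinearMap.ker_eq_bot.2 hinj)
  have h4 := h3.map (End.baseChangeHom F K V)
  rw [← aeval_algHom_apply] at h4
  have h5 := LinearMap.ker_eq_bot.1 ((LinearMap.isUnit_iff_ker_eq_bot _).1 h4)
  exact hv.2 (h5 (h2.trans (map_zero _).symm))

theorem charpoly_eq_pow [FiniteDimensional F V] {g : End F V} {f : F[X]} (hi : Irreducible f)
    (hm : f.Monic) (hn : IsNilpotent (aeval g f)) : ∃ m, g.charpoly = f ^ m := by
  obtain ⟨m, r, hr, e⟩ := WfDvdMonoid.max_power_factor g.charpoly_monic.ne_zero hi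
  refine ⟨m, ?_⟩
  have hr1 : r.Monic := (hm.pow m).of_mul_monic_left (e ▸ g.charpoly_monic)
  by_contra hne
  have hr2 : ¬ IsUnit r := fun h => hne (by rw [e, hr1.eq_one_of_isUnit h, mul_one])
  obtain ⟨h, hh, hd⟩ := WfDvdMonoid.exists_irreducible_factor hr2 hr1.ne_zero
  apply not_inj_of_dvd hh (e ▸ hd.mul_left _)
  obtain ⟨N, hN⟩ := hn
  have hc : IsCoprime f h := hi.coprime_iff_not_dvd.2 fun h' => hr (h'.trans hd)
  obtain ⟨u, v, huv⟩ := hc.pow_left (m := N)
  have := congrArg (aeval g) huv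
  rw [map_add, map_mul, map_pow, hN, mul_zero, zero_add, map_mul, map_one] at this
  intro x y hxy
  have h1 : ∀ z, aeval g v (aeval g h z) = z := fun z => LinearMap.congr_fun this z
  rw [← h1 x, hxy, h1]

theorem nilp_of_d_ne [Finite V] {a : F[X] → ℂ} (ha : Addv a) {f : F[X]} (hi : Irreducible f)
    (hf : ∀ P : F[X], P.Monic → ¬ f ∣ P → a P = 0) {g : End F V} (hd : d a g ⊤ ≠ 0) :
    IsNilpotent (aeval g f) := by
  classical
  set t := aeval g f with ht
  obtain ⟨N, hN, hN1⟩ := (t.eventually_isCompl_ker_pow_range_pow.and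
    (Filter.eventually_ge_atTop 1)).exists
  have hc : ∀ x, g ((t ^ N) x) = (t ^ N) (g x) := fun x => by
    rw [ht, ← map_pow]
    exact aeval_comm (fun _ => rfl) _ x
  set W := LinearMap.ker (t ^ N) with hWd
  have hW : Inv g W := fun x hx => by
    show (t ^ N) (g x) = 0
    rw [← hc, show (t ^ N) x = 0 from hx, map_zero]
  by_cases h2 : W = ⊤
  · exact ⟨N, LinearMap.ker_eq_top.1 h2⟩
  exfalso
  apply hd
  by_cases h1 : W = ⊥
  · refine d_eq_zero (fun X hX => hf _ (cp_monic _ _) fun h => ?_) ⊤ (Inv.top g)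
    rw [cp_eq hX] at h
    apply not_inj_of_dvd hi h
    rw [← LinearMap.ker_eq_bot, eq_bot_iff]
    intro x hx
    have h3 : t x.1 = 0 := by
      rw [ht]
      refine (aeval_comm (j := X.subtype) (g := g.restrict hX) (fun _ => rfl) f x).symm.trans ?_
      rw [show aeval (g.restrict hX) f x = 0 from hx, map_zero]
    have h4 : x.1 ∈ W := by
      obtain ⟨k, rfl⟩ := Nat.exists_eq_add_of_le' hN1
      show (t ^ (k + 1)) x.1 = 0
      rw [pow_succ, End.mul_apply, h3, map_zero]
    rw [h1] at h4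
    exact (Submodule.mem_bot F).2 (Subtype.ext ((Submodule.mem_bot F).1 h4))
  have h3 := cusp ha hW h1 h2
  let L : Phi W W → Phi W W := fun φ => ⟨φ.1 * g - g * φ.1,
    fun x => W.sub_mem (φ.2.1 _) (hW _ (φ.2.1 _)), fun x hx => by
      simp [φ.2.2 x hx, φ.2.2 _ (hW x hx)]⟩
  have hL : Function.Injective L := by
    intro φ φ' h
    have h4 : ∀ x, (φ - φ').1 (g x) = g ((φ - φ').1 x) := fun x => by
      have := LinearMap.congr_fun (congrArg Subtype.val h) x
      simp only [L, LinearMap.sub_apply, End.mul_apply] at this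
      simp only [Submodule.coe_sub, LinearMap.sub_apply, map_sub]
      exact sub_eq_sub_iff_sub_eq_sub.1 this
    rw [← sub_eq_zero]
    ext x
    have hx : x ∈ W ⊔ LinearMap.range (t ^ N) := hN.sup_eq_top ▸ trivial
    obtain ⟨w, hw, _, ⟨y, rfl⟩, rfl⟩ := Submodule.mem_sup.1 hx
    rw [map_add, (φ - φ').2.2 w hw, zero_add, ht, ← map_pow, aeval_comm h4, map_pow]
    exact (φ - φ').2.1 y
  have h5 : ∀ ψ : Phi W W, d a (g + ψ.1) ⊤ = d a g ⊤ := by
    intro ψ
    obtain ⟨φ, rfl⟩ := Finite.surjective_of_injective hL ψ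
    have h6 : ∀ x, φ.1 (φ.1 x) = 0 := fun x => φ.2.2 _ (φ.2.1 x)
    refine (d_top_eq a (1 + φ.1) ?_ fun x => ?_).symm
    · rw [← Finite.injective_iff_bijective, ← LinearMap.ker_eq_bot, eq_bot_iff]
      intro x hx
      have h7 : x + φ.1 x = 0 := hx
      have h8 := congrArg φ.1 h7
      rw [map_add, h6, add_zero, map_zero] at h8
      rwa [h8, add_zero] at h7
    · simp [L, h6, φ.2.2 _ (hW _ (φ.2.1 x))]
  simp only [h5, Finset.sum_const, Finset.card_univ, nsmul_eq_mul] at h3
  exact (mul_eq_zero.1 h3).resolve_left (Nat.cast_ne_zero.2 Fintype.card_ne_zero)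

/-- `∏_{i<k} (1 - x / Q^i)`. -/
noncomputable def pp (Q x : ℂ) (k : ℕ) : ℂ := ∏ i ∈ Finset.range k, (1 - x / Q ^ i)

/-- `δ(k) = ∏_{0<i<k} (1 - Q^i)` for `k > 0`. -/
noncomputable def dl (Q : ℂ) (k : ℕ) : ℂ :=
  if k = 0 then 0 else ∏ i ∈ Finset.Ico 1 k, (1 - Q ^ i)

theorem pp_mul {Q : ℂ} (hQ : Q ≠ 0) (x : ℂ) (k : ℕ) :
    pp Q (Q * x) (k + 1) = (1 - Q * x) * pp Q x k := by
  unfold pp
  rw [Finset.prod_range_succ', mul_comm]
  congr 1
  · simp
  · refine Finset.prod_congr rfl fun i _ => ?_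
    rw [pow_succ']
    field_simp

theorem pp_self {Q : ℂ} (hQ : Q ≠ 0) (k : ℕ) : pp Q (Q ^ k) k = dl Q (k + 1) := by
  induction k with
  | zero => simp [pp, dl]
  | succ k ih =>
    rw [pow_succ', pp_mul hQ, ih, dl, dl, if_neg (by omega), if_neg (by omega),
      Finset.prod_Ico_succ_top (by omega : 1 ≤ k + 1), ← pow_succ', mul_comm]

theorem sum_pp {Q : ℂ} (hQ : Q ≠ 0) (hQ' : ∀ k, 1 - Q ^ (k + 1) ≠ 0) (N m : ℕ) (h : m ≤ N) :
    ∑ k ∈ Finset.range N, pp Q (Q ^ m) (k + 1) / (1 - Q ^ (k + 1)) = m := by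
  induction m with
  | zero =>
    rw [Nat.cast_zero]
    refine Finset.sum_eq_zero fun k _ => ?_
    rw [pp, Finset.prod_range_succ']
    simp
  | succ m ih =>
    have h1 : ∀ k, pp Q (Q ^ (m + 1)) (k + 1) / (1 - Q ^ (k + 1)) =
        pp Q (Q ^ m) (k + 1) / (1 - Q ^ (k + 1)) + (pp Q (Q ^ m) k - pp Q (Q ^ m) (k + 1)) := by
      intro k
      have h2 : pp Q (Q ^ m) (k + 1) = pp Q (Q ^ m) k * (1 - Q ^ m / Q ^ k) :=
        Finset.prod_range_succ _ _
      have h3 := hQ' k
      rw [pow_succ' Q m, pp_mul hQ, h2]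
      field_simp
      ring
    simp only [h1]
    rw [Finset.sum_add_distrib, ih (by omega), Finset.sum_range_sub']
    have h4 : pp Q (Q ^ m) N = 0 :=
      Finset.prod_eq_zero (Finset.mem_range.2 (by omega : m < N)) (by
        rw [div_self (pow_ne_zero _ hQ), sub_self])
    rw [h4]
    simp [pp]

theorem one_sub_pow_ne {Q : ℕ} (hQ : 1 < Q) (k : ℕ) : 1 - (Q : ℂ) ^ (k + 1) ≠ 0 := by
  rw [sub_ne_zero]
  exact_mod_cast (Nat.one_lt_pow (by omega) hQ).ne

open Classical in
theorem sum_dl {E U : Type*} [Field E] [Fintype E] [AddCommGroup U] [Module E U] [Finite U]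
    (Y : Submodule E U) :
    ∑ Z : Submodule E U, (if Z ≤ Y then dl (Fintype.card E) (finrank E Z) else 0) =
      finrank E Y := by
  set Q := Fintype.card E with hQd
  have hQ : 1 < Q := Fintype.one_lt_card
  have hQ0 : (Q : ℂ) ≠ 0 := by exact_mod_cast (by omega : Q ≠ 0)
  set m := finrank E Y with hm
  rw [← Finset.sum_filter, ← Finset.sum_fiberwise_of_maps_to (t := Finset.range (m + 1))
    (g := fun Z : Submodule E U => finrank E Z) (fun Z hZ => Finset.mem_range.2
      (Nat.lt_succ_of_le (Submodule.finrank_mono (Finset.mem_filter.1 hZ).2))),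
    Finset.sum_range_succ', ← sum_pp hQ0 (one_sub_pow_ne hQ) m m le_rfl,
    Finset.sum_eq_zero (s := Finset.filter _ _), add_zero]
  · refine Finset.sum_congr rfl fun k hk => ?_
    have hk' := Finset.mem_range.1 hk
    rw [Finset.sum_congr rfl (g := fun _ => dl Q (k + 1)) fun Z hZ => by
      rw [(Finset.mem_filter.1 hZ).2], Finset.sum_const, nsmul_eq_mul,
      eq_div_iff (one_sub_pow_ne hQ k), mul_assoc, ← pp_self hQ0, mul_comm (pp _ _ _),
      pow_succ', ← pp_mul hQ0, ← pow_succ']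
    have h1 := H09.card_subspaces_mul (k + 1) Y
    rw [← hQd, ← hm] at h1
    have h2 : Nat.card {W : Submodule E U // finrank E W = k + 1 ∧ W ≤ Y} =
        (Finset.filter (fun Z : Submodule E U => finrank E Z = k + 1)
          (Finset.filter (fun Z => Z ≤ Y) Finset.univ)).card := by
      rw [Finset.filter_filter, Nat.card_eq_fintype_card, Fintype.card_subtype]
      congr 1
      ext Z
      simp [and_comm]
    have h3 : ∀ n, k + 1 ≤ n → ((∏ i : Fin (k + 1), (Q ^ n - Q ^ (i : ℕ)) : ℕ) : ℂ) =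
        (∏ i ∈ Finset.range (k + 1), (-(Q : ℂ) ^ i)) * pp Q (Q ^ n) (k + 1) := by
      intro n hn
      rw [pp, ← Finset.prod_mul_distrib, Nat.cast_prod,
        Fin.prod_univ_eq_prod_range (fun i => ((Q ^ n - Q ^ i : ℕ) : ℂ))]
      refine Finset.prod_congr rfl fun i hi => ?_
      have := Finset.mem_range.1 hi
      rw [Nat.cast_sub (Nat.pow_le_pow_right (by omega) (by omega))]
      push_cast
      field_simp
      ring
    have h4 := congrArg (Nat.cast : ℕ → ℂ) h1
    rw [Nat.cast_mul, h3 _ le_rfl, h3 _ hk', h2, mul_left_comm] at h4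
    exact mul_left_cancel₀ (Finset.prod_ne_zero_iff.2 fun i _ =>
      neg_ne_zero.2 (pow_ne_zero _ hQ0)) h4
  · intro Z hZ
    rw [(Finset.mem_filter.1 hZ).2, dl, if_pos rfl]

theorem d_field {E U : Type*} [Field E] [Fintype E] [Algebra F E] [AddCommGroup U] [Module E U]
    [Module F U] [IsScalarTower F E U] [Finite U] {l : E} (hl : ∀ x : E, ∃ p : F[X], aeval l p = x)
    {g : End F U} (hg : ∀ u, g u = l • u) {a : F[X] → ℂ}
    (ha : ∀ Y : Submodule E U, a (cp g (Y.restrictScalars F)) = finrank E Y) (Y : Submodule E U) :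
    d a g (Y.restrictScalars F) = dl (Fintype.card E) (finrank E Y) := by
  classical
  induction Y using ind with
  | h Y ih =>
  have h1 : ∑ Z : Submodule F U, (if Z < Y.restrictScalars F ∧ Inv g Z then d a g Z else 0) =
      ∑ Z : Submodule E U, if Z < Y then dl (Fintype.card E) (finrank E Z) else 0 := by
    rw [← Finset.sum_filter, ← Finset.sum_filter]
    symm
    refine Finset.sum_bij (fun Z _ => Z.restrictScalars F) ?_ ?_ ?_ ?_
    · intro Z hZ
      simp only [Finset.mem_filter, Finset.mem_univ, true_and] at hZ ⊢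
      exact ⟨hZ, fun x hx => by rw [hg]; exact Z.smul_mem l hx⟩
    · intro Z _ Z' _ h
      exact Submodule.restrictScalars_injective F E U h
    · intro Z hZ
      simp only [Finset.mem_filter, Finset.mem_univ, true_and] at hZ ⊢
      have h2 : ∀ (p : F[X]), ∀ x ∈ Z, aeval l p • x ∈ Z := by
        intro p
        induction p using Polynomial.induction_on with
        | C c => intro x hx; simpa using Z.smul_mem c hx
        | add p q hp hq => intro x hx; rw [map_add, add_smul]; exact Z.add_mem (hp x hx) (hq x hx)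
        | monomial n c h =>
          intro x hx
          rw [pow_succ, ← mul_assoc, map_mul, aeval_X, mul_smul, ← hg]
          exact h _ (hZ.2 x hx)
      refine ⟨⟨Z.toAddSubmonoid, fun c x hx => ?_⟩, hZ.1, rfl⟩
      obtain ⟨p, rfl⟩ := hl c
      exact h2 p x hx
    · intro Z hZ
      exact (ih Z (Finset.mem_filter.1 hZ).2).symm
  rw [d_eq, h1, ha, ← sum_dl Y]
  have h3 : ∀ Z : Submodule E U, (if Z ≤ Y then dl (Fintype.card E) (finrank E Z) else 0) =
      (if Z = Y then dl (Fintype.card E) (finrank E Y) else 0) +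
        if Z < Y then dl (Fintype.card E) (finrank E Z) else 0 := by
    intro Z
    by_cases hZ : Z = Y
    · subst hZ; simp
    · simp [hZ, lt_iff_le_and_ne]
  simp only [h3, Finset.sum_add_distrib, Finset.sum_ite_eq', Finset.mem_univ, if_true]
  ring

end Cfsg.Agent.H16.Cu
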