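import Cfsg.Agent.H16.Cu3

/-!
# Cuspidal characters of `GL_n(q)`, part 4: the sum of `d` over the group
-/

namespace Cfsg.Agent.H16.Cu

open Polynomial Module

variable {F : Type*} [Field F] {V : Type*} [AddCommGroup V] [Module F V]

/-- `a` counts the multiplicity of `f`. -/
structure Mult (f : F[X]) (a : F[X] → ℂ) : Prop where
  addv : Addv a
  zero : ∀ P : F[X], P.Monic → ¬ f ∣ P → a P = 0
  one : a f = 1

theorem Addv.pow {a : F[X] → ℂ} (ha : Addv a) {f : F[X]} (hm : f.Monic) (k : ℕ) :
    a (f ^ k) = k * a f := by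
  induction k with
  | zero => simp [ha.one]
  | succ k ih => rw [pow_succ, ha.mul _ _ (hm.pow k) hm, ih]; push_cast; ring

/-- Multiplication by the root on `E^r`. -/
noncomputable def LL (f : F[X]) (r : ℕ) : End F (Fin r → AdjoinRoot f) :=
  (LinearMap.lsmul (AdjoinRoot f) (Fin r → AdjoinRoot f) (AdjoinRoot.root f)).restrictScalars F

theorem aeval_smul_eq {E U : Type*} [CommRing E] [Algebra F E] [AddCommGroup U] [Module E U]
    [Module F U] [IsScalarTower F E U] {l : E} {g : End F U} (hg : ∀ u, g u = l • u) (p : F[X])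
    (u : U) : aeval g p u = aeval l p • u := by
  induction p using Polynomial.induction_on generalizing u with
  | C c => simp [Module.algebraMap_end_apply]
  | add p q hp hq => simp [hp, hq, add_smul]
  | monomial n c h =>
    rw [pow_succ, ← mul_assoc, map_mul (aeval g), map_mul (aeval l), aeval_X, aeval_X,
      End.mul_apply, h, hg, mul_smul]

theorem aeval_LL (f : F[X]) (r : ℕ) (p : F[X]) (u : Fin r → AdjoinRoot f) :
    aeval (LL f r) p u = AdjoinRoot.mk f p • u := by
  rw [aeval_smul_eq (l := AdjoinRoot.root f) (fun _ => rfl), AdjoinRoot.aeval_eq]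

theorem card_hom {f : F[X]} (hm : f.Monic) (g : End F V) (r : ℕ) :
    Nat.card {h : (Fin r → AdjoinRoot f) →ₗ[F] V // ∀ u, h (LL f r u) = g (h u)} =
      Nat.card (LinearMap.ker (aeval g f)) ^ r := by
  classical
  rw [← Fintype.card_fin r, ← Nat.card_eq_fintype_card (α := Fin r), ← Nat.card_fun,
    Nat.card_eq_fintype_card (α := Fin r), Fintype.card_fin]
  refine Nat.card_congr (Equiv.ofBijective (fun h i => ⟨h.1 (Pi.single i 1), ?_⟩) ⟨?_, ?_⟩)
  · show aeval g f (h.1 _) = 0
    rw [← aeval_comm h.2, aeval_LL, AdjoinRoot.mk_self, zero_smul, map_zero]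
  · intro h h' e
    refine Subtype.ext (LinearMap.pi_ext fun i x => ?_)
    obtain ⟨p, rfl⟩ := AdjoinRoot.mk_surjective x
    have h1 : (Pi.single i (AdjoinRoot.mk f p) : Fin r → AdjoinRoot f) =
        aeval (LL f r) p (Pi.single i 1) := by
      rw [aeval_LL, ← Pi.single_smul, smul_eq_mul, mul_one]
    have h2 : h.1 (Pi.single i 1) = h'.1 (Pi.single i 1) := congrArg Subtype.val (congrFun e i)
    rw [h1, aeval_comm h.2, aeval_comm h'.2, h2]
  · intro z
    let lf : LinearMap.ker (aeval g f) → (AdjoinRoot f →ₗ[F] V) := fun z =>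
      (LinearMap.applyₗ z.1 ∘ₗ (aeval g).toLinearMap) ∘ₗ AdjoinRoot.modByMonicHom hm
    have h1 : ∀ z p, lf z (AdjoinRoot.mk f p) = aeval g p z.1 := by
      intro z p
      show aeval g (p %ₘ f) z.1 = _
      conv_rhs => rw [← modByMonic_add_div p f, map_add, mul_comm, map_mul]
      rw [LinearMap.add_apply, End.mul_apply, show aeval g f z.1 = 0 from z.2, map_zero, add_zero]
    refine ⟨⟨∑ i, lf (z i) ∘ₗ LinearMap.proj i, fun u => ?_⟩, ?_⟩
    · simp only [LinearMap.sum_apply, map_sum, LinearMap.comp_apply, LinearMap.proj_apply]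
      refine Finset.sum_congr rfl fun i _ => ?_
      obtain ⟨p, hp⟩ := AdjoinRoot.mk_surjective (u i)
      have h2 : LL f r u i = AdjoinRoot.mk f (X * p) := by
        rw [map_mul, hp, AdjoinRoot.mk_X]; rfl
      rw [h2, ← hp, h1, h1, map_mul, aeval_X, End.mul_apply]
    · funext i
      apply Subtype.ext
      simp only [LinearMap.sum_apply, LinearMap.comp_apply, LinearMap.proj_apply]
      rw [Finset.sum_eq_single i (fun j _ hj => by rw [Pi.single_eq_of_ne hj, map_zero])
        (by simp), Pi.single_eq_same, ← map_one (AdjoinRoot.mk f), h1, map_one, End.one_apply]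

variable [Finite V]

noncomputable instance (priority := low) ftHom {U : Type*} [AddCommGroup U] [Module F U]
    [Finite U] : Fintype (U →ₗ[F] V) := Fintype.ofFinite _

theorem sum_eq_zero_top (T : Submodule F (End F V)) (f : End F V → ℂ)
    (hf : ∀ ψ, ∑ φ : T, f (ψ + φ) = 0) : ∑ ψ, f ψ = 0 := by
  have h1 : ∀ φ : T, ∑ ψ, f (ψ + φ) = ∑ ψ, f ψ := fun φ =>
    Equiv.sum_comp (Equiv.addRight φ.1) f
  have h2 : ∑ φ : T, ∑ ψ, f (ψ + φ) = 0 := by
    rw [Finset.sum_comm]
    exact Finset.sum_eq_zero fun ψ _ => hf ψ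
  simp only [h1, Finset.sum_const, Finset.card_univ, nsmul_eq_mul] at h2
  exact (mul_eq_zero.1 h2).resolve_left (Nat.cast_ne_zero.2 Fintype.card_ne_zero)

theorem finrank_of_nilp {g : End F V} {f : F[X]} (hi : Irreducible f) (hm : f.Monic)
    {a : F[X] → ℂ} (ha : Mult f a) {Y : Submodule F V} (hY : Inv g Y)
    (hn : ∃ N, ∀ y ∈ Y, (aeval g f ^ N) y = 0) :
    ∃ k, finrank F Y = f.natDegree * k ∧ a (cp g Y) = k := by
  obtain ⟨N, hN⟩ := hn
  obtain ⟨k, hk⟩ := charpoly_eq_pow (g := g.restrict hY) hi hm ⟨N, by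
    ext y
    rw [← map_pow]
    refine (aeval_comm (j := Y.subtype) (g := g.restrict hY) (g' := g) (fun _ => rfl) _ y).trans ?_
    rw [map_pow]
    exact hN y.1 y.2⟩
  refine ⟨k, ?_, ?_⟩
  · rw [← cp_natDegree hY, cp_eq hY, hk, hm.natDegree_pow, mul_comm]
  · rw [cp_eq hY, hk, ha.addv.pow hm, ha.one, mul_one]

section
variable [Fintype F] {f : F[X]}

theorem fin_adj (hm : f.Monic) : Finite (AdjoinRoot f) :=
  haveI := (AdjoinRoot.powerBasis' hm).finite
  Module.finite_of_finite F

theorem finrank_adj (hm : f.Monic) : finrank F (AdjoinRoot f) = f.natDegree := by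
  rw [(AdjoinRoot.powerBasis' hm).finrank, AdjoinRoot.powerBasis'_dim]

theorem d_LL (hi : Irreducible f) (hm : f.Monic) {a : F[X] → ℂ} (ha : Mult f a) (r : ℕ)
    [Finite (AdjoinRoot f)] :
    d a (LL f r) ⊤ = dl ((Fintype.card F : ℂ) ^ f.natDegree) r := by
  haveI := Fact.mk hi
  haveI := Fintype.ofFinite (AdjoinRoot f)
  haveI := (AdjoinRoot.powerBasis' hm).finite
  have h1 := d_field (F := F) (U := Fin r → AdjoinRoot f) (l := AdjoinRoot.root f) (a := a)
    (g := LL f r) (fun x => by
      obtain ⟨p, rfl⟩ := AdjoinRoot.mk_surjective x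
      exact ⟨p, AdjoinRoot.aeval_eq p⟩) (fun _ => rfl) (fun Y => by
      obtain ⟨k, h1, h2⟩ := finrank_of_nilp (g := LL f r) hi hm ha (Y := Y.restrictScalars F)
        (fun x hx => Y.smul_mem _ hx) ⟨1, fun y _ => by
          rw [pow_one, aeval_LL, AdjoinRoot.mk_self, zero_smul]⟩
      rw [h2]
      have h3 : finrank F (Y.restrictScalars F) = finrank F Y := rfl
      rw [h3, ← Module.finrank_mul_finrank F (AdjoinRoot f) Y, finrank_adj hm] at h1
      rw [Nat.eq_of_mul_eq_mul_left hi.natDegree_pos h1]) ⊤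
  rw [Submodule.restrictScalars_top, finrank_top, Module.finrank_fin_fun,
    Module.card_eq_pow_finrank (K := F), finrank_adj hm] at h1
  exact_mod_cast h1

open Classical in
theorem sum_pow (hi : Irreducible f) (hm : f.Monic) {a : F[X] → ℂ} (ha : Mult f a) {m : ℕ}
    (hV : finrank F V = f.natDegree * m) (hm0 : 0 < m) {r : ℕ} (hr : r ≤ m) :
    ∑ g : End F V, d a g ⊤ * (Nat.card (LinearMap.ker (aeval g f)) : ℂ) ^ r =
      ∑ g : End F V, d a g ⊤ + if r = m then
        (Nat.card (End F V)ˣ : ℂ) * dl ((Fintype.card F : ℂ) ^ f.natDegree) m else 0 := by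
  haveI := fin_adj hm
  haveI := (AdjoinRoot.powerBasis' hm).finite
  have hU : finrank F (Fin r → AdjoinRoot f) = f.natDegree * r := by
    rw [Module.finrank_pi_fintype, Finset.sum_const, Finset.card_univ, Fintype.card_fin,
      finrank_adj hm, smul_eq_mul, mul_comm]
  have h1 : ∀ g : End F V, d a g ⊤ * (Nat.card (LinearMap.ker (aeval g f)) : ℂ) ^ r =
      ∑ h : (Fin r → AdjoinRoot f) →ₗ[F] V,
        if ∀ u, h (LL f r u) = g (h u) then d a g ⊤ else 0 := by
    intro g
    rw [← Nat.cast_pow, ← card_hom hm, ← Finset.sum_filter, Finset.sum_const, nsmul_eq_mul,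
      mul_comm, Nat.card_eq_fintype_card, Fintype.card_subtype]
  have h2 : ∀ h : (Fin r → AdjoinRoot f) →ₗ[F] V,
      (∑ g : End F V, if ∀ u, h (LL f r u) = g (h u) then d a g ⊤ else 0) =
      (if h = 0 then ∑ g : End F V, d a g ⊤ else 0) +
        if Function.Bijective h then dl ((Fintype.card F : ℂ) ^ f.natDegree) r else 0 := by
    intro h
    by_cases hb : Function.Bijective h
    · have h0 : h ≠ 0 := by
        rintro rfl
        have : Subsingleton V := ⟨fun x y => by
          obtain ⟨x, rfl⟩ := hb.2 x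
          obtain ⟨y, rfl⟩ := hb.2 y
          rfl⟩
        rw [Module.finrank_zero_of_subsingleton] at hV
        exact (Nat.mul_pos hi.natDegree_pos hm0).ne hV
      let e := LinearEquiv.ofBijective h hb
      have he : ∀ u, h (LL f r u) = e.conj (LL f r) (h u) := fun u => by
        show _ = h (LL f r (e.symm (e u)))
        rw [e.symm_apply_apply]
      rw [if_neg h0, if_pos hb, zero_add, Finset.sum_eq_single (e.conj (LL f r)), if_pos he,
        ← d_top_eq a h hb he, d_LL hi hm ha]
      · intro g _ hg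
        refine if_neg fun h3 => hg (LinearMap.ext fun x => ?_)
        obtain ⟨u, rfl⟩ := hb.2 x
        rw [← h3, he]
      · simp
    rw [if_neg hb, add_zero]
    by_cases h0 : h = 0
    · subst h0; simp
    rw [if_neg h0]
    have h3 : LinearMap.range h ≠ ⊤ := fun h3 => by
      have h4 := LinearMap.range_eq_top.1 h3
      have h5 := LinearMap.finrank_le_finrank_of_surjective h4
      have h6 : finrank F (Fin r → AdjoinRoot f) = finrank F V :=
        le_antisymm (by rw [hU, hV]; exact Nat.mul_le_mul_left _ hr) h5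
      exact hb ⟨(LinearMap.injective_iff_surjective_of_finrank_eq_finrank h6).2 h4, h4⟩
    refine sum_eq_zero_top (Phi (LinearMap.range h) (LinearMap.range h))
      (fun g => if ∀ u, h (LL f r u) = g (h u) then d a g ⊤ else 0) fun g => ?_
    have h4 : ∀ φ : Phi (LinearMap.range h) (LinearMap.range h),
        (∀ u, h (LL f r u) = (g + φ.1) (h u)) ↔ ∀ u, h (LL f r u) = g (h u) := fun φ =>
      forall_congr' fun u => by rw [LinearMap.add_apply, φ.2.2 _ ⟨u, rfl⟩, add_zero]
    simp only [h4]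
    split_ifs with h5
    · refine cusp ha.addv ?_ (fun h6 => h0 (LinearMap.range_eq_bot.1 h6)) h3
      rintro _ ⟨u, rfl⟩
      exact ⟨_, h5 u⟩
    · simp
  simp only [h1]
  rw [Finset.sum_comm]
  simp only [h2, Finset.sum_add_distrib, Finset.sum_ite_eq', Finset.mem_univ, if_true]
  congr 1
  split_ifs with h3
  · subst h3
    rw [← Finset.sum_filter, Finset.sum_const, nsmul_eq_mul, ← Fintype.card_subtype,
      ← Nat.card_eq_fintype_card]
    congr 2
    obtain ⟨e⟩ := FiniteDimensional.nonempty_linearEquiv_of_finrank_eq (hU.trans hV.symm)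
    symm
    refine Nat.card_congr (Equiv.ofBijective (fun u => ⟨u.1 ∘ₗ e.toLinearMap,
      ((Module.End.isUnit_iff _).1 u.isUnit).comp e.bijective⟩) ⟨?_, ?_⟩)
    · intro u u' h
      have h4 := congrArg Subtype.val h
      refine Units.ext (LinearMap.ext fun x => ?_)
      obtain ⟨y, rfl⟩ := e.surjective x
      exact LinearMap.congr_fun h4 y
    · rintro ⟨h, hb⟩
      obtain ⟨u, hu⟩ := (Module.End.isUnit_iff (h ∘ₗ e.symm.toLinearMap)).2
        (hb.comp e.symm.bijective)
      exact ⟨u, Subtype.ext (by ext x; simp [hu])⟩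
  · refine Finset.sum_eq_zero fun h _ => if_neg fun hb => h3 ?_
    have := (LinearEquiv.ofBijective h hb).finrank_eq
    rw [hU, hV] at this
    exact Nat.eq_of_mul_eq_mul_left hi.natDegree_pos this

theorem sum_d_end (hi : Irreducible f) (hm : f.Monic) {a : F[X] → ℂ} (ha : Mult f a) {m : ℕ}
    (hV : finrank F V = f.natDegree * m) (hm0 : 0 < m) :
    ((Fintype.card F : ℂ) ^ finrank F V - 1) * ∑ g : End F V, d a g ⊤ = Nat.card (End F V)ˣ := by
  classical
  set Q : ℂ := (Fintype.card F : ℂ) ^ f.natDegree with hQ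
  have hQ1 : ∀ k, 1 - Q ^ (k + 1) ≠ 0 := fun k => by
    have := one_sub_pow_ne (Nat.one_lt_pow hi.natDegree_pos.ne' (Fintype.one_lt_card (α := F))) k
    rwa [Nat.cast_pow] at this
  let A : ℂ[X] := ∏ k ∈ Finset.Ico 1 (m + 1), (X - C (Q ^ k))
  have hA : A.Monic := monic_prod_X_sub_C _ _
  have hA1 : A.natDegree = m := by
    rw [natDegree_finsetProd_X_sub_C_eq_card]; simp
  have h1 : ∑ g : End F V, d a g ⊤ * A.eval (Nat.card (LinearMap.ker (aeval g f)) : ℂ) = 0 := by
    refine Finset.sum_eq_zero fun g _ => ?_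
    by_cases hd : d a g ⊤ = 0
    · rw [hd, zero_mul]
    obtain ⟨N, hN⟩ := nilp_of_d_ne ha.addv hi ha.zero hd
    have hI : Inv g (LinearMap.ker (aeval g f)) := fun x hx => by
      show aeval g f (g x) = 0
      rw [← aeval_comm (j := g) (fun _ => rfl), show aeval g f x = 0 from hx, map_zero]
    obtain ⟨k, hk, -⟩ := finrank_of_nilp hi hm ha hI ⟨1, fun y hy => by rw [pow_one]; exact hy⟩
    have hk1 : k ≤ m := by
      have := (LinearMap.ker (aeval g f)).finrank_le
      rw [hk, hV] at this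
      exact Nat.le_of_mul_le_mul_left this hi.natDegree_pos
    have hk0 : k ≠ 0 := by
      rintro rfl
      rw [mul_zero, Submodule.finrank_eq_zero] at hk
      have h2 := ((LinearMap.isUnit_iff_ker_eq_bot _).2 hk).pow N
      rw [hN, isUnit_zero_iff] at h2
      have : Subsingleton V := ⟨fun x y => by
        rw [← End.one_apply (R := F) x, ← End.one_apply (R := F) y, ← h2]; rfl⟩
      rw [Module.finrank_zero_of_subsingleton] at hV
      exact (Nat.mul_pos hi.natDegree_pos hm0).ne hV
    rw [Module.natCard_eq_pow_finrank (K := F), hk, eval_prod,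
      Finset.prod_eq_zero (i := k) (Finset.mem_Ico.2 ⟨by omega, by omega⟩), mul_zero]
    simp [hQ, pow_mul]
  simp only [eval_eq_sum_range, hA1, Finset.mul_sum] at h1
  rw [Finset.sum_comm, Finset.sum_congr rfl (g := fun r => A.coeff r * 1 ^ r *
    ∑ g : End F V, d a g ⊤ + if r = m then (Nat.card (End F V)ˣ : ℂ) * dl Q m else 0)
    (fun r hr => by
      simp only [mul_left_comm _ (A.coeff r)]
      rw [← Finset.mul_sum, sum_pow hi hm ha hV hm0 (by simpa [Nat.lt_succ_iff] using hr),
        mul_add, one_pow, mul_one]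
      congr 1
      split_ifs with h
      · rw [h, ← hA1, hA.coeff_natDegree, one_mul, hA1]
      · simp), Finset.sum_add_distrib, ← Finset.sum_mul, Finset.sum_ite_eq',
    if_pos (by simp)] at h1
  have h2 := eval_eq_sum_range (p := A) (1 : ℂ)
  rw [hA1] at h2
  have h3 : A.eval 1 = dl Q m * (1 - Q ^ m) := by
    rw [eval_prod, Finset.prod_Ico_succ_top hm0, dl, if_neg hm0.ne']
    simp
  have h4 : dl Q m ≠ 0 := by
    rw [dl, if_neg hm0.ne']
    refine Finset.prod_ne_zero_iff.2 fun i hi => ?_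
    obtain ⟨j, rfl⟩ := Nat.exists_eq_add_of_le' (Finset.mem_Ico.1 hi).1
    exact hQ1 j
  rw [← h2, h3] at h1
  rw [hV, pow_mul, ← hQ]
  apply mul_left_cancel₀ h4
  linear_combination -h1

end

end Cfsg.Agent.H16.Cu
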