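import Cfsg.Agent.H16.Cu4
import Cfsg.Agent.H05.Brauer
import Cfsg.Agent.H05.AutC

/-!
# Cuspidal characters of `GL_n(q)`, part 5: the Brauer lift is a generalized character
-/

namespace Cfsg.Agent.H16.Cu

open Polynomial Module Cfsg H05
open scoped ComplexConjugate

variable {K : Type*} [Field K] [Fintype K] [DecidableEq K]

theorem exists_z (Q : ℤ) (k : ℕ) : ∃ z : ℤ, (Q - 1) * k = Q ^ k - 1 + (Q - 1) ^ 2 * z := by
  induction k with
  | zero => exact ⟨0, by simp⟩
  | succ k ih =>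
    obtain ⟨z, hz⟩ := ih
    obtain ⟨w, hw⟩ := sub_one_dvd_pow_sub_one Q k
    exact ⟨z - w, by push_cast; linear_combination hz - (Q - 1) * hw⟩

theorem brauer_coprime {U : Type*} [AddCommGroup U] [Module K U] [Finite U] {E : Type*} [Group E]
    [Finite E] (ρ : E →* End K U) (hE : Nat.card E ∣ Fintype.card K - 1) (θ : Kˣ →* ℂˣ) :
    IsGeneralizedCharacter E
      (fun g => ∑ c : Kˣ, (θ c : ℂ) * finrank K ((ρ g).eigenspace (c : K))) := by
  classical
  haveI := Fintype.ofFinite E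
  set Q := Fintype.card K with hQ
  have hQ1 : 1 < Q := Fintype.one_lt_card
  have hQ2 : (Q : ℂ) - 1 ≠ 0 := by
    rw [sub_ne_zero]; exact_mod_cast hQ1.ne'
  letI : MulAction (E × Kˣ) U :=
    { smul := fun x v => (x.2⁻¹ : Kˣ) • ρ x.1 v
      one_smul := fun v => by
        show ((1 : Kˣ)⁻¹ : Kˣ) • ρ 1 v = v
        simp
      mul_smul := fun x y v => by
        show ((x.2 * y.2)⁻¹ : Kˣ) • ρ (x.1 * y.1) v = (x.2⁻¹ : Kˣ) • ρ x.1 ((y.2⁻¹ : Kˣ) • ρ y.1 v)
        simp only [Units.smul_def, map_smul, map_mul, End.mul_apply, smul_smul, mul_inv,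
          Units.val_mul] }
  let k : E → Kˣ → ℕ := fun g c => finrank K ((ρ g).eigenspace (c : K))
  have hP : IsCharacter (E × Kˣ) (fun x => (Q : ℂ) ^ k x.1 x.2) := by
    have h1 := isCharacter_perm (G := E × Kˣ) U
    convert h1 using 2 with x
    rw [← Nat.cast_pow, hQ, ← Nat.card_eq_fintype_card, ← Module.natCard_eq_pow_finrank]
    congr 1
    refine Nat.card_congr (Equiv.subtypeEquivRight fun v => ?_)
    rw [End.mem_eigenspace_iff]
    show _ ↔ (x.2⁻¹ : Kˣ) • ρ x.1 v = v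
    rw [inv_smul_eq_iff, Units.smul_def]
  have hk : ∀ g x c, k (x * g * x⁻¹) c = k g c := by
    intro g x c
    have h1 := hP.isClassFunction (g, c) (x, 1)
    simp only [Prod.fst_mul, Prod.snd_mul, Prod.fst_inv, Prod.snd_inv, one_mul, inv_one,
      mul_one] at h1
    exact Nat.pow_right_injective hQ1 (by exact_mod_cast h1)
  refine isGeneralizedCharacter_of_classInner (fun g x => ?_) fun ψ hψ => ?_
  · exact Finset.sum_congr rfl fun c _ => congrArg (fun n : ℕ => (θ c : ℂ) * n) (hk g x c)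
  obtain ⟨I, hI⟩ : ∃ I : (ℕ → ℂ) → ℂ, ∀ f, I f =
      (Nat.card E : ℂ)⁻¹ * ∑ g, ∑ c : Kˣ, (θ c : ℂ) * f (k g c) * conj (ψ g) := ⟨_, fun _ => rfl⟩
  have hE0 : (Nat.card E : ℂ) ≠ 0 := card_ne_zero_complex
  have h1 : ∀ j : ℕ, ∃ n : ℤ, I (fun m => ((Q : ℂ) ^ m) ^ j) = (Q - 1) * n := by
    intro j
    obtain ⟨n, hn⟩ := ((hP.pow j).mul ((isCharacter_monoidHom θ).comp
      (MonoidHom.snd E Kˣ))).isGeneralizedCharacter.exists_classInner_eq_int
      (hψ.isCharacter.comp (MonoidHom.fst E Kˣ)).isGeneralizedCharacter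
    refine ⟨n, ?_⟩
    rw [← hn, hI, classInner, Nat.card_prod, Nat.card_eq_fintype_card (α := Kˣ),
      Fintype.card_units, Fintype.sum_prod_type, Nat.cast_mul, Nat.cast_sub hQ1.le]
    simp only [Pi.mul_apply, Pi.pow_apply, MonoidHom.coe_snd, MonoidHom.coe_fst, ← hQ,
      Nat.cast_one, mul_comm (θ _ : ℂ)]
    field_simp
  choose n hn using h1
  have h2 : ∃ r : ℚ, I (fun m => m) = r := by
    let p : ℚ[X] := Lagrange.interpolate (Finset.range (finrank K U + 1)) (fun m => (Q : ℚ) ^ m)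
      (fun m => (m : ℚ))
    have h3 : ∀ m ≤ finrank K U, (m : ℂ) =
        ∑ j ∈ Finset.range (p.natDegree + 1), (p.coeff j : ℂ) * ((Q : ℂ) ^ m) ^ j := by
      intro m hm
      have h4 : p.eval ((Q : ℚ) ^ m) = m := Lagrange.eval_interpolate_at_node
        (s := Finset.range (finrank K U + 1)) (v := fun m => (Q : ℚ) ^ m) (fun m => (m : ℚ))
        (fun a _ b _ h => Nat.pow_right_injective hQ1 (by
          have h' : (Q : ℚ) ^ a = (Q : ℚ) ^ b := h
          show Q ^ a = Q ^ b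
          exact_mod_cast h'))
        (Finset.mem_range.2 (Nat.lt_succ_of_le hm))
      rw [eval_eq_sum_range] at h4
      exact_mod_cast h4.symm
    refine ⟨∑ j ∈ Finset.range (p.natDegree + 1), p.coeff j * ((Q - 1) * n j), ?_⟩
    push_cast
    simp only [← hn, hI, Finset.mul_sum]
    symm
    rw [Finset.sum_comm]
    refine Finset.sum_congr rfl fun g _ => ?_
    rw [Finset.sum_comm]
    refine Finset.sum_congr rfl fun c _ => ?_
    symm
    rw [h3 (k g c) (Submodule.finrank_le _)]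
    simp only [Finset.mul_sum, Finset.sum_mul]
    exact Finset.sum_congr rfl fun j _ => by ring
  choose z hz using exists_z Q
  obtain ⟨w, hw⟩ := hE
  have hw' : (Q : ℂ) - 1 = Nat.card E * w := by
    have := congrArg (Nat.cast : ℕ → ℂ) hw
    rwa [Nat.cast_sub hQ1.le, Nat.cast_one, Nat.cast_mul] at this
  have h3 : I (fun m => m) = n 1 - n 0 + w *
      ∑ g, ∑ c : Kˣ, (θ c : ℂ) * (z (k g c)) * conj (ψ g) := by
    apply mul_left_cancel₀ hQ2
    have h4 : ((Q : ℂ) - 1) * w = (Nat.card E : ℂ)⁻¹ * (Q - 1) ^ 2 := by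
      rw [hw']; field_simp
    rw [mul_add, mul_sub, ← hn, ← hn, ← mul_assoc, h4]
    simp only [hI, Finset.mul_sum, ← Finset.sum_sub_distrib, ← Finset.sum_add_distrib]
    refine Finset.sum_congr rfl fun g _ => Finset.sum_congr rfl fun c _ => ?_
    have h5 := congrArg (Int.cast : ℤ → ℂ) (hz (k g c))
    push_cast at h5
    linear_combination ((Nat.card E : ℂ)⁻¹ * θ c * conj (ψ g)) * h5
  have h4 : IsIntegral ℤ (I fun m => m) := by
    rw [h3]
    refine ((isIntegral_intCast _).sub (isIntegral_intCast _)).add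
      ((isIntegral_natCast _).mul (IsIntegral.sum _ fun g _ => IsIntegral.sum _ fun c _ =>
        (((isCharacter_monoidHom θ).isIntegral c).mul (isIntegral_intCast _)).mul ?_))
    rw [← hψ.isCharacter.apply_inv]
    exact hψ.isIntegral _
  obtain ⟨r, hr⟩ := h2
  rw [hr] at h4
  obtain ⟨m, hm⟩ := exists_int_of_isIntegral_ratCast h4
  refine ⟨m, Eq.trans ?_ (hr.trans (by rw [hm]; simp))⟩
  simp only [hI, classInner, Finset.sum_mul, k]

omit [DecidableEq K] in
theorem maxGen_eq {U : Type*} [AddCommGroup U] [Module K U] (t : End K U)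
    (ht : t ^ (Fintype.card K * Fintype.card K) = t ^ Fintype.card K) (c : K) :
    t.maxGenEigenspace c = (t ^ Fintype.card K).eigenspace c := by
  obtain ⟨p, hp⟩ := CharP.exists K
  obtain ⟨s, hp', hs⟩ := FiniteField.card K p
  haveI := Fact.mk hp'
  set Q := Fintype.card K with hQ
  have hQ1 : 1 < Q := Fintype.one_lt_card
  have h1 : ∀ i, t ^ Q ^ (i + 1) = t ^ Q := by
    intro i
    induction i with
    | zero => rw [zero_add, pow_one]
    | succ i ih => rw [pow_succ Q, pow_mul, ih, ← pow_mul, ht]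
  have h2 : ∀ i, (t - c • 1) ^ Q ^ (i + 1) = t ^ Q - c • 1 := by
    intro i
    have h3 : (X - C c : K[X]) ^ Q ^ (i + 1) = X ^ Q ^ (i + 1) - C c := by
      have h4 : c ^ Q ^ (i + 1) = c := FiniteField.pow_card_pow _ _
      conv_rhs => rw [← h4, C_pow]
      rw [hs, ← pow_mul, sub_pow_char_pow]
    have h5 := congrArg (aeval t) h3
    simp only [map_pow, map_sub, aeval_X, aeval_C, Algebra.algebraMap_eq_smul_one] at h5
    rw [h5, h1]
  ext x
  rw [End.mem_maxGenEigenspace, End.mem_eigenspace_iff, ← sub_eq_zero]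
  have h6 : (t ^ Q) x - c • x = (t ^ Q - c • 1 : End K U) x := rfl
  rw [h6]
  constructor
  · rintro ⟨k, hk⟩
    obtain ⟨j, hj⟩ := Nat.exists_eq_add_of_le'
      ((Nat.le_succ k).trans (Nat.lt_pow_self (n := k + 1) hQ1).le)
    rw [← h2 k, hj, pow_add, End.mul_apply, hk, map_zero]
  · intro h
    exact ⟨Q ^ (0 + 1), by rw [h2, h]⟩

theorem pow_hom {E : Type*} [Group E] [Finite E] [h : Group.IsNilpotent E] {Q : ℕ} (hQ : 0 < Q)
    (hE : Nat.card E ∣ Q * (Q - 1)) (x y : E) : (x * y) ^ Q = x ^ Q * y ^ Q := by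
  obtain ⟨e⟩ := (Group.isNilpotent_of_finite_tfae.out 0 4 rfl rfl).mp h
  obtain ⟨x, rfl⟩ := e.surjective x
  obtain ⟨y, rfl⟩ := e.surjective y
  rw [← map_mul, ← map_pow, ← map_pow, ← map_pow, ← map_mul]
  congr 1
  funext p P
  simp only [Pi.pow_apply, Pi.mul_apply]
  haveI := Fact.mk (Nat.prime_of_mem_primeFactors p.2)
  have hc : Nat.Coprime Q (Q - 1) := by
    obtain ⟨m, rfl⟩ := Nat.exists_eq_add_of_le' hQ
    simp
  have h1 : ∀ u : P, ∃ k, orderOf u = p ^ k := IsPGroup.iff_orderOf.1 P.2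
  have h2 : ∀ u : P, orderOf u ∣ Q * (Q - 1) := fun u =>
    (orderOf_dvd_natCard u).trans ((Subgroup.card_subgroup_dvd_card _).trans hE)
  by_cases hp : p.1 ∣ Q
  · have h3 : ∀ u : P, u ^ Q = 1 := by
      intro u
      obtain ⟨k, hk⟩ := h1 u
      refine orderOf_dvd_iff_pow_eq_one.1 (Nat.Coprime.dvd_of_dvd_mul_right ?_ (h2 u))
      rw [hk]
      exact (hc.coprime_dvd_left hp).pow_left k
    simp only [h3, mul_one]
  · have h3 : ∀ u : P, u ^ Q = u := by
      intro u
      obtain ⟨k, hk⟩ := h1 u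
      have h4 : u ^ (Q - 1) = 1 := by
        refine orderOf_dvd_iff_pow_eq_one.1 (Nat.Coprime.dvd_of_dvd_mul_left ?_ (h2 u))
        rw [hk]
        exact ((Nat.Prime.coprime_iff_not_dvd Fact.out).2 hp).pow_left k
      rw [← Nat.sub_add_cancel hQ, pow_succ, h4, one_mul]
    simp only [h3]

variable {F : Type*} [Field F] [Algebra F K]

/-- Multiplicity of a root in the extension field. -/
noncomputable def am (c : K) (P : F[X]) : ℂ := (P.map (algebraMap F K)).rootMultiplicity c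

/-- The Brauer lift: the sum of `θ` over the nonzero roots in `K`. -/
noncomputable def br (θ : Kˣ →* ℂˣ) (P : F[X]) : ℂ := ∑ c : Kˣ, (θ c : ℂ) * am (c : K) P

theorem br_gen {V : Type*} [AddCommGroup V] [Module F V] [FiniteDimensional F V] {H : Type*}
    [Group H] [Finite H] (ρ : H →* End F V)
    (hH : Nat.card H ∣ Fintype.card K * (Fintype.card K - 1)) (θ : Kˣ →* ℂˣ) :
    IsGeneralizedCharacter H (fun h => br θ (ρ h).charpoly) := by
  set Q := Fintype.card K with hQ
  have hQ1 : 1 < Q := Fintype.one_lt_card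
  refine brauer_characterization_nilpotent (fun g x => ?_) fun E hE => ?_
  · refine congrArg (br θ) (charpoly_eq_of_bij (ρ x) ?_ fun v => ?_).symm
    · exact (End.isUnit_iff _).1 ((Group.isUnit x).map ρ)
    · rw [← End.mul_apply, ← End.mul_apply, ← map_mul, ← map_mul, inv_mul_cancel_right]
  have hE1 : Nat.card E ∣ Q * (Q - 1) := (Subgroup.card_subgroup_dvd_card _).trans hH
  let π : E →* E := MonoidHom.mk' (fun g => g ^ Q) (pow_hom (by omega) hE1)
  have hpow : ∀ g : E, g ^ (Q * (Q - 1)) = 1 := fun g =>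
    orderOf_dvd_iff_pow_eq_one.1 ((orderOf_dvd_natCard g).trans hE1)
  have hE2 : Nat.card π.range ∣ Q - 1 := by
    refine Nat.Coprime.dvd_of_dvd_mul_left ?_ ((Subgroup.card_subgroup_dvd_card _).trans hE1)
    by_contra hc
    obtain ⟨l, hl, h1, h2⟩ := Nat.Prime.not_coprime_iff_dvd.1 hc
    haveI := Fact.mk hl
    obtain ⟨⟨_, g, rfl⟩, hx⟩ := exists_prime_orderOf_dvd_card' l h1
    have h3 : l ∣ Q - 1 := by
      rw [← hx, orderOf_dvd_iff_pow_eq_one]
      apply Subtype.ext
      show (g ^ Q) ^ (Q - 1) = 1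
      rw [← pow_mul, hpow]
    have h4 := Nat.dvd_sub h2 h3
    rw [Nat.sub_sub_self hQ1.le] at h4
    exact hl.one_lt.ne' (Nat.dvd_one.1 h4)
  let σ : H →* End K (TensorProduct F K V) := (End.baseChangeHom F K V : _ →* _).comp ρ
  haveI : Finite (TensorProduct F K V) := Module.finite_of_finite K
  have h1 := (brauer_coprime (σ.comp (E.subtype.comp π.range.subtype)) hE2 θ).comp π.rangeRestrict
  convert h1 using 2 with g
  refine Finset.sum_congr rfl fun c _ => ?_
  congr 1
  have h2 : σ g ^ (Q * Q) = σ g ^ Q := by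
    have h3 : Q * Q = Q * (Q - 1) + Q := by
      obtain ⟨m, hm⟩ := Nat.exists_eq_add_of_le' hQ1.le
      rw [hm]; simp; ring
    have h4 : (g : H) ^ (Q * (Q - 1)) = 1 := by
      rw [← Subgroup.coe_pow, hpow, Subgroup.coe_one]
    rw [← map_pow, ← map_pow, h3, pow_add, h4, one_mul]
  rw [am, ← LinearMap.charpoly_baseChange, ← LinearMap.finrank_maxGenEigenspace_eq]
  have h5 := maxGen_eq (σ g) h2 (c : K)
  rw [← map_pow] at h5
  exact congrArg (fun W : Submodule K (TensorProduct F K V) => (finrank K W : ℂ)) h5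

end Cfsg.Agent.H16.Cu
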