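import Cfsg.Agent.H16.Cu5

/-!
# Cuspidal characters of `GL_n(q)`, part 6: `d` of the Brauer lift is a generalized character
-/

namespace Cfsg.Agent.H16.Cu

open Polynomial Module Cfsg H05 MulAction
open scoped ComplexConjugate

open Classical in
theorem orbit_sum {H Ω : Type*} [Group H] [Finite H] [Fintype Ω] [MulAction H Ω] (f : H → Ω → ℂ)
    (hf : ∀ x h ω, h • ω = ω → f (x * h * x⁻¹) (x • ω) = f h ω)
    (hg : ∀ ω, IsGeneralizedCharacter (stabilizer H ω) (fun h => f h ω)) :
    IsGeneralizedCharacter H (fun h => ∑ ω, if h • ω = ω then f h ω else 0) := by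
  haveI := Fintype.ofFinite H
  have h0 : ∀ (x h : H) (ω : Ω), (if (x * h * x⁻¹) • x • ω = x • ω then f (x * h * x⁻¹) (x • ω)
      else 0) = if h • ω = ω then f h ω else 0 := by
    intro x h ω
    have : (x * h * x⁻¹) • x • ω = x • ω ↔ h • ω = ω := by
      rw [mul_smul, inv_smul_smul, mul_smul, smul_left_cancel_iff]
    simp only [this]
    split_ifs with h1
    · exact hf x h ω h1
    · rfl
  refine isGeneralizedCharacter_of_classInner (fun g x => ?_) fun ψ hψ => ?_
  · rw [← Equiv.sum_comp (MulAction.toPerm x)]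
    exact Finset.sum_congr rfl fun ω _ => h0 x g ω
  let c : Ω → ℂ := fun ω => ∑ h, (if h • ω = ω then f h ω else 0) * conj (ψ h)
  have h1 : ∀ (x : H) ω, c (x • ω) = c ω := by
    intro x ω
    simp only [c]
    rw [← Equiv.sum_comp (MulAut.conj x).toEquiv]
    refine Finset.sum_congr rfl fun h _ => ?_
    have := hψ.isClassFunction h x
    simp only [MulEquiv.toEquiv_eq_coe, EquivLike.coe_coe, MulAut.conj_apply, this]
    exact congrArg (· * conj (ψ h)) (h0 x h ω)
  have h2 : ∀ ω, ∃ n : ℤ, c ω = Nat.card (stabilizer H ω) * n := by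
    intro ω
    obtain ⟨n, hn⟩ := (hg ω).exists_classInner_eq_int
      (hψ.isCharacter.restrict (stabilizer H ω)).isGeneralizedCharacter
    refine ⟨n, ?_⟩
    rw [← hn, card_mul_classInner]
    simp only [c, ite_mul, zero_mul]
    rw [← Finset.sum_filter]
    exact Finset.sum_subtype _ (fun h => by simp) _
  choose n hn using h2
  refine ⟨∑ q : orbitRel.Quotient H Ω, n q.out, ?_⟩
  apply mul_left_cancel₀ (card_ne_zero_complex (G := H))
  rw [card_mul_classInner]
  simp only [Finset.sum_mul]
  rw [Finset.sum_comm, ← Finset.sum_fiberwise (g := Quotient.mk (orbitRel H Ω))]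
  push_cast
  rw [Finset.mul_sum]
  refine Finset.sum_congr rfl fun q _ => ?_
  have h3 : ∀ ω, Quotient.mk (orbitRel H Ω) ω = q ↔ ω ∈ orbit H q.out := fun ω => by
    rw [← orbitRel_apply, ← Quotient.eq (r := orbitRel H Ω), Quotient.out_eq]
  rw [Finset.sum_congr rfl (g := fun _ => c q.out) fun ω hω => by
    obtain ⟨x, rfl⟩ := (h3 ω).1 (Finset.mem_filter.1 hω).2
    exact h1 x _, Finset.sum_const, nsmul_eq_mul, hn, ← mul_assoc, ← Nat.cast_mul,
    ← (stabilizer H q.out).index_mul_card, index_stabilizer]
  congr 3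
  rw [← Set.ncard_coe_finset]
  congr 1
  ext ω
  simp [h3]

variable {K : Type*} [Field K] [Fintype K] [DecidableEq K] {F : Type*} [Field F] [Algebra F K]

universe u

theorem d_gen {V : Type*} [AddCommGroup V] [Module F V] [Finite V] (θ : Kˣ →* ℂˣ)
    (W : Submodule F V) : ∀ (H : Type u) [Group H] [Finite H] (ρ : H →* End F V),
      Nat.card H ∣ Fintype.card K * (Fintype.card K - 1) → (∀ h, Inv (ρ h) W) →
      IsGeneralizedCharacter H (fun h => d (br θ) (ρ h) W) := by
  classical
  induction W using ind with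
  | h W ih =>
  intro H _ _ ρ hH hW
  let ρ' : H →* End F W :=
    { toFun := fun h => (ρ h).restrict (hW h)
      map_one' := by ext; simp
      map_mul' := fun x y => by
        ext v
        exact LinearMap.congr_fun (map_mul ρ x y) v.1 }
  letI : MulAction H (Submodule F V) :=
    { smul := fun h Y => Y.map (ρ h)
      one_smul := fun Y => by
        show Y.map (ρ 1) = Y
        rw [map_one]; exact Y.map_id
      mul_smul := fun x y Y => by
        show Y.map (ρ (x * y)) = (Y.map (ρ y)).map (ρ x)
        rw [map_mul, ← Submodule.map_comp]; rfl }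
  have hinj : ∀ h, Function.Injective (ρ h) := fun h =>
    ((End.isUnit_iff _).1 ((Group.isUnit h).map ρ)).1
  have hfix : ∀ (h : H) (Y : Submodule F V), h • Y = Y ↔ Inv (ρ h) Y := by
    intro h Y
    constructor
    · intro e x hx
      rw [← e]; exact ⟨x, hx, rfl⟩
    · intro e
      refine Submodule.eq_of_le_of_finrank_eq ?_
        (Submodule.equivMapOfInjective _ (hinj h) Y).finrank_eq.symm
      rintro _ ⟨x, hx, rfl⟩
      exact e x hx
  have hlt : ∀ (h : H) (Y : Submodule F V), Y < W → h • Y < W := by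
    intro h Y hY
    rw [← (hfix h W).2 (hW h)]
    exact lt_of_le_of_ne (Submodule.map_mono hY.le) fun e => hY.ne (MulAction.injective h e)
  have h1 := orbit_sum (H := H) (fun h (Y : Submodule F V) =>
    if Y < W then d (br θ) (ρ h) Y else 0) (fun x h Y hY => by
      have : x • Y < W ↔ Y < W := ⟨fun e => by simpa using hlt x⁻¹ _ e, hlt x Y⟩
      simp only [this]
      split_ifs
      · refine (d_map _ (j := ρ x) Y ((hfix h Y).1 hY) (fun v _ => ?_) ?_).symm
        · rw [← End.mul_apply, ← End.mul_apply, ← map_mul, ← map_mul, inv_mul_cancel_right]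
        · rw [LinearMap.ker_eq_bot.2 (hinj x), inf_bot_eq]
      · rfl) (fun Y => by
      split_ifs with hY
      · exact ih Y hY (stabilizer H Y) (ρ.comp (stabilizer H Y).subtype)
          ((Subgroup.card_subgroup_dvd_card _).trans hH) fun h => (hfix h.1 Y).1 h.2
      · exact isGeneralizedCharacter_zero)
  convert (br_gen ρ' hH θ).sub h1 using 2 with h
  rw [d_eq, cp_eq (hW h), Pi.sub_apply]
  congr 1
  refine Finset.sum_congr rfl fun Y _ => ?_
  simp only [hfix]
  by_cases h2 : Y < W <;> by_cases h3 : Inv (ρ h) Y <;> simp [h2, h3]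

end Cfsg.Agent.H16.Cu
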