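import Cfsg.Agent.H16.Cu6

/-!
# Cuspidal characters of `GL_n(q)`, part 7: inner products
-/

namespace Cfsg.Agent.H16.Cu

open Polynomial Module Cfsg H05
open scoped ComplexConjugate

variable {K : Type*} [Field K] [Fintype K] [DecidableEq K] {F : Type*} [Field F] [Algebra F K]

omit [Fintype K] [DecidableEq K] in
theorem addv_am (c : K) : Addv (F := F) (am c) where
  one := by
    rw [am, Polynomial.map_one, rootMultiplicity_eq_zero (by simp), Nat.cast_zero]
  mul := fun P Q hP hQ => by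
    rw [am, am, am, Polynomial.map_mul, rootMultiplicity_mul
      ((hP.map _).mul (hQ.map _)).ne_zero, Nat.cast_add]

theorem addv_br (θ : Kˣ →* ℂˣ) : Addv (F := F) (br θ) where
  one := by simp [br, (addv_am _).one]
  mul := fun P Q hP hQ => by
    simp only [br, (addv_am _).mul P Q hP hQ, mul_add, Finset.sum_add_distrib]

theorem br_of_map (θ : Kˣ →* ℂˣ) {ι : Type*} (s : Finset ι) (a : ι → Kˣ) {P : F[X]}
    (h : P.map (algebraMap F K) = ∏ j ∈ s, (X - C (a j : K))) : br θ P = ∑ j ∈ s, (θ (a j) : ℂ) := by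
  classical
  simp only [br, am, h]
  clear h
  induction s using Finset.induction_on with
  | empty => simp [rootMultiplicity_eq_zero]
  | insert i s hi ih =>
    rw [Finset.prod_insert hi, Finset.sum_insert hi, ← ih]
    have h1 : (X - C (a i : K)) * ∏ j ∈ s, (X - C (a j : K)) ≠ 0 :=
      ((monic_X_sub_C _).mul (monic_prod_X_sub_C _ _)).ne_zero
    simp [rootMultiplicity_mul h1, rootMultiplicity_X_sub_C, mul_add, Finset.sum_add_distrib,
      Units.val_inj]

variable [Fintype F]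

omit [DecidableEq K] in
theorem integ (c : K) : IsIntegral F c := Algebra.IsIntegral.isIntegral c

omit [DecidableEq K] in
theorem mult_am (c : K) : Mult (minpoly F c) (am c) where
  addv := addv_am c
  zero := fun P _ h => by
    rw [am, rootMultiplicity_eq_zero, Nat.cast_zero]
    rwa [IsRoot.def, eval_map_algebraMap, ← minpoly.dvd_iff]
  one := by
    have h1 := rootMultiplicity_le_one_of_separable
      ((PerfectField.separable_of_irreducible (minpoly.irreducible (integ (F := F) c))).map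
        (f := algebraMap F K)) c
    have h2 : 0 < ((minpoly F c).map (algebraMap F K)).rootMultiplicity c :=
      (rootMultiplicity_pos ((minpoly.monic (integ c)).map _).ne_zero).2
        (by rw [IsRoot.def, eval_map_algebraMap, minpoly.aeval])
    rw [am, le_antisymm h1 h2, Nat.cast_one]

omit [DecidableEq K] in
theorem deg_dvd_iff (c : K) (k : ℕ) :
    (minpoly F c).natDegree ∣ k ↔ c ^ Fintype.card F ^ k = c := by
  rw [(minpoly.irreducible (integ c)).natDegree_dvd_iff_dvd_X_pow_card_pow_sub_X,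
    minpoly.dvd_iff, Nat.card_eq_fintype_card]
  simp [sub_eq_zero]

omit [DecidableEq K] in
theorem map_minpoly (c : K) : (minpoly F c).map (algebraMap F K) =
    ∏ j ∈ Finset.range (minpoly F c).natDegree, (X - C (c ^ Fintype.card F ^ j)) := by
  set q := Fintype.card F
  set f := minpoly F c with hf
  have hφ : ∀ x : K, FiniteField.frobeniusAlgHom F K x = x ^ q := fun _ => rfl
  have inj : ∀ (i : ℕ) (x y : K), x ^ q ^ i = y ^ q ^ i → x = y := by
    intro i
    induction i with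
    | zero => simp
    | succ i ih =>
      intro x y h
      rw [pow_succ, pow_mul, pow_mul, ← hφ, ← hφ] at h
      exact ih x y ((FiniteField.frobeniusAlgHom F K).injective h)
  have root : ∀ j : ℕ, aeval (c ^ q ^ j) f = 0 := by
    intro j
    induction j with
    | zero => simp [hf]
    | succ j ih => rw [pow_succ, pow_mul, ← hφ, aeval_algHom_apply, ih, map_zero]
  have h1 : ∀ i j, i < j → j < f.natDegree → c ^ q ^ i ≠ c ^ q ^ j := by
    intro i j hij hj h
    obtain ⟨k, rfl⟩ := Nat.exists_eq_add_of_lt hij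
    rw [add_assoc, add_comm i, pow_add, pow_mul] at h
    have := Nat.le_of_dvd (by omega) ((deg_dvd_iff (F := F) c (k + 1)).2 (inj i _ _ h).symm)
    rw [← hf] at this
    omega
  have h2 : Function.Injective fun j : Fin f.natDegree => c ^ q ^ (j : ℕ) := by
    intro i j h
    rcases lt_trichotomy i j with h3 | h3 | h3
    · exact absurd h (h1 _ _ h3 j.2)
    · exact h3
    · exact absurd h.symm (h1 _ _ h3 i.2)
  rw [← Fin.prod_univ_eq_prod_range (fun j => X - C (c ^ q ^ j))]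
  refine eq_of_monic_of_dvd_of_natDegree_le (monic_prod_X_sub_C _ _)
    ((minpoly.monic (integ c)).map _) ?_ ?_
  · refine Finset.prod_dvd_of_coprime (fun i _ j _ h => pairwise_coprime_X_sub_C h2 h)
      fun j _ => dvd_iff_isRoot.2 ?_
    rw [IsRoot.def, eval_map_algebraMap, root]
  · rw [natDegree_finsetProd_X_sub_C_eq_card, natDegree_map]; simp

theorem br_minpoly_pow (θ : Kˣ →* ℂˣ) (c : Kˣ) (m : ℕ) : br θ (minpoly F (c : K) ^ m) =
    ∑ j ∈ Finset.range ((minpoly F (c : K)).natDegree * m), (θ (c ^ Fintype.card F ^ j) : ℂ) := by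
  rw [(addv_br θ).pow (minpoly.monic (integ _)), br_of_map θ _ (fun j => c ^ Fintype.card F ^ j)
    (by simpa using map_minpoly (F := F) (c : K))]
  induction m with
  | zero => simp
  | succ m ih =>
    have h1 : c ^ Fintype.card F ^ ((minpoly F (c : K)).natDegree * m) = c :=
      Units.ext (by simpa using (deg_dvd_iff (F := F) (c : K) _).1 (dvd_mul_right _ m))
    rw [Nat.mul_succ, Finset.sum_range_add, ← ih]
    simp only [pow_add, pow_mul c, h1]
    push_cast
    ring

variable {V : Type*} [AddCommGroup V] [Module F V] [Finite V]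

omit [Fintype F] in
theorem d_br (θ : Kˣ →* ℂˣ) (g : End F V) (W : Submodule F V) :
    d (br θ) g W = ∑ c : Kˣ, (θ c : ℂ) * d (am (c : K)) g W :=
  d_sum Finset.univ (fun c : Kˣ => (θ c : ℂ)) (fun c => am (c : K)) g W

omit [DecidableEq K] in
theorem nilp_am {c : K} {g : End F V} (h : d (am c) g ⊤ ≠ 0) :
    IsNilpotent (aeval g (minpoly F c)) :=
  nilp_of_d_ne (addv_am c) (minpoly.irreducible (integ c)) (mult_am c).zero h

theorem isUnit_of_d_ne {θ : Kˣ →* ℂˣ} {g : End F V} (h : d (br θ) g ⊤ ≠ 0) : IsUnit g := by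
  rw [d_br] at h
  obtain ⟨c, -, hc⟩ := Finset.exists_ne_zero_of_sum_ne_zero h
  obtain ⟨N, hN⟩ := nilp_am (right_ne_zero_of_mul hc)
  rw [LinearMap.isUnit_iff_ker_eq_bot, eq_bot_iff]
  intro x hx
  have h1 := End.aeval_apply_of_mem_apply_eq_smul (f := g) (p := minpoly F (c : K) ^ N) (μ := 0)
    (x := x) (by rw [zero_smul]; exact hx)
  rw [map_pow, hN, eval_pow, ← coeff_zero_eq_eval_zero] at h1
  exact (smul_eq_zero.1 h1.symm).resolve_left
    (pow_ne_zero _ (minpoly.coeff_zero_ne_zero (integ _) c.ne_zero))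

omit [Fintype F] in
theorem inner_red {a a' : F[X] → ℂ} (ha : Addv a) (ha' : a' 1 = 0) :
    ∑ g : End F V, d a g ⊤ * conj (d a' g ⊤) = ∑ g : End F V, d a g ⊤ * conj (a' g.charpoly) := by
  classical
  have h1 : ∀ Y : Submodule F V,
      ∑ g : End F V, d a g ⊤ * conj (if Y < ⊤ ∧ Inv g Y then d a' g Y else 0) = 0 := by
    intro Y
    by_cases hY : Y = ⊥
    · simp [hY, d_bot ha']
    by_cases hY' : Y = ⊤
    · simp [hY']
    refine sum_eq_zero_top (Phi Y Y)
      (fun g => d a g ⊤ * conj (if Y < ⊤ ∧ Inv g Y then d a' g Y else 0)) fun g => ?_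
    have h2 : ∀ φ : Phi Y Y, ∀ x ∈ Y, g x = (g + φ.1) x := fun φ x hx => by
      rw [LinearMap.add_apply, φ.2.2 x hx, add_zero]
    have h3 : ∀ φ : Phi Y Y, Inv (g + φ.1) Y ↔ Inv g Y := fun φ =>
      forall₂_congr fun x hx => by rw [h2 φ x hx]
    simp only [h3]
    split_ifs with h4
    · simp only [fun φ => (d_congr a' h4.2 (h2 φ)).symm]
      rw [← Finset.sum_mul, cusp ha h4.2 hY hY', zero_mul]
    · simp
  simp only [d_eq a' _ ⊤, cp_top, map_sub, mul_sub, Finset.sum_sub_distrib, map_sum,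
    Finset.mul_sum]
  rw [Finset.sum_comm]
  simp only [h1, Finset.sum_const_zero, sub_zero]

theorem inner_br (θ θ' : Kˣ →* ℂˣ) (hV : 0 < finrank F V) :
    ((Fintype.card F : ℂ) ^ finrank F V - 1) *
      ∑ g : End F V, d (br θ) g ⊤ * conj (d (br θ') g ⊤) =
    Nat.card (End F V)ˣ * ∑ c : Kˣ, if c ^ Fintype.card F ^ finrank F V = c then
      ∑ j ∈ Finset.range (finrank F V), (θ c : ℂ) * conj (θ' (c ^ Fintype.card F ^ j) : ℂ)
      else 0 := by
  rw [inner_red (addv_br θ) (addv_br θ').one]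
  simp only [d_br θ, Finset.sum_mul]
  rw [Finset.sum_comm, Finset.mul_sum, Finset.mul_sum]
  refine Finset.sum_congr rfl fun c _ => ?_
  have hi := minpoly.irreducible (integ (F := F) (c : K))
  have hm := minpoly.monic (integ (F := F) (c : K))
  have h1 : ∀ g : End F V, d (am (c : K)) g ⊤ ≠ 0 → ∃ m, g.charpoly = minpoly F (c : K) ^ m ∧
      finrank F V = (minpoly F (c : K)).natDegree * m := by
    intro g hg
    obtain ⟨m, h⟩ := charpoly_eq_pow hi hm (nilp_am hg)
    exact ⟨m, h, by rw [← g.charpoly_natDegree, h, hm.natDegree_pow, mul_comm]⟩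
  split_ifs with hc
  · obtain ⟨m, h2⟩ := (deg_dvd_iff (F := F) (c : K) (finrank F V)).2
      (by simpa using congrArg Units.val hc)
    have h3 := sum_d_end hi hm (mult_am (c : K)) h2 (Nat.pos_of_mul_pos_left (h2 ▸ hV))
    rw [← h3, ← Finset.mul_sum, ← map_sum, mul_assoc, Finset.sum_mul]
    congr 1
    refine Finset.sum_congr rfl fun g _ => ?_
    by_cases hg : d (am (c : K)) g ⊤ = 0
    · simp [hg]
    obtain ⟨k, h4, h5⟩ := h1 g hg
    rw [h4, br_minpoly_pow, ← h5]
    ring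
  · rw [mul_zero, Finset.sum_eq_zero, mul_zero]
    intro g _
    by_cases hg : d (am (c : K)) g ⊤ = 0
    · simp [hg]
    obtain ⟨k, -, h5⟩ := h1 g hg
    exact absurd (Units.ext (by simpa using (deg_dvd_iff (F := F) (c : K) _).1 ⟨k, h5⟩)) hc

omit [Fintype F] in
theorem char_sum {θ : Kˣ →* ℂˣ} (hθ : Function.Injective θ) {M : ℕ} (hM : M ∣ Fintype.card K - 1)
    (k l r : ℕ) :
    (∑ c : Kˣ, if c ^ M = 1 then ((θ ^ k) c : ℂ) * conj ((θ ^ l) (c ^ r) : ℂ) else 0) =
      if k ≡ r * l [MOD M] then M else 0 := by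
  classical
  obtain ⟨γ, hγ⟩ := isCyclic_iff_exists_orderOf_eq_natCard.1 (inferInstance : IsCyclic Kˣ)
  rw [Nat.card_eq_fintype_card, Fintype.card_units] at hγ
  have h0 : Fintype.card K - 1 ≠ 0 := by have := Fintype.one_lt_card (α := K); omega
  have hζ : orderOf (γ ^ (orderOf γ / M)) = M := orderOf_pow_orderOf_div (hγ ▸ h0) (hγ ▸ hM)
  set ζ := γ ^ (orderOf γ / M)
  haveI : NeZero M := ⟨fun h => h0 (Nat.eq_zero_of_zero_dvd (h ▸ hM))⟩
  have hζ' : IsPrimitiveRoot ζ M := hζ ▸ IsPrimitiveRoot.orderOf ζ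
  let χ : rootsOfUnity M K →* ℂ := (Units.coeHom ℂ).comp
    ((θ ^ k * (θ ^ (r * l))⁻¹).comp (rootsOfUnity M K).subtype)
  have h1 : ∀ c : Kˣ, ((θ ^ k) c : ℂ) * conj ((θ ^ l) (c ^ r) : ℂ) =
      ((θ ^ k * (θ ^ (r * l))⁻¹ : Kˣ →* ℂˣ) c : ℂ) := by
    intro c
    rw [← (isCharacter_monoidHom (θ ^ l)).apply_inv]
    simp [pow_mul]
  haveI := Fintype.ofFinite (rootsOfUnity M K)
  simp only [h1]
  rw [← Finset.sum_filter, Finset.sum_subtype (p := fun c => c ∈ rootsOfUnity M K) _
    (fun c => by simp [mem_rootsOfUnity])]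
  refine (sum_hom_units χ).trans ?_
  rw [← Nat.card_eq_fintype_card, hζ'.card_rootsOfUnity']
  have h2 : ∀ c : rootsOfUnity M K, χ c = 1 ↔ c.1 ^ k = c.1 ^ (r * l) := by
    intro c
    rw [← hθ.eq_iff, map_pow, map_pow, ← mul_inv_eq_one (a := θ c.1 ^ k), ← Units.val_eq_one]
    rfl
  congr 1
  refine if_congr ⟨fun h => ?_, fun h => ?_⟩ rfl rfl
  · have := (h2 ⟨ζ, hζ'.pow_eq_one⟩).1 (by rw [h]; rfl)
    rwa [pow_eq_pow_iff_modEq, hζ] at this
  · ext c
    refine (h2 c).2 (pow_eq_pow_iff_modEq.2 (h.of_dvd ?_))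
    exact orderOf_dvd_of_pow_eq_one c.2

theorem inner_pow {θ : Kˣ →* ℂˣ} (hθ : Function.Injective θ) (hV : 0 < finrank F V)
    (hM : Fintype.card F ^ finrank F V - 1 ∣ Fintype.card K - 1) (k l : ℕ) :
    ∑ g : End F V, d (br (θ ^ k)) g ⊤ * conj (d (br (θ ^ l)) g ⊤) =
    Nat.card (End F V)ˣ * (((Finset.range (finrank F V)).filter fun j =>
      k ≡ Fintype.card F ^ j * l [MOD Fintype.card F ^ finrank F V - 1]).card : ℂ) := by
  set q := Fintype.card F
  set n := finrank F V
  have h1 : 1 < q ^ n := Nat.one_lt_pow hV.ne' Fintype.one_lt_card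
  have h2 : (q : ℂ) ^ n - 1 = (q ^ n - 1 : ℕ) := by rw [Nat.cast_sub h1.le]; simp
  have h3 : (q : ℂ) ^ n - 1 ≠ 0 := by rw [h2]; exact_mod_cast (by omega)
  apply mul_left_cancel₀ h3
  rw [inner_br _ _ hV, mul_left_comm]
  congr 1
  have h4 : ∀ c : Kˣ, c ^ q ^ n = c ↔ c ^ (q ^ n - 1) = 1 := fun c => by
    conv_lhs => rw [← Nat.sub_add_cancel h1.le, pow_succ, mul_eq_right]
  have h5 : ∀ c : Kˣ, (if c ^ q ^ n = c then ∑ j ∈ Finset.range n,
      ((θ ^ k) c : ℂ) * conj ((θ ^ l) (c ^ q ^ j) : ℂ) else 0) = ∑ j ∈ Finset.range n,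
      if c ^ (q ^ n - 1) = 1 then ((θ ^ k) c : ℂ) * conj ((θ ^ l) (c ^ q ^ j) : ℂ) else 0 := by
    intro c
    simp only [h4]
    split_ifs <;> simp
  rw [Finset.sum_congr rfl fun c _ => h5 c, Finset.sum_comm,
    Finset.sum_congr rfl fun j _ => char_sum hθ hM k l (q ^ j), h2, ← Nat.cast_sum,
    ← Finset.sum_filter, Finset.sum_const, smul_eq_mul, Nat.cast_mul, mul_comm]

theorem d_one (θ : Kˣ →* ℂˣ) :
    d (br θ) (1 : End F V) ⊤ = dl (Fintype.card F) (finrank F V) := by
  have := d_field (F := F) (E := F) (U := V) (l := 1) (fun x => ⟨C x, by simp⟩) (g := 1)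
    (fun u => by simp) (a := br θ) (fun Y => by
      rw [Submodule.restrictScalars_self, cp_eq (fun _ h => h)]
      have h1 : (1 : End F V).restrict (p := Y) (q := Y) (fun _ h => h) = 1 := rfl
      rw [h1, LinearMap.charpoly_one,
        br_of_map θ (Finset.range (finrank F Y)) (fun _ => 1) (by simp)]
      simp) ⊤
  rwa [Submodule.restrictScalars_self, finrank_top] at this

theorem exists_N {p s g n : ℕ} (hp : p.Prime) (hs : 0 < s) (hg : g ≠ 0) (hn : 0 < n) :
    ∃ N, 0 < N ∧ n ∣ N ∧ g ∣ (p ^ s) ^ N * ((p ^ s) ^ N - 1) := by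
  obtain ⟨a, m, hm, rfl⟩ := Nat.exists_eq_pow_mul_and_not_dvd hg p hp.ne_one
  have hm0 : 0 < m := Nat.pos_of_ne_zero (by rintro rfl; simp at hm)
  have h1 := Nat.totient_pos.2 hm0
  refine ⟨m.totient * (n * (a + 1)), by positivity, (dvd_mul_right _ _).mul_left _,
    Nat.mul_dvd_mul ?_ ?_⟩
  · rw [← pow_mul]
    refine pow_dvd_pow _ ?_
    calc a ≤ 1 * (1 * (1 * (a + 1))) := by omega
      _ ≤ _ := by gcongr <;> omega
  · have h2 := (Nat.ModEq.pow_totient (((Nat.Prime.coprime_iff_not_dvd hp).2 hm).pow_left s)).pow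
      (n * (a + 1))
    rw [one_pow, ← pow_mul] at h2
    exact (Nat.modEq_iff_dvd' (Nat.one_le_pow _ _ (pow_pos hp.pos _))).1 h2.symm

end Cfsg.Agent.H16.Cu
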