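import Cfsg.Agent.H16.Cu7

/-!
# Cuspidal characters of `GL_n(q)`, part 8: the matrix group
-/

namespace Cfsg.Agent.H16.Cu

open Polynomial Module Cfsg H05
open scoped ComplexConjugate

variable {F : Type*} [Field F] [Fintype F] [DecidableEq F] {n : ℕ}

/-- The natural representation. -/
noncomputable def rho (F : Type*) [Field F] (n : ℕ) : GL (Fin n) F →* End F (Fin n → F) :=
  (Matrix.toLinAlgEquiv' : Matrix (Fin n) (Fin n) F ≃ₐ[F] _).toMonoidHom.comp (Units.coeHom _)

theorem sum_rho (Φ : End F (Fin n → F) → ℂ) (h : ∀ g, Φ g ≠ 0 → IsUnit g) :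
    ∑ g : GL (Fin n) F, Φ (rho F n g) = ∑ g, Φ g := by
  refine Fintype.sum_of_injective (rho F n) ?_ _ _ (fun g hg => ?_) fun _ => rfl
  · exact Matrix.toLinAlgEquiv'.injective.comp Units.val_injective
  · by_contra h1
    obtain ⟨u, hu⟩ := (h g h1).map (Matrix.toLinAlgEquiv' : Matrix (Fin n) (Fin n) F ≃ₐ[F] _).symm
    refine hg ⟨u, ?_⟩
    show Matrix.toLinAlgEquiv' u.1 = g
    rw [hu, AlgEquiv.apply_symm_apply]

omit [Fintype F] [DecidableEq F] in
theorem card_units_end : Nat.card (End F (Fin n → F))ˣ = Nat.card (GL (Fin n) F) :=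
  (Nat.card_congr (Units.mapEquiv
    (Matrix.toLinAlgEquiv' : Matrix (Fin n) (Fin n) F ≃ₐ[F] _).toMulEquiv).toEquiv).symm

variable {K : Type*} [Field K] [Fintype K] [DecidableEq K] [Algebra F K]

/-- The cuspidal character attached to `θ`. -/
noncomputable def DD (F : Type*) [Field F] [Fintype F] [Algebra F K] (n : ℕ) (θ : Kˣ →* ℂˣ)
    (g : GL (Fin n) F) : ℂ := (-1) ^ (n - 1) * d (br θ) (rho F n g) ⊤

omit [DecidableEq F] in
theorem DD_one (hn : 0 < n) (θ : Kˣ →* ℂˣ) :
    DD F n θ 1 = ∏ i ∈ Finset.Ico 1 n, ((Fintype.card F : ℂ) ^ i - 1) := by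
  rw [DD, map_one, d_one, Module.finrank_fin_fun, dl, if_neg hn.ne', ← Nat.card_Ico 1 n,
    ← Finset.prod_const, ← Finset.prod_mul_distrib]
  simp

theorem DD_inner {θ : Kˣ →* ℂˣ} (hθ : Function.Injective θ) (hn : 0 < n)
    (hM : Fintype.card F ^ n - 1 ∣ Fintype.card K - 1) (k l : ℕ) :
    classInner (DD F n (θ ^ k)) (DD F n (θ ^ l)) = (((Finset.range n).filter fun j =>
      k ≡ Fintype.card F ^ j * l [MOD Fintype.card F ^ n - 1]).card : ℂ) := by
  apply mul_left_cancel₀ (card_ne_zero_complex (G := GL (Fin n) F))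
  have h1 := inner_pow (F := F) (V := Fin n → F) hθ (by rwa [Module.finrank_fin_fun])
    (by rwa [Module.finrank_fin_fun]) k l
  rw [Module.finrank_fin_fun, card_units_end] at h1
  rw [card_mul_classInner, ← h1, ← sum_rho (F := F) (n := n)
    (fun g => d (br (θ ^ k)) g ⊤ * conj (d (br (θ ^ l)) g ⊤))
    fun g hg => isUnit_of_d_ne (left_ne_zero_of_mul hg)]
  refine Finset.sum_congr rfl fun g _ => ?_
  have h2 : ((-1 : ℂ) ^ (n - 1)) * (-1) ^ (n - 1) = 1 := by rw [← mul_pow]; simp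
  simp only [DD, map_mul, map_pow, map_neg, map_one]
  linear_combination (d (br (θ ^ k)) (rho F n g) ⊤ * conj (d (br (θ ^ l)) (rho F n g) ⊤)) * h2

theorem DD_irr {θ : Kˣ →* ℂˣ} (hθ : Function.Injective θ) (hn : 0 < n)
    (hM : Fintype.card F ^ n - 1 ∣ Fintype.card K - 1)
    (hG : Nat.card (GL (Fin n) F) ∣ Fintype.card K * (Fintype.card K - 1)) {k : ℕ}
    (hk : (Fintype.card F ^ n - 1).Coprime k) : IsIrrCharacter _ (DD F n (θ ^ k)) := by
  have hq : 1 < Fintype.card F := Fintype.one_lt_card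
  have h1 : IsGeneralizedCharacter _ (DD F n (θ ^ k)) := by
    have := (d_gen (θ ^ k) ⊤ _ (rho F n) hG fun _ => Inv.top _).intCast_smul ((-1) ^ (n - 1))
    convert this using 1
    funext g
    simp [DD]
  refine h1.isIrr_of_norm_one_of_pos ?_ ?_
  · rw [DD_inner hθ hn hM, Nat.cast_eq_one, Finset.card_eq_one]
    refine ⟨0, Finset.eq_singleton_iff_unique_mem.2 ⟨by simp [hn, Nat.ModEq.refl], fun j hj => ?_⟩⟩
    obtain ⟨h2, h3⟩ := Finset.mem_filter.1 hj
    by_contra h4
    have h5 : 1 ≡ Fintype.card F ^ j [MOD Fintype.card F ^ n - 1] :=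
      Nat.ModEq.cancel_right_of_coprime hk (by rwa [one_mul])
    have h6 := Nat.one_lt_pow h4 hq
    have h7 := Nat.pow_lt_pow_right hq (Finset.mem_range.1 h2)
    have := Nat.le_of_dvd (by omega) ((Nat.modEq_iff_dvd' h6.le).1 h5)
    omega
  · rw [DD_one hn]
    have : ∏ i ∈ Finset.Ico 1 n, ((Fintype.card F : ℂ) ^ i - 1) =
        ((∏ i ∈ Finset.Ico 1 n, ((Fintype.card F : ℝ) ^ i - 1) : ℝ) : ℂ) := by push_cast; rfl
    rw [this, Complex.ofReal_re]
    refine Finset.prod_pos fun i hi => sub_pos.2 ?_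
    exact_mod_cast Nat.one_lt_pow (by have := (Finset.mem_Ico.1 hi).1; omega) hq

open Classical in
theorem DD_cusp (θ : Kˣ →* ℂˣ) {m : ℕ} (h0 : 0 < m) (h1 : m < n) :
    (∑ g : GL (Fin n) F, if (∀ i j : Fin n, ¬ (i.val < m ∧ m ≤ j.val) →
      (g : Matrix (Fin n) (Fin n) F) i j = (1 : Matrix (Fin n) (Fin n) F) i j)
      then DD F n θ g else 0) = 0 := by
  let W : Submodule F (Fin n → F) :=
    { carrier := {v | ∀ i : Fin n, m ≤ i.val → v i = 0}
      add_mem' := fun ha hb i hi => by simp [ha i hi, hb i hi]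
      zero_mem' := fun _ _ => rfl
      smul_mem' := fun c _ ha i hi => by simp [ha i hi] }
  have hs : ∀ j : Fin n, j.val < m → (Pi.single j 1 : Fin n → F) ∈ W := fun j hj i hi =>
    Pi.single_eq_of_ne (by rintro rfl; omega) _
  have hW1 : W ≠ ⊥ := fun h => by
    have := hs ⟨0, by omega⟩ h0
    rw [h, Submodule.mem_bot] at this
    simpa using congrFun this ⟨0, by omega⟩
  have hW2 : W ≠ ⊤ := fun h => by
    have : (Pi.single ⟨m, h1⟩ 1 : Fin n → F) ∈ W := h ▸ trivial
    simpa using this ⟨m, h1⟩ le_rfl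
  have h2 : ∀ g : GL (Fin n) F, (∀ i j : Fin n, ¬ (i.val < m ∧ m ≤ j.val) →
      (g : Matrix (Fin n) (Fin n) F) i j = (1 : Matrix (Fin n) (Fin n) F) i j) ↔
      rho F n g - 1 ∈ Phi W W := by
    intro g
    have h3 : ∀ x i, (rho F n g - 1) x i = ∑ j, (g.1 i j - (1 : Matrix _ _ F) i j) * x j := by
      intro x i
      show (g.1.mulVec x - x) i = ((g.1 - 1).mulVec x) i
      rw [Matrix.sub_mulVec, Matrix.one_mulVec]
    constructor
    · intro h
      refine ⟨fun x i hi => ?_, fun x hx => funext fun i => ?_⟩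
      · rw [h3]
        exact Finset.sum_eq_zero fun j _ => by rw [h i j (by omega), sub_self, zero_mul]
      · rw [h3]
        refine Finset.sum_eq_zero fun j _ => ?_
        by_cases hj : m ≤ j.val
        · rw [hx j hj, mul_zero]
        · rw [h i j (by omega), sub_self, zero_mul]
    · intro h i j hij
      have h4 : (rho F n g - 1) (Pi.single j 1) i = 0 := by
        by_cases hi : m ≤ i.val
        · exact h.1 _ i hi
        · rw [h.2 _ (hs j (by omega))]; rfl
      rw [h3, Finset.sum_eq_single j (fun b _ hb => by rw [Pi.single_eq_of_ne hb, mul_zero])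
        (by simp), Pi.single_eq_same, mul_one] at h4
      exact sub_eq_zero.1 h4
  simp only [h2, DD]
  rw [sum_rho (F := F) (n := n) (fun g => if g - 1 ∈ Phi W W then (-1) ^ (n - 1) * d (br θ) g ⊤ else 0)
    fun g hg => isUnit_of_d_ne (θ := θ) fun h => hg (by simp [h]),
    ← Fintype.sum_of_injective (fun ψ : Phi W W => 1 + ψ.1)
      ((add_right_injective _).comp Subtype.val_injective)
      (fun ψ => (-1) ^ (n - 1) * d (br θ) (1 + ψ.1) ⊤) _
      (fun g hg => if_neg fun h => hg ⟨⟨g - 1, h⟩, by simp⟩) (fun ψ => by simp),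
    ← Finset.mul_sum]
  refine mul_eq_zero_of_right _ ?_
  convert cusp (g := 1) (addv_br θ) (fun _ h => h) hW1 hW2

open Classical in
theorem main (hn : 0 < n) :
    Nat.totient (Fintype.card F ^ n - 1) / n ≤
      Nat.card {χ : Cfsg.IrrCharacter (GL (Fin n) F) //
        (χ : GL (Fin n) F → ℂ) 1 = ∏ i ∈ Finset.Ico 1 n, ((Fintype.card F : ℂ) ^ i - 1) ∧
        ∀ m : ℕ, 0 < m → m < n →
          (∑ g : GL (Fin n) F,
            if (∀ i j : Fin n, ¬ (i.val < m ∧ m ≤ j.val) →
              (g : Matrix (Fin n) (Fin n) F) i j = (1 : Matrix (Fin n) (Fin n) F) i j)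
            then (χ : GL (Fin n) F → ℂ) g else 0) = 0} := by
  obtain ⟨p, hp⟩ := CharP.exists F
  obtain ⟨s, hp', hs⟩ := FiniteField.card F p
  haveI := Fact.mk hp'
  obtain ⟨N, hN, ⟨r, hr⟩, hG⟩ := exists_N (g := Nat.card (GL (Fin n) F)) hp' s.pos
    Nat.card_pos.ne' hn
  haveI := NeZero.of_pos hN
  let K := FiniteField.Extension F p N
  letI := Fintype.ofFinite K
  have hK : Fintype.card K = Fintype.card F ^ N := by
    rw [← Nat.card_eq_fintype_card, FiniteField.natCard_extension, Nat.card_eq_fintype_card]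
  rw [← hs, ← hK] at hG
  have hM : Fintype.card F ^ n - 1 ∣ Fintype.card K - 1 := by
    rw [hK, hr, pow_mul]
    exact Nat.sub_one_dvd_pow_sub_one _ _
  haveI : NeZero (Nat.card Kˣ) := ⟨Nat.card_pos.ne'⟩
  let θ : Kˣ →* ℂˣ := (rootsOfUnity (Nat.card Kˣ) ℂ).subtype.comp
    (mulEquivOfCyclicCardEq (Complex.card_rootsOfUnity _).symm).toMonoidHom
  have hθ : Function.Injective θ := (Subgroup.subtype_injective _).comp (MulEquiv.injective _)
  set M := Fintype.card F ^ n - 1 with hMd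
  refine Nat.div_le_of_le_mul ?_
  rw [Nat.totient_eq_card_coprime]
  refine (Finset.card_le_mul_card_image (f := fun k => DD F n (θ ^ k)) _ n fun b hb => ?_).trans
    (Nat.mul_le_mul_left _ ?_)
  · obtain ⟨l, hl, rfl⟩ := Finset.mem_image.1 hb
    refine (Finset.card_le_card (t := (Finset.range n).image
      fun j => Fintype.card F ^ j * l % M) fun k hk => ?_).trans
      (Finset.card_image_le.trans (Finset.card_range n).le)
    obtain ⟨h1, h2⟩ := Finset.mem_filter.1 hk
    have h3 := DD_inner hθ hn hM k l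
    have h4 := (DD_irr hθ hn hM hG (Finset.mem_filter.1 hl).2).ne_zero
    rw [show DD F n (θ ^ k) = DD F n (θ ^ l) from h2] at h3
    obtain ⟨j, hj⟩ := Finset.card_ne_zero.1 fun h => h4 (by
      rwa [h, Nat.cast_zero, classInner_self_eq_zero] at h3)
    refine Finset.mem_image.2 ⟨j, (Finset.mem_filter.1 hj).1, ?_⟩
    rw [← Nat.mod_eq_of_lt (Finset.mem_range.1 (Finset.mem_filter.1 h1).1)]
    exact (Finset.mem_filter.1 hj).2.symm
  · rw [← Nat.card_eq_finsetCard]
    refine Nat.card_le_card_of_injective (fun b => ⟨⟨b.1, ?_⟩, ?_⟩) fun a b h =>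
      Subtype.ext (congrArg (fun x => x.1.1) h)
    · obtain ⟨l, hl, h⟩ := Finset.mem_image.1 b.2
      rw [← h]
      exact DD_irr hθ hn hM hG (Finset.mem_filter.1 hl).2
    · obtain ⟨l, hl, h⟩ := Finset.mem_image.1 b.2
      simp only [← h]
      exact ⟨DD_one hn _, fun m h0 h1 => DD_cusp _ h0 h1⟩

end Cfsg.Agent.H16.Cu
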