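import Mathlib
import Cfsg.Agent.H16.Cc3
import Cfsg.Agent.H16.Pc1

/-! Normal 2-coverings, part 1: the general frame (`Fam`, `cov`, `cov_quot`), roots of a fixed irreducible polynomial
inside `F[g]` (`exists_root`), and the groups `PSL_n` for `n = 2, 3, 4`. -/

namespace H16.Cv
open Polynomial Module Matrix H24.Sim

section frame
variable {G : Type*} [Group G]

/-- `G` is the union of the conjugates of two proper subgroups -/
def Cov (G : Type*) [Group G] : Prop :=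
  ∃ H K : Subgroup G, H ≠ ⊤ ∧ K ≠ ⊤ ∧ ∀ g : G, ∃ x : G, x * g * x⁻¹ ∈ H ∨ x * g * x⁻¹ ∈ K

/-- a conjugacy class of proper subgroups containing `Z`, given by a relation -/
structure Fam (Z : Subgroup G) {ι : Type*} (R : ι → G → Prop) : Prop where
  cen : ∀ i, ∀ z ∈ Z, R i z
  mul : ∀ i a b, R i a → R i b → R i (a * b)
  prop : ∀ i, ∃ g, ¬ R i g
  conj : ∀ i j, ∃ x, ∀ g, R i g → R j (x * g * x⁻¹)

theorem Fam.exists_sub [Finite G] {Z : Subgroup G} {ι : Type*} {R : ι → G → Prop} (h : Fam Z R) (i : ι) :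
    ∃ H : Subgroup G, H ≠ ⊤ ∧ Z ≤ H ∧ ∀ j g, R j g → ∃ x, x * g * x⁻¹ ∈ H := by
  have hp : ∀ a, R i a → ∀ n : ℕ, R i (a ^ n) := fun a ha n => by
    induction n with
    | zero => simpa using h.cen i 1 Z.one_mem
    | succ n ih => rw [pow_succ]; exact h.mul i _ _ ih ha
  refine ⟨⟨⟨⟨{g | R i g}, fun ha hb => h.mul i _ _ ha hb⟩, h.cen i 1 Z.one_mem⟩, fun {a} ha => ?_⟩, fun e => ?_,
    fun z hz => h.cen i z hz, fun j g hg => ?_⟩
  · have : a⁻¹ = a ^ (orderOf a - 1) := by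
      refine inv_eq_of_mul_eq_one_right ?_
      rw [← pow_succ', Nat.sub_add_cancel (orderOf_pos a), pow_orderOf_eq_one]
    rw [this]; exact hp a ha _
  · obtain ⟨g, hg⟩ := h.prop i
    have : g ∈ (⊤ : Subgroup G) := trivial
    rw [← e] at this
    exact hg this
  · obtain ⟨x, hx⟩ := h.conj j i
    exact ⟨x, hx g hg⟩

theorem cov_aux [Finite G] {Z : Subgroup G} {ι κ : Type*} {R : ι → G → Prop} {S : κ → G → Prop} (h1 : Fam Z R)
    (h2 : Fam Z S) (h : ∀ g, (∃ i, R i g) ∨ ∃ j, S j g) :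
    ∃ H K : Subgroup G, H ≠ ⊤ ∧ K ≠ ⊤ ∧ Z ≤ H ∧ Z ≤ K ∧ ∀ g : G, ∃ x : G, x * g * x⁻¹ ∈ H ∨ x * g * x⁻¹ ∈ K := by
  by_cases a : Nonempty ι <;> by_cases b : Nonempty κ
  · obtain ⟨H, p1, p2, p3⟩ := h1.exists_sub a.some
    obtain ⟨K, q1, q2, q3⟩ := h2.exists_sub b.some
    refine ⟨H, K, p1, q1, p2, q2, fun g => ?_⟩
    rcases h g with ⟨i, hi⟩ | ⟨j, hj⟩
    · exact (p3 i g hi).imp fun _ => .inl
    · exact (q3 j g hj).imp fun _ => .inr
  · obtain ⟨H, p1, p2, p3⟩ := h1.exists_sub a.some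
    refine ⟨H, H, p1, p1, p2, p2, fun g => ?_⟩
    rcases h g with ⟨i, hi⟩ | ⟨j, hj⟩
    · exact (p3 i g hi).imp fun _ => .inl
    · exact absurd ⟨j⟩ b
  · obtain ⟨H, p1, p2, p3⟩ := h2.exists_sub b.some
    refine ⟨H, H, p1, p1, p2, p2, fun g => ?_⟩
    rcases h g with ⟨i, hi⟩ | ⟨j, hj⟩
    · exact absurd ⟨i⟩ a
    · exact (p3 j g hj).imp fun _ => .inl
  · rcases h 1 with ⟨i, hi⟩ | ⟨j, hj⟩
    · exact absurd ⟨i⟩ a
    · exact absurd ⟨j⟩ b

theorem cov [Finite G] {ι κ : Type*} {R : ι → G → Prop} {S : κ → G → Prop} (h1 : Fam ⊥ R)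
    (h2 : Fam ⊥ S) (h : ∀ g, (∃ i, R i g) ∨ ∃ j, S j g) : Cov G := by
  obtain ⟨H, K, a, b, -, -, c⟩ := cov_aux h1 h2 h
  exact ⟨H, K, a, b, c⟩

theorem cov_quot [Finite G] {ι κ : Type*} {R : ι → G → Prop} {S : κ → G → Prop} (h1 : Fam (Subgroup.center G) R)
    (h2 : Fam (Subgroup.center G) S) (h : ∀ g, (∃ i, R i g) ∨ ∃ j, S j g) : Cov (G ⧸ Subgroup.center G) := by
  obtain ⟨H, K, a, b, c, d, e⟩ := cov_aux h1 h2 h
  have k : ∀ H : Subgroup G, H ≠ ⊤ → Subgroup.center G ≤ H → H.map (QuotientGroup.mk' (Subgroup.center G)) ≠ ⊤ := by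
    intro H h1 h2 h3
    have := congrArg (Subgroup.comap (QuotientGroup.mk' (Subgroup.center G))) h3
    rw [Subgroup.comap_map_eq_self (by rwa [QuotientGroup.ker_mk']), Subgroup.comap_top] at this
    exact h1 this
  refine ⟨_, _, k H a c, k K b d, fun g => ?_⟩
  obtain ⟨g, rfl⟩ := QuotientGroup.mk'_surjective _ g
  obtain ⟨x, hx⟩ := e g
  refine ⟨QuotientGroup.mk' _ x, ?_⟩
  rw [← map_inv, ← map_mul, ← map_mul]
  exact hx.imp (Subgroup.mem_map_of_mem _) (Subgroup.mem_map_of_mem _)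

theorem Cov.equiv {G' : Type*} [Group G'] (e : G ≃* G') (h : Cov G') : Cov G := by
  obtain ⟨H, K, a, b, c⟩ := h
  have k : ∀ H : Subgroup G', H ≠ ⊤ → H.comap (e : G →* G') ≠ ⊤ := fun H h1 h2 =>
    h1 (eq_top_iff.2 fun g _ => by
      have : e.symm g ∈ H.comap (e : G →* G') := h2 ▸ Subgroup.mem_top _
      simpa using this)
  refine ⟨_, _, k H a, k K b, fun g => ?_⟩
  obtain ⟨x, hx⟩ := c (e g)
  exact ⟨e.symm x, by simpa using hx⟩

end frame

section root
variable {F : Type*} [Field F]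

theorem exists_irred [Finite F] {d : ℕ} (hd : d ≠ 0) : ∃ f : F[X], f.Monic ∧ Irreducible f ∧ f.natDegree = d := by
  obtain ⟨p, hp⟩ := CharP.exists F
  haveI : Fact p.Prime := ⟨CharP.char_is_prime F p⟩
  haveI : NeZero d := ⟨hd⟩
  obtain ⟨a, ha⟩ := Field.exists_primitive_element_of_finite_top F (FiniteField.Extension F p d)
  have hi : IsIntegral F a := .of_finite F a
  refine ⟨minpoly F a, minpoly.monic hi, minpoly.irreducible hi, ?_⟩
  rw [← IntermediateField.adjoin.finrank hi, ha, IntermediateField.finrank_top', FiniteField.finrank_extension]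

theorem root_mod [Finite F] {f p : F[X]} (hf : Irreducible f) (hp : Irreducible p) (h : f.natDegree ∣ p.natDegree) :
    ∃ a : F[X], p ∣ f.comp a := by
  haveI := Fact.mk hf
  haveI := Fact.mk hp
  haveI := finite_adjoinRoot hp.ne_zero
  haveI : Finite (AdjoinRoot p) := Module.finite_of_finite F
  obtain ⟨ψ⟩ := FiniteField.nonempty_algHom_of_finrank_dvd (F := F) (K := AdjoinRoot f) (L := AdjoinRoot p)
    (by rwa [finrank_adjoinRoot, finrank_adjoinRoot])
  obtain ⟨a, ha⟩ := AdjoinRoot.mk_surjective (ψ (AdjoinRoot.root f))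
  refine ⟨a, AdjoinRoot.mk_eq_zero.1 ?_⟩
  rw [← AdjoinRoot.aeval_eq, aeval_comp, AdjoinRoot.aeval_eq, ha, aeval_algHom_apply, AdjoinRoot.aeval_eq,
    AdjoinRoot.mk_self, map_zero]

theorem exists_root [Finite F] {A : Type*} [Ring A] [Algebra F A] {g : A} {m f : F[X]} (hm : m ≠ 0) (h0 : aeval g m = 0)
    (hf : Irreducible f) (h : ∀ p, Irreducible p → p ∣ m → f.natDegree ∣ p.natDegree) :
    ∃ a : F[X], aeval (aeval g a) f = 0 := by
  classical
  have := Fintype.ofFinite F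
  have hs : ∀ p ∈ UniqueFactorizationMonoid.normalizedFactors m, Irreducible p ∧ p ∣ m ∧ p.Monic := fun p hp =>
    ((Polynomial.mem_normalizedFactors_iff hm).1 hp).imp_right fun h => ⟨h.2, h.1⟩
  choose a ha using fun p : (UniqueFactorizationMonoid.normalizedFactors m).toFinset =>
    root_mod hf (hs p.1 (Multiset.mem_toFinset.1 p.2)).1 (h _ (hs p.1 (Multiset.mem_toFinset.1 p.2)).1
      (hs p.1 (Multiset.mem_toFinset.1 p.2)).2.1)
  obtain ⟨b, hb⟩ := Ideal.exists_forall_sub_mem_ideal (I := fun p : (UniqueFactorizationMonoid.normalizedFactors m).toFinset =>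
    Ideal.span {p.1}) (fun p p' e => by
      have h1 := hs p.1 (Multiset.mem_toFinset.1 p.2)
      have h2 := hs p'.1 (Multiset.mem_toFinset.1 p'.2)
      exact (Ideal.isCoprime_span_singleton_iff _ _).2
        (coprime_of_ne h1.2.2 h2.2.2 h1.1 h2.1 fun e' => e (Subtype.ext e'))) a
  have h1 : ∀ p ∈ UniqueFactorizationMonoid.normalizedFactors m, p ∣ f.comp b := fun p hp => by
    have e1 := Ideal.mem_span_singleton.1 (hb ⟨p, Multiset.mem_toFinset.2 hp⟩)
    have e2 := ha ⟨p, Multiset.mem_toFinset.2 hp⟩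
    have e3 := e1.trans (sub_dvd_eval_sub b _ (f.map C))
    simp only [Polynomial.comp, eval₂_eq_eval_map] at e2 ⊢
    simpa using dvd_add e3 e2
  set N := (UniqueFactorizationMonoid.normalizedFactors m).card
  have h2 : m ∣ f.comp b ^ N := by
    refine (UniqueFactorizationMonoid.prod_normalizedFactors hm).symm.dvd.trans ?_
    have := Multiset.prod_dvd_prod_of_dvd (S := UniqueFactorizationMonoid.normalizedFactors m) id (fun _ => f.comp b) h1
    simpa using this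
  have h3 : f.comp (b ^ Fintype.card F ^ N) = f.comp b ^ Fintype.card F ^ N := by
    have := aeval_algHom_apply (FiniteField.frobeniusAlgHom F F[X] ^ N) b f
    rw [AlgHom.coe_pow, FiniteField.coe_frobeniusAlgHom, pow_iterate] at this
    simpa [comp_eq_aeval] using this
  refine ⟨b ^ Fintype.card F ^ N, ?_⟩
  rw [← aeval_comp, h3]
  obtain ⟨c, hc⟩ := h2.trans (pow_dvd_pow _ (Nat.lt_pow_self (n := N) (Fintype.one_lt_card (α := F))).le)
  rw [hc, map_mul, h0, zero_mul]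

theorem no_root {f : F[X]} (hf : Irreducible f) (hd : 2 ≤ f.natDegree) (c : F) : f.eval c ≠ 0 := fun h => by
  have := degree_eq_one_of_irreducible_of_root hf h
  rw [natDegree_eq_of_degree_eq_some (n := 1) this] at hd
  omega

variable {V : Type*} [AddCommGroup V] [Module F V]

theorem aeval_eig {s : End F V} {v : V} {c : F} (h : s v = c • v) (f : F[X]) : aeval s f v = f.eval c • v := by
  by_cases hv : v = 0
  · simp [hv]
  · exact End.aeval_apply_of_hasEigenvector ⟨End.mem_eigenspace_iff.2 h, hv⟩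

theorem iso_of_irred [FiniteDimensional F V] {s t : End F V} {f : F[X]} (hf : Irreducible f) (hs : aeval s f = 0)
    (ht : aeval t f = 0) : Iso s t :=
  Cc.iso_of_sqfree hf.squarefree hs ht fun p _ _ h => by
    obtain ⟨u, rfl⟩ := (‹Irreducible p›.associated_of_dvd hf h)
    have k : ∀ y : End F V, aeval y (p * u.1) = 0 → aeval y p = 0 := fun y hy => by
      have : p = p * u.1 * (u⁻¹).1 := by simp
      rw [this, map_mul, hy, zero_mul]
    rw [(kd_eq_finrank_iff _ _).2 (k _ hs), (kd_eq_finrank_iff _ _).2 (k _ ht)]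

/-- an endomorphism without eigenvectors has no linear factor in its characteristic polynomial -/
theorem exists_eig [FiniteDimensional F V] {g : End F V} {p : F[X]} (h : p ∣ g.charpoly) (h1 : p.natDegree = 1) :
    ∃ (v : V) (c : F), v ≠ 0 ∧ g v = c • v := by
  obtain ⟨c, hc⟩ := exists_root_of_degree_eq_one ((degree_eq_iff_natDegree_eq_of_pos one_pos).2 h1)
  obtain ⟨v, hv⟩ := ((End.hasEigenvalue_iff_isRoot_charpoly g c).2 (hc.dvd h)).exists_hasEigenvector
  exact ⟨v, c, hv.2, hv.apply_eq_smul⟩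

end root

section act
variable {G F V : Type*} [Group G] [Field F] [AddCommGroup V] [Module F V] {Z : Subgroup G} (ρ : G →* End F V)
  (hZ : ∀ z ∈ Z, ∃ c : F, ρ z = c • 1)

theorem rho_inv (x : G) (v : V) : ρ x⁻¹ (ρ x v) = v := by rw [← End.mul_apply, ← map_mul, inv_mul_cancel, map_one, End.one_apply]

include hZ

theorem fam_sub (P : Submodule F V → Prop) (hp : ∀ W, P W → ∃ g, ∃ x ∈ W, ρ g x ∉ W)
    (ht : ∀ W W', P W → P W' → ∃ x, W.map (ρ x) = W') : Fam Z fun (W : Subtype P) g => ∀ x ∈ W.1, ρ g x ∈ W.1 := by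
  refine ⟨fun W z hz x hx => ?_, fun W a b ha hb x hx => ?_, fun W => ?_, fun W W' => ?_⟩
  · obtain ⟨c, hc⟩ := hZ z hz
    rw [hc]; exact W.1.smul_mem c hx
  · rw [map_mul]; exact ha _ (hb x hx)
  · simpa using hp W.1 W.2
  · obtain ⟨x, hx⟩ := ht _ _ W.2 W'.2
    refine ⟨x, fun g hg => ?_⟩
    rw [← hx]
    rintro _ ⟨y, hy, rfl⟩
    refine ⟨_, hg y hy, ?_⟩
    simp only [map_mul, End.mul_apply, rho_inv]

theorem fam_shf (C : AddSubgroup F) (P : End F V → Prop) (hp : ∀ s, P s → ∃ g, ∀ c ∈ C, ρ g * s ≠ (s + c • 1) * ρ g)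
    (ht : ∀ s t, P s → P t → ∃ x, ρ x * s = t * ρ x) :
    Fam Z fun (s : Subtype P) g => ∃ c ∈ C, ρ g * s.1 = (s.1 + c • 1) * ρ g := by
  refine ⟨fun s z hz => ?_, ?_, fun s => ?_, fun s t => ?_⟩
  · obtain ⟨c, hc⟩ := hZ z hz
    exact ⟨0, C.zero_mem, by simp [hc]⟩
  · rintro s a b ⟨c, hc, ha⟩ ⟨d, hd, hb⟩
    refine ⟨c + d, C.add_mem hc hd, ?_⟩
    rw [map_mul, mul_assoc, hb, add_mul, mul_add, ← mul_assoc, ha]
    simp [add_mul, add_smul, mul_assoc, add_assoc]
  · simpa using hp s.1 s.2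
  · obtain ⟨x, hx⟩ := ht _ _ s.2 t.2
    refine ⟨x, fun g ⟨c, hc, hg⟩ => ⟨c, hc, ?_⟩⟩
    have h1 : ρ x⁻¹ * t.1 = s.1 * ρ x⁻¹ := by
      have h2 : ρ x⁻¹ * ρ x = 1 := by rw [← map_mul, inv_mul_cancel, map_one]
      have h3 : ρ x * ρ x⁻¹ = 1 := by rw [← map_mul, mul_inv_cancel, map_one]
      calc ρ x⁻¹ * t.1 = ρ x⁻¹ * (t.1 * ρ x) * ρ x⁻¹ := by simp [mul_assoc, h3]
        _ = _ := by rw [← hx, ← mul_assoc, h2, one_mul]
    rw [map_mul, map_mul, mul_assoc, h1, ← mul_assoc, mul_assoc (ρ x), hg, ← mul_assoc, mul_add, hx]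
    simp [add_mul, mul_assoc]

end act

section SL
variable {F : Type*} [Field F] {n : ℕ}

variable (F n) in
/-- the natural module of `SL_n` -/
noncomputable def slρ : SpecialLinearGroup (Fin n) F →* End F (Fin n → F) :=
  (toLinAlgEquiv' (R := F) (n := Fin n)).toMonoidHom.comp (Cfsg.slToMat n F)

theorem slρ_eq (g : SpecialLinearGroup (Fin n) F) : slρ F n g = toLin' g.1 := rfl

theorem slρ_cen (z) (hz : z ∈ Subgroup.center (SpecialLinearGroup (Fin n) F)) : ∃ c : F, slρ F n z = c • 1 := by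
  obtain ⟨r, -, hr⟩ := Matrix.SpecialLinearGroup.mem_center_iff.1 hz
  refine ⟨r, LinearMap.ext fun v => ?_⟩
  rw [slρ_eq, toLin'_apply, show z.1 = scalar _ r from hr.symm]
  ext i; simp [mulVec_diagonal]

theorem fam_line (hn : 2 ≤ n) : Fam (Subgroup.center (SpecialLinearGroup (Fin n) F))
    fun (W : {W : Submodule F (Fin n → F) // ∃ v, v ≠ 0 ∧ W = F ∙ v}) g => ∀ x ∈ W.1, slρ F n g x ∈ W.1 := by
  have tr : ∀ v w : Fin n → F, v ≠ 0 → w ≠ 0 → ∃ g, slρ F n g v = w := fun v w hv hw => by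
    obtain ⟨g, hg⟩ := Pc.sl_trans (k := 1) (v := fun _ => v) (w := fun _ => w) (by omega)
      (linearIndependent_unique_iff.2 hv) (linearIndependent_unique_iff.2 hw)
    exact ⟨g, hg 0⟩
  refine fam_sub _ slρ_cen _ ?_ ?_
  · rintro _ ⟨v, hv, rfl⟩
    obtain ⟨w, hw⟩ : ∃ w, w ∉ F ∙ v := by
      by_contra! h
      have := finrank_span_singleton (K := F) hv
      rw [show (F ∙ v) = ⊤ from eq_top_iff.2 fun w _ => h w, finrank_top] at this
      simp at this; omega
    obtain ⟨g, hg⟩ := tr v w hv (fun e => hw (by rw [e]; exact zero_mem _))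
    exact ⟨g, v, Submodule.mem_span_singleton_self v, by rwa [hg]⟩
  · rintro _ _ ⟨v, hv, rfl⟩ ⟨w, hw, rfl⟩
    obtain ⟨x, hx⟩ := tr v w hv hw
    exact ⟨x, by rw [Submodule.map_span, Set.image_singleton, hx]⟩

theorem fam_cent [Finite F] (hn : 0 < n) {f : F[X]} (hf : Irreducible f) (hd : 2 ≤ f.natDegree) :
    Fam (Subgroup.center (SpecialLinearGroup (Fin n) F))
    fun (s : {s : End F (Fin n → F) // aeval s f = 0}) g => ∃ c ∈ (⊥ : AddSubgroup F), slρ F n g * s.1 = (s.1 + c • 1) * slρ F n g := by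
  have : Nonempty (Fin n) := ⟨⟨0, hn⟩⟩
  refine fam_shf _ slρ_cen _ _ (fun s hs => ?_) fun s t hs ht => ?_
  · obtain ⟨s, rfl⟩ := toLin'.surjective s
    by_contra! h
    obtain ⟨r, hr⟩ := mem_range_scalar_of_commute_transvectionStruct (M := s) fun t => by
      obtain ⟨c, hc, h⟩ := h ⟨t.toMatrix, by simp⟩
      rw [AddSubgroup.mem_bot.1 hc, zero_smul, add_zero] at h
      refine toLin'.injective ?_
      rw [toLin'_mul, toLin'_mul]
      exact h
    rw [aeval_toLin', map_eq_zero_iff _ toLin'.injective, ← hr, show scalar (Fin n) r = algebraMap F _ r from rfl,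
      aeval_algebraMap_apply, map_eq_zero_iff _ (FaithfulSMul.algebraMap_injective _ _)] at hs
    exact no_root hf hd r (by simpa using hs)
  · obtain ⟨s, rfl⟩ := toLin'.surjective s
    obtain ⟨t, rfl⟩ := toLin'.surjective t
    obtain ⟨k, hk⟩ := (isConj_iff_GL _ _).1 ((isConj_iff_iso _ _).2 (iso_of_irred hf hs ht))
    rw [aeval_toLin', map_eq_zero_iff _ toLin'.injective] at hs
    obtain ⟨B, hB⟩ := det_surj_of_irred (A := s) (fun p hp => by
      have h2 := (aeval_eq_zero_iff _ _).1 hs p hp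
      rcases hf.dvd_iff.1 h2 with h3 | h3
      · exact absurd (natDegree_eq_zero_of_isUnit h3) ((isTyp_typ _).natDegree_pos hp).ne'
      · exact h3.irreducible hf) k.1.det
    obtain ⟨x, hx⟩ := exists_det_one_conj k ⟨B, hB.resolve_right (by simp)⟩
    refine ⟨x, ?_⟩
    rw [slρ_eq, End.mul_eq_comp, End.mul_eq_comp, ← toLin'_mul, ← toLin'_mul, ← hk, ← hx, mul_assoc]
    congr 1
    have : (x⁻¹).1 * x.1 = 1 := congrArg Subtype.val (inv_mul_cancel x)
    exact ((congrArg _ this).trans (mul_one _)).symm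

theorem cov_psl [Finite F] {d : ℕ} (hn : 2 ≤ n) (hd : 2 ≤ d)
    (h : ∀ a b, a + b = n → 2 ≤ a → b ≠ 1 → d ∣ a) : Cov (ProjectiveSpecialLinearGroup (Fin n) F) := by
  obtain ⟨f, -, hf, rfl⟩ := exists_irred (F := F) (d := d) (by omega)
  refine cov_quot (fam_line hn) (fam_cent (by omega) hf hd) fun g => ?_
  by_cases h1 : ∃ p : F[X], p ∣ g.1.charpoly ∧ p.natDegree = 1
  · obtain ⟨p, h1, h2⟩ := h1
    obtain ⟨v, c, h3, h4⟩ := exists_eig (g := toLin' g.1) (by rwa [charpoly_toLin']) h2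
    refine .inl ⟨⟨_, v, h3, rfl⟩, fun x hx => ?_⟩
    obtain ⟨d, rfl⟩ := Submodule.mem_span_singleton.1 hx
    rw [map_smul, slρ_eq, h4, smul_smul]
    exact Submodule.smul_mem _ _ (Submodule.mem_span_singleton_self v)
  · obtain ⟨a, ha⟩ := exists_root (g := slρ F n g) g.1.charpoly_monic.ne_zero
      (by rw [slρ_eq, aeval_toLin', aeval_self_charpoly, map_zero]) hf fun p hp ⟨r, hr⟩ => by
      have h2 := congrArg natDegree hr
      have h3 := g.1.charpoly_monic.ne_zero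
      rw [hr] at h3
      rw [charpoly_natDegree_eq_dim, natDegree_mul (left_ne_zero_of_mul h3) (right_ne_zero_of_mul h3), Fintype.card_fin] at h2
      have h4 := hp.natDegree_pos
      have h5 : p.natDegree ≠ 1 := fun e => h1 ⟨p, ⟨r, hr⟩, e⟩
      exact h _ _ h2.symm (by omega) fun e => h1 ⟨r, ⟨p, by rw [hr, mul_comm]⟩, e⟩
    refine .inr ⟨⟨_, ha⟩, 0, zero_mem _, ?_⟩
    have : aeval (slρ F n g) (X * a) = aeval (slρ F n g) (a * X) := by rw [mul_comm]
    simpa using this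

theorem cov_psl2 [Finite F] : Cov (ProjectiveSpecialLinearGroup (Fin 2) F) :=
  cov_psl (d := 2) le_rfl le_rfl fun a b _ _ _ => by omega

theorem cov_psl3 [Finite F] : Cov (ProjectiveSpecialLinearGroup (Fin 3) F) :=
  cov_psl (d := 3) (by omega) (by omega) fun a b _ _ _ => by omega

theorem cov_psl4 [Finite F] : Cov (ProjectiveSpecialLinearGroup (Fin 4) F) :=
  cov_psl (d := 2) (by omega) (by omega) fun a b _ _ _ => by omega

end SL

end H16.Cv
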