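import Mathlib
import Cfsg.Agent.H16.Cv1
import Cfsg.Agent.H16.IrrCyc
import Cfsg.Agent.H10.Max

/-! Normal 2-coverings, part 2: unitary groups.  Irreducible factors of even degree give totally singular invariant
subspaces (`ts_of_even`); stabilisers of non-isotropic points and totally singular lines cover `SU_4` (`cov_su4`). -/

namespace H16.Cv
open Polynomial Module H10 H24.Sim

variable {F V : Type*} [Field F] [AddCommGroup V] [Module F V]

/-- the natural module of an isometry group -/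
def iρ (φ : Form F V) : φ.Isom →* End F V where
  toFun g := g.1
  map_one' := rfl
  map_mul' _ _ := rfl

variable {φ : Form F V}

@[simp] theorem iρ_apply (g : φ.Isom) (x : V) : iρ φ g x = g.1 x := rfl

theorem B_aeval {s t : End F V} (h : ∀ x y, φ.B x (s y) = φ.B (t x) y) (p : F[X]) (x y : V) :
    φ.B x (aeval s p y) = φ.B (aeval t (p.map φ.σ) x) y := by
  have hp : ∀ (n : ℕ) x y, φ.B x ((s ^ n) y) = φ.B ((t ^ n) x) y := fun n => by
    induction n with
    | zero => simp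
    | succ n ih => intro x y; rw [pow_succ, pow_succ', End.mul_apply, End.mul_apply, ih, h]
  induction p using Polynomial.induction_on' with
  | add p q h1 h2 => simp [h1, h2]
  | monomial n a => simp [aeval_monomial, hp, φ.B_smul_left]

theorem aeval_congr {s t : End F V} {U : Submodule F V} (hs : ∀ x ∈ U, s x ∈ U) (h : ∀ x ∈ U, s x = t x) (p : F[X]) :
    ∀ x ∈ U, aeval s p x = aeval t p x := by
  have hp : ∀ (n : ℕ), ∀ x ∈ U, (s ^ n) x = (t ^ n) x := fun n => by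
    induction n with
    | zero => simp
    | succ n ih => intro x hx; rw [pow_succ, pow_succ, End.mul_apply, End.mul_apply, ih _ (hs x hx), h x hx]
  intro x hx
  induction p using Polynomial.induction_on' with
  | add p q h1 h2 => simp [h1, h2]
  | monomial n a => simp [aeval_monomial, hp n x hx]

theorem aeval_comm (s : End F V) (p q : F[X]) (x : V) : aeval s p (aeval s q x) = aeval s q (aeval s p x) := by
  rw [← End.mul_apply, ← map_mul, mul_comm, map_mul, End.mul_apply]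

theorem odd_of_dual [Finite F] {q : ℕ} (hF : Nat.card F = q ^ 2) {σ : F →+* F} (hσ : ∀ a, σ a = a ^ q) {p : F[X]}
    [hp : Fact (Irreducible p)] (h : aeval (AdjoinRoot.root p)⁻¹ (p.map σ) = 0) : Odd p.natDegree := by
  have := finite_adjoinRoot hp.out.ne_zero
  have : Finite (AdjoinRoot p) := Module.finite_of_finite F
  have := Fintype.ofFinite F
  obtain ⟨l, k, hl, hc, rfl⟩ := exists_q_eq_pow hF
  have : Fact l.Prime := ⟨hl⟩
  have : CharP (AdjoinRoot p) l := charP_of_injective_algebraMap (algebraMap F _).injective l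
  have h1 : p.eval₂ (Algebra.ofId F (AdjoinRoot p)) ((AdjoinRoot.root p)⁻¹ ^ l ^ k) = 0 := by
    have := congrArg (iterateFrobenius (AdjoinRoot p) l k) h
    rw [aeval_def, hom_eval₂, eval₂_map, map_zero, iterateFrobenius_def] at this
    convert this using 2
    ext a
    simp only [RingHom.coe_comp, Function.comp, iterateFrobenius_def, hσ, ← map_pow, pow_q_q hF]
    rfl
  let ψ := Algebra.IsAlgebraic.algEquivEquivAlgHom F (AdjoinRoot p) |>.symm (AdjoinRoot.liftAlgHom p _ _ h1)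
  have h2 : ψ (AdjoinRoot.root p) = (AdjoinRoot.root p)⁻¹ ^ l ^ k := AdjoinRoot.liftAlgHom_root p _ _ h1
  have h3 : ψ ^ 2 = FiniteField.frobeniusAlgEquivOfAlgebraic F (AdjoinRoot p) := by
    refine AlgEquiv.coe_algHom_injective (AdjoinRoot.algHom_ext ?_)
    show ψ (ψ (AdjoinRoot.root p)) = AdjoinRoot.root p ^ Fintype.card F
    rw [h2, map_pow, map_inv₀, h2, ← inv_pow, inv_inv, ← pow_mul, ← Nat.card_eq_fintype_card, hF, sq]
  rw [← Nat.not_even_iff_odd]
  rintro ⟨e, he⟩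
  have h4 := pow_card_eq_one' (x := ψ)
  rw [IsGalois.card_aut_eq_finrank, finrank_adjoinRoot, he, ← two_mul, pow_mul, h3, ← orderOf_dvd_iff_pow_eq_one,
    FiniteField.orderOf_frobeniusAlgEquivOfAlgebraic, finrank_adjoinRoot, he] at h4
  have := hp.out.natDegree_pos
  have := Nat.le_of_dvd (by omega) h4
  omega

theorem ts_of_even {q : ℕ} (hU : φ.IsUnitary q) (g : φ.Isom) {p : F[X]} (hp : Irreducible p) (he : Even p.natDegree) :
    φ.TS (LinearMap.ker (aeval (iρ φ g) p)) := by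
  have := hU.finite
  have := Fact.mk hp
  have h2 : 2 ≤ p.natDegree := by have := hp.natDegree_pos; obtain ⟨e, he⟩ := he; omega
  obtain ⟨r, hr⟩ := AdjoinRoot.mk_surjective (AdjoinRoot.root p)⁻¹
  have h0 : AdjoinRoot.root p ≠ 0 := fun e => by
    have := natDegree_le_of_dvd (AdjoinRoot.mk_eq_zero.1 e) X_ne_zero
    rw [natDegree_X] at this; omega
  have h3 : p ∣ X * r - 1 := AdjoinRoot.mk_eq_zero.1 (by rw [map_sub, map_mul, hr, AdjoinRoot.mk_X, mul_inv_cancel₀ h0]; simp)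
  have h4 : ¬ p ∣ (p.map φ.σ).comp r := fun h => (Nat.not_odd_iff_even.2 he) (odd_of_dual hU.card hU.σ_eq (by
    rw [← hr, ← AdjoinRoot.aeval_eq, ← aeval_comp, AdjoinRoot.aeval_eq]; exact AdjoinRoot.mk_eq_zero.2 h))
  obtain ⟨a, b, hab⟩ := (hp.coprime_iff_not_dvd.2 h4)
  have inv : ∀ (c : F[X]), ∀ x ∈ LinearMap.ker (aeval (iρ φ g) p), aeval (iρ φ g) c x ∈ LinearMap.ker (aeval (iρ φ g) p) :=
    fun c x hx => by rw [LinearMap.mem_ker, aeval_comm, LinearMap.mem_ker.1 hx, map_zero]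
  refine hU.herm.ts fun x hx y hy => ?_
  have h5 : x = aeval (iρ φ g⁻¹) (p.map φ.σ) (aeval (iρ φ g) b x) := by
    rw [← aeval_congr (inv r) (fun z hz => ?_) _ _ (inv b x hx), ← aeval_comp, aeval_comm]
    · have := congrArg (fun c => aeval (iρ φ g) c x) hab
      simpa [LinearMap.mem_ker.1 hx] using this.symm
    · obtain ⟨c, hc⟩ := h3
      have := congrArg (fun c => aeval (iρ φ g) c z) hc
      simp only [map_sub, map_mul, aeval_X, map_one, LinearMap.sub_apply, End.mul_apply, End.one_apply] at this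
      rw [aeval_comm, LinearMap.mem_ker.1 hz, map_zero, sub_eq_zero] at this
      conv_rhs => rw [← this, rho_inv]
  rw [h5, ← B_aeval (s := iρ φ g) (t := iρ φ g⁻¹) (fun x y => (Form.Isom.B_symm_left g x y).symm), LinearMap.mem_ker.1 hy, map_zero]

theorem eig_of_finrank {g : End F V} {W : Submodule F V} (hW : finrank F W = 1) (h : ∀ x ∈ W, g x ∈ W) :
    ∃ w ∈ W, ∃ c : F, w ≠ 0 ∧ g w = c • w := by
  obtain ⟨w, h0, hw⟩ := finrank_eq_one_iff'.1 hW
  obtain ⟨c, hc⟩ := hw ⟨_, h _ w.2⟩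
  exact ⟨w, w.2, c, fun e => h0 (Subtype.ext e), (congrArg Subtype.val hc).symm⟩

variable [φ.Nondeg] [FiniteDimensional F V] {q : ℕ}

omit [φ.Nondeg] in
theorem tri [Nontrivial V] (hU : φ.IsUnitary q) (g : φ.Isom) : (∃ (v : V) (c : F), v ≠ 0 ∧ g.1 v = c • v) ∨
    (∃ W, φ.TS W ∧ 2 ≤ finrank F W ∧ ∀ x ∈ W, g.1 x ∈ W) ∨ ∃ f r : F[X], Irreducible f ∧ (iρ φ g).charpoly = f * r ∧
      f.natDegree + r.natDegree = finrank F V ∧ 3 ≤ f.natDegree ∧ Odd f.natDegree ∧ r.natDegree ≠ 1 := by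
  obtain ⟨f, hf, ⟨r, hr⟩, hi⟩ := exists_irred_factor_not_inj (iρ φ g) _ (iρ φ g).charpoly_monic.ne_zero (by
    rw [LinearMap.aeval_self_charpoly]
    obtain ⟨x, hx⟩ := exists_ne (0 : V)
    exact fun h => hx (h rfl))
  by_cases h1 : ∃ (v : V) (c : F), v ≠ 0 ∧ g.1 v = c • v
  · exact .inl h1
  right
  have inv : ∀ x ∈ LinearMap.ker (aeval (iρ φ g) f), g.1 x ∈ LinearMap.ker (aeval (iρ φ g) f) := fun x hx => by
    have := aeval_comm (iρ φ g) f X x
    rwa [LinearMap.mem_ker.1 hx, map_zero, aeval_X] at this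
  rcases Nat.even_or_odd f.natDegree with he | he
  · refine .inl ⟨_, ts_of_even hU g hf he, ?_, inv⟩
    have h2 : finrank F (LinearMap.ker (aeval (iρ φ g) f)) ≠ 0 := fun e =>
      hi (LinearMap.ker_eq_bot.1 (Submodule.finrank_eq_zero.1 e))
    have h3 : finrank F (LinearMap.ker (aeval (iρ φ g) f)) ≠ 1 := fun e => by
      obtain ⟨w, -, c, h⟩ := eig_of_finrank (g := iρ φ g) e inv
      exact h1 ⟨w, c, h⟩
    omega
  · have h3 := (iρ φ g).charpoly_monic.ne_zero
    have h2 := congrArg natDegree hr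
    rw [hr] at h3
    rw [LinearMap.charpoly_natDegree, natDegree_mul (left_ne_zero_of_mul h3) (right_ne_zero_of_mul h3)] at h2
    have h4 : f.natDegree ≠ 1 := fun e => h1 (exists_eig (g := iρ φ g) ⟨r, hr⟩ e)
    refine .inr ⟨f, r, hf, hr, h2.symm, ?_, he, fun e => h1 (exists_eig (g := iρ φ g) ⟨f, by rw [hr, mul_comm]⟩ e)⟩
    obtain ⟨e, he⟩ := he
    omega

omit [φ.Nondeg] [FiniteDimensional F V] in
theorem perp_inv (g : φ.Isom) {v : V} {c : F} (h : g.1 v = c • v) {x : V} (hx : φ.B v x = 0) : φ.B v (g.1 x) = 0 := by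
  by_cases hc : c = 0
  · rw [hc, zero_smul, map_eq_zero_iff _ g.1.injective] at h
    simp [h]
  · have := g.2.B v x
    rw [h, φ.B_smul_left, hx] at this
    simpa [hc] using this

theorem dim_two (hU : φ.IsUnitary q) (hn : finrank F V = 2) (g : φ.Isom) (l : F) :
    (∃ (w : V) (μ : F), w ≠ 0 ∧ φ.Q w = 0 ∧ g.1 w = μ • w) ∨ ∃ (w : V) (μ : F), φ.Q w ≠ 0 ∧ g.1 w = μ • w ∧ μ ≠ l := by
  have : Nontrivial V := nontrivial_of_finrank_pos (R := F) (by omega)
  by_contra! h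
  obtain ⟨h1, h2⟩ := h
  have key : ∀ (w : V) (μ : F), w ≠ 0 → g.1 w = μ • w → φ.Q w ≠ 0 ∧ g.1 w = l • w := fun w μ a b =>
    ⟨fun c => h1 w μ a c b, h2 w μ (fun c => h1 w μ a c b) b ▸ b⟩
  rcases tri hU g with ⟨w, μ, a, b⟩ | ⟨W, a, b, -⟩ | ⟨f, r, -, -, a, b, -⟩
  · obtain ⟨a1, a2⟩ := key w μ a b
    have h3 := Form.finrank_perp_singleton φ a
    obtain ⟨w', hw', μ', a', b'⟩ := eig_of_finrank (g := iρ φ g) (W := φ.perp (F ∙ w)) (by omega) fun x hx =>
      φ.mem_perp_singleton.2 (perp_inv g b (φ.mem_perp_singleton.1 hx))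
    obtain ⟨a1', a2'⟩ := key w' μ' a' b'
    obtain ⟨e, f, hef⟩ := hU.exists_hyp_of_two_le hn.ge
    refine h1 e l hef.e_ne_zero hef.Qe ?_
    have h4 : LinearIndependent F ![w, w'] := φ.linearIndependent_pair_of_gram (by
      rw [φ.mem_perp_singleton.1 hw', ← hU.herm.Q_eq, ← hU.herm.Q_eq]; simp [a1, a1'])
    have h5 := h4.span_eq_top_of_card_eq_finrank' (by simp [hn])
    have h6 : e ∈ Submodule.span F {w, w'} := by simpa [Matrix.range_cons, Set.pair_comm] using h5.ge (Submodule.mem_top (x := e))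
    obtain ⟨x, y, rfl⟩ := Submodule.mem_span_pair.1 h6
    rw [map_add, map_smul, map_smul, a2, a2']
    module
  · have := a.finrank_le; omega
  · omega

theorem step (hH : φ.IsHerm) (g : φ.Isom) {v f : V} (hyp : φ.IsHyp v f) {c : F} (h : g.1 v = c • v) :
    ∃ k : (φ.restrict (φ.perp (Submodule.span F {v, f}))).Isom, ∀ z : φ.perp (Submodule.span F {v, f}),
      g.1 z = (k.1 z : V) + φ.B f (g.1 z) • v := by
  have := hyp.nondegOn.perp.nondeg
  have h1 : ∀ z : φ.perp (Submodule.span F {v, f}), φ.B v (g.1 z) = 0 := fun z => perp_inv g h (φ.mem_perp_pair.1 z.2).1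
  let k : End F (φ.perp (Submodule.span F {v, f})) := LinearMap.codRestrict _
    (((g.1 : V →ₗ[F] V) - (φ.B f ∘ₗ (g.1 : V →ₗ[F] V)).smulRight v) ∘ₗ Submodule.subtype _) fun z => by
      have := hyp.proj_mem (g.1 z)
      simpa [h1, hH.ε_eq] using this
  have hk : ∀ z, (k z : V) = g.1 z - φ.B f (g.1 z) • v := fun z => rfl
  have h2 : (φ.restrict _).IsIsom k := (hH.restrict _).isIsom fun x y => by
    simp [hk, φ.B_smul_left, h1, φ.B_symm_zero (h1 _), hyp.Bee]
  refine ⟨(φ.restrict _).toIsom k, fun z => ?_⟩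
  rw [Form.toIsom_apply _ h2, hk, sub_add_cancel]

omit [φ.Nondeg] [FiniteDimensional F V] in
theorem lift_eig {g : End F V} {v w : V} {c μ a : F} (h0 : φ.Q v = 0) (h1 : φ.B v w = 0) (h : g v = c • v)
    (hw : g w = μ • w + a • v) (hμ : μ ≠ c) : ∃ u, φ.Q u = φ.Q w ∧ g u = μ • u := by
  refine ⟨(a / (μ - c)) • v + w, ?_, ?_⟩
  · rw [φ.Q_add_of_orth (by simp [φ.B_smul_left, h1]), φ.Q_smul_of_sing h0, zero_add]
  · rw [map_add, map_smul, h, hw]
    have := sub_ne_zero.2 hμ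
    match_scalars
    · field_simp; ring
    · ring

/-- the natural module of the special isometry group -/
noncomputable def sρ (φ : Form F V) : φ.SIsom →* End F V := (iρ φ).comp φ.SIsom.subtype

omit [φ.Nondeg] [FiniteDimensional F V] in
@[simp] theorem sρ_apply (g : φ.SIsom) (x : V) : sρ φ g x = g.1.1 x := rfl

theorem sρ_cen (hU : φ.IsUnitary q) (hn : 2 ≤ finrank F V) (z) (hz : z ∈ Subgroup.center φ.SIsom) :
    ∃ c : F, sρ φ z = c • 1 :=
  ((hU.mem_center_SIsom_iff hn).1 hz).imp fun _ h => LinearMap.ext h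

theorem fam_pt (hU : φ.IsUnitary q) (hn : 2 ≤ finrank F V) : Fam (Subgroup.center φ.SIsom)
    fun (W : {W : Submodule F V // ∃ u, φ.Q u = 1 ∧ W = F ∙ u}) g => ∀ x ∈ W.1, sρ φ g x ∈ W.1 := by
  have n0 : ∀ u, φ.Q u = 1 → u ≠ 0 := fun u h e => by simp [e] at h
  have tr : ∀ u u', φ.Q u = 1 → φ.Q u' = 1 → ∃ x, (F ∙ u).map (sρ φ x) = F ∙ u' := fun u u' h h' => by
    obtain ⟨k, hk⟩ := φ.witt_vec (n0 u h) (n0 u' h') (h.trans h'.symm)
    have h1 : φ.σ (φ.det k⁻¹) * φ.det k⁻¹ = 1 := φ.σ_det_mul_det _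
    have h2 : φ.Q u ≠ 0 := by simp [h]
    refine ⟨⟨k * φ.qrefl u (φ.det k⁻¹), ?_⟩, ?_⟩
    · rw [Form.SIsom, MonoidHom.mem_ker, map_mul, Units.ext_iff, Units.val_mul, φ.coe_det (φ.qrefl _ _),
        hU.herm.det_qrefl h2 h1]
      simp
    · rw [Submodule.map_span, Set.image_singleton, sρ_apply, Form.Isom.mul_apply, hU.herm.qrefl_self h2 h1, map_smul, hk,
        Submodule.span_singleton_smul_eq (Units.isUnit _)]
  refine fam_sub _ (sρ_cen hU hn) _ ?_ ?_
  · rintro _ ⟨u, hu, rfl⟩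
    have h1 : φ.B u u = 1 := by rw [← hU.herm.Q_eq, hu]
    have h2 := Form.finrank_perp_singleton φ (n0 u hu)
    obtain ⟨u', h3, h4⟩ := hU.exists_Q_eq (φ.nondegOn_singleton (v := u) (by simp [h1])).perp (fun e => by
      rw [e, finrank_bot] at h2; omega) (c := 1) (map_one _)
    obtain ⟨x, hx⟩ := tr u u' hu h4
    by_contra! h
    have h5 : u' ∈ F ∙ u := by
      obtain ⟨y, hy, e⟩ := hx.ge (Submodule.mem_span_singleton_self u')
      exact e ▸ h x y hy
    obtain ⟨c, rfl⟩ := Submodule.mem_span_singleton.1 h5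
    have := φ.mem_perp_singleton.1 h3
    rw [map_smul, h1, smul_eq_mul, mul_one] at this
    simp [this] at h4
  · rintro _ _ ⟨u, hu, rfl⟩ ⟨u', hu', rfl⟩
    exact tr u u' hu hu'

omit [φ.Nondeg] [FiniteDimensional F V] in
theorem pt_of_eig (hU : φ.IsUnitary q) (g : φ.SIsom) {u : V} {c : F} (h0 : φ.Q u ≠ 0) (h : g.1.1 u = c • u) :
    ∃ W : {W : Submodule F V // ∃ u, φ.Q u = 1 ∧ W = F ∙ u}, ∀ x ∈ W.1, sρ φ g x ∈ W.1 := by
  obtain ⟨a, ha⟩ := hU.exists_smul_Q_eq h0 (c := 1) (map_one _)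
  refine ⟨⟨_, _, ha, rfl⟩, fun x hx => ?_⟩
  obtain ⟨d, rfl⟩ := Submodule.mem_span_singleton.1 hx
  rw [sρ_apply, map_smul, map_smul, h, smul_comm a c, smul_smul]
  exact Submodule.smul_mem _ _ (Submodule.mem_span_singleton_self _)

theorem fam_ts (hU : φ.IsUnitary q) (hn : 2 ≤ finrank F V) {k : ℕ} (hk : k ≠ 0) : Fam (Subgroup.center φ.SIsom)
    fun (W : {W : Submodule F V // φ.TS W ∧ finrank F W = k}) g => ∀ x ∈ W.1, sρ φ g x ∈ W.1 := by
  have ex : ∀ W : Submodule F V, φ.TS W → finrank F W = k → ∃ e ∈ W, ∃ f, φ.IsHyp e f := fun W h1 h2 => by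
    obtain ⟨e, he, h0⟩ := W.exists_mem_ne_zero_of_ne_bot (fun e => by rw [e, finrank_bot] at h2; exact hk h2.symm)
    exact ⟨e, he, φ.exists_hyp (h1.Q e he) h0⟩
  refine fam_sub _ (sρ_cen hU hn) _ ?_ ?_
  · rintro W ⟨h1, h2⟩
    obtain ⟨e, he, f, hf⟩ := ex W h1 h2
    obtain ⟨t, h3, h4⟩ := hU.exists_skew
    refine ⟨⟨_, hU.quasi_mem_SIsom hf.Qf h4⟩, e, he, fun h => ?_⟩
    have := h1.B e he _ h
    rw [sρ_apply, φ.quasi_apply (hU.quasi_cond hf.Qf h4)] at this
    simp [hf.Bee, hf.Bef, hf.Bfe, h3, φ.ε_ne_zero] at this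
  · rintro W W' ⟨h1, h2⟩ ⟨h1', h2'⟩
    obtain ⟨x, hx⟩ := h1.exists_map h1' (h2.trans h2'.symm)
    obtain ⟨e, he, f, hf⟩ := ex W h1 h2
    obtain ⟨c, h3, h4⟩ := hU.exists_h90 (φ.σ_det_mul_det x⁻¹)
    refine ⟨⟨x * φ.rot e f c, ?_⟩, ?_⟩
    · rw [Form.SIsom, MonoidHom.mem_ker, map_mul, Units.ext_iff, Units.val_mul, φ.coe_det (φ.rot _ _ _), φ.det_rot hf h3, h4]
      simp
    · have h5 : φ.rot e f c ∈ φ.stab W := φ.mem_stab_of_le fun y hy => by
        rw [φ.rot_apply hf h3, h1.B e he y hy]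
        simpa using W.add_mem hy (W.smul_mem _ he)
      rw [← hx]
      conv_rhs => rw [← φ.mem_stab_iff_map.1 h5, ← Submodule.map_comp]
      rfl

theorem cov_su4 [Finite V] (hU : φ.IsUnitary q) (hn : finrank F V = 4) : Cov (φ.SIsom ⧸ Subgroup.center φ.SIsom) := by
  have : Nontrivial V := nontrivial_of_finrank_pos (R := F) (by omega)
  refine cov_quot (fam_pt hU (by omega)) (fam_ts hU (by omega) two_ne_zero) fun g => ?_
  rcases tri hU g.1 with ⟨v, c, a, b⟩ | ⟨W, a, b, c⟩ | ⟨f, r, -, -, a, b, ⟨e, c⟩, d⟩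
  · by_cases h0 : φ.Q v = 0
    swap
    · exact .inl (pt_of_eig hU g h0 b)
    obtain ⟨f, hf⟩ := φ.exists_hyp h0 a
    obtain ⟨k, hk⟩ := step hU.herm g.1 hf b
    have := hf.nondegOn.perp.nondeg
    have h1 := hf.finrank_perp
    rcases dim_two (hU.restrict _) (by omega) k c with ⟨w, μ, h2, h3, h4⟩ | ⟨w, μ, h2, h3, h4⟩
    · have h5 := φ.mem_perp_pair.1 w.2
      have h6 : LinearIndependent F ![v, w] := LinearIndependent.pair_iff.2 fun s t h => by
        have h7 := congrArg (φ.B f) h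
        simp only [map_add, map_smul, hf.Bfe, h5.2, smul_eq_mul, mul_zero, add_zero, map_zero, mul_eq_zero,
          φ.ε_ne_zero, or_false] at h7
        rw [h7, zero_smul, zero_add, smul_eq_zero] at h
        exact ⟨h7, h.resolve_right fun e => h2 (Subtype.ext e)⟩
      refine .inr ⟨⟨Submodule.span F {v, w.1}, ?_, Form.finrank_span_pair_of_li h6⟩, fun x hx => ?_⟩
      · rw [Submodule.span_insert]
        exact (Form.TS.singleton h0).sup (Form.TS.singleton h3) (by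
          rw [Submodule.span_singleton_le_iff_mem]; exact φ.mem_perp_singleton.2 h5.1)
      · obtain ⟨s, t, rfl⟩ := Submodule.mem_span_pair.1 hx
        refine Submodule.mem_span_pair.2 ⟨s * c + t * φ.B f (g.1.1 w), t * μ, ?_⟩
        rw [sρ_apply, map_add, map_smul, map_smul, b]
        conv_rhs => rw [hk, h4]
        simp only [Submodule.coe_smul]
        module
    · obtain ⟨u, h5, h6⟩ := lift_eig (g := iρ φ g.1) h0 (φ.mem_perp_pair.1 w.2).1 b
        ((hk w).trans (by rw [h3]; rfl)) h4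
      exact .inl (pt_of_eig hU g (h5 ▸ h2) h6)
  · have := a.finrank_le
    exact .inr ⟨⟨W, a, by omega⟩, c⟩
  · omega

end H16.Cv
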