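import Mathlib
import Cfsg.Agent.H16.Cv2
import Cfsg.Agent.H24.Adj

/-! Normal 2-coverings, part 3: characteristic 3.  Self-adjoint roots `s` of `X^3 - X - c` up to shifts `s ↦ s + t` give the
cubic field-extension subgroups; `exists_s` builds such an `s` with `g s g⁻¹ = s + 1`; the group `SU_3(3^a)` (`cov_su3`). -/

namespace H16.Cv
open Polynomial Module H10 H24.Sim H24.Adj

variable {F V : Type*} [Field F] [AddCommGroup V] [Module F V] {φ : Form F V}

theorem mul_aeval {A : Type*} [Ring A] [Algebra F A] {g D D' : A} (h : g * D = D' * g) (r : F[X]) :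
    g * aeval D r = aeval D' r * g := by
  induction r using Polynomial.induction_on' with
  | add p q h1 h2 => simp [mul_add, add_mul, h1, h2]
  | monomial n a => simp [aeval_monomial, ← Algebra.smul_def, (SemiconjBy.pow_right h n).eq]

theorem shift_rel {A : Type*} [Ring A] [Algebra F A] [Nontrivial A] (h3 : (3 : F) = 0) {g g' D : A} (hg : g * g' = 1)
    (h : g * D = (D + 1) * g) {r : F[X]} (h0 : r ≠ 0) (hr : r.natDegree ≤ 3) (e1 : aeval D r = 0) :
    ∃ e : F, D ^ 3 - D = e • 1 := by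
  have k : ∀ D D' : A, g * D = D' * g → aeval D r = 0 → aeval D' r = 0 := fun D D' h e => by
    have := mul_aeval h r
    rw [e, mul_zero] at this
    rw [← mul_one (aeval D' r), ← hg, ← mul_assoc, ← this, zero_mul]
  have e2 := k _ _ h e1
  have e3 := k (D + 1) (D + 1 + 1) (by rw [mul_add, h]; noncomm_ring) e2
  have s0 : ∀ c : F, c • (1 : A) = 0 → c = 0 := fun c hc => (smul_eq_zero.1 hc).resolve_right one_ne_zero
  have hp : r = C (r.coeff 3) * X ^ 3 + C (r.coeff 2) * X ^ 2 + C (r.coeff 1) * X + C (r.coeff 0) := by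
    conv_lhs => rw [r.as_sum_range' 4 (by omega)]
    simp [Finset.sum_range_succ, ← C_mul_X_pow_eq_monomial]; ring
  generalize r.coeff 3 = a, r.coeff 2 = b, r.coeff 1 = c, r.coeff 0 = d at hp
  subst hp
  simp only [map_add, map_mul, aeval_C, map_pow, aeval_X, Algebra.algebraMap_eq_smul_one, smul_one_mul] at e1 e2 e3
  rw [show (D + 1) ^ 3 = D ^ 3 + 3 • D ^ 2 + 3 • D + 1 by noncomm_ring, show (D + 1) ^ 2 = D ^ 2 + 2 • D + 1 by noncomm_ring] at e2
  rw [show (D + 1 + 1) ^ 3 = D ^ 3 + 6 • D ^ 2 + 12 • D + 8 • 1 by noncomm_ring,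
    show (D + 1 + 1) ^ 2 = D ^ 2 + 4 • D + 4 • 1 by noncomm_ring] at e3
  have z : ∀ x : A, (3 : F) • x = 0 := fun x => by rw [h3, zero_smul]
  have hb : b = 0 := by
    have := s0 (2 * b) (by
      linear_combination (norm := module) e3 - (2 : F) • e2 + e1 - (2 * a) • z D - (2 * a) • z 1)
    linear_combination (-1) * this + b * h3
  subst hb
  have hc : a + c = 0 := s0 _ (by linear_combination (norm := module) e2 - e1 - a • z D - a • z (D ^ 2))
  obtain rfl : c = -a := by linear_combination hc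
  have ha : a ≠ 0 := by
    rintro rfl
    have := s0 d (by linear_combination (norm := module) e1)
    simp [this] at h0
  refine ⟨-d / a, ?_⟩
  have : a • (D ^ 3 - D) = a • (-d / a) • (1 : A) := by
    rw [smul_smul, mul_div_cancel₀ _ ha]; linear_combination (norm := module) e1
  exact smul_right_injective _ ha this

theorem jac {A : Type*} [Ring A] [Algebra F A] (h3 : (3 : F) = 0) {h h' D : A} (e1 : h * h' = 1) (e2 : h' * h = 1)
    (e : h * D = (D + 1) * h) (a : F) :
    (D + a • (h + h')) ^ 3 - (D + a • (h + h')) = D ^ 3 - D + a ^ 3 • (h ^ 3 + h' ^ 3) := by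
  have z : ∀ x : A, 3 • x = 0 := fun x => by rw [← Nat.cast_smul_eq_nsmul F, Nat.cast_ofNat, h3, zero_smul]
  have a1 : D * h = h * D - h := by rw [e]; noncomm_ring
  have a2 : D * h' = h' * D + h' := by
    calc D * h' = h' * (h * D) * h' := by rw [← mul_assoc, e2, one_mul]
      _ = h' * (D + 1) * (h * h') := by rw [e]; noncomm_ring
      _ = _ := by rw [e1]; noncomm_ring
  have b1 : D * (a • (h + h')) - a • (h + h') * D = a • (h' - h) := by
    simp only [mul_smul_comm, smul_mul_assoc, mul_add, add_mul, a1, a2]; module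
  have b2 : D * (a • (h' - h)) - a • (h' - h) * D = a • (h + h') := by
    simp only [mul_smul_comm, smul_mul_assoc, mul_sub, sub_mul, a1, a2]; module
  have b3 : a • (h + h') * a • (h' - h) = a • (h' - h) * a • (h + h') := by
    simp only [mul_smul_comm, smul_mul_assoc, mul_sub, sub_mul, mul_add, add_mul, e1, e2]; module
  have b4 : (a • (h + h')) ^ 3 = a ^ 3 • (h ^ 3 + h' ^ 3) := by
    rw [_root_.smul_pow, show (h + h') ^ 3 = h ^ 3 + h' ^ 3 + (h * (h * h') + h * h' * h + h' * h * h) +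
      (h' * (h' * h) + h' * h * h' + h * h' * h') by noncomm_ring, e1, e2]
    simp only [mul_one, one_mul]
    rw [show h + h + h = 3 • h by abel, show h' + h' + h' = 3 • h' by abel, z, z, add_zero, add_zero]
  generalize a • (h + h') = y at *
  rw [show (D + y) ^ 3 = D ^ 3 + y ^ 3 + (D * (D * y - y * D) - (D * y - y * D) * D) -
    (y * (D * y - y * D) - (D * y - y * D) * y) + 3 • (D * y * D + y * D * y) by noncomm_ring, z, b1, b2, b3, b4]
  abel

theorem exists_D [FiniteDimensional F V] (h3 : (3 : F) = 0) {ι : Type*} [Fintype ι] (g : End F V) (u : ι → V)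
    (h1 : ⊤ ≤ Submodule.span F (Set.range fun p : Fin 3 × ι => (g ^ (p.1 : ℕ)) (u p.2)))
    (h2 : 3 * Fintype.card ι = finrank F V) (h : ∀ j, (g ^ 3) (u j) ∈ Submodule.span F (Set.range u)) :
    ∃ D : End F V, g * D = (D + 1) * g := by
  classical
  let b := basisOfTopLeSpanOfCardEqFinrank _ h1 (by simpa using h2)
  have hb : ∀ p, b p = (g ^ (p.1 : ℕ)) (u p.2) := fun p => by simp [b]
  let D : End F V := b.constr F fun p => (-((p.1 : ℕ) : F)) • b p
  have hD : ∀ (i : Fin 3) j, D ((g ^ (i : ℕ)) (u j)) = (-((i : ℕ) : F)) • (g ^ (i : ℕ)) (u j) := fun i j => by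
    rw [← hb (i, j)]; simp [D]
  have h0 : ∀ j, D ((g ^ 3) (u j)) = 0 := fun j => by
    have : Submodule.span F (Set.range u) ≤ LinearMap.ker D := Submodule.span_le.2 (by
      rintro _ ⟨j, rfl⟩
      simpa using hD 0 j)
    exact this (h j)
  refine ⟨D, b.ext fun ⟨i, j⟩ => ?_⟩
  rw [hb, End.mul_apply, End.mul_apply, hD, map_smul, LinearMap.add_apply, End.one_apply, ← End.mul_apply g, ← pow_succ']
  fin_cases i
  · have := hD 1 j
    simp only [Fin.val_one, Nat.cast_one, pow_one] at this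
    simp [this]
  · have := hD 2 j
    simp only [Fin.val_two, Nat.cast_ofNat] at this
    simp only [this, Nat.cast_one, Nat.reduceAdd]
    module
  · simp only [h0, Nat.cast_ofNat, Nat.reduceAdd]
    match_scalars
    linear_combination -h3

theorem cube_inj (h3 : (3 : F) = 0) {a b : F} (h : a ^ 3 = b ^ 3) : a = b := by
  have : (a - b) ^ 3 = 0 := by linear_combination h + (a * b ^ 2 - a ^ 2 * b) * h3
  exact sub_eq_zero.1 (pow_eq_zero_iff three_ne_zero |>.1 this)

theorem cube_surj [Finite F] (h3 : (3 : F) = 0) (c : F) : ∃ a, a ^ 3 = c :=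
  Finite.surjective_of_injective (f := fun a : F => a ^ 3) (fun _ _ => cube_inj h3) c

theorem exists_c [Finite F] (φ : Form F V) (h3 : (3 : F) = 0) : ∃ c, φ.σ c = c ∧ ∀ t, t ^ 3 - t ≠ c := by
  by_contra! h
  have : Function.Surjective fun t : {x // φ.σ x = x} => (⟨t.1 ^ 3 - t.1, by simp [t.2]⟩ : {x // φ.σ x = x}) := fun c => by
    obtain ⟨t, ht⟩ := h c.1 c.2
    have h1 := congrArg φ.σ ht
    rw [map_sub, map_pow, c.2] at h1
    refine ⟨⟨-(t + φ.σ t), by simp [add_comm]⟩, Subtype.ext ?_⟩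
    show (-(t + φ.σ t)) ^ 3 - -(t + φ.σ t) = c.1
    linear_combination -ht - h1 - (t ^ 2 * φ.σ t + t * φ.σ t ^ 2 + c.1) * h3
  have := Finite.injective_iff_surjective.2 this (a₁ := ⟨0, map_zero _⟩) (a₂ := ⟨1, map_one _⟩) (by simp)
  simp at this

theorem irred_as {c : F} (hc : ∀ t, t ^ 3 - t ≠ c) : Irreducible (X ^ 3 - X - C c : F[X]) ∧
    (X ^ 3 - X - C c : F[X]).natDegree = 3 := by
  have h1 : (X ^ 3 - X - C c : F[X]).natDegree = 3 := by compute_degree!
  refine ⟨(irreducible_iff_roots_eq_zero_of_degree_le_three (by omega) h1.le).2 ?_, h1⟩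
  refine Multiset.eq_zero_of_forall_notMem fun t ht => hc t ?_
  simpa [sub_eq_zero] using (mem_roots'.1 ht).2

theorem aeval_as {s : End F V} {c : F} : aeval s (X ^ 3 - X - C c : F[X]) = 0 ↔ s ^ 3 - s = c • 1 := by
  simp [sub_eq_zero, Algebra.algebraMap_eq_smul_one]

variable [φ.Nondeg] [FiniteDimensional F V] {q : ℕ}

theorem adj_iρ (g : φ.Isom) : adj φ (iρ φ g) = iρ φ g⁻¹ := adj_eq fun x y => Form.Isom.B_symm_left g x y

theorem adj_pow (s : End F V) (n : ℕ) : adj φ (s ^ n) = adj φ s ^ n := by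
  induction n with
  | zero => simp [adj_one]
  | succ n ih => rw [pow_succ, adj_mul, ih, pow_succ']

theorem adj_aeval (s : End F V) (p : F[X]) : adj φ (aeval s p) = aeval (adj φ s) (p.map φ.σ) :=
  adj_eq fun x y => (B_aeval (fun x y => (B_adj φ s x y).symm) p x y).symm

theorem σ_of_adj [Nontrivial V] {s : End F V} {e : F} (h : adj φ s = s) (he : s = e • 1) : φ.σ e = e := by
  rw [he, adj_smul, adj_one] at h
  exact smul_left_injective F one_ne_zero h

theorem exists_s [Finite F] [Nontrivial V] (h3 : (3 : F) = 0)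
    (H : ∀ D, adj φ D = D → ∃ r : F[X], r ≠ 0 ∧ r.natDegree ≤ 3 ∧ aeval D r = 0) (g : φ.Isom) {D : End F V}
    (hD : iρ φ g * D = (D + 1) * iρ φ g) {κ : F} (hκ : iρ φ g ^ 3 + iρ φ g⁻¹ ^ 3 = κ • 1) {c : F} (hc : φ.σ c = c) :
    ∃ s, (adj φ s = s ∧ s ^ 3 - s = c • 1) ∧ iρ φ g * s = (s + (1 : F) • 1) * iρ φ g := by
  have z : ∀ x : End F V, 3 • x = 0 := fun x => by rw [← Nat.cast_smul_eq_nsmul F, Nat.cast_ofNat, h3, zero_smul]
  have i1 : ∀ g : φ.Isom, iρ φ g * iρ φ g⁻¹ = 1 := fun g => by rw [← map_mul, mul_inv_cancel, map_one]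
  have i2 : ∀ g : φ.Isom, iρ φ g⁻¹ * iρ φ g = 1 := fun g => by rw [← map_mul, inv_mul_cancel, map_one]
  obtain ⟨E, h1, h2⟩ : ∃ E, adj φ E = E ∧ iρ φ g * E = (E + 1) * iρ φ g := by
    refine ⟨-(D + adj φ D), by rw [map_neg, map_add, adj_adj, add_comm], ?_⟩
    have a1 := congrArg (adj φ) hD
    rw [adj_mul, adj_mul, adj_iρ, map_add, adj_one] at a1
    have a2 : iρ φ g * adj φ D = (adj φ D + 1) * iρ φ g := by
      calc iρ φ g * adj φ D = iρ φ g * (iρ φ g⁻¹ * (adj φ D + 1)) * iρ φ g - iρ φ g * (adj φ D * iρ φ g⁻¹) * iρ φ g +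
            iρ φ g * adj φ D := by rw [a1]; abel
        _ = _ := by rw [← mul_assoc, i1, one_mul, mul_assoc, mul_assoc, i2, mul_one]; abel
    rw [mul_neg, mul_add, hD, a2]
    linear_combination (norm := noncomm_ring) -z (iρ φ g)
  obtain ⟨r, r1, r2, r3⟩ := H E h1
  obtain ⟨e, he⟩ := shift_rel h3 (i1 g) h2 r1 r2 r3
  have he' := σ_of_adj (φ := φ) (by rw [map_sub, adj_pow, h1]) he
  obtain ⟨h, κ', a1, a2, a3, a4⟩ : ∃ (h : φ.Isom) (κ' : F), κ' ≠ 0 ∧ iρ φ h ^ 3 + iρ φ h⁻¹ ^ 3 = κ' • 1 ∧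
      iρ φ h * E = (E + 1) * iρ φ h ∧ Commute g h := by
    by_cases h0 : κ = 0
    · rw [h0, zero_smul, ← map_pow, ← map_pow] at hκ
      have b1 : iρ φ (g ^ 6) = -1 := by
        have := congrArg (iρ φ (g ^ 3) * ·) hκ
        simp only [mul_add, ← map_mul, mul_zero] at this
        rw [← pow_add, inv_pow, mul_inv_cancel, map_one] at this
        exact eq_neg_of_add_eq_zero_left this
      have b2 : iρ φ (g ^ 12) = 1 := by rw [show 12 = 6 + 6 from rfl, pow_add, map_mul, b1]; simp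
      have b3 := i1 (g ^ 12)
      rw [b2, one_mul] at b3
      refine ⟨g ^ 4, 2, fun e => one_ne_zero (α := F) (by linear_combination h3 - e), ?_, ?_, Commute.self_pow _ _⟩
      · rw [← map_pow, ← map_pow, inv_pow, ← pow_mul, b2, b3, two_smul]
      · have b4 : ∀ n : ℕ, iρ φ g ^ n * E = (E + n • 1) * iρ φ g ^ n := fun n => by
          induction n with
          | zero => simp
          | succ n ih => 
            rw [pow_succ', mul_assoc, ih, ← mul_assoc, mul_add, h2, mul_smul_comm, mul_one, add_smul, one_smul]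
            simp only [add_mul, smul_mul_assoc, one_mul, mul_assoc]; abel
        rw [map_pow, b4, show (4 : ℕ) • (1 : End F V) = 3 • 1 + 1 by abel, z, zero_add]
    · exact ⟨g, κ, h0, hκ, h2, Commute.refl _⟩
  have a5 := σ_of_adj (φ := φ) (by rw [map_add, adj_pow, adj_pow, adj_iρ, adj_iρ, inv_inv, add_comm]) a2
  obtain ⟨a, ha⟩ := cube_surj h3 ((c - e) / κ')
  have a6 : φ.σ a = a := cube_inj h3 (by rw [← map_pow, ha, map_div₀, map_sub, hc, he', a5])
  refine ⟨E + a • (iρ φ h + iρ φ h⁻¹), ⟨?_, ?_⟩, ?_⟩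
  · rw [map_add, adj_smul, map_add, adj_iρ, adj_iρ, inv_inv, h1, a6, add_comm (iρ φ h)]
  · rw [jac h3 (i1 h) (i2 h) a3, he, a2, smul_smul, ha, div_mul_cancel₀ _ a1, ← add_smul, add_sub_cancel]
  · have b1 : iρ φ g * iρ φ h = iρ φ h * iρ φ g := (a4.map _).eq
    have b2 : iρ φ g * iρ φ h⁻¹ = iρ φ h⁻¹ * iρ φ g := (a4.inv_right.map _).eq
    simp only [mul_add, add_mul, h2, mul_smul_comm, smul_mul_assoc, b1, b2, one_smul]
    abel

omit [φ.Nondeg] in
theorem shf_prop (hn : 3 ≤ finrank F V) {τ s : End F V} {p : V} {k c : F} (h0 : ∃ x, φ.B p x ≠ 0) (hk : k ≠ 0)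
    (hτ : ∀ x, τ x = x + (k * φ.B p x) • p) (hc : ∀ t, t ^ 3 - t ≠ c) (hs : s ^ 3 - s = c • 1) (d : F) :
    τ * s ≠ (s + d • 1) * τ := fun h => by
  have h1 : ∀ x, (k * φ.B p (s x)) • p = (k * φ.B p x) • s p + d • (x + (k * φ.B p x) • p) := fun x => by
    have := LinearMap.congr_fun h x
    simp only [End.mul_apply, hτ, LinearMap.add_apply, map_add, map_smul, LinearMap.smul_apply, End.one_apply] at this
    linear_combination (norm := module) this
  obtain ⟨x, h2, h3⟩ : ∃ x, x ≠ 0 ∧ φ.B p x = 0 ∧ φ.B p (s x) = 0 := by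
    have := ((φ.B p).prod (φ.B p ∘ₗ s)).ker_ne_bot_of_finrank_lt (by simp; omega)
    obtain ⟨x, a, b⟩ := Submodule.exists_mem_ne_zero_of_ne_bot this
    exact ⟨x, b, congrArg Prod.fst a, congrArg Prod.snd a⟩
  have h4 := h1 x
  simp only [h3, mul_zero, zero_smul, add_zero, zero_add, eq_comm (a := (0 : V)), smul_eq_zero, h2, or_false] at h4
  obtain ⟨y, hy⟩ := h0
  have h5 := h1 y
  have h6 : s p = (φ.B p (s y) / φ.B p y) • p := smul_right_injective V (mul_ne_zero hk hy) (by
    rw [h4, zero_smul, add_zero] at h5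
    simp only [← h5, smul_smul]
    congr 1; field_simp)
  have h7 := aeval_eig h6 (X ^ 3 - X - C c)
  rw [aeval_as.2 hs] at h7
  have h8 : p ≠ 0 := by rintro rfl; simp at hy
  simpa [h8, sub_eq_zero, hc] using h7.symm

theorem sym_s (h3 : (3 : F) = 0) (g : φ.Isom) {c : F} (hc : φ.σ c = c) {a : F[X]}
    (ha : aeval (aeval (iρ φ g) a) (X ^ 3 - X - C c : F[X]) = 0) :
    ∃ s, (adj φ s = s ∧ s ^ 3 - s = c • 1) ∧ iρ φ g * s = (s + (0 : F) • 1) * iρ φ g := by
  have z : ∀ x : End F V, 3 • x = 0 := fun x => by rw [← Nat.cast_smul_eq_nsmul F, Nat.cast_ofNat, h3, zero_smul]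
  rw [aeval_as] at ha
  have a1 := mul_aeval (rfl : iρ φ g * iρ φ g = _) a
  have a2 := commute_adj (φ := φ) (by rw [adj_iρ, ← map_mul, inv_mul_cancel, map_one]) a1
  have a3 := mul_aeval a2.symm a
  have a4 := congrArg (adj φ) ha
  rw [map_sub, adj_pow, adj_smul, adj_one, hc] at a4
  refine ⟨-(aeval (iρ φ g) a + adj φ (aeval (iρ φ g) a)), ⟨by rw [map_neg, map_add, adj_adj, add_comm], ?_⟩, ?_⟩
  · generalize adj φ (aeval (iρ φ g) a) = y at *
    generalize aeval (iρ φ g) a = x at *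
    have : (x + y) ^ 3 = x ^ 3 + y ^ 3 + 3 • (x * y * y + x * (x * y)) := by
      rw [show (x + y) ^ 3 = x ^ 3 + y ^ 3 + (x * (x * y) + x * (y * x) + y * x * x) + (x * y * y + y * x * y + y * (y * x)) by
        noncomm_ring, a3, mul_assoc x y x, a3, ← mul_assoc y x y, a3]
      abel
    rw [Odd.neg_pow (by decide), this, z]
    linear_combination (norm := module) -ha - a4 - z (c • 1)
  · rw [zero_smul, add_zero, mul_neg, neg_mul, mul_add, add_mul, a1, a2]

theorem fam_su3 [Finite V] (hU : φ.IsUnitary q) (hn : finrank F V = 3) (h3 : (3 : F) = 0) {c : F} (hc : ∀ t, t ^ 3 - t ≠ c) :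
    Fam (Subgroup.center φ.SIsom) fun (s : {s : End F V // adj φ s = s ∧ s ^ 3 - s = c • 1}) g =>
      ∃ d ∈ (⊤ : AddSubgroup F), sρ φ g * s.1 = (s.1 + d • 1) * sρ φ g := by
  have := hU.finite
  refine fam_shf _ (sρ_cen hU (by omega)) _ _ (fun s hs => ?_) fun s t hs ht => ?_
  · obtain ⟨e, f, hf⟩ := hU.exists_hyp_of_two_le (by omega)
    obtain ⟨t, h1, h2⟩ := hU.exists_skew
    exact ⟨⟨_, hU.quasi_mem_SIsom hf.Qe h2⟩, fun d _ => shf_prop hn.ge ⟨f, by simp [hf.Bef]⟩ h1
      (φ.quasi_apply (hU.quasi_cond hf.Qe h2)) hc hs.2 d⟩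
  · obtain ⟨k, hk⟩ := iso_of_irred (irred_as hc).1 (aeval_as.2 hs.2) (aeval_as.2 ht.2)
    have a1 : (k : End F V) * s = t * (k : End F V) := LinearMap.ext hk
    have a2 := congrArg (adj φ) a1
    rw [adj_mul, adj_mul, hs.1, ht.1] at a2
    have a3 : adj φ (adj φ k * (k : End F V)) = adj φ k * (k : End F V) := by rw [adj_mul, adj_adj]
    have a4 : IsUnit (k : End F V) := (End.isUnit_iff _).2 k.bijective
    have a5 : IsUnit (adj φ (k : End F V)) := by
      obtain ⟨w, hw⟩ := a4.exists_left_inv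
      exact IsUnit.of_mul_eq_one (adj φ w) (by rw [← adj_mul, hw, adj_one])
    obtain ⟨θ, t1, t2⟩ := H24.Uni.exists_theta hU.card
    rw [conj_apply, ← hU.σ_eq] at t1 t2
    have : Finite (End F V) := DFunLike.finite _
    obtain ⟨u, u1, u2⟩ := H24.Norm.bicomm_norm (adj φ) (adj_mul φ) (adj_one φ) (T := {adj φ k * (k : End F V)})
      (by simp) (fun x hx => ⟨by
        have := congrArg (adj φ) (hx _ rfl)
        rw [adj_mul, adj_mul _ x, a3] at this
        simpa [Set.mem_centralizer_iff] using this.symm, adj_adj φ x⟩) (θ := θ • 1) (fun x _ => by simp)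
      (by rw [adj_smul, adj_one, ← add_smul, t1, one_smul])
      (by rw [adj_smul, adj_one, ← sub_smul, ← Algebra.algebraMap_eq_smul_one]; exact (Ne.isUnit t2).map _)
      (Set.subset_centralizer_centralizer rfl) a3 (a5.mul a4)
    have a6 : s * u = u * s := u1 s (by
      rintro _ rfl
      rw [mul_assoc, a1, ← mul_assoc, ← a2, mul_assoc])
    obtain ⟨u, rfl⟩ : IsUnit u := isUnit_of_mul_isUnit_right (u2 ▸ a5.mul a4)
    have a7 : adj φ (k * u⁻¹.1) * (k * u⁻¹.1) = 1 := by
      rw [adj_mul, mul_assoc, ← mul_assoc (adj φ k), ← u2, mul_assoc, Units.mul_inv, mul_one, ← adj_mul, Units.mul_inv,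
        adj_one]
    let x := φ.toIsom (k * u⁻¹.1)
    have hx : (x.1 : End F V) = k * u⁻¹.1 := φ.toIsom_coe (hU.herm.isIsom (adj_mul_self_iff.1 a7))
    obtain ⟨l, hl⟩ := cube_surj h3 ((φ.det x)⁻¹ : F)
    have b1 : φ.σ l * l = 1 := cube_inj h3 (by
      rw [mul_pow, ← map_pow, hl, map_inv₀, ← mul_inv, φ.σ_det_mul_det]; simp)
    have b2 : φ.IsIsom (l • (x.1 : End F V) : End F V) := hU.herm.isIsom fun a b => by
      show φ.B (l • x.1 a) (l • x.1 b) = _
      rw [φ.B_smul_left, φ.B_smul_right, ← mul_assoc, b1, one_mul, x.2.B]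
    refine ⟨⟨φ.toIsom (l • (x.1 : End F V)), ?_⟩, ?_⟩
    · rw [Form.mem_SIsom, φ.toIsom_coe b2, LinearMap.det_smul, hn, hl, ← φ.coe_det]; simp
    · show ((φ.toIsom _).1 : End F V) * s = t * ((φ.toIsom _).1 : End F V)
      rw [φ.toIsom_coe b2, hx, smul_mul_assoc, mul_smul_comm, mul_assoc, ← mul_assoc t, ← a1, mul_assoc,
        (Commute.units_inv_right a6).eq]

theorem cov_su3 [Finite V] (hU : φ.IsUnitary q) (hn : finrank F V = 3) (h3 : (3 : F) = 0) :
    Cov (φ.SIsom ⧸ Subgroup.center φ.SIsom) := by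
  have : Nontrivial V := nontrivial_of_finrank_pos (R := F) (by omega)
  have := hU.finite
  obtain ⟨c, c1, c2⟩ := exists_c φ h3
  refine cov_quot (fam_pt hU (by omega)) (fam_su3 hU hn h3 c2) fun g => ?_
  rcases tri hU g.1 with ⟨v, l, a, b⟩ | ⟨W, a, b, -⟩ | ⟨f, r, a1, a2, a3, a4, -⟩
  · by_cases h0 : φ.Q v = 0
    swap
    · exact .inl (pt_of_eig hU g h0 b)
    obtain ⟨f, hf⟩ := φ.exists_hyp h0 a
    obtain ⟨k, hk⟩ := step hU.herm g.1 hf b
    have h1 := hf.finrank_perp
    obtain ⟨w, h2, hw⟩ := finrank_eq_one_iff'.1 (show finrank F (φ.perp (Submodule.span F {v, f})) = 1 by omega)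
    obtain ⟨μ, h4⟩ := hw (k.1 w)
    have h5 : φ.Q w ≠ 0 := fun e => h2 (Subtype.ext (hf.nondegOn.perp _ w.2 fun y hy => by
      obtain ⟨d, hd⟩ := hw ⟨y, hy⟩
      rw [show y = d • w.1 from (congrArg Subtype.val hd).symm, map_smul, φ.B_self_eq_zero e, smul_zero]))
    have h6 : g.1.1 w = μ • w.1 + φ.B f (g.1.1 w) • v := (hk w).trans (by rw [← h4]; rfl)
    have h7 := φ.mem_perp_pair.1 w.2
    by_cases h8 : μ = l
    swap
    · obtain ⟨u, h5', h6'⟩ := lift_eig (g := iρ φ g.1) h0 h7.1 b h6 h8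
      exact .inl (pt_of_eig hU g (h5' ▸ h5) h6')
    subst h8
    have h9 : φ.σ μ * μ = 1 := by
      have := k.2.Q w
      rw [← h4, Form.Q_smul] at this
      exact mul_right_cancel₀ h5 (by simpa using this)
    set N : End F V := iρ φ g.1 - μ • 1 with hN
    have n1 : N v = 0 := by simp [hN, b]
    have n2 : ∀ x, φ.B v (N x) = 0 := fun x => by
      have := g.1.2.B v x
      rw [b, φ.B_smul_left] at this
      simp only [hN, LinearMap.sub_apply, iρ_apply, LinearMap.smul_apply, End.one_apply, map_sub, map_smul, smul_eq_mul]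
      linear_combination μ * this - φ.B v (g.1.1 x) * h9
    have n3 : ∀ x, φ.B v x = 0 → N (N x) = 0 := fun x hx => by
      obtain ⟨d, hd⟩ := hw ⟨_, hf.proj_mem x⟩
      have e1 : x = d • w.1 + (φ.ε * φ.B f x) • v := by
        have := congrArg Subtype.val hd
        simp only [hx, zero_smul, sub_zero, Submodule.coe_smul] at this
        rw [this, sub_add_cancel]
      have e2 : N w = φ.B f (g.1.1 w) • v := by
        simp only [hN, LinearMap.sub_apply, iρ_apply, LinearMap.smul_apply, End.one_apply]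
        linear_combination (norm := module) h6
      rw [e1]; simp [n1, e2]
    have n4 : ∀ x, N (N (N x)) = 0 := fun x => n3 _ (n2 x)
    by_cases n5 : ∃ u, N (N u) ≠ 0
    · obtain ⟨u, hu⟩ := n5
      have n6 : iρ φ g.1 ^ 3 = μ ^ 3 • 1 := by
        have e1 : N ^ 3 = 0 := LinearMap.ext fun x => by simpa [pow_succ] using n4 x
        rw [show iρ φ g.1 = N + μ • 1 by simp [hN]]
        ext x
        simp only [pow_succ, pow_zero, one_mul, End.mul_apply, LinearMap.add_apply, LinearMap.smul_apply, End.one_apply,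
          map_add, map_smul, n4]
        match_scalars <;> first | ring1 | linear_combination μ * h3 | linear_combination μ ^ 2 * h3
      have n7 : LinearIndependent F ![u, N u, N (N u)] := by
        rw [Fintype.linearIndependent_iff]
        intro a ha
        simp only [Fin.sum_univ_three, Matrix.cons_val] at ha
        have a0 : a 0 = 0 := by simpa [n4, hu] using congrArg (fun x => N (N x)) ha
        have a1 : a 1 = 0 := by simpa [n4, hu, a0] using congrArg N ha
        have a2 : a 2 = 0 := by simpa [hu, a0, a1] using ha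
        intro i; fin_cases i <;> assumption
      obtain ⟨D, hD⟩ := exists_D h3 (iρ φ g.1) (fun _ : Unit => u) (by
        rw [← n7.span_eq_top_of_card_eq_finrank' (by simp [hn]), Submodule.span_le]
        have m : ∀ i : Fin 3, (iρ φ g.1 ^ (i : ℕ)) u ∈ Submodule.span F (Set.range fun p : Fin 3 × Unit =>
          (iρ φ g.1 ^ (p.1 : ℕ)) u) := fun i => Submodule.subset_span ⟨(i, ()), rfl⟩
        have m0 := m 0
        have m1 := m 1
        have m2 := m 2
        simp only [Fin.val_zero, Fin.val_one, Fin.val_two, pow_zero, pow_one, sq, End.mul_apply, End.one_apply] at m0 m1 m2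
        rintro _ ⟨i, rfl⟩
        fin_cases i
        · exact m0
        · exact sub_mem m1 (Submodule.smul_mem _ _ m0)
        · show N (N u) ∈ _
          simp only [hN, LinearMap.sub_apply, LinearMap.smul_apply, End.one_apply, map_sub, map_smul]
          exact sub_mem (sub_mem m2 (Submodule.smul_mem _ _ m1)) (Submodule.smul_mem _ _ (sub_mem m1 (Submodule.smul_mem _ _ m0))))
        (by simp [hn]) fun _ => by
          rw [n6]; exact Submodule.smul_mem _ _ (Submodule.subset_span ⟨(), rfl⟩)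
      obtain ⟨s, s1, s2⟩ := exists_s h3 (fun D _ => ⟨D.charpoly, D.charpoly_monic.ne_zero, by
        rw [D.charpoly_natDegree, hn], D.aeval_self_charpoly⟩) g.1 hD (κ := μ ^ 3 + φ.σ μ ^ 3) (by
          rw [← adj_iρ, ← adj_pow, n6, adj_smul, adj_one, map_pow, add_smul]) c1
      exact .inr ⟨⟨s, s1⟩, 1, trivial, s2⟩
    · push Not at n5
      have e1 := N.finrank_range_add_finrank_ker
      have e2 : finrank F (LinearMap.range N) ≤ finrank F (LinearMap.ker N) := Submodule.finrank_mono (by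
        rintro _ ⟨x, rfl⟩; exact n5 x)
      obtain ⟨u, u1, u2⟩ : ∃ u ∈ LinearMap.ker N, φ.Q u ≠ 0 := by
        by_contra! h
        have := (hU.herm.ts (W := LinearMap.ker N) fun x hx y hy => by
          by_contra e
          obtain ⟨z, z1, z2⟩ := φ.exists_Q_ne_zero hU.exists_T hx hy e
          exact z2 (h z z1)).finrank_le
        omega
      exact .inl (pt_of_eig hU g (c := μ) u2 (sub_eq_zero.1 u1))
  · have := a.finrank_le; omega
  · obtain ⟨a, ha⟩ := exists_root (iρ φ g.1).charpoly_monic.ne_zero (LinearMap.aeval_self_charpoly _) (irred_as c2).1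
      fun p hp h => by
        rw [a2] at h
        rcases hp.prime.dvd_or_dvd h with h | h
        · rw [(irred_as c2).2, natDegree_eq_of_degree_eq (degree_eq_degree_of_associated (hp.associated_of_dvd a1 h))]
          omega
        · have := natDegree_le_of_dvd h (right_ne_zero_of_mul (a2 ▸ (iρ φ g.1).charpoly_monic.ne_zero))
          have := hp.natDegree_pos
          omega
    obtain ⟨s, s1, s2⟩ := sym_s h3 g.1 c1 ha
    exact .inr ⟨⟨s, s1⟩, 0, trivial, s2⟩

end H16.Cv
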