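import Mathlib
import Cfsg.Agent.H16.Cv3

/-! Normal 2-coverings, part 4: symplectic groups.  Tools for self-adjoint maps of alternating spaces, and Dye's covering of
`Sp_{2m}(2^a)` by the two orthogonal groups (`cov_sp_even`). -/

namespace H16.Cv
open Polynomial Module H10 H24.Sim H24.Adj H09

variable {F V : Type*} [Field F] [AddCommGroup V] [Module F V] {φ : Form F V}

section
variable (hA : IsAltF φ)
include hA

theorem alt_self (x : V) : φ.B x x = 0 := φ.B_self_eq_zero (hA.Q_eq x)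

theorem alt_neg (x y : V) : φ.B y x = -φ.B x y := by
  have := alt_self hA (x + y)
  simp only [map_add, LinearMap.add_apply, alt_self hA] at this
  linear_combination this

theorem alt_smul (a : F) (x y : V) : φ.B (a • x) y = a * φ.B x y := by rw [φ.B_smul_left, hA.σ_eq]

theorem alt_cond (p : V) (k : F) : φ.T (φ.ε * k) + φ.σ k * k * φ.Q p = 0 := by simp [hA.T_eq, hA.Q_eq]

theorem sa_zero (h2 : (2 : F) ≠ 0) {S : End F V} (hS : ∀ x y, φ.B (S x) y = φ.B x (S y)) (x : V) : φ.B (S x) x = 0 := by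
  have := hS x x
  rw [alt_neg hA (S x) x] at this
  exact mul_left_cancel₀ h2 (by linear_combination this)

theorem gram_core {n : ℕ} {a b : Fin n → V} (ha : ∀ i j, φ.B (a i) (a j) = 0) (hb : ∀ i j, φ.B (b i) (b j) = 0)
    (h : (Matrix.of fun i j => φ.B (a i) (b j)).det ≠ 0) (c : Fin n ⊕ Fin n → F)
    (hc : ∀ k, φ.B (Sum.elim a b k) (∑ p, c p • Sum.elim a b p) = 0) : c = 0 := by
  have h1 := Matrix.eq_zero_of_mulVec_eq_zero h (v := fun i => c (.inr i)) (funext fun i => by
    simpa [ha, Matrix.mulVec, dotProduct, mul_comm] using hc (.inl i))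
  have h2 := Matrix.eq_zero_of_vecMul_eq_zero h (v := fun i => c (.inl i)) (funext fun i => by
    have := φ.B_symm_zero (hc (.inr i))
    simpa [hb, Matrix.vecMul, dotProduct, hA.σ_eq] using this)
  funext p
  rcases p with i | i
  exacts [congrFun h2 i, congrFun h1 i]

theorem gram_li {n : ℕ} {a b : Fin n → V} (ha : ∀ i j, φ.B (a i) (a j) = 0) (hb : ∀ i j, φ.B (b i) (b j) = 0)
    (h : (Matrix.of fun i j => φ.B (a i) (b j)).det ≠ 0) : LinearIndependent F (Sum.elim a b) :=
  Fintype.linearIndependent_iff.2 fun c hc => congrFun (gram_core hA ha hb h c fun k => by rw [hc, map_zero])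

theorem gram_nd {n : ℕ} {a b : Fin n → V} (ha : ∀ i j, φ.B (a i) (a j) = 0) (hb : ∀ i j, φ.B (b i) (b j) = 0)
    (h : (Matrix.of fun i j => φ.B (a i) (b j)).det ≠ 0) : φ.NondegOn (Submodule.span F (Set.range (Sum.elim a b))) := by
  intro x hx h0
  obtain ⟨c, rfl⟩ := (Submodule.mem_span_range_iff_exists_fun F).1 hx
  rw [gram_core hA ha hb h c fun k => φ.B_symm_zero (h0 _ (Submodule.subset_span ⟨k, rfl⟩))]
  simp

theorem polar_zero (g : φ.Isom) {S : End F V} (hS : ∀ x y, φ.B (S x) y = φ.B x (S y)) (hc : ∀ x, S (g.1.symm x) = g.1.symm (S x))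
    {W : Submodule F V} (h : ∀ v ∈ W, φ.B (S v) (g.1 v) = 0) {v w : V} (hv : v ∈ W) (hw : w ∈ W) :
    φ.B (S v) (g.1 w - g.1.symm w) = 0 := by
  have h1 := h _ (W.add_mem hv hw)
  simp only [map_add, LinearMap.add_apply, h v hv, h w hw] at h1
  rw [← Form.Isom.B_symm_left g (S w), ← hc, hS (g.1.symm w), alt_neg hA (S v)] at h1
  rw [map_sub]
  linear_combination h1

variable [FiniteDimensional F V]

theorem hyp_basis {W : Submodule F V} (hW : φ.NondegOn W) (h2 : finrank F W = 2) :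
    ∃ e f, φ.IsHyp e f ∧ W = Submodule.span F {e, f} := by
  obtain ⟨e, he, h0⟩ := W.exists_mem_ne_zero_of_ne_bot (fun e => by rw [e, finrank_bot] at h2; omega)
  obtain ⟨f, hf, h1⟩ : ∃ f ∈ W, φ.B e f ≠ 0 := by
    by_contra! h
    exact h0 (hW e he h)
  have hy : φ.IsHyp e ((φ.B e f)⁻¹ • f) := ⟨hA.Q_eq _, hA.Q_eq _, by simp [h1]⟩
  refine ⟨e, _, hy, (Submodule.eq_of_le_of_finrank_eq ?_ (hy.finrank_span.trans h2.symm)).symm⟩
  rw [Submodule.span_le]
  rintro _ (rfl | rfl)
  exacts [he, W.smul_mem _ hf]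

variable [φ.Nondeg]

theorem alt_cen (z) (hz : z ∈ Subgroup.center φ.Isom) : ∃ c : F, iρ φ z = c • 1 := by
  refine LinearMap.exists_eq_smul_id_of_forall_notLinearIndependent fun p hp => ?_
  have h0 : p ≠ 0 := hp.ne_zero 0
  obtain ⟨x, hx⟩ := φ.exists_B_eq_one h0
  have := congrArg (fun g : φ.Isom => g.1 x) (Subgroup.mem_center_iff.1 hz (φ.quasi p 1))
  simp only [Form.Isom.mul_apply, φ.quasi_apply (alt_cond hA _ _), hx, map_add, one_mul, one_smul, add_right_inj] at this
  have := LinearIndependent.pair_iff.1 hp (φ.B p (z.1 x)) (-1) (by rw [this]; simp)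
  simp at this

theorem fam_nd (hn : 2 < finrank F V) : Fam (Subgroup.center φ.Isom)
    fun (W : {W : Submodule F V // φ.NondegOn W ∧ finrank F W = 2}) g => ∀ x ∈ W.1, iρ φ g x ∈ W.1 := by
  refine fam_sub _ (alt_cen hA) _ ?_ ?_
  · rintro W ⟨h1, h2⟩
    obtain ⟨e, f, hf, rfl⟩ := hyp_basis hA h1 h2
    have h3 := hf.finrank_perp
    obtain ⟨z, hz, h0⟩ := (φ.perp (Submodule.span F {e, f})).exists_mem_ne_zero_of_ne_bot
      (fun e => by rw [e, finrank_bot] at h3; omega)
    have h4 := φ.mem_perp_pair.1 hz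
    have he : e ∈ Submodule.span F {e, f} := Submodule.subset_span (by simp)
    have hf' : f ∈ Submodule.span F {e, f} := Submodule.subset_span (by simp)
    refine ⟨φ.quasi (e + z) 1, f, hf', fun h => h0 (h1 z ?_ fun y hy => φ.B_symm_zero (φ.mem_perp.1 hz y hy))⟩
    rw [iρ_apply, φ.quasi_apply (alt_cond hA _ _), map_add, LinearMap.add_apply, hf.Bef, φ.B_symm_zero h4.2] at h
    simpa using sub_mem (sub_mem h hf') he
  · rintro W W' ⟨h1, h2⟩ ⟨h1', h2'⟩
    obtain ⟨e, f, hf, rfl⟩ := hyp_basis hA h1 h2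
    obtain ⟨e', f', hf', rfl⟩ := hyp_basis hA h1' h2'
    obtain ⟨x, a, b⟩ := φ.witt_hyp hf hf'
    exact ⟨x, by rw [Submodule.map_span, Set.image_pair, iρ_apply, iρ_apply, a, b]⟩

theorem fam_quad [Finite F] (h2 : (2 : F) = 0) {m : ℕ} (hm : 2 ≤ m) (hn : finrank F V = 2 * m) (t : Prop) :
    Fam (Subgroup.center φ.Isom) fun (Q : {Q : QuadraticForm F V //
      (∀ x y, QuadraticMap.polar Q x y = φ.B x y) ∧ ((Form.ofQuad Q).HasTS m ↔ t)}) g => ∀ x, Q.1 (g.1 x) = Q.1 x := by
  have : Nontrivial V := nontrivial_of_finrank_pos (R := F) (by omega)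
  refine ⟨fun Q z hz x => ?_, fun Q a b ha hb x => (ha _).trans (hb x), fun Q => ?_, fun Q Q' => ?_⟩
  · obtain ⟨c, hc⟩ := alt_cen hA z hz
    have hc : ∀ x, z.1 x = c • x := LinearMap.congr_fun hc
    obtain ⟨p, hp⟩ := exists_ne (0 : V)
    obtain ⟨y, hy⟩ := φ.exists_B_eq_one hp
    have := z.2.B p y
    rw [hc, hc, alt_smul hA, map_smul, hy, smul_eq_mul, mul_one] at this
    rw [hc, QuadraticMap.map_smul, this, one_smul]
  · by_contra! h
    have h1 : ∀ p, p ≠ 0 → Q.1 p = 1 := fun p hp => by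
      obtain ⟨y, hy⟩ := φ.exists_B_eq_one hp
      have := h (φ.quasi p 1) y
      rw [φ.quasi_apply (alt_cond hA _ _), hy, one_mul, one_smul] at this
      have h3 := Q.2.1 y p
      rw [QuadraticMap.polar, alt_neg hA p, hy] at h3
      linear_combination this - h3
    obtain ⟨p, hp⟩ := exists_ne (0 : V)
    have h3 := Form.finrank_perp_singleton φ hp
    obtain ⟨y, h4, h5⟩ : ∃ y ∈ φ.perp (F ∙ p), y ∉ F ∙ p := by
      by_contra! h
      have := Submodule.finrank_mono (show φ.perp (F ∙ p) ≤ F ∙ p from h)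
      rw [finrank_span_singleton hp] at this
      omega
    have h6 := Q.2.1 p y
    rw [QuadraticMap.polar, φ.mem_perp_singleton.1 h4, h1 p hp, h1 y (fun e => h5 (e ▸ zero_mem _)), h1 _ fun e => h5 (by
      rw [eq_neg_of_add_eq_zero_right e]; exact neg_mem (Submodule.mem_span_singleton_self p))] at h6
    simp at h6
  · have nd : ∀ Q : QuadraticForm F V, (∀ x y, QuadraticMap.polar Q x y = φ.B x y) → (Form.ofQuad Q).Nondeg := fun Q h =>
      ⟨fun x hx => φ.eq_zero_of_B_left fun y => (h x y).symm.trans (hx y)⟩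
    have := nd _ Q.2.1
    have := nd _ Q'.2.1
    obtain ⟨e, he⟩ := (Form.isQuad_ofQuad Q.1).exists_isEquiv_even (Form.isQuad_ofQuad Q'.1) hn hn (Q.2.2.trans Q'.2.2.symm)
    refine ⟨⟨e, fun x y => ?_, fun x => by simp [hA.Q_eq]⟩, fun g hg y => ?_⟩
    · exact (Q'.2.1 _ _).symm.trans ((he.B x y).trans (Q.2.1 _ _))
    · exact (he.Q _).trans ((hg _).trans (he.symm.Q y))

end

variable [φ.Nondeg] [FiniteDimensional F V]

theorem mem_range_adj {f : End F V} {a : V} (h : ∀ x, f x = 0 → φ.B a x = 0) : ∃ v, adj φ f v = a := by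
  have : φ.perp (LinearMap.range (adj φ f)) ≤ LinearMap.ker f := fun y hy =>
    φ.eq_zero_of_B_right fun x => by rw [← B_adj]; exact φ.mem_perp.1 hy _ ⟨x, rfl⟩
  show a ∈ LinearMap.range (adj φ f)
  rw [← φ.perp_perp (LinearMap.range (adj φ f))]
  exact φ.mem_perp'.2 fun x hx => h x (this hx)

theorem cov_sp_even [Finite V] [Finite F] (hA : IsAltF φ) (h2 : (2 : F) = 0) {m : ℕ} (hm : 2 ≤ m) (hn : finrank F V = 2 * m)
    (Q : QuadraticForm F V) (hQ : ∀ x y, QuadraticMap.polar Q x y = φ.B x y) : Cov (φ.Isom ⧸ Subgroup.center φ.Isom) := by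
  refine cov_quot (fam_quad hA h2 hm hn True) (fam_quad hA h2 hm hn False) fun g => ?_
  have inj : ∀ a b : F, a ^ 2 = b ^ 2 → a = b := fun a b h => by
    have : (a - b) ^ 2 = 0 := by linear_combination h + (b ^ 2 - a * b) * h2
    exact sub_eq_zero.1 (pow_eq_zero_iff two_ne_zero |>.1 this)
  choose r hr using fun x => Finite.surjective_of_injective (f := fun a : F => a ^ 2) inj (Q (g.1 x) - Q x)
  simp only at hr
  obtain ⟨a, ha⟩ := φ.exists_B_eq ⟨⟨r, fun x y => inj _ _ (by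
      have e1 := hQ x y
      have e2 := (hQ _ _).trans (g.2.B x y)
      rw [QuadraticMap.polar] at e1 e2
      rw [hr, map_add]
      linear_combination e2 - e1 - hr x - hr y - r x * r y * h2)⟩, fun c x => inj _ _ (by
      simp only [hr, map_smul, QuadraticMap.map_smul, smul_eq_mul, RingHom.id_apply]
      linear_combination -c ^ 2 * hr x)⟩
  have ha : ∀ x, φ.B a x ^ 2 = Q (g.1 x) - Q x := fun x => by rw [ha]; exact hr x
  obtain ⟨v, hv⟩ := mem_range_adj (φ := φ) (f := iρ φ g - 1) (a := a) fun x hx => by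
    have := ha x
    rw [show g.1 x = x from sub_eq_zero.1 hx, sub_self] at this
    exact pow_eq_zero_iff two_ne_zero |>.1 this
  have h3 : ∀ x y, QuadraticMap.polar (Q + QuadraticMap.linMulLin (φ.B v) (φ.B v)) x y = φ.B x y := fun x y => by
    rw [← hQ]
    simp only [QuadraticMap.polar, _root_.add_apply, QuadraticMap.linMulLin_apply, map_add]
    linear_combination φ.B v x * φ.B v y * h2
  have h4 : ∀ x, (Q + QuadraticMap.linMulLin (φ.B v) (φ.B v)) (g.1 x) = (Q + QuadraticMap.linMulLin (φ.B v) (φ.B v)) x :=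
    fun x => by
      have := ha x
      rw [← hv, B_adj] at this
      simp only [_root_.add_apply, QuadraticMap.linMulLin_apply, LinearMap.sub_apply, iρ_apply, End.one_apply,
        map_sub] at this ⊢
      linear_combination -this + (φ.B v (g.1 x) ^ 2 - φ.B v (g.1 x) * φ.B v x) * h2
  by_cases h : (Form.ofQuad (Q + QuadraticMap.linMulLin (φ.B v) (φ.B v))).HasTS m
  · exact .inl ⟨⟨_, h3, iff_true_intro h⟩, h4⟩
  · exact .inr ⟨⟨_, h3, iff_false_intro h⟩, h4⟩

end H16.Cv
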