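import Mathlib
import Cfsg.Agent.H16.Cv4

/-! Normal 2-coverings, part 5: `Sp_6(3^a)` is covered by the stabilisers of non-degenerate planes and the cubic
field-extension subgroups (`cov_sp6`). -/

namespace H16.Cv
open Polynomial Module H10 H24.Sim H24.Adj H09

variable {F V : Type*} [Field F] [AddCommGroup V] [Module F V] {φ : Form F V}

theorem two_ne (h3 : (3 : F) = 0) : (2 : F) ≠ 0 := fun e => one_ne_zero (α := F) (by linear_combination h3 - e)

theorem finrank_le_two_mul [FiniteDimensional F V] (f : End F V) {W : Submodule F V} (h : ∀ w ∈ W, f (f w) = 0) :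
    finrank F W ≤ 2 * finrank F (LinearMap.ker f) := by
  have h1 := (f.domRestrict W).finrank_range_add_finrank_ker
  have h2 : finrank F (LinearMap.range (f.domRestrict W)) ≤ finrank F (LinearMap.ker f) := Submodule.finrank_mono (by
    rintro _ ⟨w, rfl⟩; exact h w w.2)
  have h3 : finrank F (LinearMap.ker (f.domRestrict W)) ≤ finrank F (LinearMap.ker f) := by
    rw [← Submodule.finrank_map_subtype_eq]
    exact Submodule.finrank_mono (by rintro _ ⟨w, hw, rfl⟩; exact hw)
  omega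

theorem exists_D' [FiniteDimensional F V] (h3 : (3 : F) = 0) {ι : Type*} [Fintype ι] {M : End F V} (μ : F) {u : ι → V}
    (h1 : LinearIndependent F fun j => M (M (u j))) (h0 : ∀ j, M (M (M (u j))) = 0) (h2 : 3 * Fintype.card ι = finrank F V) :
    ∃ D : End F V, (M + μ • 1) * D = (D + 1) * (M + μ • 1) := by
  have li : LinearIndependent F fun p : Fin 3 × ι => (M ^ (p.1 : ℕ)) (u p.2) := by
    rw [Fintype.linearIndependent_iff] at h1 ⊢
    intro a ha
    simp only [Fintype.sum_prod_type, Fin.sum_univ_three, Fin.val_zero, Fin.val_one, Fin.val_two, pow_zero, pow_one, sq,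
      End.mul_apply, End.one_apply] at ha
    have a0 := h1 (fun j => a (0, j)) (by simpa [h0] using congrArg (fun x => M (M x)) ha)
    have a1 := h1 (fun j => a (1, j)) (by simpa [h0, a0] using congrArg M ha)
    have a2 := h1 (fun j => a (2, j)) (by simpa [a0, a1] using ha)
    rintro ⟨i, j⟩
    fin_cases i
    exacts [a0 j, a1 j, a2 j]
  refine exists_D h3 _ u ?_ h2 fun j => ?_
  · rw [← li.span_eq_top_of_card_eq_finrank' (by simpa using h2), Submodule.span_le]
    rintro _ ⟨⟨i, j⟩, rfl⟩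
    have m : ∀ i : Fin 3, ((M + μ • 1) ^ (i : ℕ)) (u j) ∈ Submodule.span F (Set.range fun p : Fin 3 × ι =>
      ((M + μ • 1) ^ (p.1 : ℕ)) (u p.2)) := fun i => Submodule.subset_span ⟨(i, j), rfl⟩
    have m0 := m 0
    have m1 := m 1
    have m2 := m 2
    simp only [Fin.val_zero, Fin.val_one, Fin.val_two, pow_zero, pow_one, sq, End.mul_apply, End.one_apply,
      LinearMap.add_apply, LinearMap.smul_apply, map_add, map_smul] at m0 m1 m2
    have m3 := (Submodule.add_mem_iff_left _ (Submodule.smul_mem _ μ m0)).1 m1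
    fin_cases i
    · exact m0
    · exact m3
    · exact (Submodule.add_mem_iff_left _ (Submodule.smul_mem _ μ m3)).1
        ((Submodule.add_mem_iff_left _ (Submodule.smul_mem _ μ m1)).1 m2)
  · have : ((M + μ • 1 : End F V) ^ 3) (u j) = μ ^ 3 • u j := by
      simp only [pow_succ, pow_zero, one_mul, End.mul_apply, LinearMap.add_apply, LinearMap.smul_apply, End.one_apply,
        map_add, map_smul, h0]
      match_scalars <;> first | ring1 | linear_combination μ * h3 | linear_combination μ ^ 2 * h3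
    rw [this]
    exact Submodule.smul_mem _ _ (Submodule.subset_span ⟨j, rfl⟩)

/-- `x, Sx, S²x, y, Sy, S²y` -/
def fam3 (S : End F V) (x y : V) : Fin 3 ⊕ Fin 3 → V := Sum.elim ![x, S x, S (S x)] ![y, S y, S (S y)]

variable (hA : IsAltF φ) (h3 : (3 : F) = 0)
include hA h3

theorem sa_pow {S : End F V} (hS : ∀ x y, φ.B (S x) y = φ.B x (S y)) (i j : ℕ) (x : V) : φ.B ((S ^ i) x) ((S ^ j) x) = 0 := by
  have hp : ∀ (n : ℕ) x y, φ.B ((S ^ n) x) y = φ.B x ((S ^ n) y) := fun n => by
    induction n with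
    | zero => simp
    | succ n ih => intro x y; rw [pow_succ', End.mul_apply, hS, ih, ← pow_succ', pow_succ, End.mul_apply]
  rw [← hp, ← End.mul_apply, ← pow_add]
  exact sa_zero hA (two_ne h3) (hp _) x

theorem li3 {S : End F V} (hS : ∀ x y, φ.B (S x) y = φ.B x (S y)) {x y : V}
    (h : (Matrix.of fun i j => φ.B (![x, S x, S (S x)] i) (![y, S y, S (S y)] j)).det ≠ 0) :
    LinearIndependent F (fam3 S x y) := by
  have k : ∀ x (i j : Fin 3), φ.B (![x, S x, S (S x)] i) (![x, S x, S (S x)] j) = 0 := fun x i j => by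
    have e : ∀ i : Fin 3, ![x, S x, S (S x)] i = (S ^ (i : ℕ)) x := fun i => by fin_cases i <;> simp [sq]
    rw [e, e, sa_pow hA h3 hS]
  exact gram_li hA (k x) (k y) h

theorem li_nil {S : End F V} (hS : ∀ x y, φ.B (S x) y = φ.B x (S y)) (h0 : ∀ x, S (S (S x)) = 0) {x y : V}
    (h : φ.B (S (S x)) y ≠ 0) : LinearIndependent F (fam3 S x y) :=
  li3 hA h3 hS (by simpa [Matrix.det_fin_three, ← hS, h0] using h)

variable [φ.Nondeg] [FiniteDimensional F V] (hn : finrank F V = 6)
include hn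

theorem alt_rel (D : End F V) (hD : adj φ D = D) : ∃ r : F[X], r ≠ 0 ∧ r.natDegree ≤ 3 ∧ aeval D r = 0 := by
  have hS : ∀ x y, φ.B (D x) y = φ.B x (D y) := fun x y => by rw [← B_adj, hD]
  obtain ⟨x, hx⟩ := Module.exists_ker_toSpanSingleton_eq_annihilator (R := F[X]) (M := AEval' D)
  obtain ⟨v, rfl⟩ := (AEval'.of D).surjective x
  have h1 : ¬ LinearIndependent F fun i : Fin 4 => (D ^ (i : ℕ)) v := fun h => by
    have h2 := finrank_span_eq_card h
    have := (hA.ts (W := Submodule.span F (Set.range fun i : Fin 4 => (D ^ (i : ℕ)) v)) fun x hx y hy => by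
      refine φ.mem_perp_span.1 (Submodule.span_le.2 ?_ hx) |> fun h => φ.B_symm_zero (φ.mem_perp.1 (φ.mem_perp_span.2 h) y hy)
      rintro _ ⟨i, rfl⟩
      exact φ.mem_perp_span.2 (by rintro _ ⟨j, rfl⟩; exact sa_pow hA h3 hS _ _ _)).finrank_le
    simp at h2
    omega
  obtain ⟨a, h2, i, hi⟩ := Fintype.not_linearIndependent_iff.1 h1
  refine ⟨∑ j : Fin 4, monomial j (a j), fun e => hi ?_, ?_, ?_⟩
  · have := congrArg (coeff · i) e
    simpa [coeff_monomial, Fin.val_inj] using this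
  · exact natDegree_sum_le_of_forall_le _ _ fun j _ => (natDegree_monomial_le _).trans (by omega)
  · have h4 : (∑ j : Fin 4, monomial j (a j)) ∈ LinearMap.ker (LinearMap.toSpanSingleton F[X] _ (AEval'.of D v)) := by
      rw [LinearMap.mem_ker, LinearMap.toSpanSingleton_apply, ← AEval.of_aeval_smul, map_eq_zero_iff _ (AEval'.of D).injective]
      simpa [aeval_monomial] using h2
    rw [hx, Module.mem_annihilator] at h4
    ext y
    have := h4 (AEval'.of D y)
    rwa [← AEval.of_aeval_smul, map_eq_zero_iff _ (AEval'.of D).injective] at this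

theorem quad_eig {T : End F V} (hS : ∀ x y, φ.B (T x) y = φ.B x (T y)) {a b : F} (h : ∀ x, T (T x) = a • T x + b • x) :
    ∃ (l : F) (x y : V), T x = l • x ∧ T y = l • y ∧ φ.B x y ≠ 0 := by
  have : Nontrivial V := nontrivial_of_finrank_pos (R := F) (by omega)
  have z := sa_zero hA (two_ne h3) hS
  by_cases h1 : ∀ v, ¬ LinearIndependent F ![v, T v]
  · obtain ⟨l, rfl⟩ := LinearMap.exists_eq_smul_id_of_forall_notLinearIndependent h1
    obtain ⟨x, hx⟩ := exists_ne (0 : V)
    obtain ⟨y, hy⟩ := φ.exists_B_ne_zero hx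
    exact ⟨l, x, y, rfl, rfl, hy⟩
  push Not at h1
  obtain ⟨v, hv⟩ := h1
  obtain ⟨w, w1, w2⟩ := φ.exists_sep' (W := F ∙ v) (u := T v) fun h => by
    obtain ⟨c, hc⟩ := Submodule.mem_span_singleton.1 h
    simpa using LinearIndependent.pair_iff.1 hv c (-1) (by simp [hc])
  have k : ∀ x (i j : Fin 2), φ.B (![x, T x] i) (![x, T x] j) = 0 := fun x i j => by
    fin_cases i <;> fin_cases j <;> simp [alt_self hA, z, ← hS]
  have hd : (Matrix.of fun i j => φ.B (![v, T v] i) (![w, T w] j)).det ≠ 0 := by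
    simp [Matrix.det_fin_two, w1 v (Submodule.mem_span_singleton_self v), w2, ← hS v]
  have h2 := finrank_span_eq_card (gram_li hA (k v) (k w) hd)
  have h4 := (gram_nd hA (k v) (k w) hd).perp
  have h5 := φ.finrank_perp (Submodule.span F (Set.range (Sum.elim ![v, T v] ![w, T w])))
  simp only [Fintype.card_sum, Fintype.card_fin] at h2
  have h6 : ∀ x ∈ φ.perp (Submodule.span F (Set.range (Sum.elim ![v, T v] ![w, T w]))),
      T x ∈ φ.perp (Submodule.span F (Set.range (Sum.elim ![v, T v] ![w, T w]))) := fun x hx => by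
    rw [φ.mem_perp_span] at hx ⊢
    simp only [Set.forall_mem_range, Sum.forall, Fin.forall_fin_two, Sum.elim_inl, Sum.elim_inr, Matrix.cons_val_zero,
      Matrix.cons_val_one] at hx ⊢
    simp [← hS, h, hx]
  obtain ⟨e, f, hf, he⟩ := hyp_basis hA h4 (by omega)
  rw [he] at h6
  obtain ⟨p, q, h7⟩ := Submodule.mem_span_pair.1 (h6 e (Submodule.subset_span (by simp)))
  obtain ⟨r, s, h8⟩ := Submodule.mem_span_pair.1 (h6 f (Submodule.subset_span (by simp)))
  have e1 := z e
  have e2 := z f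
  have e3 := hS e f
  rw [← h7] at e1 e3
  rw [← h8] at e2 e3
  simp [hA.σ_eq, hf.Bee, hf.Bff, hf.Bef, hf.Bfe, φ.ε_ne_zero] at e1 e2 e3
  exact ⟨p, e, f, by simp [← h7, e1], by simp [← h8, e2, e3], by simp [hf.Bef]⟩

theorem fam_sp6 {c : F} (hc : ∀ t, t ^ 3 - t ≠ c) :
    Fam (Subgroup.center φ.Isom) fun (s : {s : End F V // adj φ s = s ∧ s ^ 3 - s = c • 1}) g =>
      ∃ d ∈ (⊤ : AddSubgroup F), iρ φ g * s.1 = (s.1 + d • 1) * iρ φ g := by
  have : Nontrivial V := nontrivial_of_finrank_pos (R := F) (by omega)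
  obtain ⟨v, hv⟩ := exists_ne (0 : V)
  refine fam_shf _ (alt_cen hA) _ _ (fun s hs => ?_) fun s t hs ht => ?_
  · exact ⟨φ.quasi v 1, fun d _ => shf_prop (by omega) (φ.exists_B_ne_zero hv) one_ne_zero
      (φ.quasi_apply (alt_cond hA _ _)) hc hs.2 d⟩
  have key : ∀ s : End F V, adj φ s = s ∧ s ^ 3 - s = c • 1 → (∀ x, s (s (s x)) = s x + c • x) ∧ ∃ w,
      LinearIndependent F (fam3 s v w) ∧ ∀ p p', φ.B (fam3 s v w p) (fam3 s v w p') =
        Matrix.fromBlocks 0 !![0, 0, 1; 0, 1, 0; 1, 0, 1] (-!![0, 0, 1; 0, 1, 0; 1, 0, 1]) 0 p p' := fun s hs => by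
    have hS : ∀ x y, φ.B (s x) y = φ.B x (s y) := fun x y => by rw [← B_adj, hs.1]
    have h1 : ∀ x, s (s (s x)) = s x + c • x := fun x => by
      have := LinearMap.congr_fun hs.2 x
      simp only [pow_succ, pow_zero, one_mul, End.mul_apply, LinearMap.sub_apply, LinearMap.smul_apply, End.one_apply] at this
      rw [← this, add_sub_cancel]
    obtain ⟨w, w1, w2⟩ := φ.exists_sep' (W := Submodule.span F {v, s v}) (u := s (s v)) fun h => by
      obtain ⟨a, b, hab⟩ := Submodule.mem_span_pair.1 h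
      have d : (X ^ 2 - C b * X - C a : F[X]).natDegree = 2 := by compute_degree!
      obtain ⟨p, q, hpq⟩ := (irred_as hc).1.coprime_iff_not_dvd.2 (show ¬ _ ∣ (X ^ 2 - C b * X - C a : F[X]) from fun e => by
        have := natDegree_le_of_dvd e (fun e => by simp [e] at d)
        rw [d, (irred_as hc).2] at this
        omega)
      have e := congrArg (fun r => aeval s r v) hpq
      simp only [map_add, map_mul, aeval_as.2 hs.2, mul_zero, zero_add, End.mul_apply, map_one, End.one_apply] at e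
      have : aeval s (X ^ 2 - C b * X - C a : F[X]) v = 0 := by simp [sq, ← hab]
      rw [this, map_zero] at e
      exact hv e.symm
    have g0 := w1 v (Submodule.subset_span (by simp))
    have g1 := w1 (s v) (Submodule.subset_span (by simp))
    have z : ∀ x, φ.B x x = 0 ∧ φ.B (s x) x = 0 ∧ φ.B (s (s x)) x = 0 := fun x =>
      ⟨alt_self hA x, sa_zero hA (two_ne h3) hS x, by rw [hS, alt_self hA]⟩
    refine ⟨h1, w, li3 hA h3 hS (by simp [Matrix.det_fin_three, ← hS, h1, g0, g1, w2]), ?_⟩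
    have n : ∀ x y, φ.B x y = -φ.B y x := fun x y => alt_neg hA y x
    have g0' : φ.B w v = 0 := by rw [n, g0, neg_zero]
    have g1' : φ.B (s w) v = 0 := by rw [hS, n, g1, neg_zero]
    have g2' : φ.B (s (s w)) v = -1 := by rw [hS, hS, n, w2]
    rintro (i | i) (j | j) <;> fin_cases i <;> fin_cases j <;> simp [fam3, ← hS, h1, g0, g1, w2, z, g0', g1', g2']
  obtain ⟨s1, w, s2, s3⟩ := key s hs
  obtain ⟨t1, w', t2, t3⟩ := key t ht
  obtain ⟨x, hx⟩ := φ.witt_family s2 t2 (fun i j => by rw [s3, t3]) fun i => by simp [hA.Q_eq]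
  refine ⟨x, LinearMap.ext_on_range (s2.span_eq_top_of_card_eq_finrank' (by simp [hn])) ?_⟩
  simp only [fam3, Sum.forall, Fin.forall_fin_succ, Sum.elim_inl, Sum.elim_inr, Matrix.cons_val_zero, Matrix.cons_val_succ,
    IsEmpty.forall_iff, and_true, End.mul_apply, iρ_apply] at hx ⊢
  simp [s1, t1, hx]

omit h3 in
theorem nd_ok (g : φ.Isom) {U : Submodule F V} (h : φ.NondegOn U) (h0 : U ≠ ⊥) (h1 : U ≠ ⊤) (hg : ∀ x ∈ U, g.1 x ∈ U) :
    ∃ W : {W : Submodule F V // φ.NondegOn W ∧ finrank F W = 2}, ∀ x ∈ W.1, iρ φ g x ∈ W.1 := by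
  have := h.nondeg
  obtain ⟨m, hm⟩ := even_finrank_of_alt (hA.restrict U).bilin_nondeg (hA.restrict U).bilin_alt
  have h2 := φ.finrank_perp U
  have h3 := Submodule.finrank_eq_zero.not.2 h0
  have h4 := Submodule.finrank_lt h1
  by_cases h5 : m = 1
  · exact ⟨⟨U, h, by omega⟩, hg⟩
  · exact ⟨⟨_, h.perp, by omega⟩, fun x hx => (φ.mem_stab.1 (φ.stab_le_stab_perp U (φ.mem_stab_of_le hg)) x).1 hx⟩

omit h3 hn [φ.Nondeg] [FiniteDimensional F V] in
theorem pair_ok (g : φ.Isom) {e f : V} (h : φ.B e f ≠ 0) (he : g.1 e ∈ Submodule.span F {e, f})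
    (hf : g.1 f ∈ Submodule.span F {e, f}) :
    ∃ W : {W : Submodule F V // φ.NondegOn W ∧ finrank F W = 2}, ∀ x ∈ W.1, iρ φ g x ∈ W.1 := by
  have h1 : φ.B e e * φ.B f f - φ.B e f * φ.B f e ≠ 0 := by simp [alt_self hA, alt_neg hA e f, h]
  refine ⟨⟨_, φ.nondegOn_pair h1, Form.finrank_span_pair_of_li (φ.linearIndependent_pair_of_gram h1)⟩, fun x hx => ?_⟩
  obtain ⟨a, b, rfl⟩ := Submodule.mem_span_pair.1 hx
  rw [map_add, map_smul, map_smul]
  exact add_mem (Submodule.smul_mem _ _ he) (Submodule.smul_mem _ _ hf)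

theorem nil_case (g : φ.Isom) {τ : F} {N : End F V} (hN : ∀ x, N x = g.1 x + g.1.symm x - τ • x) (h0 : ∀ x, N (N (N x)) = 0)
    (hκ : iρ φ g ^ 3 + iρ φ g⁻¹ ^ 3 = τ ^ 3 • 1) :
    (∃ W : {W : Submodule F V // φ.NondegOn W ∧ finrank F W = 2}, ∀ x ∈ W.1, iρ φ g x ∈ W.1) ∨
      ∃ D, iρ φ g * D = (D + 1) * iρ φ g := by
  have h2 := two_ne h3
  have hS : ∀ x y, φ.B (N x) y = φ.B x (N y) := fun x y => by
    simp [hN, hA.σ_eq, Form.Isom.B_symm_left, Form.Isom.B_symm_right, add_comm]
  have c1 : ∀ x, N (g.1 x) = g.1 (N x) := fun x => by simp [hN]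
  have c2 : ∀ x, N (g.1.symm x) = g.1.symm (N x) := fun x => by simp [hN]
  have hA2 : ∀ x, g.1 (g.1 x - g.1.symm x) - g.1.symm (g.1 x - g.1.symm x) = N (N x) + (2 * τ) • N x + (τ ^ 2 - 4) • x :=
    fun x => by
      simp only [hN, map_add, map_sub, map_smul, LinearEquiv.apply_symm_apply, LinearEquiv.symm_apply_apply]
      module
  by_cases a1 : ∃ v, φ.B (N (N v)) (g.1 v) ≠ 0
  · obtain ⟨v, hv⟩ := a1
    have k6 : ∀ x, (iρ φ g ^ 3) ((iρ φ g ^ 3) x) = τ ^ 3 • (iρ φ g ^ 3) x - x := fun x => by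
      have := LinearMap.congr_fun hκ ((iρ φ g ^ 3) x)
      rw [LinearMap.add_apply, ← map_pow _ g⁻¹, ← map_pow _ g, inv_pow, rho_inv] at this
      rw [← map_pow]
      exact eq_sub_of_add_eq this
    refine .inr (exists_D h3 _ ![v, (iρ φ g ^ 3) v] ?_ (by simp [hn]) fun j => ?_)
    · generalize hS' : Submodule.span F (M := V) _ = S
      have m : ∀ p : Fin 3 × Fin 2, (iρ φ g ^ (p.1 : ℕ)) (![v, (iρ φ g ^ 3) v] p.2) ∈ S := fun p =>
        hS' ▸ Submodule.subset_span ⟨p, rfl⟩
      have i1 : g ∈ φ.stab S := φ.mem_stab_of_le (show S ≤ S.comap (iρ φ g) by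
        rw [← hS', Submodule.span_le, hS']
        rintro _ ⟨⟨i, j⟩, rfl⟩
        show iρ φ g _ ∈ S
        rw [← End.mul_apply, ← pow_succ']
        fin_cases i
        · exact m (1, j)
        · exact m (2, j)
        · fin_cases j
          · exact m (0, 1)
          · exact (k6 v).symm ▸ sub_mem (S.smul_mem _ (m (0, 1))) (m (0, 0)))
      have i2 : ∀ x ∈ S, N x ∈ S := fun x hx => hN x ▸
        sub_mem (add_mem ((φ.mem_stab.1 i1 x).1 hx) ((φ.mem_stab.1 (inv_mem i1) x).1 hx)) (S.smul_mem _ hx)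
      rw [← (li_nil hA h3 hS h0 hv).span_eq_top_of_card_eq_finrank' (by simp [hn]), Submodule.span_le]
      have m0 : v ∈ S := m (0, 0)
      have m1 : g.1 v ∈ S := m (1, 0)
      rintro _ ⟨i | i, rfl⟩ <;> fin_cases i
      exacts [m0, i2 _ m0, i2 _ (i2 _ m0), m1, i2 _ m1, i2 _ (i2 _ m1)]
    · fin_cases j
      · exact Submodule.subset_span ⟨1, rfl⟩
      · exact (k6 v).symm ▸ sub_mem (Submodule.smul_mem _ _ (Submodule.subset_span ⟨1, rfl⟩)) (Submodule.subset_span ⟨0, rfl⟩)
  push Not at a1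
  have a2 : ∀ x, N (N x) = 0 := by
    by_contra! a2
    obtain ⟨x, hx⟩ := a2
    obtain ⟨y, hy⟩ := φ.exists_B_ne_zero hx
    have b1 : ∀ z, ∃ z', g.1 z - g.1.symm z = N z' := fun z => by
      have b2 : N (N (g.1 z - g.1.symm z)) = 0 := φ.eq_zero_of_B_right fun v => by
        rw [← hS, ← hS]
        exact polar_zero hA g (S := N * N) (fun a b => (hS _ _).trans (hS _ _)) (fun a => by simp [c2]) (W := ⊤)
          (fun v _ => a1 v) trivial trivial
      obtain ⟨a, ha⟩ := (Submodule.mem_span_range_iff_exists_fun F).1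
        (((li_nil hA h3 hS h0 hy).span_eq_top_of_card_eq_finrank' (by simp [hn])).ge
          (Submodule.mem_top (x := g.1 z - g.1.symm z)))
      rw [← ha] at b2 ⊢
      simp only [fam3, Fintype.sum_sum_type, Fin.sum_univ_three, Sum.elim_inl, Sum.elim_inr, Matrix.cons_val, map_add,
        map_smul, h0, map_zero, smul_zero, add_zero] at b2 ⊢
      have z1 : ∀ x, φ.B (N (N x)) x = 0 := fun x => by rw [hS, alt_self hA]
      have b3 := congrArg (φ.B · y) b2
      have b4 := congrArg (φ.B x) b2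
      simp only [map_add, LinearMap.add_apply, alt_smul hA, z1, map_zero, LinearMap.zero_apply, mul_zero, add_zero,
        mul_eq_zero, hy, or_false, map_smul, smul_eq_mul, ← hS, zero_add] at b3 b4
      exact ⟨a (.inl 1) • x + a (.inl 2) • N x + a (.inr 1) • y + a (.inr 2) • N y, by simp [b3, b4, add_assoc]⟩
    have b2 : ∀ z, (2 * τ) • N (N z) + (τ ^ 2 - 4) • N z = 0 := fun z => by
      obtain ⟨z', e1⟩ := b1 z
      obtain ⟨z'', e2⟩ := b1 z'
      have := congrArg N (hA2 z)
      rw [e1, ← c1, ← c2, ← map_sub, e2, h0] at this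
      simpa [h0] using this.symm
    have b3 : τ ^ 2 - 4 = 0 := by simpa [h0, hx] using b2 (N x)
    have b4 : τ = 0 := by simpa [b3, hx, h2] using b2 x
    exact one_ne_zero (α := F) (by rw [b4] at b3; linear_combination -b3 - h3)
  by_cases a3 : ∃ v, N v = 0 ∧ φ.B v (g.1 v) ≠ 0
  · obtain ⟨v, v1, v2⟩ := a3
    refine .inl (pair_ok hA g v2 (Submodule.subset_span (by simp)) (Submodule.mem_span_pair.2 ⟨-1, τ, ?_⟩))
    have := hN (g.1 v)
    rw [c1, v1, map_zero, LinearEquiv.symm_apply_apply] at this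
    linear_combination (norm := module) this
  push Not at a3
  have a4 : ∀ v w, N v = 0 → N w = 0 → φ.B v (g.1 w - g.1.symm w) = 0 := fun v w hv hw =>
    polar_zero hA g (S := 1) (fun _ _ => rfl) (fun _ => rfl) (W := LinearMap.ker N) a3 hv hw
  obtain ⟨l, x, y, x1, y1, xy⟩ := quad_eig hA h3 hn hS (a := 0) (b := 0) fun x => by simp [a2]
  obtain rfl : l = 0 := by
    have := a2 x
    rw [x1, map_smul, x1, smul_smul, smul_eq_zero] at this
    exact mul_self_eq_zero.1 (this.resolve_right (by rintro rfl; simp at xy))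
  rw [zero_smul] at x1 y1
  have a5 : τ ^ 2 = 1 := by
    have := a4 x (g.1 y - g.1.symm y) x1 (by simp [c1, c2, y1])
    simp only [hA2, y1, map_zero, smul_zero, zero_add, map_smul, smul_eq_mul, mul_eq_zero, xy, or_false] at this
    linear_combination this + h3
  obtain ⟨M, hM⟩ : ∃ M : End F V, M = iρ φ g + τ • 1 := ⟨_, rfl⟩
  have m1 : ∀ x, M x = g.1 x + τ • x := fun x => by simp [hM]
  have m2 : ∀ x, M (M x) = g.1 (N x) := fun x => by
    simp only [m1, hN, map_add, map_sub, map_smul, LinearEquiv.apply_symm_apply]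
    match_scalars <;> first | ring1 | linear_combination τ * h3 | linear_combination a5
  by_cases a6 : ∃ x y, M x = 0 ∧ M y = 0 ∧ φ.B x y ≠ 0
  · obtain ⟨x, y, x1, y1, xy⟩ := a6
    rw [m1, add_eq_zero_iff_eq_neg] at x1 y1
    exact .inl (pair_ok hA g xy (Submodule.mem_span_pair.2 ⟨-τ, 0, by simp [x1]⟩) (Submodule.mem_span_pair.2 ⟨0, -τ, by simp [y1]⟩))
  push Not at a6
  have a7 : ∀ x, M x = 0 → ∃ u, M (M u) = x := fun x hx => by
    obtain ⟨z, hz⟩ := mem_range_adj (φ := φ) (f := M) (a := x) fun y hy => a6 x y hx hy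
    have e1 : M (τ • g.1.symm z) = x := by
      rw [← hz, hM, map_add, adj_iρ, adj_smul, adj_one, hA.σ_eq]
      simp only [LinearMap.add_apply, iρ_apply, map_smul, LinearEquiv.apply_symm_apply, LinearMap.smul_apply, End.one_apply,
        Form.Isom.inv_apply]
      match_scalars <;> first | ring1 | linear_combination a5
    have e2 : N (τ • g.1.symm z) = 0 := g.1.injective (by rw [← m2, e1, hx, map_zero])
    obtain ⟨w, hw⟩ := mem_range_adj (φ := φ) (f := N) (a := x) fun y hy => φ.B_symm_zero (by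
      have := a4 y _ hy e2
      generalize τ • g.1.symm z = w at *
      have e3 : g.1 w - g.1.symm w = (2 : F) • x := by
        rw [hN] at e2
        rw [← e1, m1]
        linear_combination (norm := skip) -e2
        match_scalars <;> first | ring1 | linear_combination -τ * h3
      rw [e3, map_smul] at this
      simpa [h2] using this)
    rw [adj_eq hS] at hw
    exact ⟨g.1.symm w, by rw [m2, c2, hw, LinearEquiv.apply_symm_apply]⟩
  have a8 : 2 ≤ finrank F (LinearMap.ker M) := by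
    have e1 := N.finrank_range_add_finrank_ker
    have e2 : finrank F (LinearMap.range N) ≤ finrank F (LinearMap.ker N) := Submodule.finrank_mono (by
      rintro _ ⟨x, rfl⟩; exact a2 x)
    have e3 := finrank_le_two_mul M (W := LinearMap.ker N) fun w hw => by rw [m2, LinearMap.mem_ker.1 hw, map_zero]
    omega
  obtain ⟨k, hk⟩ := exists_linearIndependent_of_le_finrank a8
  choose u hu using fun j => a7 _ (k j).2
  obtain ⟨D, hD⟩ := exists_D' h3 (M := M) (-τ) (u := u) (by
    simp only [hu]; exact hk.map' (LinearMap.ker M).subtype (Submodule.ker_subtype _)) (fun j => by rw [hu]; exact (k j).2)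
    (by simp [hn])
  exact .inr ⟨D, by simpa [hM] using hD⟩

theorem cov_sp6 [Finite V] [Finite F] : Cov (φ.Isom ⧸ Subgroup.center φ.Isom) := by
  have : Nontrivial V := nontrivial_of_finrank_pos (R := F) (by omega)
  obtain ⟨c, c1, c2⟩ := exists_c φ h3
  refine cov_quot (fam_nd hA (by omega)) (fam_sp6 hA h3 hn c2) fun g => ?_
  obtain ⟨T, hT⟩ : ∃ T, T = iρ φ g + iρ φ g⁻¹ := ⟨_, rfl⟩
  have t1 : adj φ T = T := by rw [hT, map_add, adj_iρ, adj_iρ, inv_inv, add_comm]
  have t2 : iρ φ g * T = T * iρ φ g := by simp [hT, mul_add, add_mul, ← map_mul]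
  have t3 : ∀ a, adj φ (aeval T a) = aeval T a := fun a => by
    rw [adj_aeval, t1, show φ.σ = RingHom.id F from RingHom.ext hA.σ_eq, Polynomial.map_id]
  have t4 : ∀ a x y, φ.B (aeval T a x) y = φ.B x (aeval T a y) := fun a x y => by rw [← B_adj, t3]
  obtain ⟨r, r1, r2, r3⟩ := alt_rel hA h3 hn T t1
  have hi : IsIntegral F T := .of_finite F T
  have d1 := (natDegree_le_of_dvd (minpoly.dvd F T r3) r1).trans r2
  obtain ⟨p, p1, p2, p3⟩ := exists_monic_irreducible_factor _ (minpoly.not_isUnit F T)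
  obtain ⟨k, s, s1, s2⟩ := WfDvdMonoid.max_power_factor (minpoly.ne_zero hi) p2
  have k0 : k ≠ 0 := by rintro rfl; exact s1 (by simpa [s2] using p3)
  have e0 : aeval T (p ^ k) * aeval T s = 0 := by rw [← map_mul, ← s2, minpoly.aeval]
  by_cases h1 : LinearMap.ker (aeval T (p ^ k)) = ⊤
  swap
  · refine .inl (nd_ok hA hn g (fun x hx h => φ.eq_zero_of_B_left fun y => ?_) (fun h => s1 (p3.trans (minpoly.dvd F T ?_))) h1
      fun x hx => ?_)
    · obtain ⟨a, b, hab⟩ := (p2.coprime_iff_not_dvd.2 s1).pow_left (m := k)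
      have e1 := congrArg (fun r => aeval T r y) hab
      simp only [map_add, map_mul, LinearMap.add_apply, End.mul_apply, map_one, End.one_apply] at e1
      rw [← e1, map_add, aeval_comm, ← t4, LinearMap.mem_ker.1 hx, aeval_comm, h _ (LinearMap.congr_fun e0 _)]
      simp
    · exact LinearMap.ext fun x => LinearMap.ker_eq_bot.1 h (LinearMap.congr_fun e0 x |>.trans (map_zero _).symm)
    · rw [LinearMap.mem_ker, ← iρ_apply, ← End.mul_apply, ← mul_aeval t2, End.mul_apply, LinearMap.mem_ker.1 hx, map_zero]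
  rw [LinearMap.ker_eq_top] at h1
  have d2 : k * p.natDegree ≤ 3 := by
    rw [← p1.natDegree_pow]
    exact (natDegree_le_of_dvd ⟨s, s2⟩ (minpoly.ne_zero hi)).trans d1
  have d3 := p2.natDegree_pos
  have d4 : p.natDegree = 1 ∧ k ≤ 3 ∨ p.natDegree = 2 ∧ k = 1 ∨ p.natDegree = 3 := by
    obtain ⟨k, rfl⟩ := Nat.exists_eq_succ_of_ne_zero k0
    have : p.natDegree ≤ 3 := by nlinarith
    interval_cases p.natDegree <;> omega
  rcases d4 with ⟨d4, d5⟩ | ⟨d4, rfl⟩ | d4
  · rw [p1.eq_X_add_C d4] at h1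
    generalize p.coeff 0 = a at h1
    have e1 : (T + a • 1) ^ 3 = 0 := pow_eq_zero_of_le d5 (by simpa [Algebra.algebraMap_eq_smul_one] using h1)
    have z : ∀ x : End F V, 3 • x = 0 := fun x => by rw [← Nat.cast_smul_eq_nsmul F, Nat.cast_ofNat, h3, zero_smul]
    have e2 : iρ φ g ^ 3 + iρ φ g⁻¹ ^ 3 = (-a) ^ 3 • 1 := by
      have i1 : iρ φ g * iρ φ g⁻¹ = 1 := by rw [← map_mul, mul_inv_cancel, map_one]
      have i2 : iρ φ g⁻¹ * iρ φ g = 1 := by rw [← map_mul, inv_mul_cancel, map_one]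
      have e3 : T ^ 3 = iρ φ g ^ 3 + iρ φ g⁻¹ ^ 3 + 3 • T := by
        rw [hT]
        generalize iρ φ g = h, iρ φ g⁻¹ = h' at i1 i2
        rw [show (h + h') ^ 3 = h ^ 3 + h' ^ 3 + (h * (h * h') + h * h' * h + h' * h * h) +
          (h' * (h' * h) + h' * h * h' + h * h' * h') by noncomm_ring, i1, i2]
        noncomm_ring
      have e4 : (T + a • 1) ^ 3 = T ^ 3 + a ^ 3 • 1 + 3 • (a • T ^ 2 + a ^ 2 • T) := by
        simp only [pow_succ, pow_zero, one_mul, mul_add, add_mul, mul_smul_comm, smul_mul_assoc, mul_one]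
        module
      rw [e1, e3, z, z] at e4
      linear_combination (norm := module) -e4
    rcases nil_case hA h3 hn g (τ := -a) (N := T + a • 1) (fun x => by simp [hT]) (fun x => by
      simpa [pow_succ] using LinearMap.congr_fun e1 x) e2 with h | ⟨D, hD⟩
    · exact .inl h
    · obtain ⟨s, s1, s2⟩ := exists_s h3 (alt_rel hA h3 hn) g hD e2 c1
      exact .inr ⟨⟨s, s1⟩, 1, trivial, s2⟩
  · exfalso
    rw [pow_one] at h1
    obtain ⟨l, x, y, x1, -, xy⟩ := quad_eig hA h3 hn (T := T) (fun x y => by rw [← B_adj, t1]) (a := -p.coeff 1)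
      (b := -p.coeff 0) fun x => by
        have := LinearMap.congr_fun h1 x
        rw [aeval_eq_sum_range, d4] at this
        have e : p.coeff 2 = 1 := d4 ▸ p1.coeff_natDegree
        simp only [Finset.sum_range_succ, Finset.sum_range_zero, e, pow_zero, pow_one, sq, LinearMap.add_apply,
          LinearMap.smul_apply, End.mul_apply, End.one_apply, LinearMap.zero_apply] at this
        linear_combination (norm := module) this
    have := aeval_eig x1 p
    rw [h1, LinearMap.zero_apply, eq_comm, smul_eq_zero] at this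
    exact this.elim (no_root p2 d4.ge l) (by rintro rfl; simp at xy)
  · obtain ⟨a, ha⟩ := exists_root (pow_ne_zero k p2.ne_zero) h1 (irred_as c2).1 fun f hf h => by
      rw [(irred_as c2).2, natDegree_eq_of_degree_eq (degree_eq_degree_of_associated
        (hf.associated_of_dvd p2 (hf.prime.dvd_of_dvd_pow h))), d4]
    exact .inr ⟨⟨_, t3 a, aeval_as.1 ha⟩, 0, trivial, by simpa using mul_aeval t2 a⟩

end H16.Cv
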