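import Mathlib
import Cfsg.Agent.H16.Cv5
import Cfsg.Agent.H11.Zorn

/-! Normal 2-coverings, part 6: `G_2(2^a)` is covered by the stabilisers of the two types of quadratic subalgebras of the
split octonions (`cov_g2`); the list of all cases (`psu4`, `psu3`, `psp_even`, `psp6`). -/

namespace H16.Cv
open Module H10 H11.Zorn Cfsg Cfsg.Lie Matrix

variable {F : Type*} [Field F]

variable (F) in
/-- the norm form of the split octonions -/
def zN : QuadraticForm F (Fin 8 → F) :=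
  QuadraticMap.proj 0 7 - (QuadraticMap.proj 1 4 + QuadraticMap.proj 2 5 + QuadraticMap.proj 3 6)

theorem zN_apply (x : Fin 8 → F) : zN F x = x 0 * x 7 - (x 1 * x 4 + x 2 * x 5 + x 3 * x 6) := by simp [zN]

theorem zB_apply (x y : Fin 8 → F) : (Form.ofQuad (zN F)).B x y = x 0 * y 7 + x 7 * y 0 -
    (x 1 * y 4 + x 4 * y 1 + x 2 * y 5 + x 5 * y 2 + x 3 * y 6 + x 6 * y 3) := by
  simp only [Form.ofQuad_B, QuadraticMap.polar, zN_apply, Pi.add_apply]; ring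

instance zN_nondeg : (Form.ofQuad (zN F)).Nondeg := ⟨fun x h => by
  have k : ∀ i, _ := fun i => (zB_apply x (e i)).symm.trans (h (e i))
  have k0 := k 0; have k1 := k 1; have k2 := k 2; have k3 := k 3; have k4 := k 4; have k5 := k 5; have k6 := k 6
  have k7 := k 7
  simp [e] at k0 k1 k2 k3 k4 k5 k6 k7
  simp [ext8, *]⟩

theorem pres (g : Lie.G2 F) (x : Fin 8 → F) : (g • x) 0 + (g • x) 7 = x 0 + x 7 ∧ zN F (g • x) = zN F x := by
  have q : ∀ x : Fin 8 → F, zornMul x x = (x 0 + x 7) • x - zN F x • (e 0 + e 7) := fun x => by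
    simp [ext8, zm, e, zN_apply]; and_intros <;> ring
  have h := smul_mul g x x
  rw [q, q, smul_sub, smul_comm g, smul_comm g, H11.Zorn.smul_one] at h
  have h1 : (g • x) 0 + (g • x) 7 = x 0 + x 7 := by
    by_contra h0
    have h2 : g • x = g • ((zN F (g • x) - zN F x) / ((g • x) 0 + (g • x) 7 - (x 0 + x 7))) • (e 0 + e 7 : Fin 8 → F) := by
      rw [smul_comm g, H11.Zorn.smul_one]
      refine smul_right_injective _ (sub_ne_zero.2 h0) ?_
      simp only [smul_smul, mul_div_cancel₀ _ (sub_ne_zero.2 h0)]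
      generalize g • x = y at h ⊢
      linear_combination (norm := module) -h
    generalize (_ / _ : F) = c at h2
    rw [(MulAction.injective g).eq_iff] at h2
    exact h0 (by rw [h2, smul_comm g, H11.Zorn.smul_one])
  refine ⟨h1, ?_⟩
  rw [h1, sub_right_inj] at h
  simpa [e] using (congrFun h 0).symm

theorem mkAut {f : (Fin 8 → F) → Fin 8 → F} (h1 : ∀ x y, f (x + y) = f x + f y) (h2 : ∀ (c : F) x, f (c • x) = c • f x)
    (hm : ∀ x y, f (zornMul x y) = zornMul (f x) (f y)) (hN : ∀ x, zN F (f x) = zN F x) : ∃ g : Lie.G2 F, ∀ x, g • x = f x := by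
  have h := Form.ofQuad_isIsom (Q := zN F) (g := IsLinearMap.mk' f ⟨h1, h2⟩) hN
  have k : ∀ x, (glEquiv.symm ((Form.ofQuad (zN F)).toIsom (IsLinearMap.mk' f ⟨h1, h2⟩)).1).1 *ᵥ x = f x := fun x => by
    rw [← glEquiv_apply, MulEquiv.apply_symm_apply, Form.toIsom_apply _ h]; rfl
  exact ⟨⟨glEquiv.symm ((Form.ofQuad (zN F)).toIsom (IsLinearMap.mk' f ⟨h1, h2⟩)).1, fun x y => (k _).trans ((hm x y).trans (congrArg₂ _ (k x).symm (k y).symm))⟩, k⟩

theorem ex_d1 (a b c : F) : ∃ g : Lie.G2 F, ∀ x : Fin 8 → F, g • x = ![x 0 + (a * x 4 + b * x 5 + c * x 6),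
    x 1 + (x 7 - x 0 - (a * x 4 + b * x 5 + c * x 6)) * a, x 2 + (x 7 - x 0 - (a * x 4 + b * x 5 + c * x 6)) * b,
    x 3 + (x 7 - x 0 - (a * x 4 + b * x 5 + c * x 6)) * c, x 4 + (x 2 * c - x 3 * b), x 5 + (x 3 * a - x 1 * c),
    x 6 + (x 1 * b - x 2 * a), x 7 - (a * x 4 + b * x 5 + c * x 6)] := by
  refine mkAut (fun x y => ?_) (fun c x => ?_) (fun x y => ?_) fun x => ?_ <;>
    simp only [ext8, zm, zN_apply, Matrix.cons_val, Pi.add_apply, Pi.smul_apply, smul_eq_mul] <;> and_intros <;> ring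

theorem ex_d2 (a b c : F) : ∃ g : Lie.G2 F, ∀ x : Fin 8 → F, g • x = ![x 0 + (a * x 1 + b * x 2 + c * x 3),
    x 1 + (x 5 * c - x 6 * b), x 2 + (x 6 * a - x 4 * c), x 3 + (x 4 * b - x 5 * a),
    x 4 + (x 7 - x 0 - (a * x 1 + b * x 2 + c * x 3)) * a, x 5 + (x 7 - x 0 - (a * x 1 + b * x 2 + c * x 3)) * b,
    x 6 + (x 7 - x 0 - (a * x 1 + b * x 2 + c * x 3)) * c, x 7 - (a * x 1 + b * x 2 + c * x 3)] := by
  refine mkAut (fun x y => ?_) (fun c x => ?_) (fun x y => ?_) fun x => ?_ <;>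
    simp only [ext8, zm, zN_apply, Matrix.cons_val, Pi.add_apply, Pi.smul_apply, smul_eq_mul] <;> and_intros <;> ring

theorem ex_sl {p0 p1 p2 u0 u1 u2 w0 w1 w2 : F}
    (h : p0 * (u1 * w2 - u2 * w1) + p1 * (u2 * w0 - u0 * w2) + p2 * (u0 * w1 - u1 * w0) = 1) :
    ∃ g : Lie.G2 F, ∀ x : Fin 8 → F, g • x = ![x 0, x 1 * p0 + x 2 * u0 + x 3 * w0, x 1 * p1 + x 2 * u1 + x 3 * w1,
      x 1 * p2 + x 2 * u2 + x 3 * w2, x 4 * (u1 * w2 - u2 * w1) + x 5 * (w1 * p2 - w2 * p1) + x 6 * (p1 * u2 - p2 * u1),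
      x 4 * (u2 * w0 - u0 * w2) + x 5 * (w2 * p0 - w0 * p2) + x 6 * (p2 * u0 - p0 * u2),
      x 4 * (u0 * w1 - u1 * w0) + x 5 * (w0 * p1 - w1 * p0) + x 6 * (p0 * u1 - p1 * u0), x 7] := by
  refine mkAut (fun x y => ?_) (fun c x => ?_) (fun x y => ?_) fun x => ?_ <;>
    simp only [ext8, zm, zN_apply, Matrix.cons_val, Pi.add_apply, Pi.smul_apply, smul_eq_mul, true_and, and_true]
  · and_intros <;> ring
  · and_intros <;> ring
  · and_intros
    · linear_combination -(x 1 * y 4 + x 2 * y 5 + x 3 * y 6) * h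
    · linear_combination ((x 5 * y 6 - x 6 * y 5) * p0 + (x 6 * y 4 - x 4 * y 6) * u0 + (x 4 * y 5 - x 5 * y 4) * w0) * h
    · linear_combination ((x 5 * y 6 - x 6 * y 5) * p1 + (x 6 * y 4 - x 4 * y 6) * u1 + (x 4 * y 5 - x 5 * y 4) * w1) * h
    · linear_combination ((x 5 * y 6 - x 6 * y 5) * p2 + (x 6 * y 4 - x 4 * y 6) * u2 + (x 4 * y 5 - x 5 * y 4) * w2) * h
    · ring
    · ring
    · ring
    · linear_combination -(x 4 * y 1 + x 5 * y 2 + x 6 * y 3) * h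
  · linear_combination -(x 1 * x 4 + x 2 * x 5 + x 3 * x 6) * h

theorem ex_cross {b0 b1 b2 : F} (h : b0 ≠ 0 ∨ b1 ≠ 0 ∨ b2 ≠ 0) : ∃ u0 u1 u2 w0 w1 w2 : F,
    u1 * w2 - u2 * w1 = b0 ∧ u2 * w0 - u0 * w2 = b1 ∧ u0 * w1 - u1 * w0 = b2 := by
  rcases h with h | h | h
  · exact ⟨-b1, b0, 0, -b2 / b0, 0, 1, by ring, by ring, by field_simp; ring⟩
  · exact ⟨0, -b2, b1, 1, -b0 / b1, 0, by field_simp; ring, by ring, by ring⟩
  · exact ⟨b2, 0, -b0, 0, 1, -b1 / b2, by ring, by field_simp; ring, by ring⟩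

theorem ex_dot {b0 b1 b2 : F} (h : b0 ≠ 0 ∨ b1 ≠ 0 ∨ b2 ≠ 0) (t : F) : ∃ a b c : F, t + (a * b0 + b * b1 + c * b2) = 0 := by
  rcases h with h | h | h
  · exact ⟨-t / b0, 0, 0, by field_simp; ring⟩
  · exact ⟨0, -t / b1, 0, by field_simp; ring⟩
  · exact ⟨0, 0, -t / b2, by field_simp; ring⟩

theorem g2_trans (h2 : (2 : F) = 0) {n : F} (hn : n ≠ 0) (x : Fin 8 → F) (h1 : x 0 + x 7 = 1) (h : zN F x = n) :
    ∃ g : Lie.G2 F, g • (![0, 1, 0, 0, -n, 0, 0, 1] : Fin 8 → F) = x := by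
  have k1 : ∀ x : Fin 8 → F, x 1 ≠ 0 ∨ x 2 ≠ 0 ∨ x 3 ≠ 0 → ∃ g : Lie.G2 F, (g • x) 0 = 0 := fun x h => by
    obtain ⟨a, b, c, h⟩ := ex_dot h (x 0)
    obtain ⟨g, hg⟩ := ex_d2 a b c
    exact ⟨g, by rw [hg]; exact h⟩
  obtain ⟨k, hk⟩ : ∃ g : Lie.G2 F, (g • x) 0 = 0 := by
    by_cases a1 : x 4 ≠ 0 ∨ x 5 ≠ 0 ∨ x 6 ≠ 0
    · obtain ⟨a, b, c, h⟩ := ex_dot a1 (x 0)
      obtain ⟨g, hg⟩ := ex_d1 a b c
      exact ⟨g, by rw [hg]; exact h⟩
    by_cases a2 : x 1 ≠ 0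
    · exact k1 x (.inl a2)
    push Not at a1 a2
    obtain ⟨g, hg⟩ := ex_d1 (1 : F) 0 0
    obtain ⟨g', hg'⟩ := k1 (g • x) (.inl (by
      rw [hg]
      simp only [Matrix.cons_val, a1, a2]
      exact fun e => one_ne_zero (α := F) (by linear_combination e - h1 + x 0 * h2)))
    exact ⟨g' * g, by rwa [mul_smul]⟩
  obtain ⟨p1, p2⟩ := pres k x
  rw [h1] at p1
  rw [h, zN_apply] at p2
  generalize hy : k • x = y at hk p1 p2
  rw [hk, zero_add] at p1
  rw [hk] at p2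
  obtain ⟨u0, u1, u2, w0, w1, w2, c0, c1, c2⟩ := ex_cross (b0 := -y 4 / n) (b1 := -y 5 / n) (b2 := -y 6 / n) (by
    by_contra! a
    simp only [div_eq_zero_iff, neg_eq_zero, hn, or_false] at a
    simp [a] at p2
    exact hn p2.symm)
  obtain ⟨g, hg⟩ := ex_sl (p0 := y 1) (p1 := y 2) (p2 := y 3) (u0 := u0) (u1 := u1) (u2 := u2) (w0 := w0) (w1 := w1)
    (w2 := w2) (by rw [c0, c1, c2]; field_simp; linear_combination p2)
  refine ⟨k⁻¹ * g, ?_⟩
  rw [mul_smul, inv_smul_eq_iff, hy, hg, c0, c1, c2]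
  simp only [ext8, Matrix.cons_val, hk, p1]
  and_intros <;> first | ring1 | (field_simp; ring1) | trivial

theorem fam_g2 (h2 : (2 : F) = 0) {n : F} (hn : n ≠ 0) : Fam (⊥ : Subgroup (Lie.G2 F))
    fun (x : {x : Fin 8 → F // x 0 + x 7 = 1 ∧ zN F x = n}) g => ∃ t : F, g • x.1 = x.1 + t • (e 0 + e 7) := by
  have tr : ∀ x y : Fin 8 → F, x 0 + x 7 = 1 ∧ zN F x = n → y 0 + y 7 = 1 ∧ zN F y = n → ∃ g : Lie.G2 F, g • x = y :=
    fun x y hx hy => by
      obtain ⟨a, rfl⟩ := g2_trans h2 hn x hx.1 hx.2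
      obtain ⟨b, rfl⟩ := g2_trans h2 hn y hy.1 hy.2
      exact ⟨b * a⁻¹, by simp [mul_smul]⟩
  refine ⟨fun x z hz => ⟨0, by simp [Subgroup.mem_bot.1 hz]⟩, ?_, fun x => ?_, fun x y => ?_⟩
  · rintro x a b ⟨s, hs⟩ ⟨t, ht⟩
    exact ⟨s + t, by rw [mul_smul, ht, smul_add, hs, smul_comm a, H11.Zorn.smul_one, add_smul, add_assoc]⟩
  · by_contra! h
    obtain ⟨a, ha⟩ := tr x.1 ![0, 1, 0, 0, -n, 0, 0, 1] x.2 (by simp [zN_apply])
    obtain ⟨b, hb⟩ := tr x.1 ![0, 0, 1, 0, 0, -n, 0, 1] x.2 (by simp [zN_apply])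
    obtain ⟨s, hs⟩ := h a
    obtain ⟨t, ht⟩ := h b
    have e1 := congrFun (ha.symm.trans hs) 1
    have e2 := congrFun (hb.symm.trans ht) 1
    simp [e] at e1 e2
    simp [← e1] at e2
  · obtain ⟨k, hk⟩ := tr _ _ x.2 y.2
    refine ⟨k, fun g ⟨t, ht⟩ => ⟨t, ?_⟩⟩
    rw [← hk, mul_smul, inv_smul_smul, mul_smul, ht, smul_add, smul_comm k, H11.Zorn.smul_one]

theorem exists_two [Finite F] (h2 : (2 : F) = 0) (h : ∃ a : F, a ≠ 0 ∧ a ≠ 1) :
    ∃ c d : F, c ≠ 0 ∧ d ≠ 0 ∧ ∀ n : F, ∃ t, n + t + t ^ 2 = c ∨ n + t + t ^ 2 = d := by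
  let P : F →+ F := AddMonoidHom.mk' (fun t => t + t ^ 2) fun a b => by linear_combination a * b * h2
  have h1 : P.range.index = 2 := by
    rw [AddSubgroup.index_range, Nat.card_eq_two_iff]
    refine ⟨⟨0, map_zero _⟩, ⟨1, show (1 : F) + 1 ^ 2 = 0 by linear_combination h2⟩, fun e => zero_ne_one (congrArg Subtype.val e),
      Set.eq_univ_of_forall ?_⟩
    rintro ⟨t, ht⟩
    have ht' : t + t ^ 2 = 0 := ht
    have : t * (t - 1) = 0 := by linear_combination ht' - t * h2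
    exact (mul_eq_zero.1 this).imp Subtype.ext fun h => Subtype.ext (sub_eq_zero.1 h)
  obtain ⟨a, a0, a1⟩ := h
  obtain ⟨d, hd⟩ : ∃ d, d ∉ P.range := by
    by_contra! h
    rw [(AddSubgroup.eq_top_iff' _).2 h] at h1
    simp at h1
  refine ⟨P a, d, fun e => mul_ne_zero a0 (sub_ne_zero.2 a1) ?_, fun e => hd (e ▸ zero_mem _), fun n => ?_⟩
  · have e' : a + a ^ 2 = 0 := e
    linear_combination e' - a * h2
  · by_cases hn : n ∈ P.range
    · obtain ⟨t, ht⟩ := add_mem hn (⟨a, rfl⟩ : P a ∈ P.range)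
      have e' : t + t ^ 2 = n + P a := ht
      exact ⟨t, .inl (by linear_combination e' + n * h2)⟩
    · obtain ⟨t, ht⟩ := (AddSubgroup.add_mem_iff_of_index_two h1).2 (iff_of_false hn hd)
      have e' : t + t ^ 2 = n + d := ht
      exact ⟨t, .inr (by linear_combination e' + n * h2)⟩

theorem cov_g2 [Finite F] (h2 : (2 : F) = 0) (h : ∃ a : F, a ≠ 0 ∧ a ≠ 1) : Cov (Lie.G2 F) := by
  obtain ⟨c, d, hc, hd, H⟩ := exists_two h2 h
  refine cov (fam_g2 h2 hc) (fam_g2 h2 hd) fun g => ?_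
  let f : End F (Fin 8 → F) := toLin' g⁻¹.1.1 - 1
  have hf : ∀ y, f y = g⁻¹ • y - y := fun y => rfl
  have hB : ∀ x y, (Form.ofQuad (zN F)).B (g • x) (g • y) = (Form.ofQuad (zN F)).B x y := fun x y => by
    simp only [Form.ofQuad_B, QuadraticMap.polar, ← smul_add, (pres g _).2]
  obtain ⟨w, w1, w2⟩ := (Form.ofQuad (zN F)).exists_sep (W := ((Form.ofQuad (zN F)).perp (F ∙ (e 0 + e 7))).map f)
    (u := e 0 + e 7) (by
      rintro ⟨y, hy, h⟩
      have h1 := (pres g⁻¹ y).2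
      rw [hf, sub_eq_iff_eq_add] at h
      have h3 := (Form.mem_perp_singleton _).1 hy
      rw [h, zN_apply, zN_apply] at h1
      rw [zB_apply] at h3
      simp [e] at h1 h3
      exact one_ne_zero (α := F) (by linear_combination h1 - h3))
  obtain ⟨s, hs⟩ : ∃ s : F, s • (e 0 + e 7 : Fin 8 → F) = g • w - w := by
    rw [← Submodule.mem_span_singleton, ← (Form.ofQuad (zN F)).perp_perp (F ∙ _), Form.mem_perp']
    intro y hy
    have := w1 _ ⟨y, hy, rfl⟩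
    rw [hf, map_sub, ← hB, smul_inv_smul] at this
    rwa [map_sub, LinearMap.sub_apply]
  rw [zB_apply] at w2
  obtain ⟨t, ht⟩ := H (zN F w)
  have k1 : (w + t • (e 0 + e 7) : Fin 8 → F) 0 + (w + t • (e 0 + e 7) : Fin 8 → F) 7 = 1 := by
    simp [e] at w2 ⊢; linear_combination w2 + t * h2
  have k2 : zN F (w + t • (e 0 + e 7)) = zN F w + t + t ^ 2 := by
    simp [e, zN_apply] at w2 ⊢; linear_combination t * w2
  have k3 : g • (w + t • (e 0 + e 7) : Fin 8 → F) = w + t • (e 0 + e 7) + s • (e 0 + e 7) := by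
    rw [smul_add, smul_comm g, H11.Zorn.smul_one, show s • (e 0 + e 7) = _ from hs]; abel
  exact ht.imp (fun h => ⟨⟨_, k1, k2.trans h⟩, s, k3⟩) fun h => ⟨⟨_, k1, k2.trans h⟩, s, k3⟩

variable [Fintype F]

theorem cast_zero {p a : ℕ} (h : Fintype.card F = p ^ a) : (p : F) = 0 := by
  have := FiniteField.cast_card_eq_zero F
  rw [h, Nat.cast_pow] at this
  exact eq_zero_of_pow_eq_zero this

theorem psu4 {q : ℕ} (h : Fintype.card F = q ^ 2) : Cov (PSU 4 F q) :=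
  have hF := Nat.card_eq_fintype_card.trans h
  (cov_su4 (stdU_isUnitary hF 4) (by simp)).equiv (quotCenterEquiv (SUEquiv hF 4))

theorem psu3 {q a : ℕ} (h : Fintype.card F = q ^ 2) (hq : q = 3 ^ a) : Cov (PSU 3 F q) :=
  have hF := Nat.card_eq_fintype_card.trans h
  (cov_su3 (stdU_isUnitary hF 3) (by simp) (cast_zero (p := 3) (a := a * 2) (by rw [h, hq, pow_mul]))).equiv
    (quotCenterEquiv (SUEquiv hF 3))

theorem psp6 {a : ℕ} (h : Fintype.card F = 3 ^ a) : Cov (PSp 3 F) :=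
  (cov_sp6 H09.isAltF_spForm (cast_zero (p := 3) h) (by simp)).equiv (quotCenterEquiv (H09.spIsomEquiv (Fin 3) F))

theorem psp_even {m : ℕ} (hm : 2 ≤ m) (h : ¬ Odd (Fintype.card F)) : Cov (PSp m F) := by
  have h2 : (2 : F) = 0 := by
    obtain ⟨p, hp, n, h1, h2⟩ := FiniteField.card' F
    rw [h2, Nat.not_odd_iff_even, Nat.even_pow] at h
    obtain rfl := h1.even_iff.1 h.1
    exact CharP.cast_eq_zero F 2
  refine (cov_sp_even H09.isAltF_spForm h2 hm (by simp [two_mul]) (qPlus m F) fun x y => ?_).equiv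
    (quotCenterEquiv (H09.spIsomEquiv (Fin m) F))
  rw [coe_qPlus, polar_quadFormPlus, H09.spForm_B, H09.spB_apply']
  exact Finset.sum_congr rfl fun i _ => by linear_combination x (.inl i) * y (.inr i) * h2

theorem g2_even {a : ℕ} (ha : 2 ≤ a) (h : Fintype.card F = 2 ^ a) : Cov (Lie.G2 F) := by
  refine cov_g2 (cast_zero (p := 2) h) ?_
  classical
  by_contra! k
  have h1 : (Finset.univ : Finset F) ⊆ {0, 1} := fun x _ => by
    by_cases e : x = 0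
    · simp [e]
    · simp [k x e]
  have := (Finset.card_le_card h1).trans Finset.card_le_two
  have h3 := Nat.pow_le_pow_right two_pos ha
  rw [Finset.card_univ, h] at this
  omega

end H16.Cv
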