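import Mathlib
import Cfsg.Agent.H16.E6a

/-! The cubic form of type `E₆`: polarisations `PP`, `TT`, invariance under isometries, root elements `yy`. -/

set_option autoImplicit false
set_option synthInstance.maxSize 4096

namespace H16.E6
open Cfsg.Lie H11 Matrix

variable {F : Type*} [Field F]

/-- a monomial list -/
abbrev ML : Type := List (I27 × I27 × I27 × ℤ)

/-- the trilinear expression of a monomial list -/
def ev (L : ML) (x y z : I27 → F) : F := (L.map fun p => (p.2.2.2 : F) * (x p.1 * y p.2.1 * z p.2.2.1)).sum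

theorem ev_cons (p) (L : ML) (x y z : I27 → F) :
    ev (p :: L) x y z = (p.2.2.2 : F) * (x p.1 * y p.2.1 * z p.2.2.1) + ev L x y z := by simp [ev]

theorem ev_append (L L' : ML) (x y z : I27 → F) : ev (L ++ L') x y z = ev L x y z + ev L' x y z := by simp [ev]

theorem ev_nil (x y z : I27 → F) : ev [] x y z = 0 := rfl

theorem ev_expand (L : ML) (x y : I27 → F) (t : F) : ev L (x + t • y) (x + t • y) (x + t • y) =
    ev L x x x + t * ev (L.flatMap rot) x x y + t ^ 2 * ev (L.flatMap rot) y y x + t ^ 3 * ev L y y y := by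
  induction L with
  | nil => simp [ev]
  | cons p L ih =>
    simp only [List.flatMap_cons, ev_append, ev_cons, ev_nil, ih, rot, Pi.add_apply, Pi.smul_apply, smul_eq_mul]; ring

theorem ev_polar (L : ML) (x y z : I27 → F) : ev (L.flatMap rot) (x + y) (x + y) z =
    ev (L.flatMap rot) x x z + ev (L.flatMap rot) y y z + ev (L.flatMap prm) x y z := by
  induction L with
  | nil => simp [ev]
  | cons p L ih => simp only [List.flatMap_cons, ev_append, ev_cons, ev_nil, ih, rot, prm, Pi.add_apply]; ring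

theorem ev_symm (L : ML) (x y z : I27 → F) : ev (L.flatMap prm) x y z = ev (L.flatMap prm) x z y := by
  induction L with
  | nil => simp [ev]
  | cons p L ih => simp only [List.flatMap_cons, ev_append, ev_cons, ev_nil, ih, prm]; ring

theorem ev_smul (L : ML) (a b : F) (x y z : I27 → F) : ev L (a • x) (b • y) z = a * b * ev L x y z := by
  induction L with
  | nil => simp [ev]
  | cons p L ih => simp only [ev_cons, ih, Pi.smul_apply, smul_eq_mul]; ring

theorem ev_zero {L : ML} {x y z : I27 → F} (h : ∀ p ∈ L, x p.1 = 0 ∨ y p.2.1 = 0 ∨ z p.2.2.1 = 0) : ev L x y z = 0 :=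
  List.sum_eq_zero fun a ha => by
    obtain ⟨p, hp, rfl⟩ := List.mem_map.1 ha
    obtain e | e | e := h p hp <;> simp [e]

/-- multiplicity -/
def cnt (L : ML) (q : I27 × I27 × I27 × ℤ) : ℕ := (L.filter fun p => decide (p = q)).length

theorem ev_single {L : ML} {x y z : I27 → F} (q) (h : ∀ p ∈ L, p ≠ q → x p.1 = 0 ∨ y p.2.1 = 0 ∨ z p.2.2.1 = 0) :
    ev L x y z = cnt L q * ((q.2.2.2 : F) * (x q.1 * y q.2.1 * z q.2.2.1)) := by
  induction L with
  | nil => simp [ev, cnt]
  | cons p L ih =>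
    rw [ev_cons, ih fun p a => h p (List.mem_cons_of_mem _ a)]
    by_cases e : p = q
    · simp only [cnt, e, decide_true, List.filter_cons_of_pos, List.length_cons]; push_cast; ring
    · obtain a | a | a := h p List.mem_cons_self e <;> simp [cnt, e, a]

theorem cubic_eq (x : I27 → F) : cubicT x = ev pls x x x := by
  simp only [cubicT, mat3, det_fin_three, trace_fin_three, mul_apply, Fin.sum_univ_three, of_apply, ev, pls,
    List.map_cons, List.map_nil, List.sum_cons, List.sum_nil]
  push_cast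
  ring

/-- the polarisation, quadratic in `x` -/
def PP (x y : I27 → F) : F := ev (pls.flatMap rot) x x y
/-- the trilinear form -/
def TT (x y z : I27 → F) : F := ev (pls.flatMap prm) x y z
/-- basis vectors -/
def ee (w : I27) : I27 → F := Pi.single w 1

theorem ee_self (w : I27) : (ee w : I27 → F) w = 1 := by simp [ee]
theorem ee_ne {v w : I27} (h : v ≠ w) : (ee w : I27 → F) v = 0 := by simp [ee, h]

theorem cubic_expand (x y : I27 → F) (t : F) :
    cubicT (x + t • y) = cubicT x + t * PP x y + t ^ 2 * PP y x + t ^ 3 * cubicT y := by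
  simp only [cubic_eq, PP, ev_expand]

/-- the action of an isometry -/
def ac (g : E6univ F) (x : I27 → F) : I27 → F := (g.1 : Matrix I27 I27 F) *ᵥ x

theorem ac_mul (g h : E6univ F) (x) : ac (g * h) x = ac g (ac h x) := by simp [ac]
theorem ac_one (x : I27 → F) : ac 1 x = x := by simp [ac]
theorem ac_inv (g : E6univ F) (x) : ac g (ac g⁻¹ x) = x := by rw [← ac_mul, mul_inv_cancel, ac_one]
theorem inv_ac (g : E6univ F) (x) : ac g⁻¹ (ac g x) = x := by rw [← ac_mul, inv_mul_cancel, ac_one]
theorem ac_add (g : E6univ F) (x y) : ac g (x + y) = ac g x + ac g y := mulVec_add _ _ _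
theorem ac_smul (g : E6univ F) (t : F) (x) : ac g (t • x) = t • ac g x := mulVec_smul _ _ _
theorem ac_zero (g : E6univ F) : ac g 0 = 0 := mulVec_zero _
theorem cubic_ac (g : E6univ F) (x) : cubicT (ac g x) = cubicT x := g.2 x

theorem eq_one_of_ee {g : E6univ F} (h : ∀ w, ac g (ee w) = ee w) : g = 1 := by
  refine Subtype.ext (Units.ext ?_)
  ext a b
  have := congrFun (h b) a
  simpa [ac, ee, one_apply, Pi.single_apply] using this

theorem PP_ac (hK : ∃ a : F, a ≠ 0 ∧ a ≠ 1) (g : E6univ F) (x y) : PP (ac g x) (ac g y) = PP x y := by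
  obtain ⟨a, h0, h1⟩ := hK
  have key (t : F) : t * PP (ac g x) (ac g y) + t ^ 2 * PP (ac g y) (ac g x) = t * PP x y + t ^ 2 * PP y x := by
    have := cubic_ac g (x + t • y)
    rw [ac_add, ac_smul, cubic_expand, cubic_expand, cubic_ac, cubic_ac] at this
    linear_combination this
  refine mul_left_cancel₀ (mul_ne_zero h0 (sub_ne_zero.2 h1)) ?_
  linear_combination a ^ 2 * key 1 - key a

theorem TT_ac (hK : ∃ a : F, a ≠ 0 ∧ a ≠ 1) (g : E6univ F) (x y z) : TT (ac g x) (ac g y) (ac g z) = TT x y z := by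
  have h (x y z : I27 → F) : TT x y z = PP (x + y) z - PP x z - PP y z := by
    simp only [TT, PP, ev_polar]; ring
  rw [h, h, ← ac_add, PP_ac hK, PP_ac hK, PP_ac hK]

theorem tt_chk : ∀ s d, (∀ p ∈ pls.flatMap prm, p ≠ (s, d, thd s d, c2 s d) → p.1 ≠ s ∨ p.2.1 ≠ d) ∧
    (c2 s d = 0 ∨ cnt (pls.flatMap prm) (s, d, thd s d, c2 s d) = 1) := by decide +kernel

theorem TT_ee (s d : I27) (z : I27 → F) : TT (ee s) (ee d) z = c2 s d * z (thd s d) := by
  obtain ⟨h1, h2⟩ := tt_chk s d
  rw [TT, ev_single (s, d, thd s d, c2 s d) fun p a b => (h1 p a b).elim (fun e => .inl (ee_ne e)) fun e => .inr (.inl (ee_ne e))]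
  obtain e | e := h2 <;> simp [e, ee_self]

theorem TT_ee_zero {s : I27} {y : I27 → F} (h : ∀ v, Mt s v → y v = 0) (z) : TT (ee s) y z = 0 := by
  have : ∀ p ∈ pls.flatMap prm, Mt p.1 p.2.1 := by decide +kernel
  refine ev_zero fun p hp => ?_
  by_cases e : p.1 = s
  · exact .inr (.inl (h _ (e ▸ this p hp)))
  · exact .inl (ee_ne e)

theorem PP_ee (w : I27) (y : I27 → F) : PP (ee w) y = 0 := by
  have : ∀ p ∈ pls.flatMap rot, p.1 ≠ p.2.1 := by decide +kernel
  refine ev_zero fun p hp => ?_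
  by_cases e : p.1 = w
  · exact .inr (.inl (ee_ne (e ▸ (this p hp).symm)))
  · exact .inl (ee_ne e)

theorem pp_chk : ∀ w v, Mt w v → ∃ q ∈ [(w, v, thd w v, c2 w v), (v, w, thd w v, c2 w v)],
    cnt (pls.flatMap rot) q = 1 ∧ ∀ p ∈ pls.flatMap rot, p ≠ q → Sk w p.1 ∨ Sk w p.2.1 ∨ p.2.2.1 ≠ thd w v := by
  decide +kernel

theorem c2_pm : ∀ a b, Mt a b → c2 a b = 1 ∨ c2 a b = -1 := by decide +kernel

theorem c2_ne {a b} (h : Mt a b) : (c2 a b : F) ≠ 0 := by
  obtain e | e := c2_pm a b h <;> simp [e]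

theorem white {x : I27 → F} (hx : ∀ y, PP x y = 0) {w} (h0 : x w ≠ 0) (h : ∀ v, Sk w v → x v = 0) : x = x w • ee w := by
  funext v
  by_cases e : v = w
  · simp [e, ee_self]
  rw [Pi.smul_apply, ee_ne e, smul_zero]
  by_cases e' : Mt w v
  · obtain ⟨q, hq, h1, h2⟩ := pp_chk w v e'
    have := hx (ee (thd w v))
    rw [PP, ev_single q fun p a b => (h2 p a b).imp (h _) (Or.imp (h _) ee_ne), h1] at this
    have c := c2_ne (F := F) e'
    simp only [List.mem_cons, List.not_mem_nil, or_false] at hq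
    obtain rfl | rfl := hq <;> simpa [c, h0, ee_self] using this
  · exact h v ⟨Ne.symm e, not_not.1 e'⟩

end H16.E6
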