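import Mathlib
import Cfsg.Agent.H16.E6b

/-! Root elements `yy` of the isometry group of the cubic form of type `E₆`; Steinberg relations. -/

set_option autoImplicit false
set_option synthInstance.maxSize 4096

namespace H16.E6
open Cfsg.Lie H11 Matrix

variable {F : Type*} [Field F]

theorem canc {κ : Type*} [DecidableEq κ] (g : κ → F) (M : List (ℤ × κ))
    (h : ∀ m ∈ M, ((M.filter fun m' => decide (m'.2 = m.2)).map Prod.fst).sum = 0) :
    (M.map fun m => (m.1 : F) * g m.2).sum = 0 := by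
  have key (K : Finset κ) (M : List (ℤ × κ)) (hK : ∀ m ∈ M, m.2 ∈ K) : (M.map fun m => (m.1 : F) * g m.2).sum =
      ∑ k ∈ K, (((M.filter fun m' => decide (m'.2 = k)).map Prod.fst).sum : ℤ) * g k := by
    induction M with
    | nil => simp
    | cons m M ih =>
      rw [List.map_cons, List.sum_cons, ih fun a b => hK a (List.mem_cons_of_mem _ b),
        ← Finset.sum_ite_eq_of_mem K m.2 (fun k => (m.1 : F) * g k) (hK m List.mem_cons_self), ← Finset.sum_add_distrib]
      refine Finset.sum_congr rfl fun k _ => ?_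
      by_cases e : m.2 = k
      · simp [e, add_mul]
      · simp [e]
  rw [key (M.map Prod.snd).toFinset M fun m hm => List.mem_toFinset.2 (List.mem_map_of_mem hm)]
  refine Finset.sum_eq_zero fun k hk => ?_
  obtain ⟨m, hm, rfl⟩ := List.mem_map.1 (List.mem_toFinset.1 hk)
  rw [h m hm]; simp

/-- sorted triple -/
def srt (a b c : I27) : I27 × I27 × I27 :=
  if ix a ≤ ix b then (if ix b ≤ ix c then (a, b, c) else if ix a ≤ ix c then (a, c, b) else (c, a, b))
  else (if ix a ≤ ix c then (b, a, c) else if ix b ≤ ix c then (b, c, a) else (c, b, a))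

/-- the root vector applied to a vector -/
def xv (r : ℕ) (x : I27 → F) : I27 → F := fun v => sr r v * x (src r v)

/-- the monomials of the derivative -/
def mons (r : ℕ) (L : ML) : List (ℤ × I27 × I27 × I27) :=
  (L.filter fun p => decide (sr r p.2.2.1 ≠ 0)).map fun p => (p.2.2.2 * sr r p.2.2.1, srt p.1 p.2.1 (src r p.2.2.1))

theorem ev_mons (r : ℕ) (L : ML) (x : I27 → F) :
    ev L x x (xv r x) = ((mons r L).map fun m => (m.1 : F) * (x m.2.1 * x m.2.2.1 * x m.2.2.2)).sum := by
  induction L with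
  | nil => simp [ev, mons]
  | cons p L ih =>
    rw [ev_cons, ih]
    by_cases e : sr r p.2.2.1 = 0
    · simp [mons, e, xv]
    · simp only [mons, ne_eq, e, not_false_eq_true, decide_true, List.filter_cons_of_pos, List.map_cons, List.sum_cons, xv]
      congr 1
      unfold srt; push_cast
      split_ifs <;> ring

theorem mons_chk : ∀ r : Fin 72, ∀ m ∈ mons r (pls.flatMap rot),
    (((mons r (pls.flatMap rot)).filter fun m' => decide (m'.2 = m.2)).map Prod.fst).sum = 0 := by decide +kernel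

theorem one_chk : ∀ r : Fin 72, ∀ p ∈ pls.flatMap rot, sr r p.1 = 0 ∨ sr r p.2.1 = 0 := by decide +kernel

theorem cubic_xv (r : Fin 72) (t : F) (x : I27 → F) : cubicT (x + t • xv r x) = cubicT x := by
  have h1 : PP x (xv r x) = 0 := by
    rw [PP, ev_mons]; exact canc (fun k : I27 × I27 × I27 => x k.1 * x k.2.1 * x k.2.2) _ (mons_chk r)
  have h2 : PP (xv r x) x = 0 := ev_zero fun p hp =>
    (one_chk r p hp).elim (fun e => .inl (by simp [xv, e])) fun e => .inr (.inl (by simp [xv, e]))
  have h3 : cubicT (xv r x) = 0 := by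
    rw [cubic_eq]
    exact ev_zero fun p hp => (one_chk r p (List.mem_flatMap.2 ⟨p, hp, by simp [rot]⟩)).elim
      (fun e => .inl (by simp [xv, e])) fun e => .inr (.inl (by simp [xv, e]))
  rw [cubic_expand, h1, h2, h3]; ring

theorem LM_sq (r : Fin 72) : LM r (XM r) = 0 := by
  ext v w; simp [LM_XM, sq_all r v]

theorem XM_sq (r : Fin 72) : (Int.castRingHom F).mapMatrix (XM r) * (Int.castRingHom F).mapMatrix (XM r) = 0 := by
  rw [← map_mul, ← LM_eq, LM_sq, map_zero]

theorem XM_mulVec (r : ℕ) (x : I27 → F) : (Int.castRingHom F).mapMatrix (XM r) *ᵥ x = xv r x := by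
  funext v
  simp only [mulVec, dotProduct, RingHom.mapMatrix_apply, map_apply, XM, of_apply, xv]
  rw [Finset.sum_eq_single (src r v)]
  · simp
  · intro b _ e; simp [e]
  · simp

/-- root elements -/
def yy (r : Fin 72) (t : F) : E6univ F :=
  ⟨⟨1 + t • (Int.castRingHom F).mapMatrix (XM r), 1 - t • (Int.castRingHom F).mapMatrix (XM r),
    by simp only [mul_sub, add_mul, one_mul, mul_one, smul_mul_smul_comm, XM_sq]; simp,
    by simp only [mul_add, sub_mul, one_mul, mul_one, smul_mul_smul_comm, XM_sq]; simp⟩, fun x => by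
    simp only [Units.coeHom_apply, add_mulVec, smul_mulVec, one_mulVec, XM_mulVec, cubic_xv]⟩

theorem ac_yy (r : Fin 72) (t : F) (x v) : ac (yy r t) x v = x v + t * (sr r v * x (src r v)) := by
  simp only [ac, yy, add_mulVec, smul_mulVec, one_mulVec, XM_mulVec]; rfl

theorem rel_yy : StRel (D := chevE6) (yy (F := F)) :=
  H10.stRel_of_matrix ((Units.coeHom _).comp (E6univ F).subtype) (Units.val_injective.comp Subtype.val_injective) _ XM LM
    LM_eq XM_zero (fun _ _ => rfl) LM_sq fun r s a b => chk_sound (chk_all r s a b)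

theorem yy_fix {r : Fin 72} {s : I27} (h : Kl r s) (t : F) : ac (yy r t) (ee s) = ee s := by
  funext v
  rw [ac_yy]
  by_cases e : src r v = s
  · simp [h v e]
  · simp [ee_ne e]

theorem sr_pm : ∀ (r : Fin 72) v, sr r v ≠ 0 → sr r v = 1 ∨ sr r v = -1 := by decide +kernel

theorem sr_ne {r : Fin 72} {v} (h : sr r v ≠ 0) : (sr r v : F) ≠ 0 := by
  obtain e | e := sr_pm r v h <;> simp [e]

theorem rev_chk : ∀ (r : Fin 72) v, sr r v ≠ 0 → sr r.rev v = 0 ∧ sr r (src r v) = 0 ∧ sr r.rev (src r v) = sr r v ∧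
    src r.rev (src r v) = v := by decide +kernel

/-- torus elements -/
def hh (r : Fin 72) (c : F) : E6univ F := yy r c * yy r.rev (-c⁻¹) * yy r c * yy r (-1) * yy r.rev 1 * yy r (-1)

theorem ac_hh (r : Fin 72) {c : F} (hc : c ≠ 0) (x v) :
    ac (hh r c) x v = (if sr r v ≠ 0 then c else if sr r.rev v ≠ 0 then c⁻¹ else 1) * x v := by
  simp only [hh, ac_mul]
  split_ifs with h1 h2
  · obtain ⟨a1, a2, a3, a4⟩ := rev_chk r v h1
    simp only [ac_yy, a1, a2, a3, a4]
    obtain e | e := sr_pm r v h1 <;> simp only [e] <;> push_cast <;> field_simp <;> ring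
  · obtain ⟨a1, a2, a3, a4⟩ := rev_chk r.rev v h2
    rw [Fin.rev_rev] at a1 a3 a4
    simp only [ac_yy, a1, a2, a3, a4]
    obtain e | e := sr_pm r.rev v h2 <;> simp only [e] <;> push_cast <;> field_simp <;> ring
  · simp only [ac_yy, not_not.1 h1, not_not.1 h2]; simp

theorem center_ne : Subgroup.center (E6univ F) ≠ ⊤ := fun h => by
  have h1 : (yy 0 1 : E6univ F) ∈ Subgroup.center _ := h ▸ Subgroup.mem_top _
  obtain ⟨v, hv⟩ : ∃ v, sr (0 : Fin 72) v ≠ 0 := by decide +kernel
  obtain ⟨a1, a2, a3, a4⟩ := rev_chk 0 v hv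
  have h2 := congrFun (congrArg (ac · (ee v)) (Subgroup.mem_center_iff.1 h1 (yy (Fin.rev 0) 1))) v
  have h3 : src (0 : Fin 72) v ≠ v := fun e => hv (e ▸ a2)
  simp only [ac_mul, ac_yy, a1, a2, a3, a4, ee_self, ee_ne h3] at h2
  obtain e | e := sr_pm 0 v hv <;> rw [e] at h2 <;> simp at h2

end H16.E6
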