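import Mathlib
import Cfsg.Agent.H16.E6c

/-! The isometry group of the cubic form of type `E₆` is generated by the root elements (`gen_top`), so modulo its
centre it is the Chevalley group (`exists_equiv`). -/

set_option autoImplicit false
set_option synthInstance.maxSize 4096

namespace H16.E6
open Cfsg.Lie H11 Matrix

variable {F : Type*} [Field F]

variable (F) in
/-- the group generated by the root elements -/
def G0 : Subgroup (E6univ F) := Subgroup.closure {g | ∃ r t, g = yy r t}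

theorem yy_mem (r : Fin 72) (t : F) : yy r t ∈ G0 F := Subgroup.subset_closure ⟨r, t, rfl⟩

/-- fixing a coordinate line -/
def Fx (g : E6univ F) (s : I27) : Prop := ∃ a : F, ac g (ee s) = a • ee s

theorem Fx.ne {g : E6univ F} {s : I27} {a : F} (h : ac g (ee s) = a • ee s) : a ≠ 0 := fun e => by
  have := congrFun (inv_ac g (ee s)) s
  rw [h, e, zero_smul, ac_zero, ee_self] at this
  exact zero_ne_one this

theorem Fx.mul {g : E6univ F} {s : I27} (h : Fx g s) {r : Fin 72} (hr : Kl r s) (t : F) : Fx (yy r t * g) s := by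
  obtain ⟨a, h⟩ := h
  exact ⟨a, by rw [ac_mul, h, ac_smul, yy_fix hr]⟩

theorem thd_chk : ∀ s v, Mt s v → Mt s (thd s v) ∧ thd s (thd s v) = v := by decide +kernel

section
variable (hK : ∃ a : F, a ≠ 0 ∧ a ≠ 1) {g : E6univ F}
include hK

theorem L1 {s w v : I27} (h : Fx g s) (h1 : ¬ Mt s w) (h2 : Mt s v) : ac g (ee w) v = 0 := by
  obtain ⟨a, h⟩ := h
  obtain ⟨b1, b2⟩ := thd_chk s v h2
  have e := TT_ac hK g (ee s) (ac g⁻¹ (ee (thd s v))) (ee w)
  rw [ac_inv, h, ← one_smul F (ee (thd s v)), TT, ev_smul, ← TT, TT_ee, b2, TT, ev_symm, ← TT, TT_ee, not_not.1 h1] at e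
  simpa [Fx.ne h, c2_ne b1] using e

theorem L2 {s w : I27} (h : Fx g s) (h1 : Mt s w) : ∃ v, Mt s v ∧ ac g (ee w) v ≠ 0 := by
  obtain ⟨a, h⟩ := h
  by_contra! H
  have e := TT_ac hK g (ee s) (ee w) (ee (thd s w))
  rw [h, ← one_smul F (ac g (ee w)), TT, ev_smul, ← TT, TT_ee_zero H, TT_ee, ee_self] at e
  exact c2_ne h1 (by simpa using e.symm)

theorem L3 {s s' : I27} {a b : F} (h : ac g (ee s) = a • ee s) (h' : ac g (ee s') = b • ee s') (h1 : Mt s s') :
    a * b * ac g (ee (thd s s')) (thd s s') = 1 := by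
  have e := TT_ac hK g (ee s) (ee s') (ee (thd s s'))
  rw [h, h', TT, ev_smul, ← TT, TT_ee, TT_ee, ee_self] at e
  exact mul_left_cancel₀ (c2_ne h1) (by linear_combination e)

theorem white_ac (w y) : PP (ac g (ee w)) y = 0 := by rw [← ac_inv g y, PP_ac hK, PP_ee]

end

variable (F) in
/-- isometries fixing the lines of `S` are generated by root elements -/
def RR (S : List I27) : Prop := ∀ g : E6univ F, (∀ s ∈ S, Fx g s) → g ∈ G0 F

variable (F) in
/-- the same with a nonzero entry -/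
def QQ (S : List I27) (w v : I27) : Prop := ∀ g : E6univ F, (∀ s ∈ S, Fx g s) → ac g (ee w) v ≠ 0 → g ∈ G0 F

/-- the root `w - v` -/
def rf (v w : I27) : Fin 72 := Fin.ofNat 72 (rt v w)

theorem rf_chk : ∀ w v, Sk w v → src (rf w v) v = w ∧ sr (rf w v) v ≠ 0 ∧ sr (rf w v) w = 0 ∧
    (∀ u, Sk w u → u ≠ v → sr (rf w v) u = 0) ∧ ∀ s, s ≠ w → Mt s w ∨ ¬ Mt s v → Kl (rf w v) s := by decide +kernel

theorem of_mul {g u : E6univ F} (hu : u ∈ G0 F) (h : u * g ∈ G0 F) : g ∈ G0 F := by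
  simpa using mul_mem (inv_mem hu) h

theorem move (hK : ∃ a : F, a ≠ 0 ∧ a ≠ 1) {S : List I27} {w : I27} (h : RR F (w :: S)) : QQ F S w w := by
  classical
  intro g
  induction hn : (Finset.univ.filter fun v => Sk w v ∧ ac g (ee w) v ≠ 0).card using Nat.strong_induction_on
    generalizing g with
  | _ n ih =>
  intro hS h0
  by_cases e : ∃ v, Sk w v ∧ ac g (ee w) v ≠ 0
  · obtain ⟨v, h1, h2⟩ := e
    obtain ⟨a1, a2, a3, a4, a5⟩ := rf_chk w v h1
    set t := -ac g (ee w) v / (sr (rf w v) v * ac g (ee w) w)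
    refine of_mul (yy_mem (rf w v) t) (ih _ ?_ _ rfl (fun s hs => (hS s hs).mul (a5 s ?_ ?_) t) ?_)
    · rw [← hn]
      refine Finset.card_lt_card ⟨fun u hu => ?_, fun hu => ?_⟩
      · simp only [Finset.mem_filter, Finset.mem_univ, true_and, ac_mul, ac_yy] at hu ⊢
        refine ⟨hu.1, ?_⟩
        by_cases e : u = v
        · exact e ▸ h2
        · simpa [a4 u hu.1 e] using hu.2
      · have := hu (Finset.mem_filter.2 ⟨Finset.mem_univ v, h1, h2⟩)
        simp only [Finset.mem_filter, Finset.mem_univ, true_and, ac_mul, ac_yy, a1] at this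
        refine this.2 ?_
        have := sr_ne (F := F) a2
        simp only [t]; field_simp; ring
    · rintro rfl
      obtain ⟨a, ha⟩ := hS s hs
      exact h2 (by rw [ha, Pi.smul_apply, ee_ne h1.1.symm, smul_zero])
    · by_cases e : Mt s w
      · exact .inl e
      · exact .inr fun e' => h2 (L1 hK (hS s hs) e e')
    · simpa [ac_mul, ac_yy, a3] using h0
  · push Not at e
    refine h g fun s hs => ?_
    obtain rfl | hs := List.mem_cons.1 hs
    · exact ⟨_, white (white_ac hK s) h0 e⟩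
    · exact hS s hs

/-- an admissible move of a nonzero entry -/
abbrev Eg (S : List I27) (v u : I27) : Prop := Sk v u ∧ ∀ s ∈ S, Kl (rf v u) s

theorem QQ.edge {S : List I27} {w v u : I27} (h : QQ F S w u) (he : Eg S v u) : QQ F S w v := by
  intro g hS h0
  by_cases e : ac g (ee w) u = 0
  · obtain ⟨a1, a2, -⟩ := rf_chk v u he.1
    refine of_mul (yy_mem (rf v u) 1) (h _ (fun s hs => (hS s hs).mul (he.2 s hs) 1) ?_)
    simpa [ac_mul, ac_yy, e, a1, sr_ne a2] using h0
  · exact h g hS e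

/-- reachable in two moves -/
abbrev Gd (S : List I27) (w v : I27) : Prop := v = w ∨ Eg S v w ∨ ∃ u, Eg S v u ∧ Eg S u w

/-- compatible -/
abbrev Cp (S : List I27) (w v : I27) : Prop := ∀ s ∈ S, Mt s w ∨ ¬ Mt s v

/-- an admissible step -/
abbrev St (S : List I27) (w : I27) : Prop := (∃ s ∈ S, ∃ s' ∈ S, Mt s s' ∧ thd s s' = w) ∨ (∀ v, Cp S w v → Gd S w v) ∨
  ∃ s ∈ S, Mt s w ∧ ∀ v, Mt s v → Cp S w v → Gd S w v

theorem step (hK : ∃ a : F, a ≠ 0 ∧ a ≠ 1) {S : List I27} {w : I27} (h : RR F (w :: S)) (hs : St S w) : RR F S := by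
  have h1 := move hK h
  intro g hS
  have key (v) (h0 : ac g (ee w) v ≠ 0) (hv : Cp S w v → Gd S w v) : g ∈ G0 F := by
    obtain rfl | e | ⟨u, e, e'⟩ := hv fun s hs => or_iff_not_imp_left.2 fun a b => h0 (L1 hK (hS s hs) a b)
    exacts [h1 g hS h0, h1.edge e g hS h0, (h1.edge e').edge e g hS h0]
  obtain ⟨s, a, s', a', b, rfl⟩ | hs | ⟨s, a, b, c⟩ := hs
  · obtain ⟨x, hx⟩ := hS s a
    obtain ⟨y, hy⟩ := hS s' a'
    exact h1 g hS fun e => by simpa [e] using L3 hK hx hy b
  · obtain ⟨v, hv⟩ : ∃ v, ac g (ee w) v ≠ 0 := by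
      by_contra! H
      have := congrFun (inv_ac g (ee w)) w
      rw [show ac g (ee w) = 0 from funext H, ac_zero, ee_self] at this
      exact zero_ne_one this
    exact key v hv (hs v)
  · obtain ⟨v, h2, hv⟩ := L2 hK (hS s a) b
    exact key v hv (c v h2)

/-- a sequence of steps -/
def chain (P : List I27 → I27 → Bool) : List I27 → List I27 → Bool
  | S, [] => decide (∀ w, w ∈ S)
  | S, w :: ws => P S w && chain P (w :: S) ws

theorem chain_ind {P : List I27 → I27 → Bool} {R : List I27 → Prop} (h0 : ∀ S, (∀ w, w ∈ S) → R S)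
    (h1 : ∀ S w, R (w :: S) → P S w = true → R S) (ws S) (h : chain P S ws = true) : R S := by
  induction ws generalizing S with
  | nil => exact h0 S (of_decide_eq_true h)
  | cons w ws ih =>
    rw [chain, Bool.and_eq_true] at h
    exact h1 S w (ih _ h.2) h.1

/-- an admissible torus step -/
abbrev Ts (S : List I27) (w : I27) : Prop := (∃ s ∈ S, ∃ s' ∈ S, Mt s s' ∧ thd s s' = w) ∨
  ∃ r : Fin 72, sr r w ≠ 0 ∧ ∀ s ∈ S, sr r s = 0 ∧ sr r.rev s = 0

theorem hh_ee (r : Fin 72) {c : F} (hc : c ≠ 0) (s) :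
    ac (hh r c) (ee s) = (if sr r s ≠ 0 then c else if sr r.rev s ≠ 0 then c⁻¹ else 1) • ee s := by
  funext v
  rw [ac_hh r hc]
  by_cases e : v = s
  · rw [e]; rfl
  · simp [ee_ne e]

theorem diag_mem (hK : ∃ a : F, a ≠ 0 ∧ a ≠ 1) (g : E6univ F) (hg : ∀ s, Fx g s) : g ∈ G0 F := by
  refine chain_ind (P := fun S w => decide (Ts S w))
    (R := fun S => ∀ g : E6univ F, (∀ s, Fx g s) → (∀ s ∈ S, ac g (ee s) = ee s) → g ∈ G0 F)
    (fun S h g _ h' => by rw [eq_one_of_ee fun w => h' w (h w)]; exact one_mem _) (fun S w h hs g hg hS => ?_)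
    ([0, 1, 2, 3, 7, 8, 4, 5, 6, 9, 18, 19, 20, 12, 15, 10, 14, 16, 17, 21, 22, 23, 24, 25, 26, 11, 13].map un) []
    (by decide +kernel) g hg (by simp)
  obtain ⟨a, ha⟩ := hg w
  obtain ⟨s, b, s', b', c, rfl⟩ | ⟨r, b, c⟩ := of_decide_eq_true hs
  · refine h g hg fun v hv => ?_
    obtain rfl | hv := List.mem_cons.1 hv
    · have := L3 hK ((hS s b).trans (one_smul _ _).symm) ((hS s' b').trans (one_smul _ _).symm) c
      rw [ha] at this ⊢
      rw [show a = 1 by simpa [ee_self] using this, one_smul]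
    · exact hS v hv
  · have h0 := inv_ne_zero (Fx.ne ha)
    refine of_mul (u := hh r a⁻¹) (by unfold hh; repeat first | exact yy_mem _ _ | apply mul_mem) (h _ (fun s => ?_) fun v hv => ?_)
    · obtain ⟨d, hd⟩ := hg s
      exact ⟨_, by rw [ac_mul, hd, ac_smul, hh_ee r h0, smul_smul]⟩
    · obtain rfl | hv := List.mem_cons.1 hv
      · rw [ac_mul, ha, ac_smul, hh_ee r h0, if_pos b, smul_smul, mul_inv_cancel₀ (Fx.ne ha), one_smul]
      · rw [ac_mul, hS v hv, hh_ee r h0, if_neg (not_not.2 (c v hv).1), if_neg (not_not.2 (c v hv).2), one_smul]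

theorem gen_top (hK : ∃ a : F, a ≠ 0 ∧ a ≠ 1) : G0 F = ⊤ := by
  refine eq_top_iff.2 fun g _ => chain_ind (P := fun S w => decide (St S w)) (R := RR F)
    (fun S h g h' => diag_mem hK g fun w => h' w (h w)) (fun S w h hs => step hK h (of_decide_eq_true hs))
    ([0, 4, 1, 3, 8, 2, 5, 6, 7, 9, 12, 10, 13, 15, 11, 14, 16, 17, 18, 19, 20, 21, 22, 23, 24, 25, 26].map un) []
    (by decide +kernel) g (by simp)

theorem exists_equiv (hK : ∃ a : F, a ≠ 0 ∧ a ≠ 1) : Nonempty (chevE6.group F ≃* E6 F) :=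
  have := good_of_mem (D := chevE6) (by simp)
  have := cert_of_mem (D := chevE6) (by simp)
  H10.chev_equiv_of_rel (by simp) (fun _ => hK) rel_yy (gen_top hK) center_ne

end H16.E6
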