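import Mathlib
import Cfsg.Agent.H16.Eo1
import Cfsg.Agent.H16.SpecO
import Cfsg.Agent.H16.SpecPG
import Cfsg.Agent.H28.El2

/-!
# Block slots and the `r`-part of the order of an orthogonal group (namespace `H16.Eo`)
`Slot c β k θ s` : a space with invariants `(k, θ)` has room for `s` orthogonal blocks with invariants `(c, β)`;
`ec` is the largest such `s`; `val_card` computes the `r`-adic valuation of the order of the isometry group.
-/

set_option autoImplicit false
set_option linter.unusedSectionVars false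
set_option linter.style.haveILetI false

namespace H16.Eo
open Module H10 H10.Form

/-- room for `s` blocks -/
def Slot (c : ℕ) (β : ℤˣ) (k : ℕ) (θ : ℤˣ) (s : ℕ) : Prop := s * c ≤ k ∧ (s * c = k → θ = β ^ s)

/-- the largest number of blocks -/
def ec (c : ℕ) (β : ℤˣ) (k : ℕ) (θ : ℤˣ) : ℕ := if k % c = 0 ∧ θ ≠ β ^ (k / c) then k / c - 1 else k / c

theorem slot_iff {c : ℕ} (hc : 0 < c) {β : ℤˣ} {k : ℕ} {θ : ℤˣ} (h0 : k = 0 → θ = 1) (s : ℕ) :
    Slot c β k θ s ↔ s ≤ ec c β k θ := by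
  have h1 : s * c ≤ k ↔ s ≤ k / c := (Nat.le_div_iff_mul_le hc).symm
  have h2 : s * c = k ↔ k % c = 0 ∧ s = k / c := by
    constructor
    · rintro rfl; simp [hc]
    · rintro ⟨h, rfl⟩; exact Nat.div_mul_cancel (Nat.dvd_of_mod_eq_zero h)
  rw [Slot, ec, h1, h2]
  split_ifs with h
  · have : k / c ≠ 0 := fun e => by
      have := Nat.div_add_mod k c
      rw [e, h.1] at this
      exact h.2 (by rw [e, h0 (by omega), pow_zero])
    constructor
    · rintro ⟨h3, h4⟩
      have : s ≠ k / c := fun e => h.2 (e ▸ h4 ⟨h.1, e⟩)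
      omega
    · exact fun h3 => ⟨h3.trans (Nat.sub_le _ _), fun e => by have := e.2; omega⟩
  · refine ⟨fun h => h.1, fun h3 => ⟨h3, fun e => ?_⟩⟩
    rw [e.2]; by_contra h4; exact h ⟨e.1, h4⟩

theorem ec_eq {c : ℕ} (β : ℤˣ) {a k : ℕ} (hk : k < c) (θ : ℤˣ) :
    ec c β (a * c + k) θ = if k = 0 ∧ θ ≠ β ^ a then a - 1 else a := by
  have h1 : (a * c + k) / c = a := by
    rw [add_comm, Nat.add_mul_div_right _ _ (by omega), Nat.div_eq_of_lt hk, zero_add]
  rw [ec, h1, add_comm, Nat.add_mul_mod_self_right, Nat.mod_eq_of_lt hk]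

/-- block dimension -/
def cI (i : ℕ) : ℕ := if Even i then i else 2 * i
/-- half the block dimension -/
def bI (i : ℕ) : ℕ := if Even i then i / 2 else i
/-- block type -/
def σI (i : ℕ) : ℤˣ := if Even i then -1 else 1

theorem cI_eq (i : ℕ) : cI i = 2 * bI i := by
  unfold cI bI; split_ifs with h
  · obtain ⟨a, rfl⟩ := h; omega
  · rfl

theorem bI_pos {i : ℕ} (hi : 0 < i) : 0 < bI i := by
  unfold bI; split_ifs with h
  · obtain ⟨a, rfl⟩ := h; omega
  · exact hi

theorem cI_pos {i : ℕ} (hi : 0 < i) : 0 < cI i := by rw [cI_eq]; have := bI_pos hi; omega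

theorem dvd_two_mul_iff (i a : ℕ) : i ∣ 2 * a ↔ bI i ∣ a := by
  refine eta_dvd_iff ?_
  unfold bI; split_ifs with h
  · obtain ⟨a, rfl⟩ := id h; exact Or.inr ⟨h, by omega⟩
  · exact Or.inl ⟨Nat.not_even_iff_odd.1 h, rfl⟩

theorem dvd_mul_iff {i : ℕ} (hi : 0 < i) (s : ℕ) : i ∣ s * bI i ↔ σI i ^ s = 1 := by
  unfold bI σI; split_ifs with h
  · obtain ⟨a, rfl⟩ := h
    rw [show (a + a) / 2 = a by omega, ← two_mul, Nat.mul_dvd_mul_iff_right (by omega), ← even_iff_two_dvd]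
    rcases Nat.even_or_odd s with h | h
    · simp [h, h.neg_one_pow]
    · rw [h.neg_one_pow]; simpa using h
  · simp

section
variable (F : Type*) [Field F] [Fintype F] (r : ℕ)

/-- the order of `q` modulo `r` -/
noncomputable abbrev oI : ℕ := orderOf ((Fintype.card F : ℕ) : ZMod r)
/-- invariant of a block -/
noncomputable def βI (i : ℕ) : ℤˣ := σI i * κ F ^ bI i
/-- valuation of `s` blocks -/
noncomputable def SV (e : ℕ) : ℕ := ∑ u ∈ Finset.range e, padicValNat r (Fintype.card F ^ ((u + 1) * cI (oI F r)) - 1)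

variable {F r} [hr : Fact r.Prime] (h0 : (r : F) ≠ 0) (h2 : r ≠ 2)

theorem pow_sub_ne_zero {k : ℕ} (hk : k ≠ 0) : Fintype.card F ^ k - 1 ≠ 0 :=
  Nat.sub_ne_zero_of_lt (Nat.one_lt_pow hk Fintype.one_lt_card)

include h0

theorem oI_pos : 0 < oI F r := H28.El.ord_pos h0

theorem SV_strictMono : StrictMono (SV F r) := by
  refine strictMono_nat_of_lt_succ fun e => ?_
  rw [SV, SV, Finset.sum_range_succ, lt_add_iff_pos_right]
  have := cI_pos (oI_pos h0)
  refine one_le_padicValNat_of_dvd (pow_sub_ne_zero (by positivity)) ?_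
  rw [dvd_pow_sub_one_iff Fintype.card_pos, cI_eq, ← mul_assoc, mul_comm _ 2, mul_assoc, dvd_two_mul_iff]
  exact Dvd.intro_left _ rfl

theorem val_prod (d : ℕ) : padicValNat r (∏ j ∈ Finset.range d, (Fintype.card F ^ (2 * (j + 1)) - 1)) =
    SV F r (d / bI (oI F r)) := by
  have hb := bI_pos (oI_pos h0)
  induction d with
  | zero => simp [SV]
  | succ d ih =>
    rw [Finset.prod_range_succ, padicValNat.mul (Finset.prod_ne_zero_iff.2 fun j _ => pow_sub_ne_zero (by omega))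
      (pow_sub_ne_zero (by omega)), ih, Nat.succ_div]
    split_ifs with h
    · rw [SV, SV, Finset.sum_range_succ, cI_eq]
      congr 4
      have := Nat.succ_div_of_dvd h
      rw [← this, mul_left_comm, Nat.div_mul_cancel h]
    · rw [padicValNat.eq_zero_of_not_dvd, add_zero, add_zero]
      rwa [dvd_pow_sub_one_iff Fintype.card_pos, dvd_two_mul_iff]

theorem not_dvd_q : ¬ r ∣ Fintype.card F := by
  rintro ⟨k, hk⟩
  have := FiniteField.cast_card_eq_zero F
  rw [hk, Nat.cast_mul] at this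
  obtain ⟨p, hp⟩ := CharP.exists F
  haveI : Fact p.Prime := ⟨CharP.char_is_prime F p⟩
  refine not_dvd_card_of_char (F := F) p hr.out (fun e => h0 ?_) ⟨k, hk⟩
  rw [e]; exact CharP.cast_eq_zero F p

include h2

theorem val_aux {m a T T' : ℕ} (hT : T * T' = Fintype.card F ^ (2 * (m + 1)) - 1) (hc : ¬ (r ∣ T ∧ r ∣ T')) {θ : ℤˣ}
    (h : ∀ s, m + 1 = s * bI (oI F r) → (r ∣ T ↔ θ = βI F (oI F r) ^ s)) :
    padicValNat r (2 * Fintype.card F ^ a * T * ∏ j ∈ Finset.range m, (Fintype.card F ^ (2 * (j + 1)) - 1)) =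
      SV F r (ec (cI (oI F r)) (βI F (oI F r)) (2 * m + 2) θ) := by
  have hb := bI_pos (oI_pos h0)
  have hq : Fintype.card F ≠ 0 := Fintype.card_ne_zero
  have h1 := pow_sub_ne_zero (F := F) (k := 2 * (m + 1)) (by omega)
  rw [← hT, mul_ne_zero_iff] at h1
  rw [padicValNat.mul (mul_ne_zero (by positivity) h1.1)
      (Finset.prod_ne_zero_iff.2 fun j _ => pow_sub_ne_zero (by omega)), padicValNat.mul (by positivity) h1.1,
    padicValNat.eq_zero_of_not_dvd (n := 2 * _), zero_add, val_prod h0]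
  swap
  · rw [hr.out.dvd_mul, not_or]
    exact ⟨fun h => h2 ((Nat.prime_dvd_prime_iff_eq hr.out Nat.prime_two).1 h),
      fun h => not_dvd_q h0 (hr.out.dvd_of_dvd_pow h)⟩
  have e1 : (2 * m + 2) / cI (oI F r) = (m + 1) / bI (oI F r) := by
    rw [cI_eq, show 2 * m + 2 = 2 * (m + 1) by ring, Nat.mul_div_mul_left _ _ two_pos]
  have e2 : (2 * m + 2) % cI (oI F r) = 0 ↔ bI (oI F r) ∣ m + 1 := by
    rw [cI_eq, show 2 * m + 2 = 2 * (m + 1) by ring, ← Nat.dvd_iff_mod_eq_zero, Nat.mul_dvd_mul_iff_left two_pos]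
  rw [ec, e1]
  simp only [e2]
  by_cases hd : bI (oI F r) ∣ m + 1
  · have h3 := h _ (Nat.div_mul_cancel hd).symm
    have h4 := Nat.succ_div_of_dvd hd
    by_cases hT' : r ∣ T
    · rw [if_neg (fun e => e.2 (h3.1 hT')), h4, SV, SV, Finset.sum_range_succ, add_comm, ← h4, cI_eq, mul_left_comm,
        Nat.div_mul_cancel hd, ← hT, padicValNat.mul h1.1 h1.2,
        padicValNat.eq_zero_of_not_dvd (n := T') fun e => hc ⟨hT', e⟩, add_zero]
    · rw [if_pos ⟨hd, fun e => hT' (h3.2 e)⟩, h4, padicValNat.eq_zero_of_not_dvd hT', zero_add, Nat.add_sub_cancel]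
  · rw [if_neg (fun e => hd e.1), Nat.succ_div_of_not_dvd hd, padicValNat.eq_zero_of_not_dvd, zero_add]
    intro e
    have := e.trans (Dvd.intro _ hT)
    rw [dvd_pow_sub_one_iff Fintype.card_pos, dvd_two_mul_iff] at this
    exact hd this

variable {V : Type*} [AddCommGroup V] [Module F V] [FiniteDimensional F V] {φ : Form F V} [φ.Nondeg]

theorem val_card (hQ : φ.IsQuad) : padicValNat r (Nat.card φ.Isom) =
    SV F r (ec (cI (oI F r)) (βI F (oI F r)) (finrank F V) (dl φ)) := by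
  have hb := bI_pos (oI_pos h0)
  have hq : 1 ≤ Fintype.card F := Fintype.card_pos
  have hsq : ∀ k, (Fintype.card F ^ k - 1) * (Fintype.card F ^ k + 1) = Fintype.card F ^ (2 * k) - 1 := fun k => by
    rw [mul_comm, ← Nat.sq_sub_sq, ← pow_mul, mul_comm k]
  have hc : ∀ k, ¬ (r ∣ Fintype.card F ^ k - 1 ∧ r ∣ Fintype.card F ^ k + 1) := fun k h => by
    rw [dvd_pow_sub_one_iff hq, dvd_pow_add_one_iff hq hr.out h2] at h
    exact h.2.2 h.1
  rcases card_Isom_cases hQ with ⟨h, e⟩ | ⟨m, h, e⟩ | ⟨m, h, ⟨hp, e⟩ | ⟨hp, e⟩⟩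
  · rw [e, h, ec]; simp [SV]
  · rw [e, h, oOdd, padicValNat.mul (by positivity) (Finset.prod_ne_zero_iff.2 fun j _ => pow_sub_ne_zero (by omega)),
      padicValNat.eq_zero_of_not_dvd, zero_add, val_prod h0, ec, if_neg, cI_eq]
    · rw [← Nat.div_div_eq_div_mul, show (2 * m + 1) / 2 = m by omega]
    · rw [cI_eq, ← Nat.dvd_iff_mod_eq_zero]
      rintro ⟨h, -⟩
      have := (Dvd.intro _ rfl).trans h
      omega
    · rw [hr.out.dvd_mul, not_or]
      exact ⟨fun h => h2 ((Nat.prime_dvd_prime_iff_eq hr.out Nat.prime_two).1 h),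
        fun h => not_dvd_q h0 (hr.out.dvd_of_dvd_pow h)⟩
  · rw [e, h, oPlus]
    refine val_aux h0 h2 (hsq _) (hc _) fun s hs => ?_
    rw [(hasTS_iff_dl hQ (m := m + 1) (by omega)).1 hp, dvd_pow_sub_one_iff hq, hs, dvd_mul_iff (oI_pos h0), βI, mul_pow,
      ← pow_mul, mul_comm _ s, eq_comm (a := κ F ^ _), mul_eq_right]
  · rw [e, h, oMinus]
    refine val_aux h0 h2 ((mul_comm _ _).trans (hsq _)) (fun h => hc _ h.symm) fun s hs => ?_
    rw [hasTS_iff_dl hQ (m := m + 1) (by omega), hs] at hp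
    rw [dvd_pow_add_one_iff hq hr.out h2, hs, dvd_mul_iff (oI_pos h0), βI, mul_pow, ← pow_mul, mul_comm _ s,
      dvd_two_mul_iff, and_iff_right (Dvd.intro_left _ rfl)]
    revert hp
    generalize σI (oI F r) ^ s = a, κ F ^ (s * bI (oI F r)) = b, dl φ = c
    rcases units_cases a with rfl | rfl <;> rcases units_cases b with rfl | rfl <;>
      rcases units_cases c with rfl | rfl <;> decide

theorem dl_of_zero (hQ : φ.IsQuad) (h : finrank F V = 0) : dl φ = 1 := by
  rw [← dw_top hQ, dw_of_zero hQ (by simpa using h)]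

theorem slot_one_iff (hQ : φ.IsQuad) :
    Slot (cI (oI F r)) (βI F (oI F r)) (finrank F V) (dl φ) 1 ↔ r ∣ Nat.card φ.Isom := by
  haveI : Finite V := Module.finite_of_finite F
  rw [slot_iff (cI_pos (oI_pos h0)) (dl_of_zero h0 h2 hQ), dvd_iff_padicValNat_ne_zero Nat.card_pos.ne',
    val_card h0 h2 hQ, Nat.one_le_iff_ne_zero, not_iff_not]
  exact ⟨fun h => by rw [h]; simp [SV], fun h => (SV_strictMono h0).injective (by rw [h]; simp [SV])⟩

theorem ec_lt_of_dvd (hQ : φ.IsQuad) {U : Submodule F V} (hU : φ.NondegOn U) {N M : ℕ} (hN : r ∣ N)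
    (h : N * (M * Nat.card (φ.restrict U).Isom) = Nat.card φ.Isom) :
    ec (cI (oI F r)) (βI F (oI F r)) (finrank F U) (dw φ U) < ec (cI (oI F r)) (βI F (oI F r)) (finrank F V) (dl φ) := by
  haveI : Finite V := Module.finite_of_finite F
  haveI := hU.nondeg
  rw [← (SV_strictMono h0).lt_iff_lt, dw, ← val_card h0 h2 hQ, ← val_card h0 h2 (hQ.restrict U), ← h]
  have h1 : Nat.card φ.Isom ≠ 0 := Nat.card_pos.ne'
  rw [← h, mul_ne_zero_iff, mul_ne_zero_iff] at h1
  rw [padicValNat.mul h1.1 (mul_ne_zero h1.2.1 h1.2.2), padicValNat.mul h1.2.1 h1.2.2]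
  have := one_le_padicValNat_of_dvd h1.1 hN
  omega

end

end H16.Eo
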