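import Mathlib
import Cfsg.Agent.H16.SpecO
import Cfsg.Agent.H16.SpecPG
import Cfsg.Agent.H24.Wall4
import Cfsg.Agent.H28.El15

/-!
# Characteristic two: non-singular points and orthogonal subgroups of symplectic groups (namespace `H16.Eo`)
* `ns_iff` : elements of prime order of `Ω` fixing non-singular points
* `spo_iff` : elements of prime order of `Sp` conjugate into an orthogonal group
-/

set_option autoImplicit false
set_option linter.unusedSectionVars false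
set_option linter.style.haveILetI false

namespace H16.Eo
open Module H10 H10.Form H28.El H24.Wall

variable {F V : Type*} [Field F] [Fintype F] [CharP F 2] [AddCommGroup V] [Module F V] [FiniteDimensional F V]
  {φ ψ : Form F V} [φ.Nondeg] {r : ℕ} [hr : Fact r.Prime]

variable (F r) in
/-- the order of `q` modulo `r` -/
noncomputable abbrev oI' : ℕ := orderOf ((Fintype.card F : ℕ) : ZMod r)

theorem cast_ne_two (h : r ≠ 2) : (r : F) ≠ 0 := fun e =>
  h ((Nat.prime_dvd_prime_iff_eq Nat.prime_two hr.out).1 ((CharP.cast_eq_zero_iff F 2 r).1 e)).symm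

theorem eq_span_of_one {W : Submodule F V} (h : finrank F W = 1) {v : V} (hv : v ∈ W) (h0 : v ≠ 0) : W = F ∙ v :=
  (Submodule.eq_of_le_of_finrank_eq ((Submodule.span_singleton_le_iff_mem _ _).2 hv)
    (by rw [h, finrank_span_singleton h0])).symm

theorem fix_of_ns (hQ : φ.IsQuad) {y : End F V} (hy : φ.IsIsom y) {W : Submodule F V}
    (h : finrank F W = 1 ∧ ∃ v ∈ W, φ.Q v ≠ 0) (hW : Inv y W) : W ≤ fx y := by
  obtain ⟨h1, v, hv, h2⟩ := h
  have e := eq_span_of_one h1 hv (by rintro rfl; simp at h2)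
  obtain ⟨c, hc⟩ := Submodule.mem_span_singleton.1 (e ▸ hW v hv)
  have h3 := hy.Q v
  rw [← hc, φ.Q_smul, hQ.σ_eq, mul_eq_right₀ h2, mul_self_eq_one_iff, CharTwo.neg_eq, or_self] at h3
  rw [e, Submodule.span_singleton_le_iff_mem, mem_fx, ← hc, h3, one_smul]

theorem perp_ts (hQ : φ.IsQuad) {g : φ.Isom} (hg : g * g = 1) :
    φ.TS (φ.perp (W g)) ↔ Alt g ∧ 2 * finrank F (W g) = finrank F V := by
  have h3 := φ.finrank_perp (W g)
  have h4 := two_mul_rank_le hg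
  refine ⟨fun h => ⟨(alt_iff_Q hQ g).2 fun x => h.1 _ (W_le_perp hg ⟨x, rfl⟩), by have := h.finrank_le; omega⟩,
    fun h => ?_⟩
  rw [← Submodule.eq_of_le_of_finrank_eq (W_le_perp hg) (by omega)]
  exact h.1.ts g hQ

theorem ns_iff (hQ : φ.IsQuad) {d : ℕ} (hn : finrank F V = 2 * d) (hd : 3 ≤ d)
    (hΩ : r ∣ Nat.card {W : Submodule F V // finrank F W = 1 ∧ ∃ v ∈ W, φ.Q v ≠ 0}) :
    (∀ g : End F V, Om φ g → PE r g → ∃ W : Submodule F V, (finrank F W = 1 ∧ ∃ v ∈ W, φ.Q v ≠ 0) ∧ Inv g W) ↔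
      r = 2 ∧ (Pl φ ⊤ → Odd d) := by
  haveI : Nontrivial V := Module.nontrivial_of_finrank_pos (R := F) (by omega)
  have hG : φ.Good := H09.good_of_or hQ (Or.inr (by omega))
  by_cases h2 : r = 2
  · subst h2
    rw [pe_char_two hQ.σ_eq fun g => Om.isom, and_iff_right rfl]
    constructor
    · rintro H ⟨Z, -, h1, h3⟩
      rw [finrank_top] at h3
      by_contra h4
      obtain ⟨k, hk⟩ := Nat.not_odd_iff_even.1 h4
      obtain ⟨g, g1, g2, g3⟩ := exists_alt hQ.σ_eq h1 (k := k) (by omega)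
      obtain ⟨W, h5, h6⟩ := H g.1 ⟨g, (mem_commutator_iff_even hQ hG (by omega) g).2 (g3.even hQ.σ_eq), rfl⟩
        (by rw [← coe_isom_pow, sq, g1]; rfl) fun e => ne_one_of_rank (g := g) (by rw [g2]; omega) (isom_eq_iff.2 e)
      obtain ⟨v, hv, h7⟩ := h5.2
      exact h7 (((perp_ts hQ g1).2 ⟨g3, by rw [g2, h3]⟩).1 v (perp_W g ▸ fix_of_ns hQ g.2 h5 h6 hv))
    · rintro H _ ⟨g, -, rfl⟩ h1 -
      have g1 : g * g = 1 := isom_eq_iff.2 (by rw [← sq, coe_isom_pow, h1]; rfl)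
      by_contra h3
      have h4 := (perp_ts hQ g1).1 (hQ.ts fun v hv => by_contra fun h5 => h3 ⟨F ∙ v,
        ⟨finrank_span_singleton (by rintro rfl; simp at h5), v, Submodule.mem_span_singleton_self v, h5⟩, fun x hx => by
          have : x ∈ fx (g.1 : End F V) := (Submodule.span_singleton_le_iff_mem _ _).2 (perp_W g ▸ hv :) hx
          rwa [mem_fx.1 this]⟩)
      have h5 := h4.1.even hQ.σ_eq
      rw [show finrank F (W g) = d by omega] at h5
      exact Nat.not_odd_iff_even.2 h5 (H ⟨W g, le_top, h4.1.ts g hQ, by rw [finrank_top, h4.2]⟩)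
  · have ho := odd_of_ne_two h2
    rw [pe_odd hQ.σ_eq ho (fun g => Om.isom) (fun y => om_of_odd hQ hG (by omega) ho)
      fun g ⟨W, h1, h3⟩ => ⟨W, h1, fun x hx => W.neg_mem (h3 x hx)⟩, iff_false_intro fun h : _ ∧ _ => h2 h.1, iff_false]
    refine fun H => not_dvd_of_small (cast_ne_two h2) ?_ ?_ ?_ (fun y hy _ W => fix_of_ns hQ hy) H hΩ
    · rintro g W ⟨h1, v, hv, h3⟩
      exact ⟨by rw [LinearEquiv.finrank_map_eq, h1], g.1 v, ⟨v, hv, rfl⟩, by rwa [g.2.Q]⟩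
    · by_contra h
      have := (hQ.ts (W := ⊤) fun v _ => by_contra fun h5 => h ⟨F ∙ v,
        finrank_span_singleton (by rintro rfl; simp at h5), v, Submodule.mem_span_singleton_self v, h5⟩).finrank_le
      rw [finrank_top] at this
      omega
    · rintro W W' ⟨h1, v, hv, h3⟩ ⟨h1', v', hv', h3'⟩
      obtain ⟨c, hc⟩ := FiniteField.isSquare_of_char_two (ringChar.eq F 2) (φ.Q v / φ.Q v')
      have e : φ.Q (c • v') = φ.Q v := by rw [φ.Q_smul, hQ.σ_eq, ← hc, div_mul_cancel₀ _ h3']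
      have h4 : c • v' ≠ 0 := fun h => h3 (by rw [← e, h, Q_zero])
      have h5 : v ≠ 0 := by rintro rfl; simp at h3
      rw [eq_span_of_one h1 hv h5, eq_span_of_one h1' (W'.smul_mem c hv') h4]
      exact isEquiv_singleton (fun _ => rfl) (fun _ => rfl) rfl h5 h4 e

theorem isom_of_quad (hA : H09.IsAltF φ) (hB : ∀ x y, ψ.B x y = φ.B x y) {g : V → V} (h : ψ.IsIsom g) :
    φ.IsIsom g := ⟨fun x y => by rw [← hB, h.B, hB], fun x => by rw [hA.Q_eq, hA.Q_eq]⟩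

theorem spo_odd [ψ.Nondeg] (hA : H09.IsAltF φ) (hQ : ψ.IsQuad) {d N : ℕ} (hn : finrank F V = 2 * d) (hd : 0 < d)
    (hN : N * Nat.card ψ.Isom = Nat.card φ.Isom) (hΩ : r ∣ N) (h2 : r ≠ 2) :
    ∃ a k, a ≤ tt F r ∧ (a + 2 * k) * oI' F r = 2 * d ∧ ¬ (Pl ψ ⊤ ↔ Even a) := by
  obtain ⟨m, rfl⟩ : ∃ m, d = m + 1 := ⟨d - 1, by omega⟩
  have hq : 1 < Fintype.card F := Fintype.one_lt_card
  have h0 := cast_ne_two (F := F) h2
  have hb : 0 < oI' F r := ord_pos h0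
  have hsq : (Fintype.card F ^ (m + 1) - 1) * (Fintype.card F ^ (m + 1) + 1) = Fintype.card F ^ (2 * (m + 1)) - 1 := by
    rw [mul_comm, ← Nat.sq_sub_sq, ← pow_mul, mul_comm _ 2]
  have key : ∀ T T' : ℕ, T * T' = Fintype.card F ^ (2 * (m + 1)) - 1 → Nat.card ψ.Isom = 2 * Fintype.card F ^ ((m + 1) * m) * T *
      ∏ i ∈ Finset.range m, (Fintype.card F ^ (2 * (i + 1)) - 1) → r ∣ T' := fun T T' h1 h3 => by
    haveI : Finite V := Module.finite_of_finite F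
    have h4 : Nat.card ψ.Isom ≠ 0 := Nat.card_pos.ne'
    have h5 : 2 * N * Nat.card ψ.Isom = 2 * (Fintype.card F ^ (m + 1) * T') * Nat.card ψ.Isom / 2 := by
      rw [mul_assoc 2 (_ * _), Nat.mul_div_cancel_left _ two_pos, mul_assoc, hN, hA.card_Isom hn, h3, Finset.prod_range_succ,
        Nat.card_eq_fintype_card, ← h1]
      ring
    rw [mul_assoc 2 (_ * _), Nat.mul_div_cancel_left _ two_pos, mul_left_inj' h4] at h5
    refine (hr.out.dvd_mul.1 (h5 ▸ hΩ.mul_left 2)).resolve_left fun h => h0 ?_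
    obtain ⟨k, hk⟩ := hr.out.dvd_of_dvd_pow h
    exact absurd ⟨k, hk⟩ (not_dvd_card_of_char (F := F) 2 hr.out h2)
  rw [pl_top hn]
  rcases card_Isom_cases hQ with ⟨h, -⟩ | ⟨k, h, -⟩ | ⟨k, h, h'⟩
  · omega
  · omega
  obtain rfl : k = m := by omega
  rcases h' with ⟨hp, e⟩ | ⟨hp, e⟩
  · obtain ⟨⟨j, hj⟩, h4⟩ := (dvd_pow_add_one_iff (by omega) hr.out h2).1 (key _ _ hsq e)
    rcases Nat.even_or_odd' j with ⟨i, rfl | rfl⟩
    · exact absurd ⟨i, by rw [mul_left_comm] at hj; omega⟩ h4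
    · rcases tc_facts h0 with ⟨-, -, h5, h6⟩ | ⟨h5, -⟩
      · exact ⟨1, i, h5 ▸ h6, by rw [hj]; ring, by simpa using hp⟩
      · exact absurd (Nat.even_mul.1 (hj ▸ even_two_mul _)) (by simp [h5])
  · obtain ⟨j, hj⟩ := (dvd_pow_sub_one_iff (by omega)).1 (key _ _ ((mul_comm _ _).trans hsq) e)
    exact ⟨0, j, Nat.zero_le _, by rw [hj]; ring, by simpa using hp⟩

theorem spo_iff [ψ.Nondeg] (hA : H09.IsAltF φ) (hQ : ψ.IsQuad) (hB : ∀ x y, ψ.B x y = φ.B x y) {d N : ℕ}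
    (hn : finrank F V = 2 * d) (hd : 0 < d) (hN : N * Nat.card ψ.Isom = Nat.card φ.Isom) (hΩ : r ∣ N) :
    (∀ g : End F V, φ.IsIsom g → PE r g → ∃ k : φ.Isom, ψ.IsIsom ⇑(((k⁻¹).1 : End F V) * g * (k.1 : End F V))) ↔
      r = 2 ∧ (Pl ψ ⊤ ∨ Odd d) := by
  haveI : Nontrivial V := Module.nontrivial_of_finrank_pos (R := F) (by omega)
  let t : ψ.Isom → φ.Isom := fun g => ⟨g.1, isom_of_quad hA hB g.2⟩
  have t1 : ∀ g, W (t g) = W g := fun _ => rfl
  have t2 : ∀ g, Alt (t g) ↔ Alt g := fun g => forall_congr' fun x => by rw [hB]; rfl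
  by_cases h2 : r = 2
  · subst h2
    rw [pe_char_two hA.σ_eq fun g => id, and_iff_right rfl]
    constructor
    · intro H
      by_contra h
      rw [not_or, Nat.not_odd_iff_even] at h
      obtain ⟨Z, h1, h3⟩ := hasTS_altF hA hn
      obtain ⟨j, hj⟩ := h.2
      obtain ⟨g, g1, g2, g3⟩ := exists_alt hA.σ_eq h1 (k := j) (by omega)
      obtain ⟨k, hk⟩ := H g.1 g.2 (by rw [← coe_isom_pow, sq, g1]; rfl)
        fun e => ne_one_of_rank (g := g) (by rw [g2]; omega) (isom_eq_iff.2 e)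
      have h4 : IsConj g (t ⟨(k⁻¹ * g * k).1, hk⟩) := isConj_iff.2 ⟨k⁻¹, by rw [inv_inv]⟩
      exact h.1 ⟨_, le_top, ((t2 _).1 (g3.conj h4)).ts _ hQ, by rw [← t1, ← rank_conj h4, g2, h3, finrank_top, hn]⟩
    · intro H g0 h0 h1 h3
      obtain ⟨g, rfl⟩ : ∃ g : φ.Isom, (g.1 : End F V) = g0 := ⟨_, φ.toIsom_coe h0⟩
      have g1 : g * g = 1 := isom_eq_iff.2 (by rw [← sq, coe_isom_pow, h1]; rfl)
      have h4 := two_mul_rank_le g1
      have h5 := rank_pos (g := g) fun e => h3 (by rw [e]; rfl)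
      have ts := (kd_quad hQ).ts_iff (U := ⊤) fun x _ hx => ψ.eq_zero_of_B_left fun y => hx y trivial
      simp only [finrank_top] at ts
      obtain ⟨h, k1, k2, k3⟩ : ∃ h : ψ.Isom, h * h = 1 ∧ finrank F (W h) = finrank F (W g) ∧ (Alt h ↔ Alt g) := by
        by_cases ha : Alt g
        · obtain ⟨j, hj⟩ := ha.even hA.σ_eq
          obtain ⟨Z, -, z1, z2⟩ := (ts (finrank F (W g))).2 ⟨h4, fun e => H.resolve_right (by
            rw [Nat.not_odd_iff_even]; exact ⟨j, by omega⟩)⟩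
          obtain ⟨h, k1, k2, k3⟩ := exists_alt hQ.σ_eq z1 (k := j) (by omega)
          exact ⟨h, k1, by rw [k2, z2], by simp [ha, k3]⟩
        · obtain ⟨Z, -, z1, z2⟩ := (ts (finrank F (W g) - 1)).2 ⟨by omega, fun e => by omega⟩
          obtain ⟨h, k1, k2, k3⟩ := exists_nonalt_quad hQ ⟨Z, z1, z2⟩ (by omega)
          exact ⟨h, k1, by omega, by simp [ha, k3]⟩
      obtain ⟨c, hc⟩ := isConj_iff.1 ((isConj_inv_iff hA.σ_eq g1 (h := t h)
        (Subtype.ext (congrArg (fun x : ψ.Isom => x.1) k1))).2 ⟨k2.symm, k3.symm.trans (t2 h).symm⟩)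
      refine ⟨c⁻¹, ?_⟩
      rw [inv_inv]
      have := h.2
      change ψ.IsIsom (t h).1 at this
      rw [← hc] at this
      exact this
  · have ho := odd_of_ne_two h2
    have h0 := cast_ne_two (F := F) h2
    rw [pe_odd hA.σ_eq ho (fun g => id) (fun y h _ => h)
      fun g ⟨k, h1⟩ => ⟨k, by rw [mul_neg, neg_mul]; exact isom_neg h1⟩, iff_false_intro fun h : _ ∧ _ => h2 h.1, iff_false]
    intro H
    obtain ⟨a, j, h1, h3, h4⟩ := spo_odd hA hQ hn hd hN hΩ h2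
    obtain ⟨y, y1, y2, y3⟩ := real_alt h0 ho hA h1 (h3.trans hn.symm).le
    have y4 : mv y = ⊤ := Submodule.eq_top_of_finrank_eq (by rw [y3.1, h3, hn])
    obtain ⟨k, hk⟩ := H y y1 y2 ((y3.ne_one_iff h0).2 (Nat.pos_of_ne_zero fun e => by rw [e] at h3; omega))
    have e1 : (k.1 : End F V) * (k⁻¹).1 = 1 := LinearMap.ext (Isom.apply_inv_apply k)
    have e2 : ((k⁻¹).1 : End F V) * k.1 = 1 := LinearMap.ext (Isom.inv_apply_apply k)
    have y5 : (((k⁻¹).1 : End F V) * y * (k.1 : End F V)) ^ r = 1 := by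
      have := Units.conj_pow' (⟨_, _, e1, e2⟩ : (End F V)ˣ) y r
      rw [y2, mul_one, Units.inv_mul] at this
      exact this
    have y6 : mv (((k⁻¹).1 : End F V) * y * (k.1 : End F V)) = ⊤ := eq_top_iff.2 fun v _ => by
      obtain ⟨w, hw⟩ := mem_mv.1 (y4 ▸ Submodule.mem_top : k.1 v ∈ mv y)
      refine mem_mv.2 ⟨(k⁻¹).1 w, ?_⟩
      change (k⁻¹).1 (y (k.1 ((k⁻¹).1 w))) - _ = _
      rw [Isom.apply_inv_apply, ← map_sub, hw, Isom.inv_apply_apply]
    obtain ⟨a', j', k1, k2⟩ := (par_quad h0 ho hQ).str h0 ho hk y5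
    have k3 := k2.pl h0 ho hQ hk y5 k1
    have k4 := k2.1
    rw [y6] at k3 k4
    rw [finrank_top, hn, ← h3, mul_left_inj' (ord_pos h0).ne'] at k4
    exact h4 (k3.trans (by rw [Nat.even_iff, Nat.even_iff]; omega))

theorem mem_sim_iff {d : ℕ} (hd : 0 < d) {Q : QuadraticForm F (Fin d ⊕ Fin d → F)}
    (hQ : ∀ u v, QuadraticMap.polar Q u v = Cfsg.sympForm d F u v) {g : GL (Fin d ⊕ Fin d) F} (hg : g ∈ Cfsg.spGL d F) :
    g ∈ Cfsg.Geo.quadSimilarityGroup Q ↔ ∀ v, Q (g.1.mulVec v) = Q v := by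
  refine ⟨fun ⟨c, hc⟩ v => ?_, fun h => ⟨1, fun v => by simp [h]⟩⟩
  have h1 := H09.mem_sp_iff.1 (H09.mem_spGL_iff.1 hg) (Pi.single (.inr ⟨0, hd⟩) 1) (Pi.single (.inl ⟨0, hd⟩) 1)
  simp only [← H09.sympForm_eq, ← hQ] at h1
  rw [QuadraticMap.polar, ← Matrix.mulVec_add, hc, hc, hc, ← mul_sub, ← mul_sub, ← QuadraticMap.polar, hQ,
    H09.sympForm_eq, H09.spB_single_inr] at h1
  simp only [Pi.single_eq_same, mul_one] at h1
  rw [hc, h1, one_mul]

end H16.Eo
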