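import Mathlib
import Cfsg.Agent.H16.Eo1
import Cfsg.Agent.H16.Eo5

/-!
# Unipotent elements of orthogonal groups fixing no non-degenerate subspace of given type (namespace `H16.Eo`)
* `der_plus_minus`, `der_odd_dim`, `der_odd_minus` : derangements of order `p`
* `part_quad`, `mod_minus`, `mod_odd` : necessary conditions
-/

set_option autoImplicit false
set_option linter.unusedSectionVars false
set_option linter.style.haveILetI false

namespace H16.Eo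
open Module H10 H10.Form H24.Wall H16.Wal H28.El Multiset

theorem two_split {ν ν' O : Multiset ℕ} {j : ℕ} (hO : 2 ∉ O) (h : ν + ν' = O + replicate j 2) (h1 : Even (ν.count 2))
    (h2 : Even (ν'.count 2)) : ∃ O₁ O₂ i i', O₁ + O₂ = O ∧ ν = O₁ + replicate (2 * i) 2 ∧ ν' = O₂ + replicate (2 * i') 2 := by
  obtain ⟨i, hi⟩ := even_iff_two_dvd.1 h1
  obtain ⟨i', hi'⟩ := even_iff_two_dvd.1 h2
  have key : ∀ ν : Multiset ℕ, ν = ν.filter (· ≠ 2) + replicate (ν.count 2) 2 := fun ν => by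
    rw [← filter_eq', add_comm, filter_add_not]
  refine ⟨ν.filter (· ≠ 2), ν'.filter (· ≠ 2), i, i', ?_, hi ▸ key ν, hi' ▸ key ν'⟩
  rw [← filter_add, h, filter_add, filter_eq_self.2 fun a ha => ne_of_mem_of_not_mem ha hO,
    filter_eq_nil.2 fun a ha => by simp [eq_of_mem_replicate ha], add_zero]

theorem pair_split {O₁ O₂ : Multiset ℕ} {a b : ℕ} (h : O₁ + O₂ = {a, b}) :
    O₁ = 0 ∧ O₂ = {a, b} ∨ O₁ = {a, b} ∧ O₂ = 0 ∨ O₁ = {a} ∧ O₂ = {b} ∨ O₁ = {b} ∧ O₂ = {a} := by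
  have := (mem_antidiagonal (x := (O₁, O₂))).2 h
  simp only [insert_eq_cons, ← cons_zero, antidiagonal_cons, antidiagonal_zero] at this
  simp at this ⊢
  tauto

theorem one_split {O₁ O₂ : Multiset ℕ} {a : ℕ} (h : O₁ + O₂ = {a}) : O₁ = 0 ∧ O₂ = {a} ∨ O₁ = {a} ∧ O₂ = 0 := by
  have := (mem_antidiagonal (x := (O₁, O₂))).2 h
  simp only [← cons_zero, antidiagonal_cons, antidiagonal_zero] at this
  simpa using this

variable {F V : Type*} [Field F] [Fintype F] [AddCommGroup V] [Module F V] [FiniteDimensional F V] {φ : Form F V}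
  [φ.Nondeg] {g : φ.Isom} {U W : Submodule F V} {p : ℕ} [hp : Fact p.Prime] [CharP F p]
  (hQ : φ.IsQuad) (h2 : (2 : F) ≠ 0)

omit hp in
theorem three_le_char (h2 : (2 : F) ≠ 0) [hp : Fact p.Prime] : 3 ≤ p := by
  have := hp.out.two_le
  have : p ≠ 2 := by rintro rfl; exact h2 (CharP.cast_eq_zero F 2)
  omega

include hQ

theorem pl_iff_dw (hU : φ.NondegOn U) {m : ℕ} (hn : finrank F U = 2 * m) : Pl φ U ↔ dw φ U = κ F ^ m := by
  rw [← tsin_iff_dw hQ hU hn]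
  exact exists_congr fun Z => and_congr_right fun _ => and_congr_right fun _ => by omega

include h2

theorem om_unip (hn : 2 ≤ finrank F V) {y : End F V} (h1 : φ.IsIsom y) (h3 : y ^ p = 1) : Om φ y :=
  om_of_odd hQ (hQ.good_of_two_ne_zero h2) hn (hp.out.odd_of_ne_two (by have := three_le_char (p := p) h2; omega)) h1 h3

theorem real_shape (hU : φ.NondegOn U) {O : Multiset ℕ} (hO : ∀ a ∈ O, a = 1 ∨ a = 3) {k : ℕ}
    (hn : O.sum + 4 * k = finrank F U) (h0 : O = 0 → Pl φ U) : Real φ U (O + replicate (2 * k) 2) := by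
  refine real_quad' hQ h2 hU (fun e he => ?_) (fun e he => ?_) (by simp [← hn]; ring) fun h => h0 ?_
  · rcases mem_add.1 he with h | h
    · have := hO e h; omega
    · rw [eq_of_mem_replicate h]; omega
  · rw [count_add, count_eq_zero.2 fun h => by have := hO e h; have := Nat.even_iff.1 he; omega, count_replicate]
    split_ifs <;> simp
  · exact eq_zero_of_forall_notMem fun a ha => by
      have := hO a ha; have := Nat.even_iff.1 (h a (mem_add.2 (Or.inl ha))); omega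

variable (p) in
theorem shape_of_jt {O : Multiset ℕ} (hO : ∀ a ∈ O, a = 1 ∨ a = 3) {k : ℕ} (hk : 0 < k)
    (h : JT (N g) ⊤ (O + replicate (2 * k) 2)) : Om φ g.1 ∧ (g.1 : End F V) ^ p = 1 ∧ (g.1 : End F V) ≠ 1 ∧
      ∀ W, Inv (g.1 : End F V) W → φ.NondegOn W → ∃ O₁ O₂ i i', O₁ + O₂ = O ∧ finrank F W = O₁.sum + 4 * i ∧
        JT (N g) W (O₁ + replicate (2 * i) 2) ∧ JT (N g) (φ.perp W) (O₂ + replicate (2 * i') 2) ∧
        (O₁ = 0 → Pl φ W) ∧ (O₂ = 0 → Pl φ (φ.perp W)) := by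
  have h3 := three_le_char (p := p) h2
  have h4 : (g.1 : End F V) ^ p = 1 := h.pow_char.2 fun e he => by
    rcases mem_add.1 he with h | h
    · have := hO e h; omega
    · rw [eq_of_mem_replicate h]; omega
  have h5 := h.finrank_eq
  simp only [finrank_top, sum_add, sum_replicate, smul_eq_mul] at h5
  refine ⟨om_unip hQ h2 (by omega) g.2 h4, h4, fun e => by simpa using h.eq_one.1 e 2 (by simp [mem_replicate, hk.ne']),
    fun W w1 w2 => ?_⟩
  have w3 := φ.mem_stab_of_le (g := g) w1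
  obtain ⟨ν, ν', k1, k2, k3, k4, k5⟩ := sub_of_inv (fun _ => h2) h (stab_top g) nd_top le_top w3 w2
  obtain ⟨O₁, O₂, i, i', l1, rfl, rfl⟩ := two_split (fun h => by have := hO 2 h; omega) k1
    (k4 2 ((bad_quad hQ h2 2).2 even_two)) (k5 2 ((bad_quad hQ h2 2).2 even_two))
  rw [top_inf_eq] at k3
  refine ⟨O₁, O₂, i, i', l1, by rw [k2.finrank_eq]; simp; ring, k2, k3, ?_, ?_⟩ <;> rintro rfl
  · exact pl_of_two h2 (by simpa using k2) w3
  · exact pl_of_two h2 (by simpa using k3) (φ.stab_le_stab_perp _ w3)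

variable (p) in
theorem exists_shape {O : Multiset ℕ} (hO : ∀ a ∈ O, a = 1 ∨ a = 3) {k : ℕ} (hk : 0 < k)
    (hn : O.sum + 4 * k = finrank F V) (h0 : O = 0 → Pl φ ⊤) : ∃ y : End F V, Om φ y ∧ y ^ p = 1 ∧ y ≠ 1 ∧
      ∀ W, Inv y W → φ.NondegOn W → ∃ O₁ O₂ i, O₁ + O₂ = O ∧ finrank F W = O₁.sum + 4 * i ∧
        (O₁ = 0 → Pl φ W) ∧ (O₂ = 0 → Pl φ (φ.perp W)) := by
  obtain ⟨g, -, h⟩ := real_shape hQ h2 nd_top hO (k := k) (by rw [hn, finrank_top]) h0
  obtain ⟨h3, h4, h5, h6⟩ := shape_of_jt p hQ h2 hO hk h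
  refine ⟨g.1, h3, h4, h5, fun W w1 w2 => ?_⟩
  obtain ⟨O₁, O₂, i, -, k1, k2, -, -, k3⟩ := h6 W w1 w2
  exact ⟨O₁, O₂, i, k1, k2, k3⟩

variable (p) in
/-- plus type space : all even-dimensional invariant non-degenerate subspaces are hyperbolic -/
theorem der_plus_minus {d : ℕ} (hn : finrank F V = 2 * d) (hd : 3 ≤ d) (hV : Pl φ ⊤) : ∃ y : End F V, Om φ y ∧ y ^ p = 1 ∧
    y ≠ 1 ∧ ∀ W, Inv y W → φ.NondegOn W → Even (finrank F W) → Pl φ W := by
  rcases Nat.even_or_odd' d with ⟨k, rfl | rfl⟩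
  · obtain ⟨y, h3, h4, h5, h6⟩ := exists_shape p hQ h2 (O := 0) (by simp) (k := k) (by omega) (by simp; omega) fun _ => hV
    refine ⟨y, h3, h4, h5, fun W w1 w2 _ => ?_⟩
    obtain ⟨O₁, O₂, i, k1, -, k3, -⟩ := h6 W w1 w2
    exact k3 (add_eq_zero.1 k1).1
  · obtain ⟨y, h3, h4, h5, h6⟩ := exists_shape p hQ h2 (O := {1, 1}) (by simp) (k := k) (by omega) (by simp; omega) fun _ => hV
    refine ⟨y, h3, h4, h5, fun W w1 w2 w3 => ?_⟩
    obtain ⟨O₁, O₂, i, k1, k2, k3, k4⟩ := h6 W w1 w2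
    rw [Nat.even_iff] at w3
    rcases pair_split k1 with ⟨rfl, rfl⟩ | ⟨rfl, rfl⟩ | ⟨rfl, rfl⟩ | ⟨rfl, rfl⟩
    · exact k3 rfl
    · exact ((pl_perp hQ w2 ⟨_, hn.trans (two_mul _)⟩ (Nat.even_iff.2 w3)).1 (k4 rfl)).1 hV
    all_goals simp at k2; omega

variable (p) in
/-- odd-dimensional space : all even-dimensional invariant non-degenerate subspaces are hyperbolic -/
theorem der_odd_minus {d : ℕ} (hn : finrank F V = 2 * d + 1) (hd : 2 ≤ d) : ∃ y : End F V, Om φ y ∧ y ^ p = 1 ∧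
    y ≠ 1 ∧ ∀ W, Inv y W → φ.NondegOn W → Even (finrank F W) → Pl φ W ∧ finrank F W % 4 = 0 := by
  obtain ⟨k, a, ha, hk⟩ : ∃ k a, (a = 1 ∨ a = 3) ∧ a + 4 * k = 2 * d + 1 := ⟨d / 2, 2 * (d % 2) + 1, by omega, by omega⟩
  obtain ⟨y, h3, h4, h5, h6⟩ := exists_shape p hQ h2 (O := {a}) (by simpa using ha) (k := k) (by omega) (by simp; omega)
    (by simp)
  refine ⟨y, h3, h4, h5, fun W w1 w2 w3 => ?_⟩
  obtain ⟨O₁, O₂, i, k1, k2, k3, -⟩ := h6 W w1 w2
  rw [Nat.even_iff] at w3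
  rcases one_split k1 with ⟨rfl, rfl⟩ | ⟨rfl, rfl⟩ <;> simp at k2
  · exact ⟨k3 rfl, by omega⟩
  · omega

theorem dw_one {i : ℕ} (h : JT (N g) W ({1} + replicate (2 * i) 2)) (hW : g ∈ φ.stab W) (hn : φ.NondegOn W) :
    ∃ v, g.1 v = v ∧ φ.Q v ≠ 0 ∧ dw φ W = chi (φ.Q v) := by
  obtain ⟨X, x1, x2, x3, x4⟩ := exists_inv_of_le (fun _ => h2) h hW hn (ν := {1}) (le_add_right _ _)
    (parT_replicate (m := 1) fun h => by simpa using (bad_quad hQ h2 1).1 h)
  obtain ⟨ν, ν', k1, k2, k3, -⟩ := sub_of_inv (fun _ => h2) h hW hn x1 x2 x3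
  rw [k2.unique x4, add_right_inj] at k1
  subst k1
  have h5 := x4.finrank_eq
  obtain ⟨v, v1, v2⟩ := x3.exists_Q_ne_zero ⟨1, by simp [hQ.T_eq]⟩ (by rintro rfl; simp at h5)
  refine ⟨v, sub_eq_zero.1 (by simpa [N_apply] using (x4.pow_iff 1).2 (by simp) v v1), v2, ?_⟩
  rw [(split hQ hn x3 x1).2.2.2, (pl_iff_dw hQ (rel_nd hn x3 x1) (m := 2 * i) (by rw [k3.finrank_eq]; simp; ring)).1
    (pl_of_two h2 k3 (stab_rel hW x2)), pow_mul, Int.units_sq, one_pow, mul_one, ← dw_line hQ h2 v2]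
  congr 1
  exact (Submodule.eq_of_le_of_finrank_eq ((Submodule.span_singleton_le_iff_mem _ _).2 v1)
    (by rw [h5, finrank_span_singleton (by rintro rfl; simp at v2)]; simp)).symm

variable (p) in
/-- even-dimensional space : no invariant odd-dimensional subspace of given dimension and discriminant -/
theorem der_odd_dw {d m : ℕ} (hn : finrank F V = 2 * d) (hd : 4 ≤ d) (hm : Odd m) (η : ℤˣ) : ∃ y : End F V, Om φ y ∧
    y ^ p = 1 ∧ y ≠ 1 ∧ ∀ W, Inv y W → φ.NondegOn W → finrank F W = m → dw φ W ≠ η := by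
  rw [Nat.odd_iff] at hm
  rcases Nat.even_or_odd' d with ⟨k, rfl | rfl⟩
  · obtain ⟨c, c1, c2⟩ := exists_chi h2 (if m % 4 = 1 then -η else -η * dl φ)
    obtain ⟨a, -, rfl⟩ := hQ.exists_Q_eq nd_top (by rw [finrank_top]; omega) c
    have hL := φ.nondegOn_singleton (B_ne_of_Q h2 c1)
    have h3 := φ.finrank_perp (F ∙ a)
    have h4 : finrank F (F ∙ a) = 1 := finrank_span_singleton (by rintro rfl; simp at c1)
    obtain ⟨g, g1, g2⟩ := real_shape hQ h2 hL.perp (O := {3}) (by simp) (k := k - 1) (by simp; omega) (by simp)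
    have g3 := stab_of_fix g1
    rw [perp_perp] at g1
    have g4 := (jt_zero (n := N g) fun x hx => sub_eq_zero.2 (g1 x hx)).sup g2 (N_inv (φ.fix_le_stab _ g1)) (N_inv g3)
      (disj_of_perp hL le_rfl)
    rw [hL.isCompl_perp.sup_eq_top, h4, ← add_assoc] at g4
    have key : ∀ v, g.1 v = v → φ.Q v ≠ 0 → chi (φ.Q v) = chi (φ.Q a) := fun v v1 v2 => by
      obtain ⟨⟨x, hx⟩, ⟨u, hu⟩, rfl⟩ := exists_add_of_isCompl hL.isCompl_perp v
      rw [_root_.map_add, g1 x hx, add_right_inj] at v1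
      rw [φ.Q_add_of_orth (hu x hx), Q_zero_of_not_mem hQ h2 g2 g3 hL.perp (by simp [mem_replicate]) hu v1, add_zero] at v2 ⊢
      obtain ⟨t, rfl⟩ := Submodule.mem_span_singleton.1 hx
      rw [hQ.Q_smul] at v2 ⊢
      rw [chi_mul (left_ne_zero_of_mul v2) c1, chi_mul_self, one_mul]
    obtain ⟨k1, k2, k3, k4⟩ := shape_of_jt p hQ h2 (O := {1, 3}) (by simp) (by omega) g4
    refine ⟨g.1, k1, k2, k3, fun W w1 w2 w3 => ?_⟩
    have w4 := φ.mem_stab_of_le (g := g) w1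
    obtain ⟨O₁, O₂, i, i', l1, l2, l3, l4, -⟩ := k4 W w1 w2
    rcases pair_split l1 with ⟨rfl, rfl⟩ | ⟨rfl, rfl⟩ | ⟨rfl, rfl⟩ | ⟨rfl, rfl⟩ <;> simp at l2
    · omega
    · omega
    · obtain ⟨v, v1, v2, v3⟩ := dw_one hQ h2 l3 w4 w2
      rw [v3, key v v1 v2, c2, if_pos (by omega)]
      rcases units_cases η with rfl | rfl <;> decide
    · obtain ⟨v, v1, v2, v3⟩ := dw_one hQ h2 l4 (φ.stab_le_stab_perp _ w4) w2.perp
      have := dl_mul hQ w2
      rw [v3, key v v1 v2, c2, if_neg (by omega)] at this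
      rintro rfl
      revert this
      generalize dw φ W = s, dl φ = t
      rcases units_cases s with rfl | rfl <;> rcases units_cases t with rfl | rfl <;> decide
  · obtain ⟨a, j, ha, hj⟩ : ∃ a j, (a = 1 ∧ m % 4 = 3 ∨ a = 3 ∧ m % 4 = 1) ∧ a + a + 4 * j = 2 * (2 * k + 1) := by
      by_cases h : m % 4 = 1
      exacts [⟨3, k - 1, by omega, by omega⟩, ⟨1, k, by omega, by omega⟩]
    obtain ⟨y, h3, h4, h5, h6⟩ := exists_shape p hQ h2 (O := {a, a}) (by simp; omega) (k := j) (by omega) (by simp; omega)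
      (by simp)
    refine ⟨y, h3, h4, h5, fun W w1 w2 w3 => ?_⟩
    obtain ⟨O₁, O₂, i, k1, k2, -⟩ := h6 W w1 w2
    rcases pair_split k1 with ⟨rfl, rfl⟩ | ⟨rfl, rfl⟩ | ⟨rfl, rfl⟩ | ⟨rfl, rfl⟩ <;> simp at k2 <;> omega

variable (p) in
theorem der_odd_dim {d m : ℕ} (hn : finrank F V = 2 * d) (hd : 4 ≤ d) (hm : Odd m) (W₀ : Submodule F V) :
    ∃ y : End F V, Om φ y ∧ y ^ p = 1 ∧ y ≠ 1 ∧ ∀ W, Inv y W → φ.NondegOn W → finrank F W = m →
      ¬ ∃ e, IsEquiv (φ.restrict W) (φ.restrict W₀) e := by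
  obtain ⟨y, h3, h4, h5, h6⟩ := der_odd_dw p hQ h2 hn hd hm (dw φ W₀)
  refine ⟨y, h3, h4, h5, fun W w1 w2 w3 ⟨e, he⟩ => h6 W w1 w2 w3 ?_⟩
  haveI := w2.nondeg
  exact dl_congr (hQ.restrict W) (hQ.restrict W₀) he

theorem part_quad {m : ℕ} (hm : m ≤ finrank F V) (hm' : Even m) (H : ∀ y : End F V, φ.IsIsom y → y ^ p = 1 → y ≠ 1 →
    ∃ W, Inv y W ∧ φ.NondegOn W ∧ finrank F W = m) (μ : Multiset ℕ) (h1 : ∀ e ∈ μ, 0 < e ∧ e ≤ p)
    (h3 : ∀ e, Even e → Even (μ.count e)) (h4 : μ.sum = finrank F V) :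
    ∃ ν, ν ≤ μ ∧ ν.sum = m ∧ ∀ e, Even e → Even (ν.count e) := by
  have key : ∀ μ : Multiset ℕ, (∀ e ∈ μ, 0 < e ∧ e ≤ p) → (∀ e, Even e → Even (μ.count e)) → μ.sum = finrank F V →
      (¬ ∀ e ∈ μ, Even e) → ∃ ν, ν ≤ μ ∧ ν.sum = m ∧ ∀ e, Even e → Even (ν.count e) := fun μ h1 h3 h4 h5 => by
    simpa only [ParT, bad_quad hQ h2] using part_of_real (fun _ => h2) (real_quad' hQ h2 nd_top (fun e he => (h1 e he).1) h3
      (by rw [h4, finrank_top]) fun h => absurd h h5) (fun e he => (h1 e he).2) hm (fun _ => hm') H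
  by_cases h5 : ∀ e ∈ μ, Even e
  swap
  · exact key μ h1 h3 h4 h5
  rcases empty_or_exists_mem μ with rfl | ⟨e, he⟩
  · exact ⟨0, le_rfl, by simp at h4 ⊢; omega, h3⟩
  have e1 := Nat.even_iff.1 (h5 e he)
  have e2 := h1 e he
  have e3 := Nat.odd_iff.1 (hp.out.odd_of_ne_two (by have := three_le_char (p := p) h2; omega))
  obtain ⟨μ', rfl⟩ := Multiset.le_iff_exists_add.1 (le_count_iff_replicate_le.1 (show 2 ≤ μ.count e by
    have := count_pos.2 he; have := Nat.even_iff.1 (h3 e (h5 e he)); omega))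
  have e4 : ∀ a, Even a → ({e - 1, e + 1} : Multiset ℕ).count a = 0 := fun a ha => count_eq_zero.2 (by
    rw [Nat.even_iff] at ha; simp; omega)
  have e5 : ∀ a, Even ((replicate 2 e).count a) := fun a => by rw [count_replicate]; split_ifs <;> simp
  obtain ⟨ν, k1, k2, k3⟩ := key ({e - 1, e + 1} + μ') (fun a ha => by
      rcases mem_add.1 ha with h | h
      · simp at h; omega
      · exact h1 a (mem_add.2 (Or.inr h)))
    (fun a ha => by have := h3 a ha; rw [count_add] at this ⊢; rw [e4 a ha, zero_add]; exact (Nat.even_add.1 this).1 (e5 a))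
    (by rw [← h4]; simp; omega) fun h => by have := Nat.even_iff.1 (h (e + 1) (by simp)); omega
  have k4 : ν.filter (¬ Even ·) ≤ {e - 1, e + 1} := by
    have := filter_le_filter (¬ Even ·) k1
    rw [filter_add, (filter_eq_nil (s := μ')).2 fun a ha => by simpa using h5 a (mem_add.2 (Or.inr ha)), add_zero] at this
    exact this.trans (filter_le _ _)
  have k5 : ν.filter Even ≤ μ' := by
    have := filter_le_filter Even k1
    rw [filter_add, (filter_eq_nil (s := {e - 1, e + 1})).2 fun a ha => by rw [Nat.even_iff]; simp at ha; omega, zero_add] at this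
    exact this.trans (filter_le _ _)
  have k6 : (ν.filter Even).sum + (ν.filter (¬ Even ·)).sum = m := by rw [← sum_add, filter_add_not, k2]
  have k7 : (ν.filter Even).sum % 2 = 0 := Nat.even_iff.1 (even_iff_two_dvd.2
    (dvd_sum fun a ha => even_iff_two_dvd.1 (mem_filter.1 ha).2))
  have k8 : ∀ a, Even a → Even ((ν.filter Even).count a) := fun a ha => by rw [count_filter_of_pos ha]; exact k3 a ha
  obtain ⟨O, k9⟩ := Multiset.le_iff_exists_add.1 k4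
  rw [Nat.even_iff] at hm'
  rcases pair_split k9.symm with ⟨h, -⟩ | ⟨h, -⟩ | ⟨h, -⟩ | ⟨h, -⟩ <;> rw [h] at k6 <;> simp at k6
  · exact ⟨_, k5.trans (le_add_left _ _), k6, k8⟩
  · exact ⟨replicate 2 e + ν.filter Even, add_le_add_right k5 _, by simp; omega,
      fun a ha => by rw [count_add]; exact (e5 a).add (k8 a ha)⟩
  all_goals omega

theorem mod_minus {d m : ℕ} (hn : finrank F V = 2 * d) (hd : 3 ≤ d) (hm : Even m)
    (H : ∀ y : End F V, φ.IsIsom y → y ^ p = 1 → y ≠ 1 → ∃ W, Inv y W ∧ φ.NondegOn W ∧ finrank F W = m ∧ ¬ Pl φ W) :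
    2 * d % 4 = m % 4 := by
  obtain ⟨k, a, ha, hk⟩ : ∃ k a, (a = 1 ∨ a = 3) ∧ 1 + a + 4 * k = 2 * d := ⟨(d - 1) / 2, 2 * ((d - 1) % 2) + 1, by omega, by omega⟩
  obtain ⟨y, h3, h4, h5, h6⟩ := exists_shape p hQ h2 (O := {1, a}) (by simpa using ha) (k := k) (by omega) (by simp; omega)
    (by simp)
  obtain ⟨W, w1, w2, w3, w4⟩ := H y h3.isom h4 h5
  obtain ⟨O₁, O₂, i, k1, k2, k3, -⟩ := h6 W w1 w2
  rw [Nat.even_iff] at hm
  rcases pair_split k1 with ⟨rfl, rfl⟩ | ⟨rfl, rfl⟩ | ⟨rfl, rfl⟩ | ⟨rfl, rfl⟩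
  · exact absurd (k3 rfl) w4
  all_goals simp at k2; omega

end H16.Eo
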