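import Mathlib
import Cfsg.Agent.H10.MxB
import Cfsg.Agent.H28.El23
import Cfsg.Agent.H16.Eo6
import Cfsg.Agent.H16.Cc3
import Cfsg.Agent.H27.ClassSize

/-!
# Elements of prime order and extension field subgroups : general tools (namespace `H16.Fx`)
-/

set_option autoImplicit false

open Module Polynomial H10 H10.Form H28.El

namespace H16.Fx

section bridge
variable {ι : Type} [Fintype ι] [DecidableEq ι] {F : Type*} [Field F] {φ : Form F (ι → F)} {r : ℕ}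

theorem bridge (G : Subgroup φ.Isom) (T : Subgroup (GL ι F)) :
    (∀ x ∈ G.map φ.toGL, (∃ z : F, ((x ^ r : GL ι F) : Matrix ι ι F) = z • (1 : Matrix ι ι F)) →
      (∀ z : F, (x : Matrix ι ι F) ≠ z • (1 : Matrix ι ι F)) → ∃ g ∈ G.map φ.toGL, g⁻¹ * x * g ∈ T) ↔
    ∀ x ∈ G, PE r (x.1 : End F (ι → F)) → ∃ k ∈ G, k⁻¹ * x * k ∈ T.comap φ.toGL := by
  refine ⟨fun H x hx h => ?_, ?_⟩
  · rw [← toLin'_toGL, pe_toLin'] at h
    obtain ⟨_, ⟨k, hk, rfl⟩, e⟩ := H _ ⟨x, hx, rfl⟩ h.1 h.2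
    exact ⟨k, hk, by simpa using e⟩
  · rintro H _ ⟨x, hx, rfl⟩ h2 h3
    obtain ⟨k, hk, e⟩ := H x hx (toLin'_toGL x ▸ pe_toLin'.2 ⟨h2, h3⟩)
    exact ⟨_, ⟨k, hk, rfl⟩, by simpa using e⟩

theorem bridge_index (G : Subgroup φ.Isom) (T : Subgroup (GL ι F)) :
    T.relIndex (G.map φ.toGL) = (T.comap φ.toGL).relIndex G := (Subgroup.relIndex_comap ..).symm

end bridge

section conj
variable {F V : Type*} [Field F] [AddCommGroup V] [Module F V] {φ : Form F V} {r : ℕ}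

/-- rank of `(g - 1) ^ m` -/
noncomputable def rk (g : End F V) (m : ℕ) : ℕ := finrank F (LinearMap.range ((g - 1) ^ m))

theorem rk_one (g : End F V) : rk g 1 = finrank F (mv g) := by rw [rk, pow_one]; rfl

theorem coe_conj (x k : φ.Isom) : ((k⁻¹ * x * k).1 : End F V) = k.1.symm.conj (x.1 : End F V) := rfl

theorem conj_one' {V' : Type*} [AddCommGroup V'] [Module F V'] (e : V ≃ₗ[F] V') : e.conj (1 : End F V) = 1 :=
  e.conj_id

theorem rk_conj {V' : Type*} [AddCommGroup V'] [Module F V'] (e : V ≃ₗ[F] V') (g : End F V) (m : ℕ) :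
    rk (e.conj g) m = rk g m := by
  have : (e.conj g - 1) ^ m = e.conj ((g - 1) ^ m) := by
    rw [← H28.El.conj_pow, map_sub, conj_one']
  rw [rk, this, LinearEquiv.conj_apply, LinearMap.range_comp_of_range_eq_top _ e.symm.range, LinearMap.range_comp,
    LinearEquiv.finrank_map_eq, rk]

theorem not_all {G S : Subgroup φ.Isom} {x : φ.Isom} (hx : x ∈ G) (h1 : (x.1 : End F V) ^ r = 1)
    (h2 : ∀ z : F, (x.1 : End F V) ≠ z • 1)
    (h3 : ∀ y ∈ S, (y.1 : End F V) ^ r = 1 → (∀ m, rk (y.1 : End F V) m = rk (x.1 : End F V) m) → False) :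
    ¬ ∀ x ∈ G, PE r (x.1 : End F V) → ∃ k ∈ G, k⁻¹ * x * k ∈ S := fun H => by
  obtain ⟨k, -, e⟩ := H x hx ⟨⟨1, by rw [h1, one_smul]⟩, h2⟩
  exact h3 _ e (by rw [coe_conj, H28.El.conj_pow, h1, conj_one']) fun m => by rw [coe_conj, rk_conj]

theorem ne_smul [FiniteDimensional F V] {g : End F V} (h0 : 0 < finrank F (mv g)) (h1 : finrank F (mv g) < finrank F V)
    (z : F) : g ≠ z • 1 := by
  rintro rfl
  by_cases hz : z = 1
  · rw [hz, one_smul, mv_one] at h0; simp at h0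
  · have : mv (z • 1 : End F V) = ⊤ := eq_top_iff.2 fun v _ => mem_mv.2 ⟨(z - 1)⁻¹ • v, by
      have := sub_ne_zero.2 hz
      simp only [LinearMap.smul_apply, End.one_apply, smul_smul]
      rw [← sub_smul]; simp [← sub_one_mul, this]⟩
    rw [this, finrank_top] at h1; omega

variable [FiniteDimensional F V] [φ.Nondeg]

theorem fix_of_perp {x : End F V} (hx : φ.IsIsom x) {v : V} (hv : v ∈ φ.perp (mv x)) : x v = v :=
  mem_fx.1 (perp_mv hx ▸ hv)

theorem invol_conj (h2 : (2 : F) ≠ 0) {x y k : φ.Isom} (hx : (x.1 : End F V) ^ 2 = 1) (hy : (y.1 : End F V) ^ 2 = 1)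
    (h : (mv (y.1 : End F V)).map (k.1 : End F V) = mv (x.1 : End F V)) : k⁻¹ * x * k = y := by
  rw [mul_assoc, inv_mul_eq_iff_eq_mul, isom_eq_iff]
  refine ext_of_perp (φ := φ) (U := mv (y.1 : End F V)) (nd_mv y.2 (H24.Adj.semisimple_of_pow (n := 2) h2 hy))
    (fun v hv => ?_) fun v hv => ?_
  · exact (neg_of_mem_mv hx (h ▸ Submodule.mem_map_of_mem hv)).trans
      ((map_neg k.1 v).symm.trans (congrArg k.1 (neg_of_mem_mv hy hv).symm))
  · refine (fix_of_perp x.2 ?_).trans (congrArg k.1 (fix_of_perp y.2 hv).symm)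
    rw [← h]
    rintro _ ⟨w, hw, rfl⟩
    exact (k.2.B _ _).trans (hv w hw)

variable (φ) in
/-- `Q` is determined by `B` -/
def BQ : Prop := ∀ x y, φ.B x x = φ.B y y → φ.Q x = φ.Q y

omit [FiniteDimensional F V] [φ.Nondeg] in
theorem BQ.isom (h : BQ φ) {f : V → V} (hf : ∀ x y, φ.B (f x) (f y) = φ.B x y) : φ.IsIsom f := ⟨hf, fun _ => h _ _ (hf _ _)⟩

omit [FiniteDimensional F V] [φ.Nondeg] in
theorem bq_alt (h : H09.IsAltF φ) : BQ φ := fun x y _ => by rw [h.Q_eq, h.Q_eq]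

omit [FiniteDimensional F V] [φ.Nondeg] in
theorem bq_quad (h : φ.IsQuad) (h2 : (2 : F) ≠ 0) : BQ φ := fun x y e => mul_left_cancel₀ h2 (by rwa [← h.B_self, ← h.B_self])

omit [FiniteDimensional F V] [φ.Nondeg] in
theorem bq_unit {q : ℕ} (h : φ.IsUnitary q) : BQ φ := fun x y e => by rwa [h.herm.Q_eq, h.herm.Q_eq]

theorem kd_sqm (hσ : ∀ a, φ.σ a = a) (h2 : (2 : F) ≠ 0) {x : End F V} (hx : φ.IsIsom x) (h : x ^ 2 = -1) {c : F}
    (hc : c ^ 2 = -1) : 2 * H24.Sim.kd x (X - C c) = finrank F V := by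
  have k0 : ∀ c : F, ∀ v, v ∈ LinearMap.ker (aeval x (X - C c)) ↔ x v = c • v := fun c v => by
    simp [sub_eq_zero, Algebra.algebraMap_eq_smul_one]
  have k1 : ∀ c : F, c ^ 2 = -1 → 2 * finrank F (LinearMap.ker (aeval x (X - C c))) ≤ finrank F V := fun c hc => by
    rw [← finrank_top F V]
    refine two_mul_le_of_ti (φ := φ) H16.Eo.nd_top le_top fun v hv u hu => mul_left_cancel₀ h2 ?_
    have := hx.B u v
    rw [(k0 c _).1 hu, (k0 c _).1 hv, φ.B_smul_left, map_smul, hσ, smul_eq_mul] at this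
    linear_combination -this + φ.B u v * hc
  have k2 := Submodule.finrank_add_le_finrank_add_finrank (LinearMap.ker (aeval x (X - C c)))
    (LinearMap.ker (aeval x (X - C (-c))))
  have hc0 : c ≠ 0 := by rintro rfl; simp at hc
  rw [show LinearMap.ker (aeval x (X - C c)) ⊔ LinearMap.ker (aeval x (X - C (-c))) = ⊤ from eq_top_iff.2 fun v _ =>
    Submodule.mem_sup.2 ⟨(2 * c)⁻¹ • (c • v + x v), Submodule.smul_mem _ _ ((k0 _ _).2 ?_), (2 * c)⁻¹ • (c • v - x v),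
      Submodule.smul_mem _ _ ((k0 _ _).2 ?_), ?_⟩, finrank_top] at k2
  · have := k1 c hc
    have := k1 (-c) (by rwa [neg_sq])
    unfold H24.Sim.kd; omega
  · rw [map_add, map_smul, sqm_apply h, smul_add, smul_smul, ← sq, hc]; module
  · rw [map_sub, map_smul, sqm_apply h, smul_sub, smul_smul, neg_mul, ← sq, hc]; module
  · rw [← smul_add, show c • v + x v + (c • v - x v) = (2 * c) • v by module, inv_smul_smul₀ (mul_ne_zero h2 hc0)]

theorem unit_sqm (h2 : (2 : F) ≠ 0) {x : End F V} (h : x ^ 2 = -1) : IsUnit (1 - x) ∧ IsUnit (1 + x) := by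
  have k : (1 - x) * ((2 : F)⁻¹ • (1 + x)) = 1 := by
    rw [mul_smul_comm, show (1 - x) * (1 + x) = 1 - x ^ 2 by noncomm_ring, h, sub_neg_eq_add, ← two_smul F,
      inv_smul_smul₀ h2]
  refine ⟨.of_mul_eq_one _ k, .of_mul_eq_one_right ((2 : F)⁻¹ • (1 - x)) ?_⟩
  rw [smul_mul_assoc, ← mul_smul_comm, k]

theorem sqm_conj [Finite F] (hσ : ∀ a, φ.σ a = a) (h2 : (2 : F) ≠ 0) (hB : BQ φ) {x y : φ.Isom}
    (hx : (x.1 : End F V) ^ 2 = -1) (hy : (y.1 : End F V) ^ 2 = -1) : ∃ k : φ.Isom, k⁻¹ * x * k = y := by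
  have k1 : ∀ {x : End F V}, x ^ 2 = -1 → aeval x (X ^ 2 - C (-1 : F)) = 0 := fun h =>
    H16.Cc.aeval_pow_sub (by rw [h, neg_one_smul])
  obtain ⟨e, he⟩ : H24.Sim.Iso (y.1 : End F V) (x.1 : End F V) := by
    by_cases hs : ∃ c : F, c ^ 2 = -1
    · obtain ⟨c, hc⟩ := hs
      refine H16.Cc.iso_of_pow Nat.prime_two (IsPrimitiveRoot.neg_one (ringChar F) fun e => h2 ?_) (z := -1) (by simp)
        (by rw [hy, neg_one_smul]) (by rw [hx, neg_one_smul]) fun c hc => ?_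
      · exact_mod_cast (ringChar.spec F 2).2 (e ▸ dvd_rfl)
      · have := kd_sqm hσ h2 x.2 hx hc
        have := kd_sqm hσ h2 y.2 hy hc
        omega
    · have hi : Irreducible (X ^ 2 - C (-1 : F)) := X_pow_sub_C_irreducible_of_prime Nat.prime_two (by simpa using hs)
      refine H16.Cc.iso_of_sqfree hi.squarefree (k1 hy) (k1 hx) fun f f1 f2 f3 => ?_
      obtain rfl : f = X ^ 2 - C (-1 : F) :=
        eq_of_monic_of_associated f1 (monic_X_pow_sub_C _ two_ne_zero) (f2.associated_of_dvd hi f3)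
      unfold H24.Sim.kd; rw [k1 hx, k1 hy]
  obtain ⟨k, k2, k3⟩ := H24.Adj.exists_equiv_of_conj (φ := φ) (ψ := φ) (fun _ => rfl) rfl y.2.B x.2.B e he (unit_sqm h2 hy).1
    (unit_sqm h2 hy).2
  refine ⟨⟨k, hB.isom k2⟩, ?_⟩
  rw [mul_assoc, inv_mul_eq_iff_eq_mul]
  exact Isom.ext fun v => (k3 v).symm

end conj

end H16.Fx
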