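import Mathlib
import Cfsg.Agent.H16.Fx1

/-!
# Elements of prime order and extension field subgroups : semilinear maps (namespace `H16.Fx`)
-/

set_option autoImplicit false

open Module Polynomial H10 H10.Form H28.El

namespace H16.Fx

variable {F E V : Type*} [Field F] [Field E] [Algebra F E] [AddCommGroup V] [Module F V] [Module E V]
  [IsScalarTower F E V] {φ : Form F V} {ψ : Form E V} {l : Dual F E} {r : ℕ} {g : End F V} {y : End E V}
  {U W : Submodule E V}

variable (E) in
/-- `g` normalizes the field `E` -/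
def SL (g : End F V) : Prop := ∀ e : E, ∃ e' : E, ∀ v, g (e • v) = e' • g v

theorem sl_res (y : End E V) : SL E (y.restrictScalars F : End F V) := fun e => ⟨e, fun v => y.map_smul e v⟩

theorem exists_res (h : ∀ (e : E) v, g (e • v) = e • g v) : ∃ y : End E V, y.restrictScalars F = g :=
  ⟨⟨g.toAddHom, h⟩, rfl⟩

/-- restriction of scalars -/
def res (F : Type*) [Field F] [Algebra F E] [Module F V] [IsScalarTower F E V] : End E V →+* End F V where
  toFun y := y.restrictScalars F
  map_one' := rfl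
  map_mul' _ _ := rfl
  map_zero' := rfl
  map_add' _ _ := rfl

theorem res_pow (y : End E V) (k : ℕ) : (y.restrictScalars F : End F V) ^ k = (y ^ k).restrictScalars F :=
  (map_pow (res F) y k).symm

theorem res_inj {y y' : End E V} (h : (y.restrictScalars F : End F V) = y'.restrictScalars F) : y = y' :=
  LinearMap.restrictScalars_injective F h

theorem finrank_res (W : Submodule E V) : finrank F (W.restrictScalars F) = finrank F E * finrank E W :=
  (finrank_mul_finrank F E W).symm

theorem mv_res (y : End E V) : mv (y.restrictScalars F : End F V) = (mv y).restrictScalars F := rfl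

theorem rk_res (y : End E V) (m : ℕ) : rk (y.restrictScalars F : End F V) m = finrank F E * rk y m := by
  rw [rk, show (y.restrictScalars F - 1 : End F V) = (y - 1).restrictScalars F from rfl, res_pow, rk, ← finrank_res]
  rfl

theorem SL.exists_aut [Nontrivial V] [FiniteDimensional F E] (h : SL E g) (hg : Function.Injective g) :
    ∃ τ : E ≃ₐ[F] E, ∀ e v, g (e • v) = τ e • g v := by
  choose t ht using h
  obtain ⟨v, hv⟩ := exists_ne (0 : V)
  have hv' : g v ≠ 0 := fun e => hv (hg (e.trans (map_zero g).symm))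
  have H : ∀ {e a : E}, g (e • v) = a • g v → t e = a := fun h => smul_left_injective E hv' ((ht _ v).symm.trans h)
  let τ : E →ₐ[F] E := ⟨⟨⟨⟨t, H (by simp)⟩, fun a b => H (by rw [mul_smul, ht, ht, mul_smul])⟩, H (by simp),
    fun a b => H (by rw [add_smul, map_add, ht, ht, add_smul])⟩, fun c => H (by simp)⟩
  exact ⟨.ofBijective τ τ.bijective, ht⟩

theorem pow_semi {τ : E ≃ₐ[F] E} (h : ∀ e v, g (e • v) = τ e • g v) (k : ℕ) (e : E) (v : V) :
    (g ^ k) (e • v) = (τ ^ k) e • (g ^ k) v := by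
  induction k with
  | zero => rfl
  | succ k ih => rw [pow_succ', pow_succ', End.mul_apply, ih, h]; rfl

theorem SL.cases [Nontrivial V] [FiniteDimensional F V] [FiniteDimensional F E] [Finite F] (hr : r.Prime)
    (hk : (finrank F E).Prime) (h : SL E g) (h1 : g ^ r = 1) : (∃ y : End E V, y.restrictScalars F = g) ∨
      r = finrank F E ∧ finrank F V ≤ 2 * finrank F (mv g) := by
  obtain ⟨τ, hτ⟩ := h.exists_aut (inj_of_pow hr.pos h1)
  obtain ⟨v, hv⟩ := exists_ne (0 : V)
  by_cases h0 : τ = 1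
  · exact .inl (exists_res (by simpa [h0] using hτ))
  have := Module.finite_of_finite F (M := E)
  have k1 : orderOf τ = r := haveI := Fact.mk hr; orderOf_eq_prime (AlgEquiv.ext fun e => smul_left_injective E hv
    (by simpa [h1] using (pow_semi hτ r e v).symm)) h0
  refine .inr ⟨(Nat.prime_dvd_prime_iff_eq hr hk).1 (k1 ▸ IsGalois.card_aut_eq_finrank F E ▸ orderOf_dvd_natCard τ), ?_⟩
  obtain ⟨e, he⟩ : ∃ e, τ e ≠ e := not_forall.1 fun H => h0 (AlgEquiv.ext H)
  have e0 : e ≠ 0 := by rintro rfl; simp at he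
  have k2 := finrank_sup_of_disjoint (U := fx g) (W := (fx g).map ((LinearMap.lsmul E V e).restrictScalars F))
    (Submodule.disjoint_def.2 (by
      rintro _ h2 ⟨w, h3, rfl⟩
      have := mem_fx.1 h2
      simp only [LinearMap.coe_restrictScalars, LinearMap.lsmul_apply, hτ, mem_fx.1 h3] at this ⊢
      rw [(smul_eq_zero.1 ((sub_smul ..).trans (sub_eq_zero.2 this))).resolve_left (sub_ne_zero.2 he), smul_zero]))
  rw [finrank_map_inj (smul_right_injective V e0)] at k2
  have := Submodule.finrank_le (fx g ⊔ (fx g).map ((LinearMap.lsmul E V e).restrictScalars F))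
  have := finrank_fx_add (g := g)
  omega

variable (φ ψ l) in
/-- `φ` is the trace of `ψ` -/
structure FX : Prop where
  l0 : l ≠ 0
  B : ∀ x y, φ.B x y = l (ψ.B x y)
  q1 : BQ φ
  q2 : BQ ψ

namespace FX
variable (h : FX φ ψ l)
include h

theorem isom : φ.IsIsom (y.restrictScalars F : End F V) ↔ ψ.IsIsom y :=
  ⟨fun k => h.q2.isom fun u v => sub_eq_zero.1 (Mx.eq_zero_of_mul h.l0 fun c => by
    have := k.B u (c • v)
    rw [h.B, h.B] at this
    rw [mul_sub, map_sub, sub_eq_zero]; simpa using this),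
  fun k => h.q1.isom fun u v => by rw [h.B, h.B]; exact congrArg l (k.B u v)⟩

theorem perp (W : Submodule E V) : φ.perp (W.restrictScalars F) = (ψ.perp W).restrictScalars F :=
  Submodule.ext fun v => ⟨fun k u hu => Mx.eq_zero_of_mul h.l0 fun c => by
    have := k (ψ.σ c • u) (W.smul_mem _ hu)
    rwa [h.B, ψ.B_smul_left, ψ.σ_σ] at this, fun k u hu => by rw [h.B, k u hu, map_zero]⟩

theorem nd : φ.NondegOn (W.restrictScalars F) ↔ ψ.NondegOn W := by
  rw [nondegOn_iff_disjoint, nondegOn_iff_disjoint, h.perp, Submodule.disjoint_def, Submodule.disjoint_def]; rfl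

theorem ts (hW : ψ.TS W) : φ.TS (W.restrictScalars F) := by
  have k : ∀ u ∈ W, ∀ v ∈ W, φ.B u v = 0 := fun u hu v hv => by rw [h.B, hW.B u hu v hv, map_zero]
  exact ⟨fun u hu => (h.q1 u 0 (by simp [k u hu u hu])).trans φ.Q_zero, k⟩

theorem index [Finite V] {S : Subgroup φ.Isom} (hS : ∀ g, g ∈ S ↔ SL E (g.1 : End F V)) :
    ∃ N, S.index ∣ N ∧ N * Nat.card ψ.Isom = Nat.card φ.Isom := by
  let ρ : ψ.Isom →* φ.Isom := ⟨⟨fun g => ⟨g.1.restrictScalars F, (h.isom (y := (g.1 : End E V))).2 g.2⟩, rfl⟩, fun _ _ => rfl⟩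
  have k : Function.Injective ρ := fun a b e => Isom.ext fun v => congrArg (fun g : φ.Isom => g.1 v) e
  refine ⟨ρ.range.index, Subgroup.index_dvd_of_le ?_, ?_⟩
  · rintro _ ⟨g, rfl⟩; exact (hS _).2 (sl_res (g.1 : End E V))
  · rw [Nat.card_congr (MonoidHom.ofInjective k).toEquiv, Subgroup.index_mul_card]

omit [IsScalarTower F E V] in
theorem isom_semi {ι : Type*} [Fintype ι] (b : Basis ι E V) {τ : E ≃ₐ[F] E} (hτ : ∀ a, τ (ψ.σ a) = ψ.σ (τ a))
    (hg : ∀ e v, g (e • v) = τ e • g v) {c : E} (hc : ∀ s, l (c * τ s) = l s)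
    (hb : ∀ i j, ψ.B (g (b i)) (g (b j)) = c * τ (ψ.B (b i) (b j))) : φ.IsIsom g := h.q1.isom fun u v => by
  rw [h.B, h.B, ← hc (ψ.B u v), ← b.sum_repr u, ← b.sum_repr v]
  simp only [map_sum, hg, LinearMap.sum_apply, ψ.B_smul_left, map_smul, smul_eq_mul, hb, map_mul, hτ, Finset.mul_sum]
  congr 1; ext; congr 1; ext; congr 1; ring

end FX

theorem exists_semi {ι : Type*} [Fintype ι] (b : Basis ι E V) (τ : E ≃ₐ[F] E) (a : ι → E) :
    ∃ g : End F V, (∀ e v, g (e • v) = τ e • g v) ∧ (∀ i, g (b i) = a i • b i) ∧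
      ∀ c : F, (∀ s, τ (τ s) = s) → (∀ i, τ (a i) * a i = algebraMap F E c) → g ^ 2 = c • 1 := by
  classical
  let g : End F V := ⟨⟨fun v => ∑ i, (τ (b.repr v i) * a i) • b i, fun u v => by
    simp [add_mul, add_smul, Finset.sum_add_distrib]⟩, fun c v => by
      rw [← algebraMap_smul E c v, RingHom.id_apply, Finset.smul_sum]
      refine Finset.sum_congr rfl fun i _ => ?_
      rw [map_smul, Finsupp.smul_apply, smul_eq_mul, map_mul, τ.commutes, mul_assoc, mul_smul, algebraMap_smul]⟩
  have k1 : ∀ e v, g (e • v) = τ e • g v := fun e v => by simp [g, Finset.smul_sum, smul_smul, mul_assoc]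
  have k2 : ∀ i, g (b i) = a i • b i := fun i => by
    simp only [g, LinearMap.coe_mk, AddHom.coe_mk, Basis.repr_self]
    rw [Finset.sum_eq_single i (fun j _ hj => by simp [Finsupp.single_eq_of_ne hj]) (by simp)]; simp
  refine ⟨g, k1, k2, fun c h1 h2 => LinearMap.ext fun v => ?_⟩
  rw [← b.sum_repr v]
  simp only [sq, End.mul_apply, map_sum, k1, k2, h1, LinearMap.smul_apply, End.one_apply]
  refine Finset.sum_congr rfl fun i _ => ?_
  rw [smul_smul (τ _), h2, smul_comm, algebraMap_smul]

end H16.Fx
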