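import Mathlib
import Cfsg.Agent.H16.Fx2

/-!
# Elements of prime order and extension field subgroups of symplectic groups (namespace `H16.Fx`)
-/

set_option autoImplicit false

open Module Polynomial H10 H10.Form H28.El

namespace H16.Fx

theorem prod_split (f : ℕ → ℕ) {k : ℕ} (hk : 0 < k) (m : ℕ) : ∏ i ∈ Finset.range (k * m), f (i + 1) =
    (∏ i ∈ Finset.range m, f (k * (i + 1))) * ∏ i ∈ (Finset.range (k * m)).filter (fun i => ¬ k ∣ i + 1), f (i + 1) := by
  rw [← Finset.prod_filter_mul_prod_filter_not _ (fun i => k ∣ i + 1)]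
  congr 1
  refine (Finset.prod_bij (fun i _ => k * (i + 1) - 1) (fun i hi => ?_) (fun i _ j _ e => ?_) (fun j hj => ?_)
    fun i _ => ?_).symm
  · have := Nat.mul_le_mul_left k (show i + 1 ≤ m from Finset.mem_range.1 hi)
    have := Nat.mul_pos hk i.add_one_pos
    simp only [Finset.mem_filter, Finset.mem_range]
    exact ⟨by omega, by rw [Nat.sub_add_cancel this]; exact Dvd.intro _ rfl⟩
  · have := Nat.mul_pos hk i.succ_pos
    have := Nat.mul_pos hk j.succ_pos
    have := Nat.eq_of_mul_eq_mul_left hk (show k * (i + 1) = k * (j + 1) by simp only [Nat.succ_eq_add_one] at *; omega)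
    omega
  · simp only [Finset.mem_filter, Finset.mem_range] at hj
    obtain ⟨h1, c, hc⟩ := hj
    obtain _ | c := c
    · omega
    · exact ⟨c, Finset.mem_range.2 (Nat.le_of_mul_le_mul_left (show k * (c + 1) ≤ k * m by omega) hk), by omega⟩
  · rw [Nat.sub_add_cancel (Nat.mul_pos hk i.succ_pos)]

section
variable {F V : Type*} [Field F] [AddCommGroup V] [Module F V] [FiniteDimensional F V] {φ : Form F V} [φ.Nondeg] {r : ℕ}

theorem exists_tv (p : ℕ) [hp : Fact p.Prime] [CharP F p] [Nontrivial V] (hA : H09.IsAltF φ) :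
    ∃ x : φ.Isom, (x.1 : End F V) ^ p = 1 ∧ finrank F (mv (x.1 : End F V)) = 1 := by
  obtain ⟨v, hv⟩ := exists_ne (0 : V)
  have k : ∀ u, ((φ.quasi v 1).1 - 1 : End F V) u = φ.B v u • v := fun u => by simp [quasi_apply_alt hA]
  refine ⟨φ.quasi v 1, pow_char_iff.2 (pow_eq_zero_of_le hp.out.two_le (LinearMap.ext fun u => ?_)), ?_⟩
  · rw [sq, End.mul_apply, k, k]; simp [B_self_of_isAltF hA]
  · obtain ⟨w, hw⟩ := φ.exists_B_eq_one hv
    rw [← finrank_span_singleton (K := F) hv]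
    refine congrArg (fun W : Submodule F V => finrank F W) <| le_antisymm ?_ ((Submodule.span_singleton_le_iff_mem _ _).2 ⟨w, by rw [k, hw, one_smul]⟩)
    rintro _ ⟨u, rfl⟩
    exact k u ▸ Submodule.smul_mem _ _ (Submodule.mem_span_singleton_self v)

omit [FiniteDimensional F V] in
theorem ne_smul_odd [Nontrivial V] (hσ : ∀ a, φ.σ a = a) (ho : Odd r) {x : End F V} (hx : φ.IsIsom x) (h1 : x ^ r = 1)
    (h0 : x ≠ 1) (z : F) : x ≠ z • 1 := by
  rintro rfl
  have k := norm_of_smul hx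
  obtain ⟨j, rfl⟩ := ho
  rw [hσ] at k
  rw [pow_succ, pow_mul, sq, smul_mul_smul_comm, k, one_smul, mul_one, one_pow, one_mul] at h1
  exact h0 h1

theorem pos_of_ne {x : End F V} (h : x ≠ 1) : 0 < finrank F (mv x) :=
  Nat.pos_of_ne_zero fun e => mv_ne_bot h (Submodule.finrank_eq_zero.1 e)

omit [FiniteDimensional F V] in
theorem ne_one_of_pos {x : End F V} (h : 0 < finrank F (mv x)) : x ≠ 1 := by
  rintro rfl; rw [mv_one] at h; simp at h

theorem min_alt [Fintype F] [Fact r.Prime] (hA : H09.IsAltF φ) (h0 : (r : F) ≠ 0) (ho : Odd r) (h : cc F r ≤ finrank F V) :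
    ∃ x : φ.Isom, (x.1 : End F V) ^ r = 1 ∧ finrank F (mv (x.1 : End F V)) = cc F r := by
  obtain ⟨a, k, h1, h2, -⟩ := real_k h0 1
  obtain ⟨y, k1, k2, k3⟩ := real_alt h0 ho hA h1 (k := k) (by omega)
  exact ⟨φ.toIsom y, by rwa [φ.toIsom_coe k1], by rw [φ.toIsom_coe k1, k3.1, h2, one_mul]⟩

theorem dvd_mv [Fintype F] [Fact r.Prime] {t c : ℕ} (hP : Par φ r t c) (h0 : (r : F) ≠ 0) (ho : Odd r) {y : End F V}
    (hx : φ.IsIsom y) (hy : y ^ r = 1) : c ∣ finrank F (mv y) :=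
  (hP.nb h0 ho hx hy).dvd hx (hP.pos h0) le_rfl inv_mv (nd_mv hx (H24.Adj.semisimple_of_pow h0 hy))

end

variable {F E V : Type*} [Field F] [Field E] [Algebra F E] [AddCommGroup V] [Module F V] [Module E V]
  [IsScalarTower F E V] {φ : Form F V} {ψ : Form E V} {l : Dual F E} {r : ℕ} [Fintype F] [FiniteDimensional F E]
  [FiniteDimensional F V] [φ.Nondeg] {G S : Subgroup φ.Isom} (h : FX φ ψ l) (hS : ∀ g, g ∈ S ↔ SL E (g.1 : End F V))

omit [Fintype F] [FiniteDimensional F E] in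
theorem cast_ne {r : ℕ} (h0 : (r : F) ≠ 0) : (r : E) ≠ 0 := by rwa [← map_natCast (algebraMap F E), _root_.map_ne_zero]

omit [Fintype F] [FiniteDimensional F E] in
theorem two_ne (h0 : (2 : F) ≠ 0) : (2 : E) ≠ 0 := by rwa [← map_ofNat (algebraMap F E), _root_.map_ne_zero]

theorem psub {k : ℕ} (hk : k ≠ 0) : Fintype.card F ^ k - 1 ≠ 0 :=
  Nat.sub_ne_zero_of_lt (one_lt_pow₀ Fintype.one_lt_card hk)

omit [FiniteDimensional F E] in
theorem card_E [Fintype E] : Fintype.card E = Fintype.card F ^ finrank F E := Module.card_eq_pow_finrank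

include h hS

omit [φ.Nondeg] in
theorem FX.neg [Nontrivial V] (hr : r.Prime) (hk : (finrank F E).Prime) {x : φ.Isom} (hx : x ∈ G)
    (h1 : (x.1 : End F V) ^ r = 1) (h2 : ∀ z : F, (x.1 : End F V) ≠ z • 1)
    (h3 : ∀ y : End E V, ψ.IsIsom y → y ^ r = 1 → (∀ m, finrank F E * rk y m = rk (x.1 : End F V) m) → False)
    (h4 : r = finrank F E → 2 * finrank F (mv (x.1 : End F V)) < finrank F V) :
    ¬ ∀ x ∈ G, PE r (x.1 : End F V) → ∃ k ∈ G, k⁻¹ * x * k ∈ S := not_all hx h1 h2 fun y k1 k2 k3 => by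
  rcases ((hS y).1 k1).cases hr hk k2 with ⟨y', e⟩ | ⟨k4, k5⟩
  · exact h3 y' (h.isom.1 (e ▸ y.2)) (res_inj (F := F) (by rw [← res_pow, e, k2]; rfl)) fun m => by rw [← rk_res, e, k3]
  · have := h4 k4
    rw [← rk_one, k3, rk_one] at k5
    omega

omit [Fintype F] [FiniteDimensional F E] in
theorem FX.pos_invol (hA : H09.IsAltF φ) (h2 : (2 : F) ≠ 0) {x : φ.Isom} (hx : (x.1 : End F V) ^ 2 = 1) {y : End F V}
    (k1 : φ.IsIsom y) (k2 : y ^ 2 = 1) (k3 : SL E y) (k4 : finrank F (mv y) = finrank F (mv (x.1 : End F V))) :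
    ∃ k ∈ (⊤ : Subgroup φ.Isom), k⁻¹ * x * k ∈ S := by
  obtain ⟨k, hk⟩ := cj_alt hA (nd_mv k1 (H24.Adj.semisimple_of_pow (n := 2) h2 k2))
    (nd_mv x.2 (H24.Adj.semisimple_of_pow (n := 2) h2 hx)) k4
  rw [← φ.toIsom_coe k1] at k2 k3 hk
  exact ⟨k, trivial, invol_conj h2 hx k2 hk ▸ (hS _).2 k3⟩

omit [FiniteDimensional F E] in
theorem FX.pos_sqm (hσ : ∀ a, φ.σ a = a) (h2 : (2 : F) ≠ 0) {x : φ.Isom} (hx : (x.1 : End F V) ^ 2 = -1) {y : End F V}
    (k1 : φ.IsIsom y) (k2 : y ^ 2 = -1) (k3 : SL E y) : ∃ k ∈ (⊤ : Subgroup φ.Isom), k⁻¹ * x * k ∈ S := by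
  rw [← φ.toIsom_coe k1] at k2 k3
  obtain ⟨k, hk⟩ := sqm_conj hσ h2 h.q1 hx k2
  exact ⟨k, trivial, hk ▸ (hS _).2 k3⟩

variable {p : ℕ} [hp : Fact p.Prime] [CharP F p] [hr : Fact r.Prime]

theorem FX.neg_char (hA : H09.IsAltF φ) (hk : (finrank F E).Prime) (hn : 4 ≤ finrank F V) :
    ¬ ∀ x ∈ (⊤ : Subgroup φ.Isom), PE p (x.1 : End F V) → ∃ k ∈ (⊤ : Subgroup φ.Isom), k⁻¹ * x * k ∈ S := by
  haveI : Nontrivial V := nontrivial_of_finrank_pos (R := F) (by omega)
  obtain ⟨x, k1, k2⟩ := exists_tv p hA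
  refine h.neg hS hp.out hk trivial k1 (ne_smul (by omega) (by omega)) (fun y _ _ k3 => ?_) fun _ => by omega
  exact hk.one_lt.ne' (Nat.eq_one_of_mul_eq_one_right ((k3 1).trans ((rk_one _).trans k2)))

theorem FX.sp_sp (hA : H09.IsAltF φ) (hψ : H09.IsAltF ψ) (hk : (finrank F E).Prime)
    (hl : ∀ (τ : E ≃ₐ[F] E) s, l (τ s) = l s) {d : ℕ} (hn : finrank F V = 2 * d) (hd : 2 ≤ d) (hΩ : r ∣ S.index) :
    (∀ x ∈ (⊤ : Subgroup φ.Isom), PE r (x.1 : End F V) → ∃ k ∈ (⊤ : Subgroup φ.Isom), k⁻¹ * x * k ∈ S) ↔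
      r = 2 ∧ d = 2 ∧ finrank F E = 2 ∧ Odd (Fintype.card F) := by
  haveI : Nontrivial V := nontrivial_of_finrank_pos (R := F) (by omega)
  haveI := Module.Finite.of_restrictScalars_finite F E V
  haveI := Module.finite_of_finite F (M := E)
  haveI := Fintype.ofFinite E
  haveI := Module.finite_of_finite F (M := V)
  haveI := Mx.nondeg_of h.B
  obtain ⟨m, hm⟩ := even_of_alt hψ H16.Eo.nd_top
  rw [finrank_top, ← two_mul] at hm
  have hdm : d = finrank F E * m := by
    have := finrank_mul_finrank F E V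
    rw [hm, hn, mul_left_comm] at this; omega
  refine ⟨fun H => ?_, ?_⟩
  · have h0 : (r : F) ≠ 0 := fun e =>
      haveI := (CharP.charP_iff_prime_eq_zero hr.out).2 e; h.neg_char hS hA hk (by omega) H
    have ev : ∀ y : End E V, ψ.IsIsom y → y ^ r = 1 → Even (rk y 1) := fun y k1 k2 => rk_one y ▸
      even_of_alt hψ (nd_mv k1 (H24.Adj.semisimple_of_pow (cast_ne h0) k2))
    by_cases h2 : r = 2
    · subst h2
      obtain ⟨U, -, k1, k2⟩ := exists_nd_alt hA H16.Eo.nd_top (k := 1) (by rw [finrank_top]; omega)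
      obtain ⟨y, k3, k4, rfl⟩ := exists_neg (by exact_mod_cast h0) k1
      rw [← φ.toIsom_coe k3] at k2 k4
      have k5 : finrank F E = 2 ∧ d = 2 := by
        by_contra k5
        refine h.neg hS hr.out hk (Subgroup.mem_top _) k4 (ne_smul (by omega) (by omega)) (fun y k6 k7 k8 => ?_) (fun _ => by omega) H
        obtain ⟨j, hj⟩ := ev y k6 k7
        have := k8 1
        rw [rk_one (_ : End F V), k2, hj, ← two_mul, mul_left_comm] at this
        exact hk.one_lt.ne' (Nat.eq_one_of_mul_eq_one_right (Nat.eq_of_mul_eq_mul_left two_pos this))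
      exact ⟨rfl, k5.2, k5.1, Nat.odd_iff.2 (odd_card (by exact_mod_cast h0))⟩
    exfalso
    have ho := odd_of_ne_two h2
    obtain ⟨N, k1, k2⟩ := h.index hS
    rw [hA.card_Isom hn, hψ.card_Isom hm, hdm, prod_split (fun i => Nat.card F ^ (2 * i) - 1) hk.pos,
      Nat.card_eq_fintype_card, Nat.card_eq_fintype_card, card_E (F := F)] at k2
    simp only [← pow_mul, mul_left_comm (finrank F E) 2] at k2
    rw [← mul_assoc, mul_comm (∏ _ ∈ _, _), ← mul_assoc, mul_left_inj' (Finset.prod_ne_zero_iff.2 fun i _ =>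
      psub (by have := hk.pos; positivity))] at k2
    obtain ⟨i, k3, k4⟩ := (hr.out.prime.dvd_finsetProd_iff _).1
      (dvd_of_dvd_mul_pow hr.out h0 ((mul_comm _ _).trans k2.symm ▸ (hΩ.trans k1).mul_right _))
    simp only [Finset.mem_filter, Finset.mem_range] at k3
    rw [H16.dvd_pow_sub_one_iff Fintype.card_pos] at k4
    obtain ⟨c, k5, k6⟩ : ∃ c, cc F r = 2 * c ∧ c ∣ i + 1 := by
      rcases tc_facts h0 with ⟨⟨c, e⟩, e', -⟩ | ⟨e, e', -⟩
      · exact ⟨c, by omega, Nat.dvd_of_mul_dvd_mul_left two_pos (by rwa [two_mul c, ← e])⟩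
      · exact ⟨_, e', (Nat.coprime_two_right.2 (Nat.not_even_iff_odd.1 e)).dvd_of_dvd_mul_left k4⟩
    have k7 := Nat.le_of_dvd i.succ_pos k6
    obtain ⟨x, k8, k9⟩ := min_alt hA h0 ho (by omega)
    have := cc_pos h0
    refine h.neg hS hr.out hk (Subgroup.mem_top _) k8 (ne_smul_odd hA.σ_eq ho x.2 k8 (ne_one_of_pos (by omega)))
      (fun y l1 l2 l3 => ?_) (fun e => ?_) H
    · obtain ⟨j, hj⟩ := ev y l1 l2
      have := l3 1
      rw [rk_one (_ : End F V), k9, k5, hj, ← two_mul, mul_left_comm] at this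
      exact k3.2 ((Dvd.intro _ (Nat.eq_of_mul_eq_mul_left two_pos this)).trans k6)
    · have := cc_le h0 ho
      have : finrank F E * 1 ≤ finrank F E * m := Nat.mul_le_mul_left _ (by obtain _ | m := m <;> omega)
      omega
  rintro ⟨rfl, rfl, hE, hq⟩ x - hx
  have h2 := two_ne_of_odd hq
  rcases pe_two' hA.σ_eq x.2 hx with k | k
  · let τ := FiniteField.frobeniusAlgEquivOfAlgebraic F E
    have t1 : orderOf τ = 2 := hE ▸ FiniteField.orderOf_frobeniusAlgEquivOfAlgebraic F E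
    have t2 : ∀ s, τ (τ s) = s := fun s => by
      have := AlgEquiv.congr_fun (t1 ▸ pow_orderOf_eq_one τ) s
      rwa [sq] at this
    obtain ⟨e, he⟩ : ∃ e, τ e ≠ e := not_forall.1 fun H => by simp [show τ = 1 from AlgEquiv.ext H] at t1
    obtain ⟨v, hv⟩ := exists_ne (0 : V)
    obtain ⟨w, hw⟩ := ψ.exists_B_eq_one hv
    have hi : LinearIndependent E ![v, w] := LinearIndependent.pair_iff.2 fun s t e => by
      have e1 := congrArg (ψ.B v) e
      have e2 := congrArg (ψ.B w) e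
      simp only [map_add, map_smul, B_self_of_isAltF hψ, hw, B_swap_of_isAltF hψ v w] at e1 e2
      exact ⟨by simpa using e2, by simpa using e1⟩
    let b := basisOfLinearIndependentOfCardEqFinrank hi (by rw [hE] at hdm; simp; omega)
    obtain ⟨y, l1, l2, l3⟩ := exists_semi b τ fun _ => 1
    have l4 := l3 1 t2 (by simp)
    have l5 : φ.IsIsom y := h.isom_semi b (fun a => by simp [hψ.σ_eq]) l1 (c := 1) (by simpa using hl τ) fun i j => by
      rw [l2, l2]; fin_cases i <;> fin_cases j <;> simp [b, B_self_of_isAltF hψ, hw, B_swap_of_isAltF hψ v w]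
    rw [one_smul] at l4
    have l6 : ∀ {y : End F V}, φ.IsIsom y → y ^ 2 = 1 → (∀ z : F, y ≠ z • 1) → finrank F (mv y) = 2 := fun {y} a1 a2 a3 => by
      obtain ⟨j, hj⟩ := even_of_alt hA (nd_mv a1 (H24.Adj.semisimple_of_pow (n := 2) h2 a2))
      have := pos_of_ne (x := y) (by simpa using a3 1)
      have := Submodule.finrank_lt (s := mv y) fun e => a3 (-1) (LinearMap.ext fun v => by
        simpa using neg_of_mem_mv a2 (e ▸ Submodule.mem_top))
      omega
    refine h.pos_invol hS hA h2 k l5 l4 (fun e => ⟨_, l1 e⟩) ((l6 l5 l4 fun z hz => he ?_).trans (l6 x.2 k hx.2).symm)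
    have a1 := l1 e (b 0)
    have a2 := l2 0
    rw [hz] at a1 a2
    simp only [LinearMap.smul_apply, End.one_apply, one_smul] at a1 a2
    rw [smul_comm, a2] at a1
    exact smul_left_injective E (b.ne_zero 0) a1.symm
  · obtain ⟨y, l1, l2⟩ := exists_sqm_alt hψ
    exact h.pos_sqm hS hA.σ_eq h2 k (h.isom.2 l1) (by rw [res_pow, l2]; rfl) (sl_res y)

theorem FX.sp_u (hA : H09.IsAltF φ) {q : ℕ} (hu : ψ.IsUnitary q) (hE : finrank F E = 2) (h2 : (2 : F) ≠ 0)
    (hl : ∀ s, l (ψ.σ s) = - l s) (hF : ∀ c, ψ.σ (algebraMap F E c) = algebraMap F E c) {d : ℕ}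
    (hn : finrank F V = 2 * d) (hd : 2 ≤ d) (hΩ : r ∣ S.index) :
    (∀ x ∈ (⊤ : Subgroup φ.Isom), PE r (x.1 : End F V) → ∃ k ∈ (⊤ : Subgroup φ.Isom), k⁻¹ * x * k ∈ S) ↔ r = 2 := by
  haveI : Nontrivial V := nontrivial_of_finrank_pos (R := F) (by omega)
  haveI := Module.Finite.of_restrictScalars_finite F E V
  haveI := Module.finite_of_finite F (M := E)
  haveI := Fintype.ofFinite E
  haveI := Module.finite_of_finite F (M := V)
  haveI := Mx.nondeg_of h.B
  have hk : (finrank F E).Prime := hE ▸ Nat.prime_two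
  have hm : finrank E V = d := by
    have := finrank_mul_finrank F E V
    rw [hE] at this; omega
  obtain rfl : q = Fintype.card F := Nat.pow_left_injective two_ne_zero (by
    have := card_F hu
    rw [card_E (F := F), hE] at this; exact this.symm)
  refine ⟨fun H => by_contra fun hr2 => ?_, ?_⟩
  · have h0 : (r : F) ≠ 0 := fun e =>
      haveI := (CharP.charP_iff_prime_eq_zero hr.out).2 e; h.neg_char hS hA hk (by omega) H
    have ho := odd_of_ne_two hr2
    obtain ⟨N, k1, k2⟩ := h.index hS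
    have h4 : ∀ i, Fintype.card F ^ (2 * (i + 1)) - 1 =
        (if Even i then Fintype.card F ^ (i + 1) + 1 else Fintype.card F ^ (i + 1) - 1) *
        (if Even i then Fintype.card F ^ (i + 1) - 1 else Fintype.card F ^ (i + 1) + 1) := fun i => by
      rw [pow_mul', ← one_pow 2, Nat.sq_sub_sq, one_pow]
      split_ifs; exacts [rfl, mul_comm _ _]
    rw [hA.card_Isom hn, hu.card_Isom, hm, guOrd, Nat.card_eq_fintype_card] at k2
    simp only [h4, Finset.prod_mul_distrib] at k2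
    rw [← mul_assoc, mul_comm (∏ _ ∈ _, _), ← mul_assoc, mul_left_inj' (Finset.prod_ne_zero_iff.2 fun i _ => by
      split_ifs; exacts [by positivity, psub (by omega)])] at k2
    obtain ⟨i, k3, k4⟩ := (hr.out.prime.dvd_finsetProd_iff _).1
      (dvd_of_dvd_mul_pow hr.out h0 ((mul_comm _ _).trans k2.symm ▸ (hΩ.trans k1).mul_right _))
    rw [Finset.mem_range] at k3
    have hb := ord_pos h0
    have k5 : cc F r ≤ 2 * d ∧ orderOf ((Fintype.card F : ℕ) : ZMod r) % 4 ≠ 2 := by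
      split_ifs at k4 with e
      · rw [H16.dvd_pow_sub_one_iff Fintype.card_pos] at k4
        have := Nat.le_of_dvd i.succ_pos k4
        have := Nat.odd_iff.1 (Odd.of_dvd_nat e.add_one k4)
        rcases tc_facts h0 with ⟨⟨c, e⟩, e', -⟩ | ⟨e, e', -⟩ <;> omega
      · obtain ⟨k4, k5⟩ := even_of_dvd_add ho i.succ_pos k4
        have := Nat.le_of_dvd (by omega) k4
        obtain ⟨j, hj⟩ := Nat.not_even_iff_odd.1 e
        rcases tc_facts h0 with ⟨⟨c, e⟩, e', -⟩ | ⟨e, e', -⟩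
        · refine ⟨by omega, fun k6 => k5 ?_⟩
          rw [e, ← two_mul] at k4 ⊢
          rw [show i.succ = 2 * (j + 1) by omega] at k4 ⊢
          exact mul_dvd_mul_left _ ((Nat.coprime_two_right.2 (Nat.odd_iff.2 (by omega))).dvd_of_dvd_mul_left
            (Nat.dvd_of_mul_dvd_mul_left two_pos k4))
        · exact absurd ((Nat.coprime_two_right.2 (Nat.not_even_iff_odd.1 e)).dvd_of_dvd_mul_left k4) k5
    obtain ⟨x, k8, k9⟩ := min_alt hA h0 ho (by omega)
    have := cc_pos h0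
    refine h.neg hS hr.out hk (Subgroup.mem_top _) k8 (ne_smul_odd hA.σ_eq ho x.2 k8 (ne_one_of_pos (by omega)))
      (fun y l1 l2 l3 => ?_) (fun e => by omega) H
    have l4 := dvd_mv (par_unit hu (cast_ne h0) ho) (cast_ne h0) ho l1 l2
    have l5 := l3 1
    rw [rk_one, rk_one, k9, hE] at l5
    rw [if_neg k5.2, bb_eq hu] at l4
    have := Nat.le_of_dvd (by omega) l4
    rcases tc_facts h0 with ⟨e, e', -⟩ | ⟨e, e', -⟩
    · rw [if_pos e] at this; obtain ⟨c, e⟩ := e; omega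
    · rw [if_neg e] at this; omega
  rintro rfl x - hx
  rcases pe_two' hA.σ_eq x.2 hx with k | k
  · obtain ⟨j, hj⟩ := even_of_alt hA (nd_mv x.2 (H24.Adj.semisimple_of_pow (n := 2) h2 k))
    have := Submodule.finrank_le (mv (x.1 : End F V))
    obtain ⟨U, -, l1, l2⟩ := nb_unit hu H16.Eo.nd_top (k := j) (by rw [finrank_top]; omega)
    obtain ⟨y, l3, l4, rfl⟩ := exists_neg (two_ne h2) l1
    exact h.pos_invol hS hA h2 k (h.isom.2 l3) (by rw [res_pow, l4]; rfl) (sl_res y)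
      (by rw [mv_res, finrank_res, hE, l2, hj, two_mul])
  · let τ : E ≃ₐ[F] E := .ofBijective ⟨ψ.σ, hF⟩ ψ.σ_bijective
    obtain ⟨b, hb⟩ := hu.exists_orthonormal_basis
    obtain ⟨a, ha⟩ := hu.exists_norm (c := -1) (by simp)
    obtain ⟨y, l1, l2, l3⟩ := exists_semi b τ fun _ => a
    refine h.pos_sqm hS hA.σ_eq h2 k (h.isom_semi b (fun _ => rfl) l1 (c := -1) (fun s => ?_) fun i j => ?_)
      ((l3 (-1) ψ.σσ fun _ => ha.trans (by simp)).trans (neg_one_smul _ _)) fun e => ⟨_, l1 e⟩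
    · rw [neg_one_mul, map_neg]; exact (congrArg Neg.neg (hl s)).trans (neg_neg _)
    · rw [l2, l2, ψ.B_smul_left, map_smul, smul_eq_mul, ← mul_assoc, ha, hb]; split_ifs <;> simp

end H16.Fx
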