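import Mathlib
import Cfsg.Agent.H16.Fx3
import Cfsg.Agent.H16.Cc2
import Cfsg.Agent.H16.SpecO

/-!
# Elements of prime order and quadratic extension field subgroups of orthogonal groups (namespace `H16.Fx`)
-/

set_option autoImplicit false
set_option linter.unusedSectionVars false
set_option linter.style.haveILetI false

open Module Polynomial H10 H10.Form H28.El H16.Eo

namespace H16.Fx

section
variable {F V : Type*} [Field F] [AddCommGroup V] [Module F V] [FiniteDimensional F V] {φ : Form F V} [φ.Nondeg] {r : ℕ}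
  [Fintype F]

theorem sqm_plane_eq (hQ : φ.IsQuad) (h2 : (2 : F) ≠ 0) {P : Submodule F V} (hP : φ.NondegOn P) (hd : finrank F P = 2)
    {x y : End F V} (hx : φ.IsIsom x) (hy : φ.IsIsom y) (h1 : x ^ 2 = -1) (h1' : y ^ 2 = -1) (h3 : Inv x P) (h3' : Inv y P) :
    ∃ c : F, ∀ u ∈ P, y u = c • x u := by
  obtain ⟨v, hv, h0⟩ := hP.exists_Q_ne_zero ⟨1, by simp [hQ.T_eq]⟩ (by rintro rfl; simp at hd)
  obtain ⟨k1, -, k2, -⟩ := sqm_plane hQ h2 hx (sqm_apply h1 v) h0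
  have k3 := (sqm_plane hQ h2 hy (sqm_apply h1' v) h0).1
  have v0 : v ≠ 0 := by rintro rfl; exact h0 φ.Q_zero
  have k4 := finrank_inf_perp hP ((Submodule.span_singleton_le_iff_mem _ _).2 hv)
  rw [finrank_span_singleton v0] at k4
  have m : ∀ {w}, w ∈ P → φ.B v w = 0 → w ∈ P ⊓ φ.perp (F ∙ v) := fun h h' => ⟨h, φ.mem_perp_span.2 (by simpa)⟩
  obtain ⟨c, hc⟩ := (finrank_eq_one_iff_of_nonzero' (⟨x v, m (h3 _ hv) k1⟩ : ↥(P ⊓ φ.perp (F ∙ v))) (fun e => h0 (by
    rw [← hx.Q, show x v = 0 from congrArg Subtype.val e, φ.Q_zero]))).1 (show finrank F ↥(P ⊓ φ.perp (F ∙ v)) = 1 by omega)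
    ⟨y v, m (h3' _ hv) k3⟩
  replace hc : c • x v = y v := congrArg Subtype.val hc
  have k5 : c * c = 1 := mul_right_cancel₀ h0 (by
    have := hy.Q v
    rwa [← hc, φ.Q_smul, hQ.σ_eq, hx.Q, ← one_mul (φ.Q v), ← mul_assoc, mul_one] at this)
  refine ⟨c, fun u hu => ?_⟩
  rw [← Submodule.eq_of_le_of_finrank_eq (pair_le hv (h3 _ hv)) (k2.trans hd.symm), Submodule.mem_span_pair] at hu
  obtain ⟨a, b, rfl⟩ := hu
  have : x v = c • y v := by rw [← hc, smul_smul, k5, one_smul]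
  rw [map_add, map_add, map_smul, map_smul, map_smul, map_smul, sqm_apply h1, ← hc, this, map_smul, sqm_apply h1', ← this]
  module

theorem exists_om (hQ : φ.IsQuad) (h2 : (2 : F) ≠ 0) {P : Submodule F V} (hP : φ.NondegOn P) (hd : 2 ≤ finrank F P)
    (k : φ.Isom) : ∃ s ∈ φ.fix (φ.perp P), k * s ∈ commutator φ.Isom := by
  obtain ⟨s, k1, k2, k3⟩ := hQ.exists_fix_same (hQ.good_of_two_ne_zero h2) hP hd k⁻¹
  exact ⟨s, k1, (hQ.mem_commutator_iff (hQ.good_of_two_ne_zero h2) (hd.trans (Submodule.finrank_le P))).2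
    ⟨by simp [k2], by simp [k3]⟩⟩

theorem exists_ns_basis (hQ : φ.IsQuad) (h2 : (2 : F) ≠ 0) (m : ℕ) : ∀ U : Submodule F V, φ.NondegOn U → finrank F U = m →
    dw φ U = (-1) ^ m → ∃ v : Fin m → V, (∀ i, v i ∈ U) ∧ (∀ i j, i ≠ j → φ.B (v i) (v j) = 0) ∧
      ∀ i, φ.Q (v i) ≠ 0 ∧ chi (φ.Q (v i)) = -1 := by
  induction m with
  | zero => exact fun _ _ _ _ => ⟨Fin.elim0, by simp, by simp, by simp⟩
  | succ m ih =>
  intro U hU hm hd
  obtain ⟨W, k1, k2, k3, k4⟩ := (exists_sub_iff hQ hU (l := 1) (.inl h2) (-1)).2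
    ⟨by omega, by omega, fun e => by obtain rfl : m = 0 := by omega
                                     simpa using hd.symm⟩
  obtain ⟨w, hw, h0⟩ := k2.exists_Q_ne_zero ⟨1, by simp [hQ.T_eq]⟩ (by rintro rfl; simp at k3)
  obtain rfl : (F ∙ w) = W := Submodule.eq_of_le_of_finrank_eq ((Submodule.span_singleton_le_iff_mem _ _).2 hw)
    (by rw [finrank_span_singleton (by rintro rfl; exact h0 φ.Q_zero), k3])
  obtain ⟨l1, l2, -, l3⟩ := split hQ hU k2 k1
  obtain ⟨v, v1, v2, v3⟩ := ih _ l1 (by omega) (by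
    rw [hd, k4, pow_succ, mul_comm] at l3; exact (mul_left_cancel l3).symm)
  have v4 : ∀ i, φ.B w (v i) = 0 := fun i => (v1 i).2 w hw
  refine ⟨Fin.cons w v, Fin.cases (k1 hw) fun i => (v1 i).1, Fin.cases (Fin.cases (by simp) fun j _ => v4 j)
    fun i => Fin.cases (fun _ => φ.B_symm_zero (v4 i)) fun j e => v2 i j fun e' => e (congrArg _ e'),
    Fin.cases ⟨h0, (dw_line hQ h2 h0).symm.trans k4⟩ v3⟩

variable [hr : Fact r.Prime]

theorem prod_odd (h4 : 4 ∣ orderOf ((Fintype.card F : ℕ) : ZMod r)) (j : ℕ) : ∃ u, ¬ r ∣ u ∧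
    ∏ i ∈ Finset.range j, (Fintype.card F ^ (2 * (i + 1)) - 1) =
      (∏ i ∈ Finset.range (j / 2), ((Fintype.card F ^ 2) ^ (2 * (i + 1)) - 1)) * u := by
  induction j with
  | zero => exact ⟨1, hr.out.not_dvd_one, by simp⟩
  | succ j ih =>
  obtain ⟨u, h1, h2⟩ := ih
  rcases Nat.even_or_odd' j with ⟨i, rfl | rfl⟩
  · refine ⟨u * (Fintype.card F ^ (2 * (2 * i + 1)) - 1), fun e => (hr.out.dvd_mul.1 e).elim h1 fun e => ?_, ?_⟩
    · have := h4.trans ((dvd_pow_sub_one_iff Fintype.card_pos).1 e); omega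
    · rw [Finset.prod_range_succ, h2, show (2 * i + 1) / 2 = 2 * i / 2 by omega, mul_assoc]
  · refine ⟨u, h1, ?_⟩
    rw [Finset.prod_range_succ, h2, show (2 * i + 1 + 1) / 2 = (2 * i + 1) / 2 + 1 by omega, Finset.prod_range_succ,
      ← pow_mul, show 2 * (2 * ((2 * i + 1) / 2 + 1)) = 2 * (2 * i + 1 + 1) by omega, mul_right_comm]

end

variable {F E V : Type*} [Field F] [Field E] [Algebra F E] [AddCommGroup V] [Module F V] [Module E V]
  [IsScalarTower F E V] {φ : Form F V} {ψ : Form E V} {l : Dual F E} {r : ℕ} [Fintype F] [Fintype E] [FiniteDimensional F E]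
  [FiniteDimensional F V] [FiniteDimensional E V] [φ.Nondeg] [ψ.Nondeg] {S : Subgroup φ.Isom}
  (hE : finrank F E = 2) (h2 : (2 : F) ≠ 0)

local notation "qq" => Fintype.card F
local notation "τ" => FiniteField.frobeniusAlgEquivOfAlgebraic F E

include hE

theorem tau_tau (s : E) : τ (τ s) = s := by
  have := AlgEquiv.congr_fun (hE ▸ FiniteField.orderOf_frobeniusAlgEquivOfAlgebraic F E ▸ pow_orderOf_eq_one τ) s
  rwa [sq] at this

include h2

theorem sq_iff {m : ℕ} (hm : qq = 2 * m + 1) {s : E} (hs : s ≠ 0) :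
    (IsSquare s ↔ (s ^ (2 * m)) ^ (m + 1) = 1) ∧ (¬ IsSquare s → (s ^ (2 * m)) ^ (m + 1) = -1) := by
  have k0 : ringChar E ≠ 2 := fun e => two_ne (E := E) h2 (by exact_mod_cast (ringChar.spec E 2).2 (e ▸ dvd_rfl))
  have k1 : Fintype.card E / 2 = 2 * m * (m + 1) := by
    rw [card_E (F := F), hE, hm, show (2 * m + 1) ^ 2 = 2 * (2 * m * (m + 1)) + 1 by ring]; omega
  have k2 := FiniteField.isSquare_iff k0 hs
  have k3 := FiniteField.pow_dichotomy k0 hs
  rw [k1, pow_mul] at k2 k3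
  exact ⟨k2, fun h => k3.resolve_left (mt k2.2 h)⟩

theorem sq_alg (c : F) : IsSquare (algebraMap F E c) := by
  obtain ⟨m, hm⟩ := Nat.odd_iff.2 (odd_card h2)
  by_cases hc : c = 0
  · simp [hc]
  rw [(sq_iff hE h2 hm ((_root_.map_ne_zero _).2 hc)).1, ← map_pow, show 2 * m = qq - 1 by omega,
    FiniteField.pow_card_sub_one_eq_one c hc, map_one, one_pow]

theorem exists_root {t : E} (ht : chi t = -1) : ∃ a : E, a * a * t = τ t ∧ τ a * a = -1 := by
  obtain ⟨m, hm⟩ := Nat.odd_iff.2 (odd_card h2)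
  rw [chi_eq_neg_one_iff] at ht
  have := (sq_iff hE h2 hm (s := t) (by rintro rfl; simp at ht)).2 ht
  refine ⟨t ^ m, ?_, ?_⟩
  · change _ = t ^ qq; rw [hm]; ring
  · change (t ^ m) ^ qq * _ = _; rw [hm, ← this]; ring

variable (h : FX φ ψ l) (hl : ∀ s, l (FiniteField.frobeniusAlgEquivOfAlgebraic F E s) = l s) (hQ : φ.IsQuad) (hψ : ψ.IsQuad)
include h hl

theorem FX.theta : ∃ θ : E, θ ≠ 0 ∧ chi θ = -κ F ∧ ∀ s, l s = 0 ↔ ∃ c : F, c • θ = s := by
  have t1 : orderOf τ = 2 := hE ▸ FiniteField.orderOf_frobeniusAlgEquivOfAlgebraic F E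
  obtain ⟨e, he⟩ : ∃ e, τ e ≠ e := not_forall.1 fun H => by simp [show τ = 1 from AlgEquiv.ext H] at t1
  have k0 : e - τ e ≠ 0 := sub_ne_zero.2 he.symm
  have k1 : l (e - τ e) = 0 := by rw [map_sub, hl, sub_self]
  refine ⟨_, k0, ?_, fun s => ⟨fun hs => ?_, by rintro ⟨c, rfl⟩; rw [map_smul, k1, smul_zero]⟩⟩
  · obtain ⟨m, hm⟩ := Nat.odd_iff.2 (odd_card h2)
    have k2 : (e - τ e) ^ (2 * m) = -1 := mul_right_cancel₀ k0 (by
      rw [← pow_succ, ← hm]; change τ _ = _; rw [map_sub, tau_tau hE]; ring)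
    refine units_ext (c := 1) ?_
    rw [chi_eq_one_iff, (sq_iff hE h2 hm k0).1, k2, neg_eq_iff_eq_neg, chi_eq_neg_one_iff, sq_neg_one_iff h2,
      neg_one_pow_eq_one_iff' (two_ne h2), Nat.even_iff]
    omega
  · have := Module.Dual.finrank_ker_add_one_of_ne_zero h.l0
    obtain ⟨c, hc⟩ := (finrank_eq_one_iff_of_nonzero' (⟨_, k1⟩ : LinearMap.ker l)
      (fun e => k0 (congrArg Subtype.val e))).1 (show finrank F (LinearMap.ker l) = 1 by omega) ⟨s, hs⟩
    exact ⟨c, congrArg Subtype.val hc⟩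

include hQ hψ

theorem FX.Q_eq (v : V) : φ.Q v = l (ψ.Q v) := mul_left_cancel₀ h2 (by
  rw [← hQ.B_self, h.B, hψ.B_self, two_mul, two_mul, map_add])

theorem FX.pl_line {w : V} (hw : ψ.Q w ≠ 0) : Pl φ ((E ∙ w).restrictScalars F) ↔ chi (ψ.Q w) = -κ F := by
  obtain ⟨θ, k0, k1, k2⟩ := h.theta hE h2 hl
  rw [pl_iff (k := 1) (by rw [finrank_res, hE, finrank_span_singleton (by rintro rfl; exact hw ψ.Q_zero)]),
    hasTS_one_iff, ← k1]
  refine ⟨fun ⟨⟨v, hv⟩, h0, e⟩ => ?_, fun e => ?_⟩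
  · obtain ⟨a, rfl⟩ := Submodule.mem_span_singleton.1 hv
    have a0 : a ≠ 0 := by rintro rfl; exact h0 (Subtype.ext (zero_smul _ _))
    obtain ⟨c, hc⟩ := (k2 _).1 ((h.Q_eq hE h2 hl hQ hψ _).symm.trans e)
    have := congrArg chi hc
    rw [ψ.Q_smul, hψ.σ_eq] at this hc
    rwa [Algebra.smul_def, chi_mul ((_root_.map_ne_zero _).2 (by rintro rfl; simp [a0, hw] at hc)) k0,
      chi_mul (mul_ne_zero a0 a0) hw, chi_mul_self, chi_eq_one_iff.2 (sq_alg hE h2 c), one_mul, one_mul, eq_comm] at this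
  · obtain ⟨c, c0, hc⟩ := exists_eq_mul_sq_of_chi_eq k0 hw e.symm
    refine ⟨⟨c • w, Submodule.smul_mem _ _ (Submodule.mem_span_singleton_self w)⟩, fun e => ?_,
      (h.Q_eq hE h2 hl hQ hψ _).trans ((k2 _).2 ⟨1, by rw [ψ.Q_smul, hψ.σ_eq, ← hc, one_smul]⟩)⟩
    rw [(smul_eq_zero.1 (congrArg Subtype.val e)).resolve_left c0] at hw
    exact hw ψ.Q_zero

theorem FX.pl_res {U : Submodule E V} (hU : ψ.NondegOn U) :
    Pl φ (U.restrictScalars F) ↔ dw ψ U = (-κ F) ^ finrank E U := by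
  refine (nd_induct (g := 1) (p := fun U => ψ.NondegOn U ∧ (Pl φ (U.restrictScalars F) ↔ dw ψ U = (-κ F) ^ finrank E U))
    isom_one ⟨nd_bot, by simpa [dw_of_zero hψ] using pl_bot⟩ (fun U _ hU h0 => ?_) inv_one hU).2
  obtain ⟨w, hw, k0⟩ := hU.exists_Q_ne_zero ⟨1, by simp [hψ.T_eq]⟩ h0
  have w0 : w ≠ 0 := by rintro rfl; exact k0 ψ.Q_zero
  have k1 : ψ.NondegOn (E ∙ w) := ψ.nondegOn_singleton (by rw [hψ.B_self]; exact mul_ne_zero (two_ne h2) k0)
  refine ⟨E ∙ w, (Submodule.span_singleton_le_iff_mem _ _).2 hw, inv_one, k1, by simpa, fun Y k2 _ ⟨k3, k4⟩ =>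
    ⟨nd_sup k1 k3 k2, ?_⟩⟩
  rw [Submodule.restrictScalars_sup, pl_sup hQ (h.nd.2 k1) (h.nd.2 k3) (by rw [h.perp]; exact k2)
    (by rw [finrank_res, hE]; exact even_two_mul _) (by rw [finrank_res, hE]; exact even_two_mul _), k4,
    h.pl_line hE h2 hl hQ hψ k0, dw_sup hψ k1 k3 k2, H28.El.finrank_sup_perp k1 k2, finrank_span_singleton w0,
    dw_line hψ (two_ne h2) k0, pow_add, pow_one]
  generalize (-κ F) ^ finrank E Y = c
  generalize chi (ψ.Q w) = a, dw ψ Y = b, -κ F = d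
  revert a b c d; decide

variable (hS : ∀ g, g ∈ S ↔ SL E (g.1 : End F V)) {d : ℕ} (hn : finrank F V = 2 * d) (hd : 2 ≤ d)
include hS hn hd

theorem FX.om_two (x : φ.Isom) (hx : x ∈ commutator φ.Isom) (h1 : PE 2 (x.1 : End F V)) :
    ∃ k ∈ commutator φ.Isom, k⁻¹ * x * k ∈ S := by
  haveI : Nontrivial V := nontrivial_of_finrank_pos (R := F) (by omega)
  have hm : finrank E V = d := by
    have := finrank_mul_finrank F E V
    rw [hE] at this; omega
  rcases pe_two' hQ.σ_eq x.2 h1 with k | k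
  · obtain ⟨j, hj⟩ := Om.even hQ (hQ.good_of_two_ne_zero h2) (by omega) ⟨x, hx, rfl⟩
    have := pos_of_ne h1.ne_one
    have := Submodule.finrank_lt (s := mv (x.1 : End F V)) fun e => h1.2 (-1) (LinearMap.ext fun v => by
      simpa using neg_of_mem_mv k (e ▸ Submodule.mem_top))
    classical
    obtain ⟨U, -, l1, l2, l0⟩ := exists_sub hψ nd_top j (by omega) (by rw [finrank_top]; omega) (.inl (two_ne h2))
      (if Pl φ (mv (x.1 : End F V)) then (-κ F) ^ j else -(-κ F) ^ j)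
    obtain ⟨y, l3, l4, rfl⟩ := exists_neg (two_ne h2) l1
    have l5 : finrank F ((mv y).restrictScalars F) = finrank F (mv (x.1 : End F V)) := by
      rw [finrank_res, hE, l2, hj, two_mul]
    obtain ⟨k₀, l6⟩ := cj_even hQ (h.nd.2 l1) (nd_mv x.2 (H24.Adj.semisimple_of_pow (n := 2) h2 k)) (l5 ▸ ⟨j, hj⟩) l5 (by
      rw [h.pl_res hE h2 hl hQ hψ l1, l0, l2]
      split_ifs with e
      · simp [e]
      · simp only [e, iff_false]; generalize (-κ F) ^ j = c; revert c; decide)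
    obtain ⟨s, l7, l8⟩ := exists_om hQ h2 (h.nd.2 l1) (by omega) k₀
    have l9 := h.isom.2 l3
    refine ⟨_, l8, (invol_conj h2 (y := φ.toIsom (y.restrictScalars F)) k ?_ ?_) ▸ (hS _).2 ?_⟩
    · rw [φ.toIsom_coe l9, res_pow, l4]; rfl
    · rw [φ.toIsom_coe l9, mv_res, ← l6]
      exact (Submodule.map_comp (s.1 : End F V) (k₀.1 : End F V) _).trans (congrArg _ (φ.mem_stab_iff_map.1 (stab_of_fix l7)))
    · rw [φ.toIsom_coe l9]; exact sl_res y
  · have k1 := (exists_sqm_quad hQ h2 hn).1 ⟨_, x.2, k⟩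
    have k2 := h.pl_res hE h2 hl hQ hψ nd_top
    rw [Submodule.restrictScalars_top, k1, finrank_top, hm, ← chi_eq_one_iff] at k2
    obtain ⟨v, -, v1, v2⟩ := exists_ns_basis hψ (two_ne h2) d ⊤ nd_top (by rw [finrank_top, hm]) (by
      rcases units_cases (κ F) with e | e
      · simpa [e] using k2
      · rw [κ] at e
        rw [κ, e] at k2
        rcases Nat.even_or_odd d with e' | e'
        · simpa [e', e'.neg_one_pow] using k2
        · rw [e'.neg_one_pow]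
          exact units_eq_of_ne (c := 1) (by simpa [Nat.not_even_iff_odd.2 e'] using k2) (by decide))
    haveI : Nonempty (Fin d) := ⟨⟨0, by omega⟩⟩
    have v3 : ∀ i, ψ.B (v i) (v i) ≠ 0 := fun i => by rw [hψ.B_self]; exact mul_ne_zero (two_ne h2) (v2 i).1
    let b := basisOfLinearIndependentOfCardEqFinrank (LinearMap.linearIndependent_of_isOrthoᵢ (B := ψ.B) v1 v3)
      (by simp [hm])
    have hb : ∀ i, b i = v i := fun i => by simp [b]
    choose a a1 a2 using fun i => exists_root hE h2 (v2 i).2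
    obtain ⟨y, l1, l2, l3⟩ := exists_semi b τ a
    have l4 : y ^ 2 = -1 := (l3 (-1) (tau_tau hE) fun i => (a2 i).trans (by simp)).trans (neg_one_smul _ _)
    have l5 : φ.IsIsom y := h.isom_semi b (fun _ => by simp [hψ.σ_eq]) l1 (c := 1) (by simpa using hl) fun i j => by
      rw [l2, l2, hb, hb, ψ.B_smul_left, map_smul, hψ.σ_eq, smul_eq_mul]
      by_cases e : i = j
      · rw [e, hψ.B_self, map_mul, ← a1, map_ofNat]; ring
      · simp [v1 i j e]
    obtain ⟨k₀, l6⟩ := sqm_conj hQ.σ_eq h2 h.q1 (y := φ.toIsom y) k (by rwa [φ.toIsom_coe l5])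
    let i₀ : Fin d := ⟨0, by omega⟩
    have p1 := ψ.nondegOn_singleton (v3 i₀)
    have p2 : finrank F ((E ∙ v i₀).restrictScalars F) = 2 := by
      rw [finrank_res, hE, finrank_span_singleton (by intro e; simpa [e] using v3 i₀)]
    have p3 : Inv y ((E ∙ v i₀).restrictScalars F) := fun u hu => by
      obtain ⟨c, rfl⟩ := Submodule.mem_span_singleton.1 hu
      change y _ ∈ E ∙ v i₀
      rw [l1, ← hb, l2, hb]
      exact Submodule.smul_mem _ _ (Submodule.smul_mem _ _ (Submodule.mem_span_singleton_self _))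
    obtain ⟨s, l7, l8⟩ := exists_om hQ h2 (h.nd.2 p1) p2.ge k₀
    refine ⟨_, l8, (hS _).2 ?_⟩
    rw [show (k₀ * s)⁻¹ * x * (k₀ * s) = s⁻¹ * (k₀⁻¹ * x * k₀) * s by group, l6]
    have p4 : ∀ u, ((s⁻¹ * φ.toIsom y * s).1 : End F V) u = (s⁻¹).1 (y (s.1 u)) := fun u =>
      congrArg (s⁻¹).1 (φ.toIsom_apply l5 _)
    obtain ⟨c, hc⟩ := sqm_plane_eq hQ h2 (h.nd.2 p1) p2 l5 (s⁻¹ * φ.toIsom y * s).2 l4
      (by rw [coe_conj, H28.El.conj_pow, φ.toIsom_coe l5, l4, map_neg, conj_one']) p3 fun u hu => by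
        rw [p4]
        exact ((φ.stab _).inv_mem (stab_of_fix l7) _).1 (p3 _ ((stab_of_fix l7 u).1 hu))
    have p5 : ∀ w ∈ ψ.perp (E ∙ v i₀), ((s⁻¹ * φ.toIsom y * s).1 : End F V) w = y w := fun w hw => by
      have hw' : w ∈ φ.perp ((E ∙ v i₀).restrictScalars F) := by rw [h.perp]; exact hw
      rw [p4, l7 w hw', (φ.fix _).inv_mem l7 _ (p3.perp l5 _ hw')]
    refine fun e => ⟨τ e, fun u => ?_⟩
    obtain ⟨a, ha, w, hw, rfl⟩ := Submodule.mem_sup.1 (p1.isCompl_perp.sup_eq_top.ge (Submodule.mem_top (x := u)))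
    rw [smul_add, map_add, map_add, hc a ha, hc _ (Submodule.smul_mem _ e ha), p5 w hw, p5 _ (Submodule.smul_mem _ e hw),
      l1, l1, smul_add, smul_comm]

variable [hr : Fact r.Prime]

theorem FX.om_four (h0 : (r : F) ≠ 0) (ho : Odd r) (h4 : 4 ∣ orderOf ((qq : ℕ) : ZMod r)) : ¬ r ∣ S.index := fun hΩ => by
  haveI := Module.finite_of_finite F (M := V)
  have hm : finrank E V = d := by
    have := finrank_mul_finrank F E V
    rw [hE] at this; omega
  obtain ⟨N, k1, k2⟩ := h.index hS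
  have hc : Fintype.card E = qq ^ 2 := by rw [card_E (F := F), hE]
  have key : ∀ {A C D T u a b : ℕ}, N * (2 * (qq ^ 2) ^ a * C * A) = 2 * qq ^ b * D * (A * u) → A ≠ 0 → C ≠ 0 →
      D = C * T → ¬ r ∣ T → ¬ r ∣ u → False := fun {A C D T u a b} h5 h1 h1' h6 h2 h3 => by
    subst h6
    have : N * (qq ^ 2) ^ a = T * u * qq ^ b :=
      mul_left_cancel₀ (mul_ne_zero two_ne_zero (mul_ne_zero h1 h1')) (by linear_combination h5)
    exact (hr.out.dvd_mul.1 (dvd_of_dvd_mul_pow hr.out h0 (this ▸ (hΩ.trans k1).mul_right _))).elim h2 h3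
  have nz : ∀ m, ∏ i ∈ Finset.range m, ((qq ^ 2) ^ (2 * (i + 1)) - 1) ≠ 0 := fun m =>
    Finset.prod_ne_zero_iff.2 fun i _ => by rw [← pow_mul]; exact psub (by omega)
  obtain ⟨u, u1, u2⟩ := prod_odd h4 (d - 1)
  rcases card_Isom_cases hQ with ⟨e, -⟩ | ⟨j, e, -⟩ | ⟨j, e, e'⟩
  · omega
  · omega
  obtain rfl : d = j + 1 := by omega
  rcases card_Isom_cases hψ with ⟨f, -⟩ | ⟨m, f, f'⟩ | ⟨m, f, f'⟩
  · omega
  · obtain rfl : j = 2 * m := by omega
    have t : ¬ r ∣ qq ^ (2 * m + 1) - 1 ∧ ¬ r ∣ qq ^ (2 * m + 1) + 1 := by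
      rw [dvd_pow_sub_one_iff Fintype.card_pos, dvd_pow_add_one_iff Fintype.card_pos hr.out (by rintro rfl; exact absurd ho (by decide))]
      exact ⟨fun e => by have := h4.trans e; omega, fun e => by have := h4.trans e.1; omega⟩
    rw [f', oOdd, hc, ← mul_one (2 * (qq ^ 2) ^ _)] at k2
    rw [show (2 * m + 1 - 1) / 2 = m by omega] at u2
    rcases e' with ⟨-, e'⟩ | ⟨-, e'⟩
    · rw [e', oPlus, u2] at k2; exact key k2 (nz m) one_ne_zero (one_mul _).symm t.1 u1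
    · rw [e', oMinus, u2] at k2; exact key k2 (nz m) one_ne_zero (one_mul _).symm t.2 u1
  · obtain rfl : j = 2 * m + 1 := by omega
    have t : φ.HasTS (2 * m + 1 + 1) ↔ ψ.HasTS (m + 1) := by
      have := h.pl_res hE h2 hl hQ hψ nd_top
      rw [Submodule.restrictScalars_top, pl_top hn, finrank_top, f, dw_top hψ, Even.neg_pow ⟨m + 1, by ring⟩,
        show 2 * m + 2 = 2 * (m + 1) by ring, pow_mul, Int.units_sq, one_pow] at this
      rw [hasTS_iff_dl hψ f, κ, chi_eq_one_iff.2 (by simpa using sq_alg (E := E) hE h2 (-1)), one_pow]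
      exact this
    rw [show (2 * m + 1 + 1 - 1) / 2 = m + 1 - 1 by omega] at u2
    have w : (qq ^ 2) ^ (m + 1) = qq ^ (2 * m + 1 + 1) := by rw [← pow_mul]; rfl
    rcases e' with ⟨e1, e'⟩ | ⟨e1, e'⟩ <;> rcases f' with ⟨f1, f'⟩ | ⟨f1, f'⟩
    · rw [e', f', oPlus, oPlus, u2, hc, w] at k2
      exact key k2 (nz _) (psub (by omega)) (mul_one _).symm hr.out.not_dvd_one u1
    · exact f1 (t.1 e1)
    · exact e1 (t.2 f1)
    · rw [e', f', oMinus, oMinus, u2, hc, w] at k2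
      exact key k2 (nz _) (Nat.succ_ne_zero _) (mul_one _).symm hr.out.not_dvd_one u1

theorem FX.om_om (hΩ : r ∣ S.relIndex (commutator φ.Isom)) :
    (∀ x ∈ commutator φ.Isom, PE r (x.1 : End F V) → ∃ k ∈ commutator φ.Isom, k⁻¹ * x * k ∈ S) ↔ r = 2 := by
  refine ⟨fun H => by_contra fun hr2 => ?_, by rintro rfl; exact h.om_two hE h2 hl hQ hψ hS hn hd⟩
  haveI : Nontrivial V := nontrivial_of_finrank_pos (R := F) (by omega)
  haveI := Module.finite_of_finite F (M := V)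
  have hk : (finrank F E).Prime := hE ▸ Nat.prime_two
  have ho := odd_of_ne_two hr2
  by_cases h0 : (r : F) = 0
  · haveI := (CharP.charP_iff_prime_eq_zero hr.out).2 h0
    obtain ⟨g, -, k1⟩ := real_shape hQ h2 nd_top (O := 3 ::ₘ Multiset.replicate (2 * d - 3) 1) (k := 0)
      (fun a ha => (Multiset.mem_cons.1 ha).symm.imp_left Multiset.eq_of_mem_replicate)
      (by simp; omega) (by simp)
    have k2 := (k1.pow_char (p := r)).2 fun e he => by
      have := two_lt_of_ne hr2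
      simp only [mul_zero, Multiset.replicate_zero, add_zero, Multiset.mem_cons, Multiset.mem_replicate] at he
      omega
    have k3 : rk (g.1 : End F V) 2 = 1 := by
      have := k1.2 2
      rw [Submodule.map_top] at this
      exact this.trans (by simp [Eo.rk])
    obtain ⟨g', k5, k6⟩ := om_unip hQ h2 (by omega) g.2 k2
    obtain rfl := isom_eq_iff.2 k6
    refine h.neg hS hr.out hk k5 k2 ?_ (fun y _ _ k4 => ?_) (fun e => by omega) H
    · exact ne_smul_odd hQ.σ_eq ho g'.2 k2 fun e => by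
        rw [e, rk, sub_self, zero_pow two_ne_zero, LinearMap.range_zero] at k3; simp at k3
    · have := k4 2; rw [k3, hE] at this; omega
  have k0 := hΩ.trans (H27.relIndex_dvd_index_of_normal_right S _)
  have k1 := mt (h.om_four hE h2 hl hQ hψ hS hn hd h0 ho) (not_not.2 k0)
  obtain ⟨x, x1, x2, x3⟩ : ∃ x : End F V, φ.IsIsom x ∧ x ^ r = 1 ∧ finrank F (mv x) = 1 * cc F r := by
    obtain ⟨y, hy⟩ := exists_prime_orderOf_dvd_card' r (k0.trans S.index_dvd_card)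
    classical
    obtain ⟨y1, y2⟩ := H16.Cc.ord_isom.1 hy
    have := Nat.le_of_dvd (pos_of_ne y2) (dvd_mv (par_quad h0 ho hQ) h0 ho y.2 y1)
    have := Submodule.finrank_le (mv (y.1 : End F V))
    by_cases e : cc F r = finrank F V
    · exact ⟨_, y.2, y1, by omega⟩
    · exact (real_mv hQ h0 ho (fun _ => Iff.rfl) 1 (by omega)).1 fun _ => by omega
  have := cc_pos h0
  refine h.neg hS hr.out hk ((om_iff_toIsom x1).1 (om_of_odd hQ (hQ.good_of_two_ne_zero h2) (by omega) ho x1 x2)) ?_ ?_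
    (fun y l1 l2 l3 => ?_) (fun e => by omega) H <;> rw [φ.toIsom_coe x1] at *
  · exact x2
  · exact ne_smul_odd hQ.σ_eq ho x1 x2 (ne_one_of_pos (by omega))
  have l4 := dvd_mv (par_quad (cast_ne h0) ho hψ) (cast_ne h0) ho l1 l2
  have l5 := l3 1
  rw [rk_one, rk_one, x3, hE] at l5
  have := Nat.le_of_dvd (by omega) l4
  have l6 : orderOf ((Fintype.card E : ℕ) : ZMod r) = orderOf ((qq : ℕ) : ZMod r) / (orderOf ((qq : ℕ) : ZMod r)).gcd 2 := by
    rw [card_E (F := F), hE, Nat.cast_pow, orderOf_pow' _ two_ne_zero]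
  rcases tc_facts h0 with ⟨e, e', -⟩ | ⟨e, e', -⟩ <;> rcases tc_facts (cast_ne (E := E) h0) with ⟨f, f', -⟩ | ⟨f, f', -⟩
  · rw [Nat.gcd_eq_right e.two_dvd] at l6; obtain ⟨c, f⟩ := f; omega
  · rw [Nat.gcd_eq_right e.two_dvd] at l6; obtain ⟨c, e⟩ := e; omega
  · rw [Nat.coprime_two_right.2 (Nat.not_even_iff_odd.1 e), Nat.div_one] at l6; exact e (l6 ▸ f)
  · rw [Nat.coprime_two_right.2 (Nat.not_even_iff_odd.1 e), Nat.div_one] at l6; omega

omit hE h2 h hl hQ hψ hS hn hd in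
theorem om_final {F : Type*} [Field F] [Fintype F] {ι : Type} [Fintype ι] [DecidableEq ι] (h2 : (2 : F) ≠ 0)
    {Q : QuadraticForm F (ι → F)} [(ofQuad Q).Nondeg] {d : ℕ} (hn : Fintype.card ι = 2 * d) (hd : 2 ≤ d)
    {K : Subalgebra F (Matrix ι ι F)} (hK : Cfsg.Geo.IsFieldSubalgebra 2 K)
    (hKf : Cfsg.Geo.IsSelfAdjointFor (QuadraticMap.polar Q) K)
    (hΩ : r ∣ (Cfsg.Geo.subalgebraNormalizer K).relIndex (Cfsg.Geo.omegaGL Q)) :
    (∀ x ∈ Cfsg.Geo.omegaGL Q, (∃ z : F, ((x ^ r : GL ι F) : Matrix ι ι F) = z • (1 : Matrix ι ι F)) →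
      (∀ z : F, (x : Matrix ι ι F) ≠ z • (1 : Matrix ι ι F)) →
      ∃ g ∈ Cfsg.Geo.omegaGL Q, g⁻¹ * x * g ∈ Cfsg.Geo.subalgebraNormalizer K) ↔ r = 2 := by
  have : Nonempty ι := Fintype.card_pos_iff.1 (by omega)
  have hq := isQuad_ofQuad Q
  rw [omegaGL_eq] at hΩ ⊢
  rw [bridge_index] at hΩ
  rw [bridge]
  refine Mx.fld_bridge hK fun E _ _ _ _ _ hE h1 h3 => ?_
  have := Module.Finite.of_restrictScalars_finite F E (ι → F)
  have := Module.finite_of_finite F (M := E)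
  haveI := Fintype.ofFinite E
  have t' : (2 : E) ≠ 0 := two_ne h2
  have l0 : Algebra.trace F E ≠ 0 := Algebra.trace_ne_zero F E
  obtain ⟨β, i⟩ := Mx.exists_beta (φ := ofQuad Q) (Mx.sa_of h3 (fun _ _ => rfl) hKf) l0
  have hs := Mx.beta_symm (φ := ofQuad Q) (fun _ => rfl) (fun _ => rfl) l0 (by simp) i
  let ψ := ofQuad ((2 : E)⁻¹ • LinearMap.BilinMap.toQuadraticMap β)
  have hψ : ψ.IsQuad := isQuad_ofQuad _
  replace i : ∀ x y, (ofQuad Q).B x y = Algebra.trace F E (ψ.B x y) := fun x y => by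
    rw [i]; congr 1; simp [ψ, QuadraticMap.polar, ← hs.eq x y]; field_simp; ring
  have := Mx.nondeg_of i
  exact FX.om_om hE h2 ⟨l0, i, bq_quad hq h2, bq_quad hψ t'⟩ (fun s => Algebra.trace_eq_of_algEquiv _ s) hq hψ
    (fun g => (Mx.mem_nrm_iff h1 h3).trans (by simp only [toGL_mulVec]; rfl)) (by simpa) hd hΩ

end H16.Fx
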