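import Mathlib
import Cfsg.Agent.H16.Fx3
import Cfsg.Agent.H24.NM2
import Cfsg.Agent.H16.Cc2

/-!
# Elements of prime order and tensor product subgroups (namespace `H16.Fx`)
-/

set_option autoImplicit false
set_option linter.unusedSectionVars false
set_option linter.style.haveILetI false

open Module Polynomial H10 H10.Form H28.El H16.Eo TensorProduct

namespace H16.Fx

variable {F V X Y : Type*} [Field F] [AddCommGroup V] [Module F V] [AddCommGroup X] [Module F X] [AddCommGroup Y]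
  [Module F Y] {t : X →ₗ[F] Y →ₗ[F] V} {g g' : End F V} {A A' : End F X} {B B' : End F Y} {r : ℕ}

variable (t) in
/-- `t` is a tensor product -/
def TP : Prop := Function.Bijective (lift t)

variable (t) in
/-- `g = A ⊗ B` -/
def KP (g : End F V) (A : End F X) (B : End F Y) : Prop := ∀ x y, g (t x y) = t (A x) (B y)

theorem TP.flip (h : TP t) : TP t.flip := by
  have : lift t.flip = lift t ∘ₗ (TensorProduct.comm F Y X).toLinearMap := TensorProduct.ext' fun _ _ => by simp
  unfold TP; rw [this]; exact h.comp (TensorProduct.comm F Y X).bijective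

theorem KP.flip (h : KP t g A B) : KP t.flip g B A := fun x y => h y x

theorem KP.mul (h : KP t g A B) (h' : KP t g' A' B') : KP t (g * g') (A * A') (B * B') := fun x y => by
  rw [End.mul_apply, h', h]; rfl

theorem KP.pow (h : KP t g A B) (k : ℕ) : KP t (g ^ k) (A ^ k) (B ^ k) := by
  induction k with
  | zero => exact fun _ _ => rfl
  | succ k ih => simpa only [pow_succ] using ih.mul h

theorem KP.smul {c : F} (h : KP t g (c • A) B) : KP t g A (c • B) := fun x y => by simpa using h x y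

/-- the isomorphism -/
noncomputable def TP.e (h : TP t) : X ⊗[F] Y ≃ₗ[F] V := .ofBijective _ h

theorem TP.e_tmul (h : TP t) (x : X) (y : Y) : h.e (x ⊗ₜ y) = t x y := rfl

theorem TP.kp (h : TP t) (A : End F X) (B : End F Y) : KP t (h.e.conj (TensorProduct.map A B)) A B := fun x y => by
  rw [← h.e_tmul, LinearEquiv.conj_apply_apply, LinearEquiv.symm_apply_apply]; rfl

theorem TP.ext (h : TP t) {W : Type*} [AddCommGroup W] [Module F W] {f f' : V →ₗ[F] W} (e : ∀ x y, f (t x y) = f' (t x y)) :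
    f = f' := (LinearMap.cancel_right h.2).1 (TensorProduct.ext' e)

theorem TP.uniq (h : TP t) (k : KP t g A B) (k' : KP t g' A B) : g = g' := h.ext fun x y => (k x y).trans (k' x y).symm

theorem TP.finrank_eq [FiniteDimensional F X] [FiniteDimensional F Y] (h : TP t) : finrank F V = finrank F X * finrank F Y :=
  h.e.finrank_eq.symm.trans finrank_tensorProduct

theorem TP.eq_zero (h : TP t) {x : X} {y : Y} (hy : y ≠ 0) (e : t x y = 0) : x = 0 := by
  obtain ⟨f, hf⟩ := not_forall.1 (mt (forall_dual_apply_eq_zero_iff F y).1 hy)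
  have := congrArg ((TensorProduct.rid F X).toLinearMap ∘ₗ LinearMap.lTensor X f) (h.e.map_eq_zero_iff.1 ((h.e_tmul x y).trans e))
  simpa [hf] using this

theorem TP.scalar (h : TP t) {c d : F} (k : KP t g (c • 1) (d • 1)) : g = (c * d) • 1 :=
  h.ext fun x y => by simp [k x y, smul_smul, mul_comm]

variable [FiniteDimensional F X] [FiniteDimensional F Y]

theorem TP.rank_one (h : TP t) (k : KP t g 1 B) : finrank F (mv g) = finrank F X * finrank F (mv B) := by
  rw [h.uniq k (h.kp 1 B), ← rk_one, rk_conj, rk_one, mv,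
    show TensorProduct.map 1 B - 1 = LinearMap.lTensor X (B - 1) from TensorProduct.ext' fun _ _ => by simp [tmul_sub],
    LinearMap.lTensor_range, LinearMap.finrank_range_of_inj
      (Module.Flat.lTensor_preserves_injective_linearMap _ (Submodule.injective_subtype _)), finrank_tensorProduct, mv]

theorem TP.supp (h : TP t) (k : KP t g A B) {U : Submodule F X} (hd : finrank F (mv g) < finrank F U * finrank F Y) :
    ∃ L ≤ U, L ≠ ⊥ ∧ Inv A L := by
  obtain rfl := h.uniq k (h.kp A B)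
  rw [← rk_one, rk_conj, rk_one, ← finrank_tensorProduct] at hd
  obtain ⟨w, w1, w0⟩ := Submodule.exists_mem_ne_zero_of_ne_bot (LinearMap.ker_ne_bot_of_finrank_lt
    (f := (TensorProduct.map A B - 1).rangeRestrict ∘ₗ U.subtype.rTensor Y) hd)
  replace w1 : TensorProduct.map A B (U.subtype.rTensor Y w) = U.subtype.rTensor Y w :=
    sub_eq_zero.1 (congrArg Subtype.val w1)
  let κ : X ⊗[F] Y →ₗ[F] Dual F Y →ₗ[F] X := lift (LinearMap.mk₂ F (fun x y => (Dual.eval F Y y).smulRight x)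
    (fun _ _ _ => by ext; simp) (fun _ _ _ => by ext; simp [smul_smul, mul_comm]) (fun _ _ _ => by ext; simp [add_smul])
    fun _ _ _ => by ext; simp [mul_smul])
  have k1 : ∀ x y f, κ (x ⊗ₜ y) f = f y • x := fun _ _ _ => rfl
  have k2 : ∀ w f, κ (TensorProduct.map A B w) f = A (κ w (f ∘ₗ B)) := fun w f => by
    induction w with
    | zero => simp
    | tmul x y => simp [k1]
    | add a b ha hb => simp [ha, hb]
  have k3 : ∀ w : X ⊗[F] Y, w = ∑ i, κ w ((finBasis F Y).coord i) ⊗ₜ finBasis F Y i := fun w => by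
    induction w with
    | zero => simp
    | tmul x y => simp only [k1, smul_tmul, ← tmul_sum, Basis.coord_apply, Basis.sum_repr]
    | add a b ha hb => simp only [map_add, LinearMap.add_apply, add_tmul, Finset.sum_add_distrib, ← ha, ← hb]
  refine ⟨LinearMap.range (κ (U.subtype.rTensor Y w)), ?_, fun e => w0 ?_, inv_iff.2 (Submodule.eq_of_le_of_finrank_le ?_
    (Submodule.finrank_map_le _ _)).ge⟩
  · rintro _ ⟨f, rfl⟩
    clear w0 w1
    induction w with
    | zero => simp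
    | tmul x y => exact U.smul_mem _ x.2
    | add a b ha hb => simpa using U.add_mem ha hb
  · refine Module.Flat.rTensor_preserves_injective_linearMap (M := Y) _ U.injective_subtype ?_
    rw [k3 (U.subtype.rTensor Y w), LinearMap.range_eq_bot.1 e]; simp
  · rintro _ ⟨f, rfl⟩
    exact ⟨_, ⟨f ∘ₗ B, rfl⟩, by rw [← k2, w1]⟩

theorem TP.scal (h : TP t) (k : KP t g A B) (hd : finrank F (mv g) < finrank F Y) : ∃ c : F, A = c • 1 :=
  LinearMap.exists_eq_smul_id_of_forall_notLinearIndependent fun x hx => by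
    have x0 : x ≠ 0 := hx.ne_zero 0
    obtain ⟨L, l1, l2, l3⟩ := h.supp k (U := F ∙ x) (by rwa [finrank_span_singleton x0, one_mul])
    obtain rfl := ((nonzero_span_atom x x0).le_iff.1 l1).resolve_left l2
    obtain ⟨c, hc⟩ := Submodule.mem_span_singleton.1 (l3 x (Submodule.mem_span_singleton_self x))
    simpa using (LinearIndependent.pair_iff.1 hx c (-1) (by rw [hc]; simp)).2

theorem TP.not_small (h : TP t) (k : KP t g A B) (h1 : finrank F (mv g) < finrank F X) (h2 : finrank F (mv g) < finrank F Y) :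
    ∃ c : F, g = c • 1 := by
  obtain ⟨c, rfl⟩ := h.scal k h2
  obtain ⟨d, rfl⟩ := h.flip.scal k.flip h1
  exact ⟨_, h.scalar k⟩

theorem TP.pow_eq [Nontrivial X] (h : TP t) (k : KP t g 1 B) (h1 : g ^ r = 1) : B ^ r = 1 := LinearMap.ext fun y => by
  obtain ⟨x, hx⟩ := exists_ne (0 : X)
  have := k.pow r x y
  rw [h1, one_pow] at this
  exact sub_eq_zero.1 (h.flip.eq_zero hx (by simpa [sub_eq_zero] using this.symm))

theorem TP.bound [Fintype F] [hr : Fact r.Prime] [Nontrivial Y] (h : TP t) (k : KP t g A B) (h0 : (r : F) ≠ 0)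
    (hd : ¬ r ∣ Fintype.card F - 1) (h1 : g ^ r = 1) (hA : ∀ c : F, A ≠ c • 1) :
    orderOf ((Fintype.card F : ℕ) : ZMod r) ≤ finrank F X ∧
      (orderOf ((Fintype.card F : ℕ) : ZMod r) - 1) * finrank F Y ≤ finrank F (mv g) := by
  obtain ⟨z, hz⟩ := h.scal (k.pow r) (by rw [h1, mv_one, finrank_bot]; exact finrank_pos)
  obtain ⟨w, rfl⟩ := exists_root hd z
  have w0 : w ≠ 0 := by
    rintro rfl
    obtain ⟨y, hy⟩ := exists_ne (0 : Y)
    refine hA 0 (LinearMap.ext fun x => ?_)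
    have := k.pow r x y
    rw [h1, hz, zero_pow hr.out.ne_zero] at this
    simp [h.eq_zero hy (by simpa using this)]
  have k1 : (w⁻¹ • A) ^ r = 1 := by rw [_root_.smul_pow, hz, smul_smul, ← mul_pow, inv_mul_cancel₀ w0, one_pow, one_smul]
  obtain ⟨Z, z1, z2⟩ := exists_irr (inv_mv (g := w⁻¹ • A)) (mv_ne_bot fun e => hA w (by rw [← e, smul_inv_smul₀ w0]))
  have z3 := blk_mv h0 k1 Z z1 z2
  obtain ⟨U, u1, u2⟩ := exists_le_finrank_eq Z (k := finrank F Z - 1) (by omega)
  refine ⟨z3 ▸ Submodule.finrank_le Z, not_lt.1 fun e => ?_⟩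
  obtain ⟨L, l1, l2, l3⟩ := h.supp k (U := U) (by rwa [u2, z3])
  have := Submodule.finrank_mono l1
  have := z2.finrank_pos
  obtain rfl := (z2.2.2 L (l1.trans u1) (l3.smul _)).resolve_left l2
  omega

variable [FiniteDimensional F V] {φ : Form F V} {φ₁ : Form F X} {φ₂ : Form F Y} [φ.Nondeg] [φ₁.Nondeg] [φ₂.Nondeg] {c : F}
  (hc : c ≠ 0) (hB : ∀ x y x' y', φ.B (t x y) (t x' y') = c * (φ₁.B x x' * φ₂.B y y'))
include hc hB

theorem KP.isom_right [Nontrivial X] (k : KP t g 1 B) (h2 : BQ φ₂) (hg : φ.IsIsom g) : φ₂.IsIsom B := h2.isom fun y y' => by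
  obtain ⟨x, hx⟩ := exists_ne (0 : X)
  obtain ⟨x', hx'⟩ := φ₁.exists_B_eq_one hx
  have := hg.B (t x y) (t x' y')
  rw [k, k, hB, hB, End.one_apply, End.one_apply, hx', one_mul, one_mul] at this
  exact mul_left_cancel₀ hc this

omit hc in
theorem TP.isom (h : TP t) (hA : H09.IsAltF φ) (k : KP t g A B) (h1 : φ₁.IsIsom A) (h2 : φ₂.IsIsom B) : φ.IsIsom g := by
  refine φ.isIsom_of_span g (S := {v | ∃ x y, t x y = v}) (eq_top_iff.2 fun v _ => ?_) ?_ fun _ _ => by rw [hA.Q_eq, hA.Q_eq]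
  · obtain ⟨w, rfl⟩ := h.2 v
    induction w with
    | zero => simp
    | tmul x y => exact Submodule.subset_span ⟨x, y, rfl⟩
    | add a b ha hb => rw [map_add]; exact add_mem (ha trivial) (hb trivial)
  · rintro _ ⟨x, y, rfl⟩ _ ⟨x', y', rfl⟩
    rw [k, k, hB, hB, h1.B, h2.B]

theorem TP.sp_tens [Fintype F] [hr : Fact r.Prime] (h : TP t) (h2 : (2 : F) ≠ 0) (hA : H09.IsAltF φ) (h₁ : H09.IsAltF φ₁)
    (h₂ : φ₂.IsQuad) (ha : 0 < finrank F X) (hb : 3 ≤ finrank F Y) {S : Subgroup φ.Isom}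
    (hS : ∀ g ∈ S, ∃ A B, KP t (g.1 : End F V) A B) (hS' : ∀ (g : φ.Isom) (A : End F X) (B : End F Y), φ₁.IsIsom A → φ₂.IsIsom B →
      KP t (g.1 : End F V) A B → g ∈ S) (hΩ : r ∣ S.index) :
    (∀ x ∈ (⊤ : Subgroup φ.Isom), PE r (x.1 : End F V) → ∃ k ∈ (⊤ : Subgroup φ.Isom), k⁻¹ * x * k ∈ S) ↔
      r = 2 ∧ finrank F X = 2 := by
  have hn := h.finrank_eq
  obtain ⟨a, ha'⟩ := even_of_alt h₁ nd_top
  rw [finrank_top] at ha'
  have hab : 2 * finrank F Y ≤ finrank F V := hn ▸ Nat.mul_le_mul_right _ (by omega)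
  haveI : Nontrivial V := nontrivial_of_finrank_pos (R := F) (by omega)
  haveI : Nontrivial X := nontrivial_of_finrank_pos ha
  haveI : Nontrivial Y := nontrivial_of_finrank_pos (R := F) (by omega)
  haveI := Module.finite_of_finite F (M := V)
  have small : ∀ {r} (x : φ.Isom), (x.1 : End F V) ^ r = 1 → 0 < finrank F (mv (x.1 : End F V)) →
      finrank F (mv (x.1 : End F V)) < finrank F X → finrank F (mv (x.1 : End F V)) < 3 →
      ¬ ∀ x ∈ (⊤ : Subgroup φ.Isom), PE r (x.1 : End F V) → ∃ k ∈ (⊤ : Subgroup φ.Isom), k⁻¹ * x * k ∈ S :=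
    fun x k1 k2 k3 k4 => not_all (Subgroup.mem_top x) k1 (ne_smul k2 (by omega)) fun y k5 _ k6 => by
      obtain ⟨A, B, k7⟩ := hS y k5
      have := k6 1
      rw [rk_one, rk_one] at this
      obtain ⟨z, hz⟩ := h.not_small k7 (by omega) (by omega)
      exact ne_smul (by omega) (by omega) z hz
  refine ⟨fun H => ?_, ?_⟩
  · have h0 : (r : F) ≠ 0 := fun e => by
      haveI := (CharP.charP_iff_prime_eq_zero hr.out).2 e
      obtain ⟨x, k1, k2⟩ := exists_tv r hA
      exact small x k1 (by omega) (by omega) (by omega) H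
    by_cases hr2 : r = 2
    · subst hr2
      obtain ⟨U, -, k1, k2⟩ := exists_nd_alt hA nd_top (k := 1) (by rw [finrank_top]; omega)
      obtain ⟨y, k3, k4, rfl⟩ := exists_neg h2 k1
      rw [← φ.toIsom_coe k3] at k2 k4
      exact ⟨rfl, by_contra fun e => small _ k4 (by omega) (by omega) (by omega) H⟩
    exfalso
    have ho := odd_of_ne_two hr2
    obtain ⟨x, k8, k9⟩ := min_alt hA h0 ho (by
      classical
      obtain ⟨y, hy⟩ := exists_prime_orderOf_dvd_card' r (hΩ.trans S.index_dvd_card)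
      obtain ⟨y1, y2⟩ := H16.Cc.ord_isom.1 hy
      exact (Nat.le_of_dvd (pos_of_ne y2) (dvd_mv (par_alt h0 hA) h0 ho y.2 y1)).trans (Submodule.finrank_le _))
    have := cc_pos h0
    refine not_all (Subgroup.mem_top x) k8 (ne_smul_odd hA.σ_eq ho x.2 k8 (ne_one_of_pos (by omega))) (fun y l1 l2 l3 => ?_) H
    obtain ⟨A, B, l4⟩ := hS y l1
    have l5 := l3 1
    rw [rk_one, rk_one, k9] at l5
    by_cases s1 : ∃ z : F, A = z • 1
    · obtain ⟨z, rfl⟩ := s1
      have l6 := h.rank_one l4.smul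
      obtain ⟨j, hj⟩ := dvd_mv (par_quad h0 ho h₂) h0 ho (l4.smul.isom_right hc hB (bq_quad h₂ h2) y.2) (h.pow_eq l4.smul l2)
      rw [l5, hj, mul_left_comm] at l6
      have := Nat.eq_one_of_mul_eq_one_right ((Nat.mul_eq_left (by omega)).1 l6.symm)
      omega
    by_cases s2 : ∃ z : F, B = z • 1
    · obtain ⟨z, rfl⟩ := s2
      have l6 := h.flip.rank_one l4.flip.smul
      obtain ⟨j, hj⟩ := dvd_mv (par_alt h0 h₁) h0 ho (l4.flip.smul.isom_right (φ := φ) (φ₁ := φ₂) hc
        (fun x y x' y' => (hB y x y' x').trans (by ring)) (bq_alt h₁) y.2) (h.flip.pow_eq l4.flip.smul l2)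
      rw [l5, hj, mul_left_comm] at l6
      have := Nat.eq_one_of_mul_eq_one_right ((Nat.mul_eq_left (by omega)).1 l6.symm)
      omega
    push Not at s1 s2
    by_cases hd : r ∣ Fintype.card F - 1
    · rw [← ord_one_iff] at hd
      rcases tc_facts h0 with ⟨e, -⟩ | ⟨-, e, -⟩
      · simp [hd] at e
      · exact (h.scal l4 (by omega)).elim s1
    obtain ⟨b1, b2⟩ := h.bound l4 h0 hd l2 s1
    obtain ⟨-, b3⟩ := h.flip.bound l4.flip h0 hd l2 s2
    rw [← ord_one_iff] at hd
    have := ord_pos h0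
    replace b2 := (Nat.mul_le_mul_left _ hb).trans b2
    rcases tc_facts h0 with ⟨⟨j, e⟩, e', -⟩ | ⟨e, e', -⟩
    · omega
    · obtain ⟨j, e⟩ := Nat.not_even_iff_odd.1 e
      obtain rfl : j = 1 := by omega
      rw [e] at b3; omega
  rintro ⟨rfl, ha2⟩ x - hx
  rcases pe_two' hA.σ_eq x.2 hx with k | k
  · obtain ⟨j, hj⟩ := even_of_alt hA (nd_mv x.2 (H24.Adj.semisimple_of_pow (n := 2) h2 k))
    have := Submodule.finrank_le (mv (x.1 : End F V))
    obtain ⟨U, -, l1, l2⟩ := nb_quad h₂ h2 nd_top (k := j) (by rw [finrank_top]; rw [ha2] at hn; omega)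
    obtain ⟨y, l3, l4, rfl⟩ := exists_neg h2 l1
    have l5 := h.isom hB hA (h.kp 1 y) isom_one l3
    have l6 : h.e.conj (TensorProduct.map 1 y) ^ 2 = 1 := h.uniq ((h.kp 1 y).pow 2) (by rw [l4, one_pow]; exact fun _ _ => rfl)
    obtain ⟨s, hs⟩ := cj_alt hA (nd_mv l5 (H24.Adj.semisimple_of_pow (n := 2) h2 l6))
      (nd_mv x.2 (H24.Adj.semisimple_of_pow (n := 2) h2 k)) (by rw [h.rank_one (h.kp 1 y), ha2]; omega)
    rw [← φ.toIsom_coe l5] at l6 hs
    exact ⟨s, trivial, invol_conj h2 k l6 hs ▸ hS' _ _ _ isom_one l3 (by rw [φ.toIsom_coe l5]; exact h.kp 1 y)⟩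
  · obtain ⟨y, l1, l2⟩ := exists_sqm_alt h₁
    have l5 := h.isom hB hA (h.kp y 1) l1 isom_one
    have l6 : h.e.conj (TensorProduct.map y 1) ^ 2 = -1 := h.uniq ((h.kp y 1).pow 2) (by rw [l2, one_pow]; exact fun _ _ => by simp)
    rw [← φ.toIsom_coe l5] at l6
    obtain ⟨s, hs⟩ := sqm_conj hA.σ_eq h2 (bq_alt hA) k l6
    exact ⟨s, trivial, hs ▸ hS' _ _ _ l1 isom_one (by rw [φ.toIsom_coe l5]; exact h.kp y 1)⟩

omit hc hB

section gl
open Cfsg Cfsg.Geo Matrix H10.As H24.NM
variable {ι : Type} [Fintype ι] [DecidableEq ι] {m k : ℕ} (e : ι ≃ Fin m × Fin k) (P : GL ι F)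

theorem tp_tau : TP (tau e P) := by
  have : Function.Surjective (lift (tau e P)) := fun v => by
    obtain ⟨w, rfl⟩ := (lq e P).surjective v
    refine ⟨∑ a, w a • (Pi.single a.1 1 ⊗ₜ Pi.single a.2 1), ?_⟩
    simp only [map_sum, map_smul, lift.tmul, tau, LinearMap.mk₂_apply]
    simp only [← map_smul, ← map_sum]
    congr 1; ext b
    rw [Finset.sum_apply, Finset.sum_eq_single b (fun a _ h => ?_) (by simp)]
    · simp
    · simp only [Pi.smul_apply, Pi.single_apply, smul_eq_mul]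
      split_ifs with h1 h2 <;> first | exact absurd (Prod.ext h1 h2).symm h | simp
  exact ⟨(LinearMap.injective_iff_surjective_of_finrank_eq_finrank (by
    simpa [finrank_tensorProduct] using (Fintype.card_congr e).symm)).2 this, this⟩

theorem kp_kron (g : GL ι F) (a : GL (Fin m) F) (b : GL (Fin k) F) :
    KP (tau e P) (toLin' g.1) (toLin' a.1) (toLin' b.1) ↔ pl e P g = kU a b := by
  have H : ∀ g : GL ι F, pl e P g = kU a b → KP (tau e P) (toLin' g.1) (toLin' a.1) (toLin' b.1) := fun g h x y => by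
    refine (mulVec_lq e P _ _).trans (congrArg _ ?_)
    rw [← pl_val, h, kU_val]
    ext i
    change _ = (a.1 *ᵥ x) i.1 * (b.1 *ᵥ y) i.2
    simp [mulVec, dotProduct, Fintype.sum_prod_type, Finset.sum_mul_sum, mul_mul_mul_comm]
  refine ⟨fun h => ?_, H g⟩
  rw [Units.ext (toLin'.injective ((tp_tau e P).uniq h (H _ ((pl e P).apply_symm_apply _)))), MulEquiv.apply_symm_apply]

theorem mem_tens {g : GL ι F} : g ∈ tensorProductSubgroup m k e P ↔
    ∃ (a : GL (Fin m) F) (b : GL (Fin k) F), KP (tau e P) (toLin' g.1) (toLin' a.1) (toLin' b.1) := by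
  simp only [kp_kron]
  exact (mem_co e P (S := kroneckerSubgroup m k F)).trans ⟨fun ⟨u, v, h⟩ => ⟨u, v, Units.ext (h.trans (kU_val u v).symm)⟩,
    fun ⟨u, v, h⟩ => ⟨u, v, by rw [h, kU_val]⟩⟩

end gl

end H16.Fx
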