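import Mathlib
import Cfsg.Agent.H04.Extraspecial

/-!
# The Heisenberg group over a commutative ring

`Heis ι R` has elements `(a, b, c)` with `a b : ι → R`, `c : R` and product
`(a + a', b + b', c + c' + a ⬝ᵥ b')`.  Over `ZMod p` (`p` odd) it is extraspecial of exponent `p`
(`Heis.isExtraspecial`, `Heis.pow_p`, `Heis.card`) and has a faithful representation `Heis.rep`
of dimension `card ι + 2`.
-/

namespace H16

open Subgroup Cfsg BG
open scoped commutatorElement

/-- The Heisenberg group. -/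
@[ext] structure Heis (ι R : Type*) where
  a : ι → R
  b : ι → R
  c : R

namespace Heis

variable {ι R : Type*} [Fintype ι] [CommRing R]

instance : Mul (Heis ι R) := ⟨fun x y => ⟨x.a + y.a, x.b + y.b, x.c + y.c + x.a ⬝ᵥ y.b⟩⟩
instance : One (Heis ι R) := ⟨⟨0, 0, 0⟩⟩
instance : Inv (Heis ι R) := ⟨fun x => ⟨-x.a, -x.b, -x.c + x.a ⬝ᵥ x.b⟩⟩

@[simp] theorem mul_a (x y : Heis ι R) : (x * y).a = x.a + y.a := rfl
@[simp] theorem mul_b (x y : Heis ι R) : (x * y).b = x.b + y.b := rfl
@[simp] theorem mul_c (x y : Heis ι R) : (x * y).c = x.c + y.c + x.a ⬝ᵥ y.b := rfl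
omit [Fintype ι] in
@[simp] theorem one_a : (1 : Heis ι R).a = 0 := rfl
omit [Fintype ι] in
@[simp] theorem one_b : (1 : Heis ι R).b = 0 := rfl
omit [Fintype ι] in
@[simp] theorem one_c : (1 : Heis ι R).c = 0 := rfl
@[simp] theorem inv_a (x : Heis ι R) : (x⁻¹).a = -x.a := rfl
@[simp] theorem inv_b (x : Heis ι R) : (x⁻¹).b = -x.b := rfl
@[simp] theorem inv_c (x : Heis ι R) : (x⁻¹).c = -x.c + x.a ⬝ᵥ x.b := rfl

instance : Group (Heis ι R) where
  mul_assoc x y z := by
    ext <;> simp [add_assoc, add_dotProduct, dotProduct_add]; ring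
  one_mul x := by ext <;> simp
  mul_one x := by ext <;> simp
  inv_mul_cancel x := by ext <;> simp

/-- The underlying set is a product. -/
def equivProd : Heis ι R ≃ (ι → R) × (ι → R) × R where
  toFun x := (x.a, x.b, x.c)
  invFun y := ⟨y.1, y.2.1, y.2.2⟩
  left_inv _ := rfl
  right_inv _ := rfl

instance [Finite R] : Finite (Heis ι R) := Finite.of_equiv _ equivProd.symm

omit [CommRing R] in
theorem card : Nat.card (Heis ι R) = Nat.card R ^ (1 + 2 * Fintype.card ι) := by
  rw [Nat.card_congr equivProd, Nat.card_prod, Nat.card_prod, Nat.card_fun, Nat.card_eq_fintype_card (α := ι)]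
  ring

theorem pow_eq (x : Heis ι R) (n : ℕ) :
    x ^ n = ⟨n • x.a, n • x.b, n • x.c + n.choose 2 • (x.a ⬝ᵥ x.b)⟩ := by
  induction n with
  | zero => ext <;> simp
  | succ n ih =>
    rw [pow_succ, ih]
    ext
    · simp [add_mul]
    · simp [add_mul]
    · simp only [mul_c, smul_dotProduct, Nat.choose_succ_succ' n 1, Nat.choose_one_right, add_smul, one_smul]
      ring

theorem comm_eq (x y : Heis ι R) : ⁅x, y⁆ = ⟨0, 0, x.a ⬝ᵥ y.b - y.a ⬝ᵥ x.b⟩ := by
  rw [commutatorElement_def]
  ext <;> simp [add_dotProduct]; ring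

/-- The central generator. -/
def z : Heis ι R := ⟨0, 0, 1⟩

theorem z_comm (x : Heis ι R) : x * z = z * x := by
  ext <;> simp [z, add_comm]

theorem z_pow (n : ℕ) : (z : Heis ι R) ^ n = ⟨0, 0, n⟩ := by
  rw [pow_eq]; ext <;> simp [z]

/-- The faithful representation on `R × (ι → R) × R`. -/
def rep : Heis ι R →* Module.End R (R × (ι → R) × R) where
  toFun g :=
    { toFun := fun v => (v.1 + g.a ⬝ᵥ v.2.1 + g.c * v.2.2, v.2.1 + v.2.2 • g.b, v.2.2)
      map_add' := fun v w => by
        ext <;> simp [dotProduct_add] <;> ring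
      map_smul' := fun r v => by
        ext <;> simp <;> ring }
  map_one' := by
    apply LinearMap.ext; intro v; ext <;> simp
  map_mul' g h := by
    apply LinearMap.ext; intro v
    ext <;> simp [dotProduct_add, add_dotProduct] <;> ring

theorem rep_injective : Function.Injective (rep : Heis ι R →* _) := by
  classical
  rw [injective_iff_map_eq_one]
  intro g hg
  have h1 := LinearMap.congr_fun hg (0, 0, 1)
  simp [rep, Prod.ext_iff] at h1
  ext i
  · have h2 := LinearMap.congr_fun hg (0, Pi.single i 1, 0)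
    simpa [rep, Prod.ext_iff] using h2
  · simp [h1.2]
  · simp [h1.1]

variable {p : ℕ} [hp : Fact p.Prime]

theorem mem_zpowers_z (c : ZMod p) : (⟨0, 0, c⟩ : Heis ι (ZMod p)) ∈ zpowers z :=
  ⟨(c.val : ℕ), by simp only [zpow_natCast, z_pow]; simp⟩

theorem pow_p (h2 : p ≠ 2) (x : Heis ι (ZMod p)) : x ^ p = 1 := by
  rw [pow_eq]
  have : p ∣ p.choose 2 := hp.out.dvd_choose_self (by norm_num) (lt_of_le_of_ne hp.out.two_le h2.symm)
  have h3 : ((p.choose 2 : ℕ) : ZMod p) = 0 := (ZMod.natCast_eq_zero_iff _ _).2 this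
  ext <;> simp [h3]

theorem aes (h2 : p ≠ 2) : H04.AES p (⊤ : Subgroup (Heis ι (ZMod p))) z where
  ord := orderOf_eq_prime (pow_p h2 _) (fun h => by simpa [z] using congrArg Heis.c h)
  mem := trivial
  cent := fun x _ => z_comm x
  comm := fun x _ y _ => comm_eq x y ▸ mem_zpowers_z _
  pow := fun x _ => pow_p h2 x ▸ one_mem _

theorem center_le : center (Heis ι (ZMod p)) ≤ zpowers z := by
  classical
  intro x hx
  have ha : x.a = 0 := by
    ext i
    have := congrArg Heis.c (mem_center_iff.1 hx ⟨0, Pi.single i 1, 0⟩)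
    simpa using this.symm
  have hb : x.b = 0 := by
    ext i
    have := congrArg Heis.c (mem_center_iff.1 hx ⟨Pi.single i 1, 0, 0⟩)
    simpa using this
  have : x = ⟨0, 0, x.c⟩ := by ext <;> simp [ha, hb]
  rw [this]; exact mem_zpowers_z _

theorem not_comm [Nonempty ι] [Nontrivial R] : ¬ IsMulCommutative (Heis ι R) := by
  classical
  intro h
  obtain ⟨i⟩ := ‹Nonempty ι›
  have := congrArg Heis.c (h.is_comm.comm ⟨Pi.single i 1, 0, 0⟩ ⟨0, Pi.single i 1, 0⟩)
  simp at this

theorem isExtraspecial [Nonempty ι] (h2 : p ≠ 2) : IsExtraspecial p (Heis ι (ZMod p)) :=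
  H04.isExtraspecial_of_aes_top (aes h2) center_le not_comm

end Heis

end H16
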