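import Mathlib
import Cfsg.Agent.H06.J0
import Cfsg.Agent.S1553

/-! Part H of S5566: the hexad subgroup `2⁴ : A₆` of `M₂₂`. -/

set_option autoImplicit false
open Cfsg Subgroup Equiv
open scoped Pointwise

namespace H16.JH

abbrev A6 := alternatingGroup (Fin 6)

theorem cA : Nat.card A6 = 360 := by rw [nat_card_alternatingGroup]; simp [Nat.factorial]

theorem ea4 (I : Subgroup A6) (k : ∀ g ∈ I, g * g = 1) : Nat.card I ≤ 4 := by
  have hI : IsPGroup 2 I := fun g => ⟨1, Subtype.ext (by simpa [pow_two] using k g g.2)⟩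
  obtain ⟨n, hn⟩ := IsPGroup.iff_card.1 hI
  obtain ⟨P, hP⟩ := hI.exists_le_sylow
  have cP : Nat.card P = 8 := by
    rw [P.card_eq_multiplicity, cA, show 360 = 2 ^ 3 * 45 from rfl,
      Nat.factorization_mul (by norm_num) (by norm_num), Nat.Prime.factorization_pow Nat.prime_two]
    simp [Nat.factorization_eq_zero_of_not_dvd]
  by_contra! c
  have l := card_le_of_le hP
  have e : I = P := Subgroup.eq_of_le_of_card_ge hP (by
    rw [hn] at c l ⊢
    rw [cP] at l ⊢
    have : 3 ≤ n := by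
      by_contra! o
      interval_cases n <;> omega
    exact Nat.pow_le_pow_right two_pos this)
  let t : A6 := ⟨swap 0 1 * swap 1 2 * swap 2 3 * swap 4 5, by rw [Perm.mem_alternatingGroup]; decide⟩
  have ht : IsPGroup 2 (zpowers t) := IsPGroup.of_card (n := 2) (by
    rw [Nat.card_zpowers]
    exact orderOf_eq_prime_pow (n := 1) (by decide) (by decide))
  obtain ⟨Q, hQ⟩ := ht.exists_le_sylow
  have := k _ (e.ge (Sylow.equiv Q P ⟨t, hQ (mem_zpowers t)⟩).2)
  have o : Sylow.equiv Q P (⟨t, hQ (mem_zpowers t)⟩ * ⟨t, hQ (mem_zpowers t)⟩) = 1 := by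
    rw [map_mul]; exact Subtype.ext this
  rw [map_eq_one_iff _ (Sylow.equiv Q P).injective] at o
  exact absurd (show t * t = 1 from congrArg Subtype.val o) (by decide)

theorem abs {Γ : Type} [Group Γ] [Finite Γ] {K Y : Subgroup Γ} (φ : K →* A6) (su : Function.Surjective φ) (YK : Y ≤ K)
    (ke : ∀ k : K, φ k = 1 ↔ k.1 ∈ Y) (cY : Nat.card Y = 16) (Y2 : ∀ y ∈ Y, y * y = 1)
    (nc : ∀ k ∈ K, (∀ y ∈ Y, k * y = y * k) → k ∈ Y) : Agent.H06.J.Hx 1 K Y ∧ Nat.card K = 5760 := by
  have : IsSimpleGroup A6 := alternatingGroup.isSimpleGroup (by simp)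
  have : Fact (Nat.Prime 5) := ⟨by norm_num⟩
  have ek : φ.ker = Y.subgroupOf K := Subgroup.ext ke
  have ik : φ.ker.index = 360 := by rw [index_ker, MonoidHom.range_eq_top.2 su, card_top, cA]
  have cK : Nat.card K = 5760 := by
    rw [← φ.ker.card_mul_index, ik, ek, Nat.card_congr (subgroupOfEquivOfLe YK).toEquiv, cY]
  have nY : ∀ k ∈ K, ∀ y ∈ Y, k * y * k⁻¹ ∈ Y := fun k i y j =>
    (ke _).1 (φ.normal_ker.conj_mem ⟨y, YK j⟩ ((ke _).2 j) ⟨k, i⟩)
  have sim : ∀ N : Subgroup K, N.Normal → φ.ker ≤ N → N = ⊤ ∨ N ≤ φ.ker := fun N n l => by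
    rcases (n.map φ su).eq_bot_or_eq_top with e | e
    · exact .inr ((Subgroup.map_eq_bot_iff _).1 e)
    · exact .inl (by rw [← comap_map_eq_self l, e, comap_top])
  have s1 : ∀ J : Subgroup K, φ.ker ≤ J → J.index ≤ 5 → J = ⊤ := fun J l c => by
    rcases sim J.normalCore inferInstance (normal_le_normalCore.2 l) with e | e
    · exact top_le_iff.1 (e.ge.trans J.normalCore_le)
    · have a := index_dvd_of_le e
      rw [ik, normalCore_eq_ker, index_ker] at a
      have b := card_le_card_group (MulAction.toPermHom K (K ⧸ J)).range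
      rw [Nat.card_perm] at b
      have d : (Nat.card (K ⧸ J)).factorial ≤ 120 := Nat.factorial_le (n := 5) c
      have := Nat.le_of_dvd Nat.card_pos a
      omega
  have ab : ∀ y ∈ Y, ∀ y' ∈ Y, y * y' = y' * y := fun y i y' j => by
    have := Y2 _ (mul_mem i j)
    rw [← inv_eq_iff_mul_eq_one, mul_inv_rev, inv_eq_iff_mul_eq_one.2 (Y2 y i), inv_eq_iff_mul_eq_one.2 (Y2 y' j)] at this
    exact this.symm
  let _ : MulAction K Y :=
    { smul := fun k y => ⟨k * y * k⁻¹, nY k k.2 y y.2⟩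
      one_smul := fun y => Subtype.ext (show (1 : Γ) * y * 1⁻¹ = y by simp)
      mul_smul := fun a b y => Subtype.ext (show (a.1 * b.1) * y.1 * (a.1 * b.1)⁻¹ = a.1 * (b.1 * y.1 * b.1⁻¹) * a.1⁻¹ by group) }
  have sm : ∀ (k : K) (y : Y), k • y = y ↔ (k : Γ) * y = y * k := fun k y =>
    Subtype.ext_iff.trans mul_inv_eq_iff_eq_mul
  have f5 : ∀ f : K, orderOf f = 5 → ∀ y : Y, f • y = y → y = 1 := fun f o y e => by
    have hp : IsPGroup 5 (zpowers f) := IsPGroup.of_card (n := 1) (by rw [Nat.card_zpowers, o, pow_one])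
    have a := hp.card_modEq_card_fixedPoints Y
    let C : Subgroup Y := (centralizer {(f : Γ)}).subgroupOf Y
    have mC : ∀ y : Y, y ∈ C ↔ f • y = y := fun y =>
      (mem_subgroupOf.trans mem_centralizer_singleton_iff).trans (eq_comm.trans (sm f y).symm)
    have b : Nat.card (MulAction.fixedPoints (zpowers f) Y) = Nat.card C := Nat.card_congr (Equiv.subtypeEquivRight fun y =>
      ⟨fun i => (mC y).2 (i ⟨f, mem_zpowers f⟩), fun i g =>
        (zpowers_le.2 ((mC y).1 i) : zpowers f ≤ MulAction.stabilizer K y) g.2⟩)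
    rw [b, cY] at a
    have c := C.card_subgroup_dvd_card
    rw [cY] at c
    have d : Nat.card C = 1 ∨ Nat.card C = 16 := by
      have := Nat.le_of_dvd (by norm_num) c
      unfold Nat.ModEq at a
      generalize Nat.card C = n at *
      interval_cases n <;> omega
    rcases d with d | d
    · exact mem_bot.1 (card_eq_one.1 d ▸ (mC y).2 e)
    · have t : C = ⊤ := eq_top_of_card_eq C (d.trans cY.symm)
      have m := Y2 _ (nc f f.2 fun z j => (sm f ⟨z, j⟩).1 ((mC _).1 (t ▸ mem_top _)))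
      have := orderOf_dvd_of_pow_eq_one (show f ^ 2 = 1 from Subtype.ext (by simpa [pow_two] using m))
      rw [o] at this; omega
  have big : ∀ y : Y, y ≠ 1 → 10 ≤ (MulAction.orbit K y).ncard := fun y n => by
    rw [← MulAction.index_stabilizer]
    have a := (MulAction.stabilizer K y).card_mul_index
    have b : ¬ 5 ∣ Nat.card (MulAction.stabilizer K y) := fun o => by
      obtain ⟨f, e⟩ := exists_prime_orderOf_dvd_card' 5 o
      exact n (f5 f.1 ((orderOf_coe f).trans e) y f.2)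
    have c : 5 ∣ (MulAction.stabilizer K y).index :=
      ((Nat.Prime.dvd_mul (by norm_num)).1 (by rw [a, cK]; norm_num)).resolve_left b
    by_contra! o
    have := s1 (MulAction.stabilizer K y) (fun k i => (sm k y).2 (ab _ ((ke k).1 i) _ y.2)) (by omega)
    rw [this, card_top, cK] at b
    omega
  refine ⟨⟨one_mem _, YK, cY, Y2, nY, fun y i y' j n n' => ?_, fun J l m _ c k i => ?_, fun N l m _ c => ?_,
    fun E l c => ?_⟩, cK⟩
  · by_contra! o
    have a := big ⟨y, i⟩ fun e => n (congrArg Subtype.val e)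
    have b := big ⟨y', j⟩ fun e => n' (congrArg Subtype.val e)
    rcases MulAction.orbit.eq_or_disjoint (G := K) (⟨y, i⟩ : Y) ⟨y', j⟩ with e | e
    · obtain ⟨k, t⟩ : (⟨y', j⟩ : Y) ∈ MulAction.orbit K (⟨y, i⟩ : Y) := e ▸ MulAction.mem_orbit_self _
      exact o k k.2 (congrArg Subtype.val t)
    · have c := Set.ncard_union_eq e
      have d := Set.ncard_le_card (MulAction.orbit K (⟨y, i⟩ : Y) ∪ MulAction.orbit K (⟨y', j⟩ : Y))
      omega
  · have := s1 (J.subgroupOf K) (ek ▸ fun _ t => m t) c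
    exact mem_subgroupOf.1 (show (⟨k, i⟩ : K) ∈ J.subgroupOf K from this ▸ mem_top _)
  · rcases sim (N.subgroupOf K) ⟨fun n t k => c k k.2 n t⟩ (ek ▸ fun _ t => m t) with e | e
    · exact .inl fun k i => mem_subgroupOf.1 (show (⟨k, i⟩ : K) ∈ N.subgroupOf K from e ▸ mem_top _)
    · exact .inr fun g i _ => (ke ⟨g, l i⟩).1 (e i)
  · have a := BG.card_inf_mul_relIndex φ.ker (E.subgroupOf K)
    have b := ea4 ((E.subgroupOf K).map φ) (by
      rintro _ ⟨g, i, rfl⟩
      rw [← map_mul, show g * g = 1 from Subtype.ext (c g i), map_one])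
    rw [relIndex_ker, ek, show Y.subgroupOf K ⊓ E.subgroupOf K = (E ⊓ Y).subgroupOf K from
      Subgroup.ext fun _ => and_comm, Nat.card_congr (subgroupOfEquivOfLe (inf_le_left.trans l)).toEquiv,
      Nat.card_congr (subgroupOfEquivOfLe l).toEquiv] at a
    nlinarith

theorem h : Agent.H06.J.HStmt := by
  classical
  obtain ⟨o, ho, hs⟩ := H14.exists_octad (s := {none, some 0}) (Finset.card_le_two.trans (by norm_num))
  have o1 : none ∈ o := hs (by simp)
  have o2 : some 0 ∈ o := hs (by simp)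
  let K : Subgroup Spor.M22 := (MulAction.stabilizer (Perm GolayPt) o).subgroupOf Spor.M22
  let Y : Subgroup Spor.M22 := (fixingSubgroup (Perm GolayPt) (o : Set GolayPt)).subgroupOf Spor.M22
  have mY : ∀ g : Spor.M22, g ∈ Y ↔ ∀ x ∈ o, g.1 x = x := fun g => mem_subgroupOf.trans (mem_fixingSubgroup_iff _)
  have o8 : 5 ≤ (o ∩ o).card := by rw [Finset.inter_self, ho.2]; norm_num
  have YK : Y ≤ K := fun g i => H14.smul_octad_eq_of_fix g.2.1.1 ho ((mY g).1 i) o8
  have io : ∀ g : K, ∀ x, g.1.1 x ∈ o ↔ x ∈ o := fun g => H14.mem_iff_of_smul_eq g.2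
  let P : o → Prop := fun x => x.1 ≠ none ∧ x.1 ≠ some 0
  have f1 : ∀ g : Spor.M22, g.1 none = none := fun g => g.2.1.2
  have f2 : ∀ g : Spor.M22, g.1 (some 0) = some 0 := fun g => g.2.2
  have iP : ∀ g : K, ∀ x, P (g.1.1.subtypePerm (io g) x) ↔ P x := fun g x =>
    and_congr (not_congr (by
      show g.1.1 x = none ↔ _
      conv_lhs => rw [← f1 g.1]
      exact g.1.1.injective.eq_iff)) (not_congr (by
      show g.1.1 x = some 0 ↔ _
      conv_lhs => rw [← f2 g.1]
      exact g.1.1.injective.eq_iff))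
  have nP : ∀ g : K, ∀ x, g.1.1.subtypePerm (io g) x ≠ x → P x := fun g x n =>
    ⟨fun e => n (Subtype.ext (show g.1.1 x = x by rw [e, f1])), fun e => n (Subtype.ext (show g.1.1 x = x by rw [e, f2]))⟩
  have c6 : Fintype.card {x // P x} = 6 := by
    have e : Fintype.card {x : o // ¬ P x} = 2 := by
      rw [Fintype.card_subtype, show Finset.univ.filter (fun x : o => ¬ P x) = {⟨none, o1⟩, ⟨some 0, o2⟩} from
        Finset.ext fun x => by simp [P, Subtype.ext_iff, or_iff_not_imp_left]]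
      exact Finset.card_pair (by simp)
    rw [Fintype.card_subtype_compl, Fintype.card_coe, ho.2] at e
    omega
  let e6 := Fintype.equivFinOfCardEq c6
  let ψ : K →* Perm {x // P x} :=
    { toFun := fun g => (g.1.1.subtypePerm (io g)).subtypePerm (iP g), map_one' := rfl, map_mul' := fun _ _ => rfl }
  have R := Set.ext_iff.1 (Agent.S1553.result o ho)
  have sg : ∀ g : K, (e6.permCongrHom.toMonoidHom.comp ψ) g ∈ A6 := fun g => by
    rw [Perm.mem_alternatingGroup]
    exact (Perm.sign_permCongr e6 _).trans ((Perm.sign_subtypePerm _ (iP g) (nP g)).trans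
      (Perm.mem_alternatingGroup.1 ((R _).1 ⟨g.1.1, g.1.2.1.1, io g, rfl⟩)))
  have c22 : Nat.card Spor.M22 = 443520 := by
    rw [← H14.card_stab_pt2 (p := none) (q := some 0) (by simp)]
    exact Nat.card_congr
      { toFun := fun g => ⟨⟨g.1, g.2.1.1⟩, g.2.1.2, g.2.2⟩
        invFun := fun g => ⟨g.1.1, ⟨g.1.2, g.2.1⟩, g.2.2⟩
        left_inv := fun _ => rfl
        right_inv := fun _ => rfl }
  have key := abs (K := K) (Y := Y) ((e6.permCongrHom.toMonoidHom.comp ψ).codRestrict A6 sg) (fun t => ?_) YK (fun k => ?_) ?_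
    (fun y i => Subtype.ext (H14.sq_eq_one_of_fix_octad y.2.1.1 ho ((mY y).1 i))) fun k i c => ?_
  · have := K.card_mul_index
    rw [key.2, c22] at this
    exact ⟨K, Y, key.1, by omega⟩
  · obtain ⟨g, i, j, e⟩ := (R (Perm.ofSubtype (e6.symm.permCongr t.1))).2 (by
      rw [SetLike.mem_coe, Perm.mem_alternatingGroup, Perm.sign_ofSubtype, Perm.sign_permCongr]
      exact Perm.mem_alternatingGroup.1 t.2)
    have fx : ∀ x : o, ¬ P x → g x = x := fun x n =>
      congrArg Subtype.val ((Equiv.congr_fun e x).trans (Perm.ofSubtype_apply_of_not_mem _ n))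
    refine ⟨⟨⟨g, ⟨i, fx ⟨_, o1⟩ (by simp [P])⟩, fx ⟨_, o2⟩ (by simp [P])⟩, Finset.ext fun x =>
      Finset.inv_smul_mem_iff.symm.trans ((j _).symm.trans (by simp))⟩, Subtype.ext ?_⟩
    show e6.permCongr _ = t.1
    rw [← Equiv.eq_symm_apply]
    refine Equiv.ext fun x => Subtype.ext ?_
    exact (Equiv.congr_fun e x.1).trans (Perm.ofSubtype_apply_coe _ x)
  · rw [mY, Subtype.ext_iff]
    show e6.permCongrHom (ψ k) = 1 ↔ _
    rw [map_eq_one_iff _ e6.permCongrHom.injective]
    refine ⟨fun e x i => ?_, fun e => Equiv.ext fun x => Subtype.ext (Subtype.ext (e _ x.1.2))⟩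
    by_contra n
    have p := nP k ⟨x, i⟩ fun t => n (congrArg Subtype.val t)
    exact n (congrArg (fun t => t.1.1) (Equiv.congr_fun e ⟨_, p⟩))
  · rw [← H14.card_fix_octad ho]
    exact Nat.card_congr
      { toFun := fun g => ⟨g.1.1, g.1.2.1.1, g.2⟩
        invFun := fun g => ⟨⟨g.1, ⟨g.2.1, g.2.2 ⟨_, o1⟩⟩, g.2.2 ⟨_, o2⟩⟩, g.2.2⟩
        left_inv := fun _ => rfl
        right_inv := fun _ => rfl }
  · have ex : ∀ s : Finset GolayPt, s.card < 24 → ∃ p, p ∉ s := fun s l => by
      by_contra! t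
      rw [Finset.eq_univ_iff_forall.2 t, Finset.card_univ, H14.card_pt] at l; omega
    have tr : ∀ p ∉ o, ∀ q ∉ o, ∃ y ∈ Y, y.1 p = q := fun p a q b => by
      obtain ⟨g, i, j, e⟩ := H14.octad_out_trans ho a b
      exact ⟨⟨g, ⟨i, j _ o1⟩, j _ o2⟩, (mY _).2 j, e⟩
    obtain ⟨p, hp⟩ := ex o (by rw [ho.2]; norm_num)
    obtain ⟨y, hy, e⟩ := tr _ ((io ⟨k, i⟩ p).not.2 hp) p hp
    have ab : ∀ z ∈ Y, y * z = z * y := fun z j => by
      have s : ∀ w ∈ Y, w⁻¹ = w := fun w m =>
        inv_eq_iff_mul_eq_one.2 (Subtype.ext (H14.sq_eq_one_of_fix_octad w.2.1.1 ho ((mY w).1 m)))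
      rw [← s _ (mul_mem hy j), mul_inv_rev, s _ hy, s _ j]
    have fo : ∀ q ∉ o, (y * k).1 q = q := fun q b => by
      obtain ⟨z, j, rfl⟩ := tr p hp q b
      have : y * k * z = z * (y * k) := by rw [mul_assoc, c z j, ← mul_assoc, ab z j, mul_assoc]
      exact (congrArg (fun t : Spor.M22 => t.1 p) this).trans (congrArg z.1 e)
    obtain ⟨o', ho', hs'⟩ := H14.exists_octad (s := {none, some 0, p}) (Finset.card_le_three.trans (by norm_num))
    have n4 : (o' ∩ o).card ≤ 4 := by
      by_contra! t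
      exact hp (H14.octad_eq_of_five ho' ho t ▸ hs' (by simp))
    obtain ⟨q, hq⟩ := ex (o' ∪ o) (by have := Finset.card_union_le o' o; rw [ho.2, ho'.2] at this; omega)
    rw [Finset.mem_union, not_or] at hq
    have one : (y * k).1 = 1 := H14.eq_one_of_fix_octad (y * k).2.1.1 ho' (s := insert none (insert (some 0) (o' \ o)))
      (Finset.insert_subset (hs' (by simp)) (Finset.insert_subset (hs' (by simp)) Finset.sdiff_subset)) (by
        have := Finset.card_sdiff_add_card_inter o' o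
        rw [Finset.card_insert_of_notMem (by simp [o1]), Finset.card_insert_of_notMem (by simp [o2])]
        rw [ho'.2] at this; omega) hq.1 (fun x m => by
        rcases Finset.mem_insert.1 m with rfl | m
        · exact f1 _
        rcases Finset.mem_insert.1 m with rfl | m
        · exact f2 _
        exact fo x (Finset.mem_sdiff.1 m).2) (fo q hq.2)
    rw [eq_inv_of_mul_eq_one_right (show y * k = 1 from Subtype.ext one)]
    exact inv_mem hy

end H16.JH
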