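import Mathlib
import Cfsg.Agent.H23.K0
import Cfsg.Agent.H10.FzF
import Cfsg.Agent.H06.JZ

/-! Part N of S5567: the orbits of `N(A)` on `A ≅ 2¹¹` have lengths 1771 and 276. -/

set_option autoImplicit false
open Subgroup Cfsg.Agent.H23.K

namespace H16.KN
universe u

theorem pr {G : Type u} [Group G] [Finite G] {A N : Subgroup G} (sq : ∀ x ∈ A, x * x = 1) (cA : Nat.card A = 2048)
    (nM : ∀ m ∈ N, ∀ x ∈ A, m * x * m⁻¹ ∈ A) (cen : ∀ m ∈ N, (∀ x ∈ A, m * x = x * m) → m ∈ A) (p : ℕ) (hp : p.Prime)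
    (k : ∀ j < 11, p ≠ 2 ∧ 2048 % p ≠ 2 ^ j % p) : ¬ p ∣ Nat.card N := fun o => by
  have : Fact p.Prime := ⟨hp⟩
  obtain ⟨f, e⟩ := exists_prime_orderOf_dvd_card' p o
  let _ : MulAction N A :=
    { smul := fun m x => ⟨m * x * m⁻¹, nM m m.2 x x.2⟩
      one_smul := fun y => Subtype.ext (show (1 : G) * y * 1⁻¹ = y by simp)
      mul_smul := fun a b y => Subtype.ext (show (a.1 * b.1) * y.1 * (a.1 * b.1)⁻¹ = a.1 * (b.1 * y.1 * b.1⁻¹) * a.1⁻¹ by group) }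
  have sm : ∀ (m : N) (y : A), m • y = y ↔ (m : G) * y = y * m := fun k y =>
    Subtype.ext_iff.trans mul_inv_eq_iff_eq_mul
  have hq : IsPGroup p (zpowers f) := IsPGroup.of_card (n := 1) (by rw [Nat.card_zpowers, e, pow_one])
  have a := hq.card_modEq_card_fixedPoints A
  let C : Subgroup A := (centralizer {(f : G)}).subgroupOf A
  have mC : ∀ y : A, y ∈ C ↔ f • y = y := fun y =>
    (mem_subgroupOf.trans mem_centralizer_singleton_iff).trans (eq_comm.trans (sm f y).symm)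
  have b : Nat.card (MulAction.fixedPoints (zpowers f) A) = Nat.card C := Nat.card_congr (Equiv.subtypeEquivRight fun y =>
    ⟨fun i => (mC y).2 (i ⟨f, mem_zpowers f⟩), fun i g =>
      (zpowers_le.2 ((mC y).1 i) : zpowers f ≤ MulAction.stabilizer N y) g.2⟩)
  rw [b, cA] at a
  have c := C.card_subgroup_dvd_card
  rw [cA, show 2048 = 2 ^ 11 from rfl] at c
  obtain ⟨j, hj, d⟩ := (Nat.dvd_prime_pow Nat.prime_two).1 c
  rcases hj.lt_or_eq with l | rfl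
  · rw [d] at a; exact (k j l).2 a
  · have t : C = ⊤ := eq_top_of_card_eq C (d.trans cA.symm)
    have m := sq _ (cen f f.2 fun z j => (sm f ⟨z, j⟩).1 ((mC _).1 (t ▸ mem_top _)))
    have := orderOf_dvd_of_pow_eq_one (show f ^ 2 = 1 from Subtype.ext (by simpa [pow_two] using m))
    rw [e] at this
    exact (k 0 (by norm_num)).1 ((Nat.prime_dvd_prime_iff_eq hp Nat.prime_two).1 this)

theorem n : NStmt.{u} := by
  intro G _ _ A N B z O1 O2 E F h n89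
  obtain ⟨Z, hZ⟩ : ∃ Z : Set G, Z = {x | ∃ m ∈ N, m * z * m⁻¹ = x} := ⟨_, rfl⟩
  have mZ : ∀ x, x ∈ Z ↔ ∃ m ∈ N, m * z * m⁻¹ = x := fun x => hZ ▸ Iff.rfl
  have cZ := H10.FzF.orb N z
  rw [← hZ, h.cN] at cZ
  have zZ : z ∈ Z := (mZ z).2 ⟨1, one_mem _, by simp⟩
  have Zc : ∀ m ∈ N, ∀ x ∈ Z, m * x * m⁻¹ ∈ Z := fun m i x j => by
    obtain ⟨k, a, rfl⟩ := (mZ x).1 j
    exact (mZ _).2 ⟨m * k, mul_mem i a, by group⟩
  have Zi : ∀ m ∈ N, ∀ x, m * x * m⁻¹ ∈ Z → x ∈ Z := fun m i x j => by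
    have := Zc _ (inv_mem i) _ j
    rwa [show m⁻¹ * (m * x * m⁻¹) * m⁻¹⁻¹ = x by group] at this
  have ZA : ∀ x ∈ Z, x ∈ A ∧ x ≠ 1 := fun x j => by
    obtain ⟨k, a, rfl⟩ := (mZ x).1 j
    exact ⟨h.nM k a z (h.BA h.zB), fun e => h.z1 (conj_eq_one_iff.1 e)⟩
  have zz : z * z = 1 := h.sq z (h.BA h.zB)
  have nB : (B : Set G).ncard = 128 := by rw [← h.cB]; exact (Nat.card_coe_set_eq _).symm
  have nA : (A : Set G).ncard = 2048 := by rw [← h.cA]; exact (Nat.card_coe_set_eq _).symm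
  have d12 : Disjoint O1 O2 := by
    have e : O1 ∪ O2 = (B : Set G) \ {1, z} := Set.ext fun x => by simpa [not_or] using (h.pB x).symm
    have a := Set.ncard_union_add_ncard_inter O1 O2
    have b := Set.ncard_sdiff (show ({1, z} : Set G) ⊆ B from Set.insert_subset (one_mem B) (Set.singleton_subset_iff.2 h.zB))
    rw [← e, Set.ncard_pair h.z1.symm, nB] at b
    rw [b, h.c1, h.c2] at a
    exact Set.disjoint_iff_inter_eq_empty.2 ((Set.ncard_eq_zero).1 (by omega))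
  have dEF : Disjoint E F := by
    have e : E ∪ F = (A : Set G) \ B := Set.ext fun x => (h.pA x).symm
    have a := Set.ncard_union_add_ncard_inter E F
    have b := Set.ncard_sdiff (show (B : Set G) ⊆ A from h.BA)
    rw [← e, nA, nB] at b
    rw [b, h.cE, h.cF] at a
    exact Set.disjoint_iff_inter_eq_empty.2 ((Set.ncard_eq_zero).1 (by omega))
  have p1 := fun x i => (h.pB x).2 (.inl i)
  have p2 := fun x i => (h.pB x).2 (.inr i)
  have pE := fun x i => (h.pA x).2 (.inl i)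
  have pF := fun x i => (h.pA x).2 (.inr i)
  have sum : Z.ncard = 1 + (Z ∩ O1).ncard + (Z ∩ O2).ncard + (Z ∩ E).ncard + (Z ∩ F).ncard := by
    rw [← Set.ncard_singleton z, ← Set.ncard_union_eq, ← Set.ncard_union_eq, ← Set.ncard_union_eq, ← Set.ncard_union_eq]
    · congr 1
      ext x
      simp only [Set.mem_union, Set.mem_inter_iff, Set.mem_singleton_iff]
      refine ⟨fun i => ?_, ?_⟩
      · by_cases b : x ∈ B
        · by_cases c : x = z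
          · exact .inl (.inl (.inl (.inl c)))
          · rcases (h.pB x).1 ⟨b, (ZA x i).2, c⟩ with o | o
            exacts [.inl (.inl (.inl (.inr ⟨i, o⟩))), .inl (.inl (.inr ⟨i, o⟩))]
        · rcases (h.pA x).1 ⟨(ZA x i).1, b⟩ with o | o
          exacts [.inl (.inr ⟨i, o⟩), .inr ⟨i, o⟩]
      · rintro ((((rfl | o) | o) | o) | o)
        exacts [zZ, o.1, o.1, o.1, o.1]
    · rw [Set.disjoint_left]
      rintro x (((rfl | o) | o) | o) i
      exacts [(pF _ i.2).2 h.zB, (pF _ i.2).2 (p1 _ o.2).1, (pF _ i.2).2 (p2 _ o.2).1, Set.disjoint_left.1 dEF o.2 i.2]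
    · rw [Set.disjoint_left]
      rintro x ((rfl | o) | o) i
      exacts [(pE _ i.2).2 h.zB, (pE _ i.2).2 (p1 _ o.2).1, (pE _ i.2).2 (p2 _ o.2).1]
    · rw [Set.disjoint_left]
      rintro x (rfl | o) i
      exacts [(p2 _ i.2).2.2 rfl, Set.disjoint_left.1 d12 o.2 i.2]
    · rw [Set.disjoint_left]
      rintro x rfl i
      exact (p1 _ i.2).2.2 rfl
  have ao : ∀ O : Set G, (∀ x ∈ O, ∀ y ∈ O, ∃ m ∈ N, m * z * m⁻¹ = z ∧ m * x * m⁻¹ = y) →
      (∀ x ∈ O, x ∉ Z) ∧ (Z ∩ O).ncard = 0 ∨ O ⊆ Z ∧ (Z ∩ O).ncard = O.ncard := fun O t => by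
    by_cases k : ∀ x ∈ O, x ∉ Z
    · exact .inl ⟨k, (Set.ncard_eq_zero).2 (Set.eq_empty_of_forall_notMem fun x i => k x i.2 i.1)⟩
    · push Not at k
      obtain ⟨x, i, j⟩ := k
      have : O ⊆ Z := fun y o => by
        obtain ⟨m, a, -, rfl⟩ := t x i y o
        exact Zc m a x j
      exact .inr ⟨this, by rw [Set.inter_eq_right.2 this]⟩
  have zy : ∀ y, y * z * z = y := fun y => by rw [mul_assoc, zz, mul_one]
  have aE : (Z ∩ E).ncard = 0 ∨ (Z ∩ E).ncard = 480 ∨ (Z ∩ E).ncard = 240 ∧ ∀ y ∈ E, (y ∈ Z ↔ y * z ∉ Z) := by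
    by_cases k : ∀ x ∈ E, x ∉ Z
    · exact .inl ((Set.ncard_eq_zero).2 (Set.eq_empty_of_forall_notMem fun x i => k x i.2 i.1))
    push Not at k
    obtain ⟨x, i, j⟩ := k
    by_cases k : ∃ y ∈ E, y ∈ Z ∧ y * z ∈ Z
    · obtain ⟨y, a, b, c⟩ := k
      have : E ⊆ Z := fun w o => by
        obtain ⟨m, t, e, r | r⟩ := h.tE y a w o
        · exact r ▸ Zc m t y b
        · have := Zc m t _ c
          rwa [show m * (y * z) * m⁻¹ = m * y * m⁻¹ * (m * z * m⁻¹) by group, r, e, zy] at this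
      exact .inr (.inl (by rw [Set.inter_eq_right.2 this, h.cE]))
    · have f : ∀ y ∈ E, (y ∈ Z ↔ y * z ∉ Z) := fun y o => ⟨fun a b => k ⟨y, o, a, b⟩, fun a => by
        obtain ⟨m, t, -, r | r⟩ := h.tE x i y o
        · exact r ▸ Zc m t x j
        · exact absurd (r ▸ Zc m t x j) a⟩
      refine .inr (.inr ⟨?_, f⟩)
      have a := Set.ncard_inter_add_ncard_sdiff_eq_ncard E Z
      have b : E \ Z = (· * z) '' (E ∩ Z) := Set.ext fun y => ⟨fun o => ⟨y * z, ⟨h.zE y o.1, by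
        by_contra c; exact o.2 ((f y o.1).2 c)⟩, zy y⟩, by
        rintro ⟨w, o, rfl⟩; exact ⟨h.zE w o.1, (f w o.1).1 o.2⟩⟩
      rw [b, Set.ncard_image_of_injective _ (mul_left_injective z), h.cE, Set.inter_comm] at a
      omega
  have bad : ∀ p ∈ [13, 19, 37, 41, 47, 101, 113, 131, 211, 241, 277, 331, 367, 571, 607, 1531, 1567, 2011],
      ¬ p ∣ Z.ncard := fun p i o => by
    refine pr h.sq h.cA h.nM h.cen p ?_ ?_ (o.trans (Dvd.intro_left _ cZ))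
    · fin_cases i <;> norm_num
    · clear o; revert p; decide
  have n1 : Z.ncard ≠ 1 := fun e => by
    obtain ⟨m, i, o⟩ := h.fu
    obtain ⟨w, r⟩ := Set.ncard_eq_one.1 e
    have a := Zc m i z zZ
    rw [r] at a zZ
    exact o (a.trans zZ.symm)
  have n2 : Z.ncard ≠ 2047 := fun e => n89 (by rw [← cZ, e, mul_comm])
  have n3 : ¬ (O1 ⊆ Z ∧ O2 ⊆ Z ∧ (Z ∩ E).ncard = 0 ∧ (Z ∩ F).ncard = 0) := fun ⟨a, b, c, d⟩ => h.nn fun m i x j => by
    by_cases e : x = 1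
    · simp [e]
    have xZ : x ∈ Z := by
      by_cases e' : x = z
      · exact e' ▸ zZ
      · exact ((h.pB x).1 ⟨j, e, e'⟩).elim (@a x) (@b x)
    have y := Zc m i x xZ
    by_contra k
    rcases (h.pA _).1 ⟨(ZA _ y).1, k⟩ with o | o
    · exact Set.eq_empty_iff_forall_notMem.1 ((Set.ncard_eq_zero).1 c) _ ⟨y, o⟩
    · exact Set.eq_empty_iff_forall_notMem.1 ((Set.ncard_eq_zero).1 d) _ ⟨y, o⟩
  obtain ⟨q1, q2, qF, qE, c1771⟩ : (∀ x ∈ O1, x ∉ Z) ∧ O2 ⊆ Z ∧ F ⊆ Z ∧ (∀ y ∈ E, (y ∈ Z ↔ y * z ∉ Z)) ∧ Z.ncard = 1771 := by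
    have c1 := h.c1
    have c2 := h.c2
    have cF := h.cF
    have a := ao O1 h.t1
    have b := ao O2 h.t2
    have d := ao F h.tF
    have k : Z.ncard = 1771 ∨ Z.ncard = 127 := by
      rcases a with a | a <;> rcases b with b | b <;> rcases d with d | d <;>
        rcases aE with c | c | ⟨c, -⟩ <;> simp only [a.2, b.2, d.2, c, c1, c2, cF, Nat.reduceAdd] at sum <;>
        first
        | omega
        | exact absurd (sum ▸ bad) (by decide)
    have a' := a.imp And.right And.right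
    have b' := b.imp And.right And.right
    have d' := d.imp And.right And.right
    have c' := aE.imp_right (Or.imp_right And.left)
    rcases k with k | k
    · exact ⟨(a.resolve_right fun o => by have := o.2; omega).1, (b.resolve_left fun o => by have := o.2; omega).1,
        (d.resolve_left fun o => by have := o.2; omega).1,
        ((aE.resolve_left (by omega)).resolve_left (by omega)).2, k⟩
    · exact (n3 ⟨(a.resolve_left fun o => by have := o.2; omega).1, (b.resolve_left fun o => by have := o.2; omega).1,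
        by omega, by omega⟩).elim
  have mD : ∀ t, t ∈ DD A N z ↔ t ∈ A ∧ t ≠ 1 ∧ t ∉ Z := fun t => by rw [mZ]; rfl
  have Dc : ∀ m ∈ N, ∀ t ∈ DD A N z, m * t * m⁻¹ ∈ DD A N z := fun m i t j =>
    (mD _).2 ⟨h.nM m i t j.1, fun e => j.2.1 (conj_eq_one_iff.1 e), fun e => ((mD t).1 j).2.2 (Zi m i t e)⟩
  have OD : ∀ t ∈ O1, t ∈ DD A N z := fun t i => (mD t).2 ⟨h.BA (p1 t i).1, (p1 t i).2.1, q1 t i⟩
  have DO : ∀ t ∈ DD A N z, t ∈ B → t ∈ O1 := fun t i j =>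
    ((h.pB t).1 ⟨j, i.2.1, fun e => ((mD t).1 i).2.2 (e ▸ zZ)⟩).resolve_right fun o => ((mD t).1 i).2.2 (q2 o)
  have DE : ∀ t ∈ DD A N z, t ∉ B → t ∈ E := fun t i j =>
    ((h.pA t).1 ⟨i.1, j⟩).resolve_right fun o => ((mD t).1 i).2.2 (qF o)
  have Bz : ∀ t ∈ DD A N z, t ∈ B → t * z ∈ DD A N z := fun t i j => by
    obtain ⟨m, a, -, e⟩ := h.Bz t j i.2.1 (p1 t (DO t i j)).2.2
    exact e ▸ Dc m a t i
  have tE : ∀ s ∈ DD A N z, s ∉ B → ∀ t ∈ DD A N z, t ∉ B → ∃ m ∈ N, m * s * m⁻¹ = t := fun s i i' t j j' => by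
    obtain ⟨m, a, -, r | r⟩ := h.tE s (DE s i i') t (DE t j j')
    · exact ⟨m, a, r⟩
    · exact absurd ((qE t (DE t j j')).2 ((mD _).1 (r ▸ Dc m a s i)).2.2) ((mD t).1 j).2.2
  obtain ⟨t0, i0⟩ : O1.Nonempty := Set.nonempty_of_ncard_ne_zero (by rw [h.c1]; norm_num)
  obtain ⟨t1, i1, m1, j1, k1⟩ : ∃ t ∈ O1, ∃ m ∈ N, m * t * m⁻¹ ∉ B := by
    by_contra! k
    obtain ⟨y, o⟩ : F.Nonempty := Set.nonempty_of_ncard_ne_zero (by rw [h.cF]; norm_num)
    obtain ⟨m, a, rfl⟩ := (mZ y).1 (qF o)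
    have := mul_mem (inv_mem (k t0 i0 m a)) (k _ (DO _ (Bz t0 (OD t0 i0) (p1 t0 i0).1) (mul_mem (p1 t0 i0).1 h.zB)) m a)
    rw [show (m * t0 * m⁻¹)⁻¹ * (m * (t0 * z) * m⁻¹) = m * z * m⁻¹ by group] at this
    exact (pF _ o).2 this
  have to1 : ∀ s ∈ DD A N z, ∃ m ∈ N, m * s * m⁻¹ = t1 := fun s i => by
    by_cases b : s ∈ B
    · obtain ⟨m, a, -, e⟩ := h.t1 s (DO s i b) t1 i1
      exact ⟨m, a, e⟩
    · obtain ⟨m, a, e⟩ := tE s i b _ (Dc m1 j1 t1 (OD t1 i1)) k1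
      exact ⟨m1⁻¹ * m, mul_mem (inv_mem j1) a, by rw [show m1⁻¹ * m * s * (m1⁻¹ * m)⁻¹ = m1⁻¹ * (m * s * m⁻¹) * m1 by group, e]; group⟩
  refine ⟨⟨h.sq, h.cA, h.AM, h.nM, h.cen, fun t i => ⟨i.1, i.2.1⟩, Dc, fun s i t j => ?_, fun x i j k => ?_, h.z1,
    fun i => ((mD z).1 i).2.2 zZ, h.zB, h.BA, h.cB, h.nB, Bz, ⟨t0, OD t0 i0, (p1 t0 i0).1⟩, ?_, h.cQ,
    fun s i i' t j j' => h.t1 s (DO s i i') t (DO t j j'), fun x a b c d y a' b' c' d' =>
      h.t2 x (((h.pB x).1 ⟨a, c, d⟩).resolve_left fun o => b (OD x o)) y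
        (((h.pB y).1 ⟨a', c', d'⟩).resolve_left fun o => b' (OD y o)), fun x i i' y j j' => ?_,
    by rw [h.cN]; norm_num, by rw [h.cN]; norm_num, fun t i j => ?_⟩, fun c i => ?_, by rw [← cZ, c1771, mul_comm]⟩
  · obtain ⟨m, a, e⟩ := to1 s i
    obtain ⟨m', a', e'⟩ := to1 t j
    exact ⟨m'⁻¹ * m, mul_mem (inv_mem a') a, by
      rw [show m'⁻¹ * m * s * (m'⁻¹ * m)⁻¹ = m'⁻¹ * (m * s * m⁻¹) * m' by group, e, ← e']; group⟩
  · by_contra o
    exact k ⟨i, j, o⟩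
  · obtain ⟨x, o⟩ : O2.Nonempty := Set.nonempty_of_ncard_ne_zero (by rw [h.c2]; norm_num)
    exact ⟨x, (p2 x o).1, fun i => ((mD x).1 i).2.2 (q2 o), (p2 x o).2⟩
  · obtain ⟨e, a, b⟩ := h.Eco x i i'
    obtain ⟨e', a', b'⟩ := h.Eco y j j'
    obtain ⟨m, t, f, r⟩ := h.tE e a e' a'
    refine ⟨m, t, f, ?_⟩
    have c := h.nB m t f _ b
    have u : (m * x * m⁻¹)⁻¹ = m * x * m⁻¹ := inv_eq_iff_mul_eq_one.2 (h.sq _ (h.nM m t x i))
    rw [show m * (e * x) * m⁻¹ = m * e * m⁻¹ * (m * x * m⁻¹) by group] at c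
    generalize m * x * m⁻¹ = w at *
    have d := mul_mem (inv_mem c) b'
    rcases r with r | r <;> rw [r] at d
    · rwa [show (e' * w)⁻¹ * (e' * y) = w⁻¹ * y by group, u] at d
    · have := mul_mem d h.zB
      rwa [show (e' * z * w)⁻¹ * (e' * y) * z = w⁻¹ * (z⁻¹ * (y * z)) by group, u,
        Cfsg.Agent.H06.J.cm2 h.sq j (h.BA h.zB), inv_mul_cancel_left] at this
  · have a := H10.FzF.orb (N ⊓ centralizer {z}) t
    rw [show {x | ∃ m ∈ N ⊓ centralizer {z}, m * t * m⁻¹ = x} = O1 from Set.ext fun x => ⟨by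
      rintro ⟨m, o, rfl⟩
      exact DO _ (Dc m o.1 t i) (h.nB m o.1 (mul_inv_eq_iff_eq_mul.2 (mem_centralizer_singleton_iff.1 o.2)) t j), fun o => by
      obtain ⟨m, b, c, d⟩ := h.t1 t (DO t i j) x o
      exact ⟨m, ⟨b, mem_centralizer_singleton_iff.2 (mul_inv_eq_iff_eq_mul.1 c)⟩, d⟩⟩, h.c1, h.cN] at a
    rw [show Nat.card ↥(N ⊓ centralizer {z} ⊓ centralizer {t}) = 2 ^ 19 * 15 by omega]
    norm_num
  · by_cases o : c ∈ Z
    · exact .inr ((mD _).2 ⟨(pE _ (h.zE c i)).1, fun e => (pE _ (h.zE c i)).2 (e ▸ one_mem B), (qE c i).1 o⟩)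
    · exact .inl ((mD _).2 ⟨(pE _ i).1, fun e => (pE _ i).2 (e ▸ one_mem B), o⟩)

end H16.KN
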