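import Mathlib
import Cfsg.Agent.L.SL2Loc
import Cfsg.Agent.H06.Clifford
import Cfsg.Agent.H06.Degree
import Cfsg.Agent.H07.Cnt
import Cfsg.Agent.H07.Quat
import Cfsg.Agent.S2431
import Cfsg.Agent.S2437
import Cfsg.Agent.S0261

/-!
# The McKay equality for `SL₂(q)`, `q` odd
-/

open Cfsg H05 H06 Subgroup commutatorElement

namespace H16.Mk

/-- number of irreducible characters of degree prime to `l` -/
noncomputable def cnt (l : ℕ) (G : Type*) [Group G] : ℕ :=
  Nat.card {χ : IrrCharacter G // ¬ l ∣ charDegree (χ : G → ℂ)}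

section
variable {G : Type*} [Group G] [Finite G] {l : ℕ}

theorem cnt_top {N : Subgroup G} (h : N = ⊤) : cnt l G = cnt l N := by
  subst h
  exact Nat.card_congr ⟨fun χ => ⟨⟨fun g => χ.1.1 g, χ.1.2.comp_mulEquiv topEquiv⟩, χ.2⟩,
    fun χ => ⟨⟨fun g => χ.1.1 (topEquiv.symm g), χ.1.2.comp_mulEquiv _⟩, χ.2⟩, fun _ => rfl, fun _ => rfl⟩

theorem cnt_ab (A : Subgroup G) [A.Normal] [IsMulCommutative A] (h : ¬ l ∣ A.index) :
    cnt l G = Nat.card (ConjClasses G) := by
  rw [← card_irr_eq_card_conjClasses]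
  exact Nat.card_congr (Equiv.subtypeUnivEquiv fun χ e => h (e.trans (ito_charDegree_dvd_index χ.2 A)))

theorem deg_dvd (L : Subgroup G) [L.Normal] (χ : IrrCharacter (G ⧸ ⁅L, L⁆)) : charDegree χ.1 ∣ L.index := by
  have : IsMulCommutative (L.map (QuotientGroup.mk' ⁅L, L⁆)) := ⟨⟨by
    rintro ⟨_, x, hx, rfl⟩ ⟨_, y, hy, rfl⟩
    refine Subtype.ext (commutatorElement_eq_one_iff_mul_comm.1 ?_)
    show ⁅QuotientGroup.mk' _ x, QuotientGroup.mk' _ y⁆ = 1
    rw [← map_commutatorElement]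
    exact (QuotientGroup.eq_one_iff _).2 (commutator_mem_commutator hx hy)⟩⟩
  have := ito_charDegree_dvd_index χ.2 (L.map (QuotientGroup.mk' ⁅L, L⁆))
  rwa [index_map_eq _ (QuotientGroup.mk'_surjective _) (by rw [QuotientGroup.ker_mk']; exact commutator_le_left _ _)]
    at this

theorem cnt_nrm [hl : Fact l.Prime] (L : Subgroup G) [L.Normal] (hL : IsPGroup l L) (h : ¬ l ∣ L.index) :
    cnt l G = Nat.card (IrrCharacter (G ⧸ ⁅L, L⁆)) := by
  have := Fintype.ofFinite G
  have := Fintype.ofFinite L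
  rw [← Nat.card_congr (Equiv.subtypeUnivEquiv (p := fun ψ : IrrCharacter (G ⧸ ⁅L, L⁆) =>
    ¬ l ∣ charDegree (H07.inflIrr _ ψ).1) fun ψ e => h (e.trans (deg_dvd L ψ))),
    ← H07.card_irr_ker ⁅L, L⁆ fun χ => ¬ l ∣ charDegree χ.1]
  refine Nat.card_congr (Equiv.subtypeEquivRight fun χ => (and_iff_right_of_imp fun hχ => ?_).symm)
  obtain ⟨θ, hθ, h1⟩ := exists_irr_under L χ.2
  obtain ⟨m, hm⟩ := (χ.2.isCharacter.restrict L).exists_classInner_eq_nat hθ.isCharacter
  have h2 := clifford_degree L χ.2 hθ h1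
  rw [hm, ← χ.2.charDegree_eq, ← hθ.charDegree_eq] at h2
  have h3 : charDegree θ ∣ charDegree χ.1 := ⟨m * (inertia L θ).index, by rw [mul_comm]; exact_mod_cast h2⟩
  obtain ⟨k, hk⟩ := IsPGroup.iff_card.1 hL
  obtain ⟨j, -, hj⟩ := (Nat.dvd_prime_pow hl.out).1 (hk ▸ hθ.charDegree_dvd_card)
  have h4 : θ 1 = 1 := by
    rw [← hθ.charDegree_eq, hj, show j = 0 from by_contra fun e => hχ ((hj ▸ dvd_pow_self l e).trans h3)]; simp
  have h5 := clifford_avg L χ.2 hθ h1
  intro n hn
  have h6 : ∀ g, conjFun L g θ ⟨n, commutator_le_left _ _ hn⟩ = conjFun L g θ 1 := fun g => by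
    obtain ⟨φ, hφ⟩ := (isCharacter_conjFun L hθ.isCharacter g).exists_monoidHom (by rwa [conjFun_apply_one])
    have : (⟨n, commutator_le_left _ _ hn⟩ : L) ∈ commutator L := by
      rw [← map_subtype_commutator] at hn
      obtain ⟨y, hy, rfl⟩ := hn; exact hy
    rw [hφ]; simp [show φ _ = 1 from Abelianization.commutator_subset_ker φ this]
  have h7 := congrFun h5 ⟨n, commutator_le_left _ _ hn⟩
  have h8 := congrFun h5 1
  simp only [Pi.smul_apply, Finset.sum_apply, h6, smul_eq_mul] at h7 h8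
  exact mul_left_cancel₀ card_ne_zero_complex (h7.trans h8.symm)

theorem card_fib {X : Type*} [Finite X] (d : X → ℕ) (P : X → Prop) (D : Finset ℕ) (h : ∀ x, P x ↔ d x ∈ D) :
    Nat.card {x // P x} = ∑ a ∈ D, Nat.card {x // d x = a} := by
  classical
  have := Fintype.ofFinite X
  simp only [Nat.card_eq_fintype_card, Fintype.card_subtype]
  rw [Finset.card_eq_sum_card_fiberwise (f := d) (t := D) fun x hx => (h x).1 (Finset.mem_filter.1 hx).2]
  exact Finset.sum_congr rfl fun a ha => congrArg _ (by ext x; simpa [h] using fun e : d x = a => e ▸ ha)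

theorem cnt_add (D : Finset ℕ) (h : ∀ χ : IrrCharacter G, l ∣ charDegree χ.1 ↔ charDegree χ.1 ∈ D) :
    cnt l G + ∑ a ∈ D, Nat.card {χ : IrrCharacter G // χ.1 1 = (a : ℕ)} = Nat.card (ConjClasses G) := by
  classical
  have := card_fib (fun χ : IrrCharacter G => charDegree χ.1) _ D h
  simp only [fun χ : IrrCharacter G => χ.2.charDegree_eq.symm, Nat.cast_inj]
  rw [← this, ← card_irr_eq_card_conjClasses, cnt]
  simp [Fintype.card_subtype_le]

theorem cnt_eq (D : Finset ℕ) (h : ∀ χ : IrrCharacter G, ¬ l ∣ charDegree χ.1 ↔ charDegree χ.1 ∈ D) :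
    cnt l G = ∑ a ∈ D, Nat.card {χ : IrrCharacter G // χ.1 1 = (a : ℕ)} := by
  simp only [fun χ : IrrCharacter G => χ.2.charDegree_eq.symm, Nat.cast_inj]
  exact card_fib (fun χ : IrrCharacter G => charDegree χ.1) _ D h

theorem card_irr_of_one (h : ∀ χ : IrrCharacter G, charDegree χ.1 = 1) : Nat.card (IrrCharacter G) = Nat.card G := by
  rw [← sum_charDegree_sq (G := G)]; simp [h]

theorem card_irr_twelve (h : ∀ χ : IrrCharacter G, charDegree χ.1 ∣ 3) (hG : Nat.card G = 12)
    (hn : ∃ χ : IrrCharacter G, charDegree χ.1 ≠ 1) : Nat.card (IrrCharacter G) = 4 := by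
  classical
  have h1 := sum_charDegree_sq (G := G)
  have h2 : ∀ χ : IrrCharacter G, charDegree χ.1 ^ 2 = 1 + if charDegree χ.1 ≠ 1 then 8 else 0 := fun χ => by
    rcases (Nat.dvd_prime Nat.prime_three).1 (h χ) with e | e <;> simp [e]
  simp only [h2, Finset.sum_add_distrib, ← Finset.sum_filter, Finset.sum_const, smul_eq_mul, Finset.card_univ, hG] at h1
  obtain ⟨χ, hχ⟩ := hn
  have h3 := Finset.card_pos.2 ⟨χ, (Finset.mem_filter (s := Finset.univ)
    (p := fun χ : IrrCharacter G => charDegree χ.1 ≠ 1)).2 ⟨Finset.mem_univ _, hχ⟩⟩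
  rw [Nat.card_eq_fintype_card]
  omega

theorem comm_of_one (h : ∀ χ : IrrCharacter G, charDegree χ.1 = 1) (x y : G) : ⁅x, y⁆ = 1 :=
  eq_one_of_forall_irr fun χ => by
    obtain ⟨φ, hφ⟩ := χ.2.isCharacter.exists_monoidHom (by rw [← χ.2.charDegree_eq, h, Nat.cast_one])
    rw [hφ]; simp [commutatorElement_def]
end

open L L.SLc Matrix
variable {F : Type*} [Field F] [Fintype F]

theorem deg_cases (χ : IrrCharacter (SL2 F)) : charDegree χ.1 = 1 ∨ charDegree χ.1 = Fintype.card F ∨
    charDegree χ.1 = Fintype.card F + 1 ∨ charDegree χ.1 = Fintype.card F - 1 ∨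
    charDegree χ.1 = (Fintype.card F + 1) / 2 ∨ charDegree χ.1 = (Fintype.card F - 1) / 2 := by
  classical
  obtain ⟨g₀, h₀⟩ := exists_noEig_SL (F := F)
  have := irr_cases_deg h₀ χ.2 χ.2.charDegree_eq.symm
  tauto

theorem torus (hodd : Odd (Fintype.card F)) {l : ℕ} [hl : Fact l.Prime] (h2 : l ≠ 2) (S : Sylow l (SL2 F)) {g : SL2 F}
    (hg : (g : M2 F).trace ^ 2 ≠ 4) (h1 : l ∣ Nat.card (C g)) (h3 : ¬ l ∣ (C g).index) :
    2 * cnt l (normalizer ((S : Subgroup (SL2 F)) : Set (SL2 F))) = Nat.card (C g) + 6 := by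
  classical
  obtain ⟨g', h5, h6, -, -, h8⟩ := sylow_torus h2 S hg h1 h3
  have := isCyclic_centralizer_SL h5
  have : IsMulCommutative ((C g').subgroupOf (normalizer (C g' : Set (SL2 F)))) := ⟨⟨fun x y => Subtype.ext
    (Subtype.ext (mul_comm_of_mem_centralizer (not_isScal_of_trace h5) x.2 y.2))⟩⟩
  rw [h8, cnt_ab ((C g').subgroupOf (normalizer (C g' : Set (SL2 F)))) (by
    rw [index_torus_normalizer h5]; exact fun h => h2 ((Nat.prime_dvd_prime_iff_eq hl.out Nat.prime_two).1 h)),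
    card_conjClasses_normalizer_torus (two_ne_zero_of_odd hodd) h5, h6]

theorem borel (hodd : Odd (Fintype.card F)) {l : ℕ} [hl : Fact l.Prime] (h : l ∣ Fintype.card F)
    (S : Sylow l (SL2 F)) : cnt l (normalizer ((S : Subgroup (SL2 F)) : Set (SL2 F))) = Fintype.card F + 3 := by
  classical
  let u : Multiplicative F →* SL2 F := MonoidHom.mk' (fun b => un b.toAdd) fun a b => un_add _ _
  have hu : Function.Injective u := fun a b e => Multiplicative.toAdd.injective (un_injective e)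
  obtain ⟨p, hp⟩ := CharP.exists F
  obtain ⟨n, hp1, hn⟩ := FiniteField.card F p
  obtain rfl : l = p := (Nat.prime_dvd_prime_iff_eq hl.out hp1).1 (hl.out.dvd_of_dvd_pow (hn ▸ h))
  have h1 := Fintype.one_lt_card (α := F)
  have h2 : ¬ l ∣ Fintype.card F ^ 2 - 1 := fun e => hl.out.not_dvd_one
    ((Nat.dvd_sub_iff_right (Nat.one_le_pow _ _ (by omega)) (h.trans (dvd_pow_self _ two_ne_zero))).1 e)
  let U : Sylow l (SL2 F) := Sylow.ofCard u.range (by
    rw [← Nat.card_congr (MonoidHom.ofInjective hu).toEquiv, card_SL2, Nat.factorization_mul (by omega)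
      (fun e => h2 (by rw [e]; exact dvd_zero _)), Finsupp.add_apply, Nat.factorization_eq_zero_of_not_dvd h2]
    simp [hn, hl.out.factorization_pow])
  have hN : normalizer ((U : Subgroup (SL2 F)) : Set (SL2 F)) = Bs F := by
    refine le_antisymm (fun g hg => ?_) (le_normalizer_iff.2 ?_)
    · obtain ⟨b, hb⟩ : g * un 1 * g⁻¹ ∈ u.range := (mem_normalizer_iff.1 hg _).1 ⟨Multiplicative.ofAdd 1, rfl⟩
      have h3 := congrArg (fun x : SL2 F => (x : M2 F) 1 1) (eq_mul_inv_iff_mul_eq.1 hb)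
      rw [mem_Bs]
      simpa [u, coe_un, Matrix.mul_apply, Fin.sum_univ_two] using h3
    · rintro g hg _ ⟨b, rfl⟩
      obtain ⟨a, c, h3⟩ := Cfsg.Agent.S2437.aux2 ⟨g, hg⟩
      refine ⟨Multiplicative.ofAdd (a ^ 2 * b.toAdd), eq_mul_inv_iff_mul_eq.2 (Subtype.ext ?_)⟩
      show ((un _ : SL2 F) : M2 F) * (g : M2 F) = (g : M2 F) * ((un _ : SL2 F) : M2 F)
      rw [coe_un, coe_un, show (g : M2 F) = _ from h3]
      ext i j; fin_cases i <;> fin_cases j <;> simp [Matrix.mul_apply, Fin.sum_univ_two]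
      field_simp; ring
  obtain ⟨g, rfl⟩ := MulAction.exists_smul_eq (SL2 F) U S
  have : IsMulCommutative ((((g • U : Sylow l (SL2 F)) : Subgroup (SL2 F))).subgroupOf
      (normalizer (((g • U : Sylow l (SL2 F)) : Subgroup (SL2 F)) : Set (SL2 F)))) := ⟨⟨by
    intro x y
    obtain ⟨_, ⟨a, rfl⟩, ha⟩ := x.2
    obtain ⟨_, ⟨b, rfl⟩, hb⟩ := y.2
    refine Subtype.ext (Subtype.ext ?_)
    replace ha : MulAut.conj g (u a) = x.1.1 := ha
    replace hb : MulAut.conj g (u b) = y.1.1 := hb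
    show x.1.1 * y.1.1 = y.1.1 * x.1.1
    rw [← ha, ← hb, ← map_mul, ← map_mul, ← map_mul, ← map_mul, mul_comm]⟩⟩
  rw [cnt_ab _ (fun e => (g • U).not_dvd_index (e.trans (relIndex_dvd_index_of_le le_normalizer))),
    ← Cfsg.Agent.S2437.result hodd, ← card_irr_eq_card_conjClasses, ← card_irr_eq_card_conjClasses]
  let e : Bs F ≃* normalizer (((g • U : Sylow l (SL2 F)) : Subgroup (SL2 F)) : Set (SL2 F)) :=
    ((MulAut.conj g).subgroupMap _).trans (MulEquiv.subgroupCongr (by rw [← hN]; exact map_equiv_normalizer_eq _ _))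
  exact Nat.card_congr ⟨fun χ => ⟨fun x => χ.1 (e x), χ.2.comp_mulEquiv e⟩,
    fun χ => ⟨fun x => χ.1 (e.symm x), χ.2.comp_mulEquiv _⟩, fun _ => by simp, fun _ => by simp⟩

theorem two (hodd : Odd (Fintype.card F)) (S : Sylow 2 (SL2 F)) :
    cnt 2 (normalizer ((S : Subgroup (SL2 F)) : Set (SL2 F))) = 4 := by
  classical
  obtain ⟨hC, h1, h3⟩ := Cfsg.Agent.S2431.result hodd S
  obtain ⟨k, hk, ⟨e⟩⟩ := Cfsg.Agent.S0261.result hodd S
  obtain ⟨α, β, hQ⟩ := H07.exists_qData e
  have hS : Nat.card (S : Subgroup (SL2 F)) = 4 * 2 ^ k := by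
    rw [Nat.card_congr e.toEquiv, Nat.card_eq_fintype_card, QuaternionGroup.card]
  set N := normalizer ((S : Subgroup (SL2 F)) : Set (SL2 F))
  let L := (S : Subgroup (SL2 F)).subgroupOf N
  have hL : L.map N.subtype = S := subgroupOf_map_subtype _ _ |>.trans (inf_eq_left.2 le_normalizer)
  have hLL : ⁅L, L⁆.map N.subtype = zpowers (α ^ 2) := by rw [map_commutator, hL, hQ.commutator_eq]
  have h4 : Nat.card (⁅L, L⁆ : Subgroup N) = 2 ^ k := by
    rw [← card_map_of_injective N.subtype_injective, hLL, hQ.card_derived]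
  have h5 : Nat.card L = 4 * 2 ^ k := by rw [← card_map_of_injective N.subtype_injective, hL, hS]
  have h6 := L.card_mul_index
  have h7 := card_eq_card_quotient_mul_card_subgroup ⁅L, L⁆
  have h8 : Nat.card (N ⧸ ⁅L, L⁆) = 4 * L.index := Nat.eq_of_mul_eq_mul_right (pow_pos two_pos k) (by
    rw [← h4, ← h7, ← h6, h5, h4]; ring)
  rw [cnt_nrm L (S.2.comap_subtype) fun e => S.not_dvd_index (e.trans (relIndex_dvd_index_of_le le_normalizer))]
  have hq := Nat.odd_iff.1 hodd
  by_cases h : Fintype.card F % 8 = 1 ∨ Fintype.card F % 8 = 7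
  · have h9 : L.index = 1 := index_eq_one.2 (subgroupOf_eq_top.2 (h1 h).le)
    rw [card_irr_of_one fun χ => Nat.dvd_one.1 (h9 ▸ deg_dvd L χ), h8, h9]
  have h9 : L.index = 3 := Nat.eq_of_mul_eq_mul_left (Nat.card_pos (α := L)) (by
    rw [h6, h3 (by omega), h5, hS, mul_comm])
  refine card_irr_twelve (fun χ => h9 ▸ deg_dvd L χ) (by rw [h8, h9]) ?_
  by_contra! h10
  have := Fact.mk Nat.prime_three
  obtain ⟨x, hx⟩ := exists_prime_orderOf_dvd_card' 3 (G := N) (h9 ▸ L.index_dvd_card)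
  have hk1 : k = 1 := by
    have h11 := card_subgroup_dvd_card (S : Subgroup (SL2 F))
    by_contra h12
    rw [hS, card_SL2] at h11
    have h13 : 16 ∣ Fintype.card F * (Fintype.card F ^ 2 - 1) :=
      (mul_dvd_mul_left 4 (pow_dvd_pow 2 (show 2 ≤ k by omega))).trans h11
    have h14 := (Nat.Coprime.dvd_mul_left (by
      rw [show 16 = 2 ^ 4 from rfl]; exact (Nat.coprime_two_left.2 hodd).pow_left 4)).1 h13
    have h15 : Fintype.card F ^ 2 % 16 = 1 := by
      have : 1 ≤ Fintype.card F ^ 2 := Nat.one_le_pow _ _ (by omega)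
      omega
    rw [Nat.pow_mod] at h15
    have : Fintype.card F % 16 = 3 ∨ Fintype.card F % 16 = 5 ∨ Fintype.card F % 16 = 11 ∨ Fintype.card F % 16 = 13 := by
      omega
    rcases this with e | e | e | e <;> simp [e] at h15
  subst hk1
  have h2 := two_ne_zero_of_odd hodd
  have hz : ∀ z ∈ zpowers (α ^ 2), z ^ 2 = 1 := fun z hz => by
    have := pow_card_eq_one' (x := (⟨z, hz⟩ : zpowers (α ^ 2)))
    rw [hQ.card_derived] at this; exact congrArg Subtype.val this
  have h11 : x.1 ∈ center (SL2 F) := hC ▸ fun s hs => by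
    have h12 : ⁅x.1, s⁆ ∈ zpowers (α ^ 2) := hLL ▸ ⟨⁅x, ⟨s, le_normalizer hs⟩⁆, by
      have := comm_of_one h10 (QuotientGroup.mk' _ x) (QuotientGroup.mk' _ ⟨s, le_normalizer hs⟩)
      rw [← map_commutatorElement] at this
      exact (QuotientGroup.eq_one_iff _).1 this, rfl⟩
    have h13 := hz _ h12
    have h14 := mem_center_iff.1 (mem_center_iff_isScal.2 ((sq_eq_one_iff h2).1 h13))
    have h15 : x.1 * s = ⁅x.1, s⁆ * s * x.1 := by rw [commutatorElement_def]; group
    have h16 : x.1 ^ 3 = 1 := by rw [← hx]; exact congrArg Subtype.val (pow_orderOf_eq_one x)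
    generalize ⁅x.1, s⁆ = z at h13 h14 h15
    have h17 : x.1 ^ 3 * s = z ^ 3 * s * x.1 ^ 3 := by
      simp only [pow_succ, pow_zero, one_mul, mul_assoc, h15]
      simp only [← mul_assoc, h14 x.1]
      simp only [mul_assoc, h15]
      simp only [← mul_assoc, h14 x.1]
      simp only [mul_assoc, h15]
    rw [h16, one_mul, mul_one, pow_succ, h13, one_mul, right_eq_mul] at h17
    rw [h15, h17, one_mul]
  have h12 := (sq_eq_one_iff h2).2 (mem_center_iff_isScal.1 h11)
  have h13 := orderOf_dvd_of_pow_eq_one (show x ^ 2 = 1 from Subtype.ext h12)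
  rw [hx] at h13; omega

theorem mckay (hodd : Odd (Fintype.card F)) (l : ℕ) [hl : Fact l.Prime] (S : Sylow l (SL2 F)) :
    cnt l (SL2 F) = cnt l (normalizer ((S : Subgroup (SL2 F)) : Set (SL2 F))) := by
  classical
  have h2 := two_ne_zero_of_odd hodd
  have h1 := Fintype.one_lt_card (α := F)
  have hq := Nat.odd_iff.1 hodd
  have hk := card_conjClasses_SL2_odd h2
  have hl2 := hl.out.two_le
  by_cases hl2 : l = 2
  · subst hl2
    by_cases h3 : Fintype.card F = 3
    · refine cnt_top (eq_top_of_card_eq _ ?_)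
      obtain ⟨k, hk, ⟨e⟩⟩ := Cfsg.Agent.S0261.result hodd S
      have h4 := card_subgroup_dvd_card (normalizer ((S : Subgroup (SL2 F)) : Set (SL2 F)))
      rw [(Cfsg.Agent.S2431.result hodd S).2.2 (by omega), Nat.card_congr e.toEquiv, Nat.card_eq_fintype_card,
        QuaternionGroup.card, card_SL2, h3] at h4 ⊢
      have := Nat.le_of_dvd (by norm_num) h4
      have := Nat.pow_le_pow_right two_pos hk
      omega
    rw [two hodd]
    by_cases h4 : Fintype.card F % 4 = 1
    · rw [cnt_eq {1, Fintype.card F, (Fintype.card F + 1) / 2} fun χ => by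
        have := deg_cases χ; simp only [Finset.mem_insert, Finset.mem_singleton]; omega,
        Finset.sum_insert (by simp; omega), Finset.sum_pair (by omega), card_deg_q, card_deg_half_add h2 (by omega),
        Nat.cast_one, card_deg_one (by omega)]; rfl
    · rw [cnt_eq {1, Fintype.card F, (Fintype.card F - 1) / 2} fun χ => by
        have := deg_cases χ; simp only [Finset.mem_insert, Finset.mem_singleton]; omega,
        Finset.sum_insert (by simp; omega), Finset.sum_pair (by omega), card_deg_q, card_deg_half_sub h2 (by omega),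
        Nat.cast_one, card_deg_one (by omega)]; rfl
  have k2 : ∀ a b : ℕ, l ∣ a → l ∣ b → (b = a + 1 ∨ b = a + 2) → False := by
    rintro a b ha hb (rfl | rfl)
    · exact hl.out.not_dvd_one ((Nat.dvd_add_right ha).1 hb)
    · exact hl2 ((Nat.prime_dvd_prime_iff_eq hl.out Nat.prime_two).1 ((Nat.dvd_add_right ha).1 hb))
  have k3 : ∀ a, l ∣ 2 * a ↔ l ∣ a := fun a =>
    ((Nat.coprime_primes hl.out Nat.prime_two).2 hl2).dvd_mul_left
  have k4 : l ∣ (Fintype.card F + 1) / 2 ↔ l ∣ Fintype.card F + 1 := by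
    rw [← k3, Nat.mul_div_cancel' (by omega)]
  have k5 : l ∣ (Fintype.card F - 1) / 2 ↔ l ∣ Fintype.card F - 1 := by
    rw [← k3, Nat.mul_div_cancel' (by omega)]
  have k1 := hl.out.not_dvd_one
  by_cases h : l ∣ Fintype.card F
  · have := cnt_add (G := SL2 F) (l := l) {Fintype.card F} fun χ => ⟨fun e => by
      rcases deg_cases χ with e' | e' | e' | e' | e' | e' <;> rw [e'] at e ⊢
      · exact absurd e k1
      · simp
      · exact (k2 _ _ h e (by omega)).elim
      · exact (k2 _ _ e h (by omega)).elim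
      · exact (k2 _ _ h (k4.1 e) (by omega)).elim
      · exact (k2 _ _ (k5.1 e) h (by omega)).elim, fun e => Finset.mem_singleton.1 e ▸ h⟩
    rw [Finset.sum_singleton, card_deg_q, hk] at this
    rw [borel hodd h]; omega
  by_cases h' : l ∣ Fintype.card F - 1
  · have h3 := Nat.le_of_dvd (by omega) (k5.2 h')
    obtain ⟨a, ha⟩ := exists_unit_sq_ne_one (F := F) (by omega)
    have h4 := torus hodd hl2 S (trace_sq_dg ha) (card_C_dg ha ▸ h') (by
      rw [index_C_of_sub (card_C_dg ha), hl.out.dvd_mul]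
      rintro (h4 | h4) <;> exact k2 _ _ h' h4 (by omega))
    have := cnt_add (G := SL2 F) (l := l) {Fintype.card F - 1, (Fintype.card F - 1) / 2} fun χ => ⟨fun e => by
      rcases deg_cases χ with e' | e' | e' | e' | e' | e' <;> rw [e'] at e ⊢
      · exact absurd e k1
      · exact absurd e h
      · exact (k2 _ _ h' e (by omega)).elim
      · simp
      · exact (k2 _ _ h' (k4.1 e) (by omega)).elim
      · simp, fun e => by
        rcases Finset.mem_insert.1 e with e | e
        · exact e ▸ h'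
        · exact Finset.mem_singleton.1 e ▸ k5.2 h'⟩
    have h5 := two_mul_card_deg_sub (F := F) (by omega)
    rw [Finset.sum_pair (by omega), card_deg_half_sub h2 (by omega), hk, Nat.cast_sub h1.le, Nat.cast_one] at this
    rw [card_C_dg ha] at h4
    rw [Nat.gcd_eq_right (by omega)] at h5
    omega
  by_cases h'' : l ∣ Fintype.card F + 1
  · have h3 := Nat.le_of_dvd (by omega) (k4.2 h'')
    obtain ⟨g₀, h₀⟩ := exists_noEig_SL (F := F)
    have h4 := torus hodd hl2 S h₀.SL_trace_sq (card_C h₀ ▸ h'') (by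
      rw [index_C_of_add (card_C h₀), hl.out.dvd_mul]
      rintro (h4 | h4) <;> exact k2 _ _ h4 h'' (by omega))
    have := cnt_add (G := SL2 F) (l := l) {Fintype.card F + 1, (Fintype.card F + 1) / 2} fun χ => ⟨fun e => by
      rcases deg_cases χ with e' | e' | e' | e' | e' | e' <;> rw [e'] at e ⊢
      · exact absurd e k1
      · exact absurd e h
      · simp
      · exact absurd e h'
      · simp
      · exact absurd (k5.1 e) h', fun e => by
        rcases Finset.mem_insert.1 e with e | e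
        · exact e ▸ h''
        · exact Finset.mem_singleton.1 e ▸ k4.2 h''⟩
    have h5 := two_mul_card_deg_add (F := F)
    rw [Finset.sum_pair (by omega), card_deg_half_add h2 (by omega), hk, Nat.cast_add, Nat.cast_one] at this
    rw [card_C h₀] at h4
    rw [Nat.gcd_eq_right (by omega)] at h5
    omega
  have h3 : ¬ l ∣ Nat.card (SL2 F) := by
    rw [card_SL2, ← Nat.one_pow 2, Nat.sq_sub_sq, hl.out.dvd_mul, hl.out.dvd_mul]; tauto
  have h4 : (S : Subgroup (SL2 F)) = ⊥ := by
    rw [← card_eq_one, S.card_eq_multiplicity, Nat.factorization_eq_zero_of_not_dvd h3, pow_zero]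
  exact cnt_top (by rw [h4]; exact normalizer_eq_top _)

end H16.Mk
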