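import Cfsg.Agent.H28.Al7
import Cfsg.Agent.H02.Frattini
import Cfsg.Agent.S0892

/-!
# Removing an odd prime from the kernel of a map onto an alternating group
* `H16.NoL.noL`
-/

set_option autoImplicit false

open Module

namespace H16.NoL
open H28.Al

universe u v

theorem autb' {M : Type v} [CommGroup M] [Finite M] (l : ℕ) [Fact l.Prime] (hl : ∀ x : M, x ^ l = 1) {r : ℕ} (hr : 9 ≤ r)
    (ψ : alternatingGroup (Fin r) →* MulAut M) (hψ : ∃ σ, ψ σ ≠ 1) : l ^ (r - 2) ≤ Nat.card M := by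
  let _ : Module (ZMod l) (Additive M) := AddCommGroup.zmodModule (n := l) fun x => hl x.toMul
  have : Module.Finite (ZMod l) (Additive M) := Module.Finite.of_finite
  let θ : MulAut M →* End (ZMod l) (Additive M) :=
    { toFun := fun a => (MonoidHom.toAdditive a.toMonoidHom).toZModLinearMap l
      map_one' := rfl
      map_mul' := fun _ _ => rfl }
  have hθ : Function.Injective θ := fun a b q => MulEquiv.ext fun x => LinearMap.congr_fun q (Additive.ofMul x)
  let b := Module.finBasis (ZMod l) (Additive M)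
  obtain ⟨Φ, hΦ⟩ := exists_ext (ZMod l) (finrank (ZMod l) (Additive M))
  obtain ⟨σ, hσ⟩ := hψ
  have := Lb_hom (Lb_all (k := AlgebraicClosure (ZMod l)) l hr)
    (Φ.comp ((LinearMap.toMatrixAlgEquiv b).toMulEquiv.toMonoidHom.comp (θ.comp ψ))) ⟨σ, fun q => hσ (hθ
      ((LinearMap.toMatrixAlgEquiv b).injective (hΦ (q.trans (by simp)))))⟩
  rw [Module.finrank_fintype_fun_eq_card, Fintype.card_fin] at this
  have h1 : Nat.card (Additive M) = l ^ finrank (ZMod l) (Additive M) := by
    rw [Module.natCard_eq_pow_finrank (K := ZMod l), Nat.card_zmod]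
  change _ ≤ Nat.card (Additive M)
  rw [h1]
  exact Nat.pow_le_pow_right (Fact.out : l.Prime).pos (by split_ifs at this <;> omega)

variable {G : Type u} [Group G] [Finite G] {l : ℕ} [hp : Fact l.Prime]
  (h : ∀ P : Subgroup G, IsPGroup l P → ∃ Q : Subgroup G, Q ≤ P ∧ Q.relIndex P ≤ l ∧ (∀ a ∈ Q, ∀ b ∈ Q, a * b = b * a) ∧
    Nat.card {x : Q // x ^ l = 1} ≤ l ^ 7)
include h

theorem sec0 {Γ Z : Type*} [Group Γ] [Finite Γ] [Group Z] (hΓ : IsPGroup l Γ) (j : Γ →* G) (hj : Function.Injective j)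
    (f : Γ →* Z) (hf : Function.Surjective f) (hZ : ∀ z : Z, z ^ l = 1) : Nat.card Z ≤ l ^ 8 := by
  obtain ⟨Q, -, q2, q3, q4⟩ := h j.range (hΓ.of_surjective _ j.rangeRestrict_surjective)
  have h1 : ((Q.comap j).map f).index ≤ l := by
    refine (Nat.le_of_dvd (Nat.pos_of_ne_zero Subgroup.FiniteIndex.index_ne_zero) (Subgroup.index_map_dvd _ hf)).trans ?_
    rwa [Subgroup.index_comap]
  let _ : CommGroup (Q.comap j) := { (inferInstance : Group (Q.comap j)) with
    mul_comm := fun a b => Subtype.ext (hj (by simpa using q3 _ a.2 _ b.2)) }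
  have h2 : Nat.card ((Q.comap j).map f) ≤ l ^ 7 := by
    have e : (Q.comap j).map f = (f.comp (Q.comap j).subtype).range := by
      rw [MonoidHom.range_comp, Subgroup.range_subtype]
    rw [e, ← Subgroup.index_ker]
    have a : (powMonoidHom l : Q.comap j →* Q.comap j).range ≤ (f.comp (Q.comap j).subtype).ker := by
      rintro _ ⟨x, rfl⟩
      rw [MonoidHom.mem_ker, powMonoidHom_apply, map_pow, hZ]
    refine (Nat.le_of_dvd (Nat.pos_of_ne_zero Subgroup.FiniteIndex.index_ne_zero) (Subgroup.index_dvd_of_le a)).trans ?_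
    rw [Subgroup.index_range]
    refine le_trans (Nat.card_le_card_of_injective (fun x => ⟨⟨j x.1.1, x.1.2⟩, Subtype.ext (by
      have := congrArg (fun z : Q.comap j => j z.1) (show x.1 ^ l = 1 from x.2)
      simpa using this)⟩) fun x y e' => ?_) q4
    exact Subtype.ext (Subtype.ext (hj (congrArg (fun z : {x : Q // x ^ l = 1} => z.1.1) e')))
  rw [← ((Q.comap j).map f).card_mul_index, pow_succ]
  exact Nat.mul_le_mul h2 h1

theorem sec {Γ Z : Type*} [Group Γ] [Finite Γ] [Group Z] (j : Γ →* G) (hj : Function.Injective j)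
    (f : Γ →* Z) (hf : Function.Surjective f) (hZ : ∀ z : Z, z ^ l = 1) : Nat.card Z ≤ l ^ 8 := by
  obtain ⟨P⟩ : Nonempty (Sylow l Γ) := inferInstance
  have h1 : IsPGroup l (⊤ : Subgroup Z) := fun z => ⟨1, Subtype.ext (by simpa using hZ z.1)⟩
  have h2 := (P.mapSurjective hf).3 h1 le_top
  refine sec0 h P.2 (j.comp (P : Subgroup Γ).subtype) (hj.comp Subtype.val_injective) (f.comp (P : Subgroup Γ).subtype)
    (fun z => ?_) hZ
  obtain ⟨x, hx, rfl⟩ : z ∈ (P : Subgroup Γ).map f := h2.le (Subgroup.mem_top z)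
  exact ⟨⟨x, hx⟩, rfl⟩

theorem core (hl : l ≠ 2) {r : ℕ} (hr : 11 ≤ r) {Γ : Type*} [Group Γ] [Finite Γ] (j : Γ →* G) (hj : Function.Injective j)
    (φ : Γ →* alternatingGroup (Fin r)) (hφ : Function.Surjective φ) (hmin : ∀ H : Subgroup Γ, H.map φ = ⊤ → H = ⊤) :
    ¬ l ∣ Nat.card φ.ker := by
  intro hd
  have h5 : 5 ≤ Nat.card (Fin r) := by simp; omega
  have hnil : Group.IsNilpotent φ.ker := by
    have h1 : φ.ker ≤ frattini Γ := by
      rw [frattini, Order.radical]
      refine le_iInf₂ fun M hM => ?_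
      by_contra q
      have h2 := hM.2 (M ⊔ φ.ker) (left_lt_sup.2 q)
      refine hM.1 (hmin M ?_)
      have h3 := congrArg (Subgroup.map φ) h2
      rwa [Subgroup.map_sup, (Subgroup.map_eq_bot_iff _).2 le_rfl, sup_bot_eq, ← MonoidHom.range_eq_map,
        MonoidHom.range_eq_top.2 hφ] at h3
    have := frattini_nilpotent (G := Γ)
    exact Group.nilpotent_of_mulEquiv (Subgroup.subgroupOfEquivOfLe h1)
  have hper : commutator Γ = ⊤ := hmin _ (by
    rw [commutator, Subgroup.map_commutator, ← MonoidHom.range_eq_map, MonoidHom.range_eq_top.2 hφ]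
    exact commutator_alternatingGroup_eq_top h5)
  have h1 : l ∣ Nat.card (Abelianization φ.ker) :=
    (H02.prime_dvd_index_frattini hp.out hd).trans (Subgroup.index_dvd_of_le (H02.commutator_le_frattini_of_isNilpotent _))
  have : Finite (Abelianization φ.ker) := Finite.of_surjective _ (QuotientGroup.mk_surjective)
  obtain ⟨a, ha⟩ := exists_prime_orderOf_dvd_card' l h1
  let pw : Abelianization φ.ker →* Abelianization φ.ker := powMonoidHom l
  have h2 : ¬ Function.Surjective pw := fun q => by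
    have := (Finite.injective_iff_surjective.2 q) (a₁ := a) (a₂ := 1) (by simp [pw, ← ha])
    rw [this, orderOf_one] at ha
    exact hp.out.ne_one ha.symm
  let θ : φ.ker →* Abelianization φ.ker ⧸ pw.range := (QuotientGroup.mk' _).comp Abelianization.of
  obtain ⟨x0, hx0⟩ : ∃ x, θ x ≠ 1 := by
    by_contra! q
    refine h2 fun y => ?_
    obtain ⟨x, rfl⟩ : ∃ x, Abelianization.of x = y := QuotientGroup.mk_surjective y
    exact (QuotientGroup.eq_one_iff _).1 (q x)
  have θl : ∀ x, θ x ^ l = 1 := fun x => (QuotientGroup.eq_one_iff _).2 ⟨Abelianization.of x, rfl⟩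
  let N := (θ.ker.map φ.ker.subtype).normalCore
  have hN : ∀ x : φ.ker, (∀ b : Γ, θ (MulAut.conjNormal b x) = 1) → (x : Γ) ∈ N := fun x hx b =>
    ⟨MulAut.conjNormal b x, hx b, rfl⟩
  have hNK : N ≤ φ.ker := (Subgroup.normalCore_le _).trans (Subgroup.map_subtype_le _)
  let φ' : Γ ⧸ N →* alternatingGroup (Fin r) := QuotientGroup.lift N φ hNK
  have hφ' : Function.Surjective φ' := fun σ => by obtain ⟨g, rfl⟩ := hφ σ; exact ⟨g, rfl⟩
  let f : φ.ker →* φ'.ker := ((QuotientGroup.mk' N).comp φ.ker.subtype).codRestrict _ fun x => x.2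
  have hf : Function.Surjective f := by
    rintro ⟨z, hz⟩
    obtain ⟨g, rfl⟩ := QuotientGroup.mk_surjective z
    exact ⟨⟨g, hz⟩, rfl⟩
  have fN : ∀ x : φ.ker, f x = 1 ↔ (x : Γ) ∈ N := fun x => by
    rw [Subtype.ext_iff]; exact QuotientGroup.eq_one_iff _
  have zl : ∀ z : φ'.ker, z ^ l = 1 := fun z => by
    obtain ⟨x, rfl⟩ := hf z
    rw [← map_pow, fN]
    exact hN _ fun b => by rw [map_pow, map_pow, θl]
  have zc : ∀ a b : φ'.ker, a * b = b * a := fun a b => by
    obtain ⟨x, rfl⟩ := hf a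
    obtain ⟨y, rfl⟩ := hf b
    rw [← mul_inv_eq_one, ← map_mul, ← map_mul, ← map_inv, ← map_mul, fN]
    exact hN _ fun b => by simp only [map_mul, map_inv]; rw [mul_comm (θ _), mul_inv_cancel]
  have h8 := sec h (j.comp φ.ker.subtype) (hj.comp Subtype.val_injective) f hf zl
  let _ : CommGroup φ'.ker := { (inferInstance : Group φ'.ker) with mul_comm := zc }
  have hk : φ'.ker ≤ (MulAut.conjNormal : Γ ⧸ N →* MulAut φ'.ker).ker := fun g hg => by
    rw [MonoidHom.mem_ker]
    ext z
    have := congrArg Subtype.val (zc ⟨g, hg⟩ z)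
    simp only [Subgroup.coe_mul] at this
    simp [this]
  have hc : φ'.ker ≤ Subgroup.center _ := fun z hz => by
    by_contra q
    rw [Subgroup.mem_center_iff] at q
    push Not at q
    obtain ⟨g, hg⟩ := q
    have := autb' l zl (by omega) (φ'.liftOfSurjective hφ' ⟨_, hk⟩) ⟨φ' g, fun e => hg (by
      rw [MonoidHom.liftOfRightInverse_comp_apply] at e
      have := congrArg Subtype.val (MulEquiv.congr_fun e ⟨z, hz⟩)
      simpa [mul_inv_eq_iff_eq_mul] using this)⟩
    have := (Nat.pow_le_pow_iff_right hp.out.one_lt).1 (this.trans h8)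
    omega
  have h9 := Cfsg.Agent.S0892.result r (by omega) (by omega) (by omega) φ'.ker hc (by
    have := congrArg (Subgroup.map (QuotientGroup.mk' N)) hper
    rw [commutator, Subgroup.map_commutator, ← MonoidHom.range_eq_map, QuotientGroup.range_mk'] at this
    exact le_top.trans this.ge) (QuotientGroup.quotientKerEquivOfSurjective φ' hφ')
  have h10 : orderOf (f x0) = l := orderOf_eq_prime (zl _) fun e => hx0 (by
    obtain ⟨y, hy, e'⟩ := Subgroup.normalCore_le _ ((fN _).1 e)
    rw [← show y = x0 from Subtype.ext e']; exact hy)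
  have := Nat.le_of_dvd Nat.card_pos (h10 ▸ orderOf_dvd_natCard (f x0))
  have := hp.out.two_le
  omega

omit h in
theorem noL {G : Type*} [Group G] [Finite G] {l r : ℕ} [Fact l.Prime] (hl : l ≠ 2) (hr : 11 ≤ r)
    (h : ∀ P : Subgroup G, IsPGroup l P → ∃ Q : Subgroup G, Q ≤ P ∧ Q.relIndex P ≤ l ∧ (∀ a ∈ Q, ∀ b ∈ Q, a * b = b * a) ∧
      Nat.card {x : Q // x ^ l = 1} ≤ l ^ 7) (H : Subgroup G) (π : H →* alternatingGroup (Fin r))
    (hπ : Function.Surjective π) :
    ∃ (M : Subgroup G) (φ : M →* alternatingGroup (Fin r)), Function.Surjective φ ∧ ¬ l ∣ Nat.card φ.ker := by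
  obtain ⟨M, ⟨φ, hφ⟩, hM⟩ := exists_minimal_of_wellFoundedLT
    (fun M : Subgroup G => ∃ φ : M →* alternatingGroup (Fin r), Function.Surjective φ) ⟨H, π, hπ⟩
  refine ⟨M, φ, hφ, core h hl hr M.subtype Subtype.val_injective φ hφ fun K hK => ?_⟩
  have := hM (y := K.map M.subtype) ⟨(φ.comp K.subtype).comp (K.equivMapOfInjective _ M.subtype_injective).symm.toMonoidHom,
    fun σ => by
      obtain ⟨g, hg, rfl⟩ : σ ∈ K.map φ := hK.ge (Subgroup.mem_top σ)
      exact ⟨K.equivMapOfInjective _ M.subtype_injective ⟨g, hg⟩, by simp⟩⟩ (Subgroup.map_subtype_le _)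
  refine eq_top_iff.2 fun x _ => ?_
  obtain ⟨y, hy, e⟩ := this x.2
  rwa [← show y = x from Subtype.ext e]

end H16.NoL
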