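import Mathlib
import Cfsg.Agent.H22.FStar
import Cfsg.Prelude.Def_KGroupFacts

/-! Extensions of a centreless group with outer automorphism group `S₄` by `S₃`. -/

set_option autoImplicit false

namespace H16.O8S3
open Cfsg

theorem s4_sub (H : Subgroup (Equiv.Perm (Fin 4))) (h : Nat.card H = 6) : ∃ i : Fin 4, H = MulAction.stabilizer _ i := by
  classical
  have := Fact.mk Nat.prime_three
  obtain ⟨a, ha⟩ := exists_prime_orderOf_dvd_card' (G := H) 3 (by rw [h]; decide)
  have h1 : (a : Equiv.Perm (Fin 4)) ^ 3 = 1 := by rw [← Subgroup.coe_pow, ← ha, pow_orderOf_eq_one]; rfl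
  have h2 : (a : Equiv.Perm (Fin 4)) ≠ 1 := fun e => by
    rw [show a = 1 from Subtype.ext e, orderOf_one] at ha; omega
  have k1 : ∀ a : Equiv.Perm (Fin 4), a ^ 3 = 1 → ∃ i, a i = i := by decide
  have k2 : ∀ a b : Equiv.Perm (Fin 4), a ^ 3 = 1 → a ≠ 1 → ∀ i, a i = i → b i ≠ i →
      ({1, a, a * a, b * a * b⁻¹, b * a * a * b⁻¹, a * (b * a * b⁻¹), b * a * b⁻¹ * a} : Finset _).card = 7 := by
    decide +kernel
  obtain ⟨i, hi⟩ := k1 a h1
  refine ⟨i, Subgroup.eq_of_le_of_card_ge (fun b hb => ?_) ?_⟩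
  · by_contra e
    have h3 := k2 a b h1 h2 i hi e
    have h4 : ({1, a.1, a.1 * a.1, b * a * b⁻¹, b * a * a * b⁻¹, a * (b * a * b⁻¹), b * a * b⁻¹ * a} :
        Finset (Equiv.Perm (Fin 4))) ⊆
        (H : Set (Equiv.Perm (Fin 4))).toFinset := by
      intro x hx
      simp only [Finset.mem_insert, Finset.mem_singleton] at hx
      have := a.2
      rcases hx with rfl | rfl | rfl | rfl | rfl | rfl | rfl <;> rw [Set.mem_toFinset, SetLike.mem_coe] <;>
        repeat first | assumption | exact one_mem _ | apply mul_mem | apply inv_mem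
    have h5 := Finset.card_le_card h4
    rw [h3, Set.toFinset_card, ← Nat.card_eq_fintype_card] at h5
    exact absurd (h5.trans_eq h) (by decide)
  · have h3 := (MulAction.stabilizer (Equiv.Perm (Fin 4)) i).index_mul_card
    rw [MulAction.index_stabilizer_of_transitive, Nat.card_perm] at h3
    rw [show Nat.card (Fin 4) = 4 by simp, show Nat.factorial 4 = 24 from rfl] at h3
    omega

variable {K : Type*} [Group K]

theorem emb (hZ : Subgroup.center K = ⊥) (ψ : MulAut K →* Equiv.Perm (Fin 4)) (hψ : ψ.ker = Inn K)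
    {G : Type*} [Group G] [Finite G] (e : generalizedFittingSubgroup G ≃* K) [(generalizedFittingSubgroup G).Normal]
    (h : (generalizedFittingSubgroup G).index = 6) :
    ∃ i : Fin 4, Nonempty (G ≃* (MulAction.stabilizer (Equiv.Perm (Fin 4)) i).comap ψ) := by
  let φ : G →* MulAut K := (MulAut.congr e).toMonoidHom.comp MulAut.conjNormal
  have h1 (l : generalizedFittingSubgroup G) : φ l = MulAut.conj (e l) := by
    ext k
    obtain ⟨k, rfl⟩ := e.surjective k
    simp only [φ, MulEquiv.toMonoidHom_eq_coe, MonoidHom.comp_apply, MonoidHom.coe_coe, MulAut.congr_apply,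
      MulEquiv.trans_apply, MulEquiv.symm_apply_apply, MulAut.conj_apply, ← map_mul, ← map_inv]
    congr 1
  have h2 (g : G) (hg : φ g = 1) : g ∈ generalizedFittingSubgroup G := by
    refine H22.centralizer_fstar_le fun l hl => ?_
    have := DFunLike.congr_fun hg (e ⟨l, hl⟩)
    simp only [φ, MulEquiv.toMonoidHom_eq_coe, MonoidHom.comp_apply, MonoidHom.coe_coe, MulAut.congr_apply,
      MulEquiv.trans_apply, MulEquiv.symm_apply_apply, MulAut.one_apply, EmbeddingLike.apply_eq_iff_eq] at this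
    have := congrArg Subtype.val this
    rw [MulAut.conjNormal_apply, mul_inv_eq_iff_eq_mul] at this
    exact this.symm
  have h3 : Function.Injective φ := (injective_iff_map_eq_one φ).2 fun g hg => by
    have h4 : e ⟨g, h2 g hg⟩ ∈ Subgroup.center K := Subgroup.mem_center_iff.2 fun k => by
      have := DFunLike.congr_fun ((h1 ⟨g, h2 g hg⟩).symm.trans hg) k
      rw [MulAut.conj_apply, MulAut.one_apply, mul_inv_eq_iff_eq_mul] at this
      exact this.symm
    rw [hZ, Subgroup.mem_bot, EmbeddingLike.map_eq_one_iff] at h4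
    exact congrArg Subtype.val h4
  have h4 : (ψ.comp φ).ker = generalizedFittingSubgroup G := by
    ext g
    rw [MonoidHom.mem_ker, MonoidHom.comp_apply, ← MonoidHom.mem_ker, hψ]
    constructor
    · rintro ⟨k, hk⟩
      obtain ⟨l, rfl⟩ := e.surjective k
      rw [← h3 ((h1 l).trans hk)]; exact l.2
    · exact fun hg => ⟨_, (h1 ⟨g, hg⟩).symm⟩
  obtain ⟨i, hi⟩ := s4_sub (ψ.comp φ).range (by rw [← Subgroup.index_ker, h4, h])
  refine ⟨i, ⟨(MonoidHom.ofInjective h3).trans (MulEquiv.subgroupCongr ?_)⟩⟩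
  rw [← hi, ← MonoidHom.map_range ψ φ, Subgroup.comap_map_eq_self]
  rw [hψ]
  rintro _ ⟨k, rfl⟩
  obtain ⟨l, rfl⟩ := e.surjective k
  exact ⟨l, h1 l⟩

theorem stab_equiv (ψ : MulAut K →* Equiv.Perm (Fin 4)) (hs : Function.Surjective ψ) (i j : Fin 4) :
    Nonempty ((MulAction.stabilizer (Equiv.Perm (Fin 4)) i).comap ψ ≃* (MulAction.stabilizer (Equiv.Perm (Fin 4)) j).comap ψ) := by
  obtain ⟨σ, hσ⟩ := hs (Equiv.swap i j)
  refine ⟨((MulAut.conj σ).subgroupMap _).trans (MulEquiv.subgroupCongr ?_)⟩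
  ext x
  refine Subgroup.mem_map_equiv.trans ?_
  simp only [Subgroup.mem_comap, MulAction.mem_stabilizer_iff, MulAut.conj_symm_apply, map_mul, map_inv, hσ,
    Equiv.Perm.smul_def, Equiv.Perm.mul_apply, Equiv.swap_inv, Equiv.swap_apply_left]
  rw [Equiv.swap_apply_eq_iff, Equiv.swap_apply_left]

end H16.O8S3
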