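import Cfsg.Agent.L.Js0

/-! Part B of the 7-local statement S5573: `H16.S7B.b`. -/

set_option autoImplicit false
open Cfsg BG Subgroup

namespace H16.S7B
universe u

theorem b : L.Js.BStmt.{u} := by
  intro G _ _ z t σ V K m7 ha pu CN hV cV KV KC ⟨e⟩ σt σ7
  have V2 : ∀ x ∈ V, x * x = 1 := fun x hx => (pow_two x).symm.trans (hV.2 x hx)
  have cm : ∀ a ∈ V, ∀ b ∈ V, a * b = b * a := fun a ha b hb => by
    have h1 := V2 _ (mul_mem ha hb)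
    have h2 : a⁻¹ = a := inv_eq_of_mul_eq_one_right (V2 a ha)
    have h3 : b⁻¹ = b := inv_eq_of_mul_eq_one_right (V2 b hb)
    rw [← inv_eq_of_mul_eq_one_right h1, mul_inv_rev, h2, h3]
  have VC : V ≤ C_[t] := KC ▸ le_sup_right
  have KC' : K ≤ C_[t] := KC ▸ le_sup_left
  have c4 : Nat.card ↥(V ⊓ (C_[t] ⊓ C_[σ])) ∣ 4 := by
    obtain ⟨k, -, ek⟩ := (Nat.dvd_prime_pow Nat.prime_two).1
      (cV ▸ card_dvd_of_le (inf_le_left : V ⊓ (C_[t] ⊓ C_[σ]) ≤ V))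
    suffices h : k ≤ 2 by rw [ek]; exact pow_dvd_pow 2 h
    by_contra! n
    have d8 : 8 ∣ Nat.card ↥(V ⊓ (C_[t] ⊓ C_[σ])) := ek ▸ pow_dvd_pow 2 n
    by_cases p : ∀ x ∈ V ⊓ (C_[t] ⊓ C_[σ]), x ≠ 1 → ¬ IsConj z x
    · have := pu V hV cV _ inf_le_left p
      have := Nat.le_of_dvd Nat.card_pos d8
      omega
    push Not at p
    obtain ⟨x, hx, -, zx⟩ := p
    obtain ⟨g, rfl⟩ := isConj_iff.1 zx
    have h1 := mem_cent1.1 hx.2.2
    have i : g⁻¹ * σ * g⁻¹⁻¹ ∈ C_[z] := mem_cent1.2 (by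
      calc g⁻¹ * σ * g⁻¹⁻¹ * z = g⁻¹ * (σ * (g * z * g⁻¹)) * g := by group
        _ = _ := by rw [← h1]; group)
    have o : orderOf (g⁻¹ * σ * g⁻¹⁻¹) = 7 := σ7 ▸ (SemiconjBy.orderOf_eq g⁻¹ (by unfold SemiconjBy; group)).symm
    have h84 := (ha.2 _ i o).1
    have l : cj g⁻¹ (V ⊓ (C_[t] ⊓ C_[σ])) ≤ C_[z] ⊓ C_[g⁻¹ * σ * g⁻¹⁻¹] := by
      have ez : z = g⁻¹ * (g * z * g⁻¹) * g⁻¹⁻¹ := by group
      rw [← cj_cent1, ez, ← cj_cent1, ← cj_inf]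
      exact cj_mono _ fun v hv => ⟨mem_cent1.2 (cm v hv.1 _ hx.1), hv.2.2⟩
    have := (d8.trans (BG.card_cj g⁻¹ _ ▸ card_dvd_of_le l)).trans h84
    norm_num at this
  have nV : (V.subgroupOf C_[t]).Normal := (normal_subgroupOf_iff_le_normalizer VC).2 CN
  let ψ : K →* C_[t] ⧸ V.subgroupOf C_[t] := (QuotientGroup.mk' _).comp (inclusion KC')
  have bij : Function.Bijective ψ := by
    refine ⟨(injective_iff_map_eq_one ψ).2 fun k hk => ?_, fun y => ?_⟩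
    · have : (k : G) ∈ V := (QuotientGroup.eq_one_iff (N := V.subgroupOf C_[t]) (inclusion KC' k)).1 hk
      exact Subtype.ext (mem_bot.1 (KV.le ⟨k.2, this⟩))
    · obtain ⟨c, rfl⟩ := QuotientGroup.mk'_surjective _ y
      have : c ∈ K.subgroupOf C_[t] ⊔ V.subgroupOf C_[t] := by
        rw [← subgroupOf_sup KC' VC, KC, subgroupOf_self]; exact mem_top c
      obtain ⟨k, hk, v, hv, rfl⟩ := mem_sup_of_normal_right.1 this
      refine ⟨⟨k, hk⟩, ?_⟩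
      rw [map_mul, show QuotientGroup.mk' (V.subgroupOf C_[t]) v = 1 from (QuotientGroup.eq_one_iff _).2 hv, mul_one]
      rfl
  let φ : C_[t] →* MulAut Spor.M22 :=
    (e.toMonoidHom.comp (MulEquiv.ofBijective ψ bij).symm.toMonoidHom).comp (QuotientGroup.mk' _)
  have kφ : φ.ker = V.subgroupOf C_[t] := by
    ext c
    simp [φ, MonoidHom.mem_ker]
  have o7 : orderOf (φ ⟨σ, σt⟩) = 7 := by
    have : Fact (Nat.Prime 7) := ⟨by norm_num⟩
    refine orderOf_eq_prime ?_ fun h => ?_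
    · rw [← map_pow, show (⟨σ, σt⟩ : C_[t]) ^ 7 = 1 from Subtype.ext (show σ ^ 7 = 1 from σ7 ▸ pow_orderOf_eq_one σ), map_one]
    · have h' : σ ∈ V := kφ.le h
      have := orderOf_dvd_of_pow_eq_one (hV.2 σ h')
      rw [σ7] at this
      norm_num at this
  have a1 := card_inf_mul_relIndex φ.ker ((C_[t] ⊓ C_[σ]).subgroupOf C_[t])
  rw [relIndex_ker, kφ, show V.subgroupOf C_[t] ⊓ (C_[t] ⊓ C_[σ]).subgroupOf C_[t] =
    (V ⊓ (C_[t] ⊓ C_[σ])).subgroupOf C_[t] from rfl,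
    Nat.card_congr (subgroupOfEquivOfLe (inf_le_right.trans inf_le_left)).toEquiv,
    Nat.card_congr (subgroupOfEquivOfLe inf_le_left).toEquiv] at a1
  rw [← a1]
  refine Nat.mul_dvd_mul c4 ((card_dvd_of_le ?_).trans (m7 _ o7))
  rintro _ ⟨c, hc, rfl⟩
  refine mem_cent1.2 ?_
  rw [← map_mul, ← map_mul]
  exact congrArg φ (Subtype.ext (mem_cent1.1 hc.2))

end H16.S7B
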