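import Mathlib
import Cfsg.Agent.H16.SpecPG
import Cfsg.Agent.H16.SpecU
import Cfsg.Agent.H09.SLBasic
import Cfsg.Agent.S0278

/-!
# Prime divisors of centralizers of unipotent elements in `PSL`, `PSU`

* `card_SL_dvd`, `card_SU_dvd`: divisibility of the orders
* `char_prime_u`: a unitary matrix of order `p * s`
-/

open Matrix Cfsg Module

namespace H16

theorem mul_dvd_prod_of_ne {ι : Type*} [DecidableEq ι] {s : Finset ι} (f : ι → ℕ) {i j : ι} (hi : i ∈ s)
    (hj : j ∈ s) (hij : i ≠ j) : f i * f j ∣ ∏ k ∈ s, f k := by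
  rw [← Finset.prod_pair hij]
  exact Finset.prod_dvd_prod_of_subset _ _ _ (by
    intro k hk
    simp only [Finset.mem_insert, Finset.mem_singleton] at hk
    rcases hk with rfl | rfl <;> assumption)

theorem card_SL_dvd {F : Type*} [Field F] [Fintype F] {m e : ℕ} (he : 2 ≤ e) (hem : e ≤ m) :
    Fintype.card F * (Fintype.card F ^ e - 1) ∣ Nat.card (SpecialLinearGroup (Fin m) F) := by
  classical
  haveI : Nonempty (Fin m) := ⟨⟨0, by omega⟩⟩
  have h1 := H09.card_SL_mul (ι := Fin m) (F := F)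
  rw [H09.card_GL] at h1
  set q := Fintype.card F with hq
  have hq1 : 1 < q := Fintype.one_lt_card
  simp only [Fintype.card_fin] at h1
  have h2 := mul_dvd_prod_of_ne (s := Finset.univ)
    (fun i : Fin (Fintype.card (Fin m)) => q ^ m - q ^ (i : ℕ))
    (i := ⟨m - 1, by simp; omega⟩) (j := ⟨m - e, by simp; omega⟩) (Finset.mem_univ _) (Finset.mem_univ _)
    (by intro h; have := congrArg Fin.val h; simp at this; omega)
  rw [← h1] at h2
  have e1 : q ^ m - q ^ (m - 1) = (q - 1) * (q * q ^ (m - 2)) := by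
    rw [← pow_succ', show m - 2 + 1 = m - 1 by omega, Nat.sub_mul, one_mul, ← pow_succ',
      show m - 1 + 1 = m by omega]
  have e2 : q ^ m - q ^ (m - e) = (q ^ e - 1) * q ^ (m - e) := by
    rw [Nat.sub_mul, one_mul, ← pow_add, show e + (m - e) = m by omega]
  simp only [e1, e2] at h2
  rw [mul_assoc] at h2
  have h3 := Nat.dvd_of_mul_dvd_mul_left (by omega) h2
  refine Dvd.dvd.trans ⟨q ^ (m - 2) * q ^ (m - e), by ring⟩ h3

theorem card_SU_dvd {F : Type*} [Field F] [Fintype F] {q : ℕ} (hF : Fintype.card F = q ^ 2) {m e : ℕ}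
    (he : 2 ≤ e) (hem : e ≤ m) :
    q * (if Even (e - 1) then q ^ e + 1 else q ^ e - 1) ∣ Nat.card (SU m F q) := by
  have h1 := Cfsg.Agent.S0278.result hF m (by omega)
  have h2 := mul_dvd_prod_of_ne (s := Finset.range m)
    (fun i => if Even i then q ^ (i + 1) + 1 else q ^ (i + 1) - 1) (i := 0) (j := e - 1)
    (by simp; omega) (by simp; omega) (by omega)
  simp only [Even.zero, if_true, zero_add, pow_one, show e - 1 + 1 = e by omega] at h2
  have h3 : q ∣ q ^ (m * (m - 1) / 2) := by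
    apply dvd_pow_self
    have : 2 * 1 ≤ m * (m - 1) := Nat.mul_le_mul (by omega) (by omega)
    omega
  have h4 := mul_dvd_mul h3 h2
  rw [← h1, mul_left_comm] at h4
  exact Nat.dvd_of_mul_dvd_mul_left (by omega) h4

variable {F : Type*} [Field F] [Fintype F] {q : ℕ} (hF : Nat.card F = q ^ 2) {n : ℕ}
include hF

theorem eigs_phi {K : Type*} [Field K] [Algebra F K] {g : Matrix (Fin n) (Fin n) F}
    (hs : Spl K g) (hg : H24.Uni.st hF g * g = 1) :
    Function.Injective (fun β : K => (β ^ q)⁻¹) ∧ (eigs K g).map (fun β : K => (β ^ q)⁻¹) = eigs K g := by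
  classical
  obtain ⟨ψ, hψ⟩ := exists_frob_q hF K
  have hψ' : ∀ c, ψ (algebraMap F K c) = algebraMap F K (H10.conj hF c) := fun c => by
    rw [hψ, H10.conj_apply, map_pow]
  refine ⟨fun x y e => ?_, ?_⟩
  · apply ψ.injective
    rw [hψ, hψ]; exact inv_injective e
  · have e1 := eigs_map_of_charpoly hs hψ' (charpoly_st hF g)
    rw [eigs_inv hs (mul_eq_one_comm.1 hg)] at e1
    have e2 := congrArg (Multiset.map fun β : K => β⁻¹) e1
    simp only [Multiset.map_map, Function.comp_def, inv_inv, Multiset.map_id', hψ] at e2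
    exact e2.symm

theorem char_prime_u (p : ℕ) [hp : Fact p.Prime] [CharP F p] {g : Matrix (Fin n) (Fin n) F}
    (hg : H24.Uni.st hF g * g = 1) {s : ℕ} (hs : s.Prime) (hsp : s ≠ p) (hsq : ¬ s ∣ q + 1)
    (h1 : g ^ (p * s) = 1) (h2 : g ^ p ≠ 1) (h3 : g ^ s ≠ 1) :
    ∃ e, 2 ≤ e ∧ e + 2 ≤ n ∧ s ∣ (if Even (e - 1) then q ^ e + 1 else q ^ e - 1) := by
  classical
  let K := g.charpoly.SplittingField
  haveI : Finite K := Module.finite_of_finite F
  haveI : CharP K p := charP_of_injective_algebraMap (algebraMap F K).injective p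
  have hK : Spl K g := spl_splittingField g
  obtain ⟨α, hα, hα1⟩ := exists_eig_pow_ne_one p hK (o := p) (t := s)
    (fun h => hsp ((Nat.prime_dvd_prime_iff_eq hp.out hs).1 h).symm) h1 h2
  have hα2 := pow_eq_one_of_mem_eigs hα h1
  have h0 : α ≠ 0 := fun h' => by
    rw [h', zero_pow (Nat.mul_ne_zero hp.out.ne_zero hs.ne_zero)] at hα2; exact zero_ne_one hα2
  obtain ⟨hφ, hR⟩ := eigs_phi hF hK hg
  set φ : K → K := fun β => (β ^ q)⁻¹ with hφd
  have hd : 0 < Function.minimalPeriod φ α :=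
    Function.minimalPeriod_pos_of_mem_periodicPts (hφ.mem_periodicPts α)
  set d := Function.minimalPeriod φ α with hdd
  set O := (Multiset.range d).map fun i => φ^[i] α with hO
  have h8 : ∀ β ∈ O, (eigs K g).count β = (eigs K g).count α := fun β hβ => by
    obtain ⟨i, rfl⟩ := (mem_orbit_iff hφ).1 hβ
    rw [count_iterate hφ hR]
  have hS : O.card = d := by rw [hO, Multiset.card_map, Multiset.card_range]
  have hS5 := nsmul_le_of_count (R := eigs K g) (nodup_orbit φ α) fun β hβ => (h8 β hβ).ge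
  have hS4 : O ≤ eigs K g := by
    have := nsmul_le_of_count (R := eigs K g) (nodup_orbit φ α) (c := 1) fun β hβ => by
      rw [h8 β hβ]; exact Multiset.one_le_count_iff_mem.2 hα
    rwa [one_nsmul] at this
  have e5 : φ^[d] α = α := Function.iterate_minimalPeriod
  rw [hφd, iterate_phi] at e5
  have hq0 : 0 < q := by
    rcases Nat.eq_zero_or_pos q with h | h
    · have := Nat.card_pos (α := F); rw [hF, h] at this; simp at this
    · exact h
  have h7 : s ∣ (if Even (d - 1) then q ^ d + 1 else q ^ d - 1) := by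
    refine dvd_of_pow_eq_one hs (by rwa [mul_comm]) hα1 ?_
    split_ifs with hev
    · have ho : Odd d := by
        obtain ⟨k, hk⟩ := hev
        exact ⟨k, by omega⟩
      rw [Odd.neg_pow ho, _root_.zpow_neg, ← Nat.cast_pow, _root_.zpow_natCast] at e5
      rw [pow_succ]
      nth_rewrite 2 [← e5]
      exact mul_inv_cancel₀ (pow_ne_zero _ h0)
    · have ho : Even d := by
        rw [Nat.not_even_iff_odd] at hev
        obtain ⟨k, hk⟩ := hev
        exact ⟨k + 1, by omega⟩
      rw [Even.neg_pow ho, ← Nat.cast_pow, _root_.zpow_natCast] at e5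
      apply mul_right_cancel₀ h0
      rw [← pow_succ, Nat.sub_add_cancel (Nat.one_le_pow _ _ hq0), e5, one_mul]
  have hd1 : d ≠ 1 := by
    intro h
    rw [h] at h7
    simp at h7
    exact hsq h7
  obtain ⟨β, hβ⟩ := exists_count_ge_two p hK (o := s) (k := 1) (by rwa [pow_one]) h3
  refine ⟨d, by omega, ?_, h7⟩
  by_cases h4 : β ∈ O
  · have h6 := Multiset.card_le_card hS5
    rw [Multiset.card_nsmul, hS, card_eigs hK, ← h8 β h4, Fintype.card_fin] at h6
    have : 2 ≤ d := by omega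
    nlinarith
  · have h6 := Multiset.card_le_card (add_le_of_disjoint hS4
      ((Multiset.le_count_iff_replicate_le (n := 2)).1 hβ) fun γ hγ hγ' =>
        h4 (Multiset.eq_of_mem_replicate hγ' ▸ hγ))
    rwa [Multiset.card_add, hS, card_eigs hK, Multiset.card_replicate, Fintype.card_fin] at h6

theorem psu_lift (hn : 2 ≤ n) (g : SU n F q) :
    (suι n F q (g ^ (q + 1))) ^ orderOf (g : PSU n F q) = 1 ∧
      ∀ k, (suι n F q (g ^ (q + 1))) ^ k = 1 → (g : PSU n F q) ^ ((q + 1) * k) = 1 := by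
  refine ⟨?_, fun k hk => ?_⟩
  · obtain ⟨c, hc⟩ := (orderOf_mk_dvd_iff (suι n F q) (su_center hF hn) g _).1 dvd_rfl
    have hu := (H24.Uni.mem_SU_iff hF _).1 (g ^ orderOf (g : PSU n F q)).2
    rw [← suι_apply, map_pow, hc, H24.Uni.st_smul, H24.Uni.st_one, smul_mul_smul_comm, one_mul,
      H10.conj_apply, ← pow_succ] at hu
    rw [map_pow, ← pow_mul, mul_comm, pow_mul, hc, _root_.smul_pow, one_pow, hu]
  · rw [← map_pow, ← pow_mul] at hk
    rw [← QuotientGroup.mk_pow, show g ^ (_ * k) = 1 from Subtype.ext (Subtype.ext hk), QuotientGroup.mk_one]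

theorem psu_ps (p : ℕ) [hp : Fact p.Prime] [CharP F p] (hn : 2 ≤ n) {s : ℕ} (hs : s.Prime) (hsp : s ≠ p)
    (hsq : ¬ s ∣ q + 1) {y : PSU n F q} (hy : orderOf y = p * s) :
    ∃ e, 2 ≤ e ∧ e + 2 ≤ n ∧ s ∣ (if Even (e - 1) then q ^ e + 1 else q ^ e - 1) := by
  obtain ⟨g, rfl⟩ := QuotientGroup.mk_surjective y
  obtain ⟨h1, h2⟩ := psu_lift hF hn g
  rw [hy] at h1
  have hpq : p ∣ q := by
    obtain ⟨k, -, hk⟩ := FiniteField.card F p
    rw [← Nat.card_eq_fintype_card, hF] at hk
    exact hp.out.dvd_of_dvd_pow (hk ▸ dvd_pow_self p k.ne_zero)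
  refine char_prime_u hF p ((H24.Uni.mem_SU_iff hF _).1 (g ^ (q + 1)).2) hs hsp hsq h1 (fun h => ?_) fun h => ?_
  · refine pow_ne_one_of_orderOf (r := s) (s := p) (by rw [hy, mul_comm]) ?_ (h2 _ h)
    intro h'
    rcases (Nat.Prime.dvd_mul hs).1 h' with h' | h'
    · exact hsq h'
    · exact hsp ((Nat.prime_dvd_prime_iff_eq hs hp.out).1 h')
  · refine pow_ne_one_of_orderOf (r := p) (s := s) hy ?_ (h2 _ h)
    intro h'
    rcases (Nat.Prime.dvd_mul hp.out).1 h' with h' | h'
    · exact hp.out.one_lt.ne' (Nat.dvd_one.1 ((Nat.dvd_add_right hpq).1 h'))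
    · exact hsp ((Nat.prime_dvd_prime_iff_eq hp.out hs).1 h').symm

omit hF in
theorem exists_order_mul {G : Type*} [Group G] [Finite G] {a b : G} (hab : Commute a b) {p r : ℕ}
    (hp : p.Prime) (hr : r.Prime) (hrp : r ≠ p) (ha : orderOf a = p) (hb : r ∣ orderOf b) :
    ∃ y : G, orderOf y = p * r := by
  have h1 : orderOf (b ^ (orderOf b / r)) = r := orderOf_pow_orderOf_div (orderOf_pos b).ne' hb
  refine ⟨a * b ^ (orderOf b / r), ?_⟩
  rw [(hab.pow_right _).orderOf_mul_eq_mul_orderOf_of_coprime (by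
    rw [ha, h1]; exact (Nat.coprime_primes hp hr).2 hrp.symm), ha, h1]

end H16
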