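import Cfsg.Agent.H10.AsW

/-!
# Small exceptions in `SU_3(3)`, `SU_3(5)`, I : finite fields, invariants
-/

namespace Cfsg.Agent.H16.Su3
open Matrix Module Cfsg Cfsg.Geo Subgroup H10 H10.As

instance fact5 : Fact (Nat.Prime 5) := ⟨by decide⟩
instance fact25 : Fact (∀ r : ZMod 5, r ^ 2 ≠ -1 + -1 * r) := ⟨by decide⟩
/-- the field with 25 elements -/
abbrev K5 := QA 5 (-1) (-1)
/-- the field with 9 elements -/
abbrev K3 := QA 3 (-1) 0

theorem st5 : ∀ z : K5, z ^ 5 = star z := by decide +kernel
theorem st3 : ∀ z : K3, z ^ 3 = star z := by decide +kernel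

set_option synthInstance.maxSize 4000 in
theorem key5 : ∀ a b c : K5, (a * star a + b * star b + c * star c ≠ 0 ∧
    (a * star a = b * star b ∨ a * star a = c * star c ∨ b * star b = c * star c) ∧ (a * b * c * (a * b * c)).im = 0) ↔
    (a * star a + b * star b + c * star c ≠ 0 ∧
      ((a * star b = b * star a ∧ a * star c = c * star a ∧ b * star c = c * star b) ∨
      (a * a + b * b + c * c) ^ 3 = 2 * (a * star a + b * star b + c * star c) ∨ (a * a + b * b + c * c) ^ 3 = 0)) := by
  decide +kernel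

end Cfsg.Agent.H16.Su3
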