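import Cfsg.Agent.H16.Su3a

/-!
# Small exceptions in `SU_3(3)`, `SU_3(5)`, II : invariants of the monomial and orthogonal groups
-/

namespace Cfsg.Agent.H16.Su3
open Matrix Module Cfsg Cfsg.Geo Subgroup H10 H10.As

section real
variable {K : Type*} [Field K] (τ : K →+* K)

/-- vectors proportional to a vector fixed by `τ` -/
def Re3 (x : Fin 3 → K) : Prop := ∀ i j, x i * τ (x j) = x j * τ (x i)

theorem re3_iff (x : Fin 3 → K) : Re3 τ x ↔
    x 0 * τ (x 1) = x 1 * τ (x 0) ∧ x 0 * τ (x 2) = x 2 * τ (x 0) ∧ x 1 * τ (x 2) = x 2 * τ (x 1) :=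
  ⟨fun h => ⟨h 0 1, h 0 2, h 1 2⟩, fun ⟨a, b, c⟩ i j => by
    fin_cases i <;> fin_cases j <;> first | rfl | exact a | exact b | exact c | exact a.symm | exact b.symm | exact c.symm⟩

theorem real_inv {M : Matrix (Fin 3) (Fin 3) K} {ν : K} (h1 : M.map τ = ν • M) (h2 : Mᵀ * 1 * M.map τ = 1)
    (h3 : det M = 1) (x : Fin 3 → K) :
    ((M *ᵥ x) ⬝ᵥ (M *ᵥ x)) ^ 3 = (x ⬝ᵥ x) ^ 3 ∧ (M *ᵥ x) ⬝ᵥ τ ∘ (M *ᵥ x) = x ⬝ᵥ τ ∘ x ∧ (Re3 τ x → Re3 τ (M *ᵥ x)) := by
  rw [mul_one] at h2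
  have a1 : ν ^ 3 = 1 := by
    have := congrArg det h1
    rw [← RingHom.mapMatrix_apply, ← RingHom.map_det, det_smul, h3] at this
    simpa using this.symm
  have a2 : ∀ y z : Fin 3 → K, (M *ᵥ y) ⬝ᵥ (M.map τ *ᵥ z) = y ⬝ᵥ z := fun y z => by
    rw [dotProduct_mulVec, vecMul_mulVec, h2, vecMul_one]
  refine ⟨?_, by rw [comp_mulVec, a2], fun h i j => ?_⟩
  · rw [← a2 x x, h1, smul_mulVec, dotProduct_smul, smul_eq_mul, mul_pow, a1, one_mul]
  · have a3 : ∀ a b, τ (M a b) = ν * M a b := fun a b => congrFun₂ h1 a b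
    simp only [mulVec, dotProduct, Fin.sum_univ_three, map_add, map_mul, a3]
    linear_combination (ν * (M i 0 * M j 1 - M i 1 * M j 0)) * h 0 1 + (ν * (M i 0 * M j 2 - M i 2 * M j 0)) * h 0 2 +
      (ν * (M i 1 * M j 2 - M i 2 * M j 1)) * h 1 2

end real

/-- the 105 points of `A_7`, monomial description -/
def Pa (x : Fin 3 → K5) : Prop := ∑ i, x i * star (x i) ≠ 0 ∧ (∃ i j, i ≠ j ∧ x i * star (x i) = x j * star (x j)) ∧
  ((∏ i, x i) * ∏ i, x i).im = 0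

/-- the 105 points of `A_7`, orthogonal description -/
def Pc (x : Fin 3 → K5) : Prop := x ⬝ᵥ starRingEnd K5 ∘ x ≠ 0 ∧ (Re3 (starRingEnd K5) x ∨
  (x ⬝ᵥ x) ^ 3 = 2 * (x ⬝ᵥ starRingEnd K5 ∘ x) ∨ (x ⬝ᵥ x) ^ 3 = 0)

instance : DecidablePred Pa := fun x => by unfold Pa; infer_instance

theorem pa_iff (x : Fin 3 → K5) : Pa x ↔ Pc x := by
  have := key5 (x 0) (x 1) (x 2)
  simp only [Pa, Pc, re3_iff, dotProduct, Fin.sum_univ_three, Fin.prod_univ_three, Function.comp, starRingEnd_apply]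
  rw [← this]
  refine and_congr_right fun _ => and_congr_left fun _ => ⟨fun ⟨i, j, a, b⟩ => ?_, fun h => ?_⟩
  · fin_cases i <;> fin_cases j <;> simp_all
  · rcases h with h | h | h
    exacts [⟨0, 1, by decide, h⟩, ⟨0, 2, by decide, h⟩, ⟨1, 2, by decide, h⟩]

theorem pa_mo (π : Equiv.Perm (Fin 3)) (c x : Fin 3 → K5) (a : ∀ i, c i * c i ^ 5 = 1)
    (b : ((Equiv.Perm.sign π : ℤ) : K5) * ∏ i, c i = 1) (h : Pa x) : Pa (mo π c *ᵥ x) := by
  have c4 : ∀ i x, c i * x * star (c i * x) = x * star x := fun i x => by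
    rw [star_mul, ← st5 (c i)]; linear_combination (x * star x) * a i
  have : (∏ i, c i) ^ 2 = 1 := by
    have := congrArg (· ^ 2) b
    simpa only [mul_pow, ← Int.cast_pow, ← Units.val_pow_eq_pow_val, Int.units_sq, one_pow, Units.val_one, Int.cast_one,
      one_mul] using this
  obtain ⟨h1, ⟨i, j, h2, h3⟩, h4⟩ := h
  refine ⟨?_, ⟨π i, π j, π.injective.ne h2, by simpa only [mo_mulVec, c4] using h3⟩, ?_⟩
  · rw [← Equiv.sum_comp π]; simpa only [mo_mulVec, c4] using h1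
  · rw [← Equiv.prod_comp π]
    simpa only [mo_mulVec, Finset.prod_mul_distrib, ← sq, mul_pow, this, one_mul] using h4

theorem pa_real {M : Matrix (Fin 3) (Fin 3) K5} {ν : K5} (h1 : M.map (starRingEnd K5) = ν • M)
    (h2 : Mᵀ * 1 * M.map (starRingEnd K5) = 1) (h3 : det M = 1) (x : Fin 3 → K5) (h : Pa x) : Pa (M *ᵥ x) := by
  obtain ⟨a, b, c⟩ := real_inv _ h1 h2 h3 x
  rw [pa_iff] at h ⊢
  exact ⟨b ▸ h.1, h.2.imp c fun h => by rwa [a, b]⟩

theorem dg3 {p : ℕ} (hp : p = 3 ∨ p = 5) (d : Fin 3 → ZMod p) (hd : ∀ i, d i ≠ 0) :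
    ∃ k : Matrix (Fin 3) (Fin 3) (ZMod p), kᵀ * diagonal d * k = (d 0 * d 1 * d 2) • 1 := by
  have : ∀ a b c : ZMod p, a ≠ 0 → b ≠ 0 → c ≠ 0 → ∃ u0 u1 u2, u0 * a * u0 + u1 * b * u1 + u2 * c * u2 = a * b * c ∧
      ∃ v0 v1 v2, v0 * a * v0 + v1 * b * v1 + v2 * c * v2 = a * b * c ∧ u0 * a * v0 + u1 * b * v1 + u2 * c * v2 = 0 ∧
      ∃ w0 w1 w2, w0 * a * w0 + w1 * b * w1 + w2 * c * w2 = a * b * c ∧ u0 * a * w0 + u1 * b * w1 + u2 * c * w2 = 0 ∧
        v0 * a * w0 + v1 * b * w1 + v2 * c * w2 = 0 := by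
    rcases hp with rfl | rfl <;> decide +kernel
  obtain ⟨u0, u1, u2, a1, v0, v1, v2, a2, a3, w0, w1, w2, a4, a5, a6⟩ := this _ _ _ (hd 0) (hd 1) (hd 2)
  refine ⟨!![u0, v0, w0; u1, v1, w1; u2, v2, w2], ?_⟩
  ext i j
  rw [mul_apply]
  simp only [mul_diagonal, transpose_apply, Fin.sum_univ_three]
  fin_cases i <;> fin_cases j <;> simp <;>
    first | exact a1 | exact a2 | exact a3 | exact a4 | exact a5 | exact a6 | linear_combination a3 | linear_combination a5 |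
      linear_combination a6

theorem sym3 {p : ℕ} [Fact p.Prime] (hp : p = 3 ∨ p = 5) (G : Matrix (Fin 3) (Fin 3) (ZMod p)) (hs : Gᵀ = G) (hd : det G ≠ 0) :
    ∃ (k : Matrix (Fin 3) (Fin 3) (ZMod p)) (δ : ZMod p), δ ≠ 0 ∧ kᵀ * G * k = δ • 1 := by
  have : Invertible (2 : ZMod p) := invertibleOfNonzero (by
    have : ((2 : ℕ) : ZMod p) ≠ 0 := by
      rw [Ne, ZMod.natCast_eq_zero_iff]; rcases hp with rfl | rfl <;> decide
    simpa using this)
  obtain ⟨v, hv⟩ := LinearMap.BilinForm.exists_orthogonal_basis (B := Matrix.toBilin' G) ⟨fun x y => by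
    simp only [RingHom.id_apply, Matrix.toBilin'_apply']
    rw [dotProduct_mulVec, ← mulVec_transpose, hs, dotProduct_comm]⟩
  let w := v.reindex (finCongr (Module.finrank_fin_fun (ZMod p)))
  let k : Matrix (Fin 3) (Fin 3) (ZMod p) := (Pi.basisFun (ZMod p) (Fin 3)).toMatrix w
  have hk : det k ≠ 0 := by
    have := (Pi.basisFun (ZMod p) (Fin 3)).isUnit_det w
    rw [Module.Basis.det_apply] at this
    exact this.ne_zero
  have e : ∀ i j, (kᵀ * G * k) i j = w i ⬝ᵥ G *ᵥ w j := fun i j => by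
    simp [k, mul_apply, dotProduct, mulVec, Module.Basis.toMatrix_apply, Finset.mul_sum, Finset.sum_mul, mul_assoc]
    exact Finset.sum_comm
  have h1 : kᵀ * G * k = diagonal fun i => w i ⬝ᵥ G *ᵥ w i := by
    ext i j
    rw [e, diagonal_apply]
    split_ifs with h
    · rw [h]
    · have := LinearMap.isOrthoᵢ_def.1 hv ((finCongr (Module.finrank_fin_fun (ZMod p))).symm i)
        ((finCongr (Module.finrank_fin_fun (ZMod p))).symm j) (by simpa using h)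
      simpa [w, Matrix.toBilin'_apply'] using this
  have h2 : ∏ i, w i ⬝ᵥ G *ᵥ w i ≠ 0 := by
    rw [← det_diagonal, ← h1, det_mul, det_mul, det_transpose]
    exact mul_ne_zero (mul_ne_zero hk hd) hk
  have h3 := Finset.prod_ne_zero_iff.1 h2
  obtain ⟨l, hl⟩ := dg3 hp _ fun i => h3 i (Finset.mem_univ i)
  rw [Fin.prod_univ_three] at h2
  refine ⟨k * l, _, h2, ?_⟩
  rw [← hl, ← h1, transpose_mul]; simp only [mul_assoc]

end Cfsg.Agent.H16.Su3
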