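import Cfsg.Agent.H16.Su3b

/-!
# Small exceptions in `SU_3(3)`, `SU_3(5)`, III : frames and orthogonal subgroups
-/

namespace Cfsg.Agent.H16.Su3
open Matrix Module Cfsg Cfsg.Geo Subgroup H10 H10.As

variable {F : Type*} [Field F] [Fintype F] {q : ℕ} {H : Subgroup (GL (Fin 3) F)} (hF : Nat.card F = q ^ 2)
include hF

theorem frame25 (hq : q = 5) (hH : IsMaximalIn (GU 3 F q ⊓ specialLinear (Fin 3) F) H) {D : Fin 3 → Submodule F (Fin 3 → F)}
    (hD : IsNondegenerateMDecomposition (hermForm 3 F q) 1 D) (h : H ≤ decompositionStabilizer D) : False := by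
  subst hq
  obtain ⟨φ⟩ := exists_qa (p := 5) (-1) (-1) (F := F) (by simpa using hF)
  exact su_frame hF hH hD h φ Pa pa_mo (a := !![1, 1, 2; 1, 2, 1; 2, 1, 1])
    (b := !![⟨1,0⟩, ⟨0,4⟩, ⟨0,3⟩; ⟨1,1⟩, ⟨2,0⟩, ⟨1,0⟩; ⟨2,2⟩, ⟨1,0⟩, ⟨1,0⟩]) (by decide +kernel) (by decide +kernel)
    (pa_real (ν := 1) (by decide +kernel) (by decide +kernel) (by decide +kernel)) (x := ![0, 0, 1]) (by decide +kernel)
    (i := 0) (j := 1) (k := 0) (by decide) (by decide) (by decide)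

omit [Fintype F] hF in
theorem pm_entry {ι : Type} [Fintype ι] [DecidableEq ι] {σ : F →+* F} {f : (ι → F) → (ι → F) → F} (hf : Sq σ f)
    (e : ι ≃ Fin 3) (P : GL ι F) (h : gramMatrix (pf e P f) = 1) (g : Matrix ι ι F) (a b : Fin 3) :
    pm e P g a b = f (g *ᵥ lq e P (Pi.single b 1)) (lq e P (Pi.single a 1)) := by
  have h' : Sq σ (pf e P f) := funext₂ (pf_eq e P (f := f)) ▸ hf.comp (T := lq e P) (map_add _) (map_smul _)
  rw [mulVec_lq, ← pf_eq e P (f := f), h'.eq_gram, h, formOfGram_eq, one_mulVec]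
  simp [dotProduct, Pi.single_apply, apply_ite σ]

theorem sub_coords (hq : q = 3 ∨ q = 5) {L : Subfield F} {P : GL (Fin 3) F} (hL : Fintype.card F = Nat.card L ^ 2)
    (h1 : IsFormRationalStructure (hermForm 3 F q) L 1 P) : ∃ (e : Fin 3 ≃ Fin 3) (P' : GL (Fin 3) F),
      gramMatrix (pf e P' (hermForm 3 F q)) = 1 ∧
      ∀ g ∈ subfieldSubgroup L P, ∃ ν : F, (pm e P' g.1).map (conj hF) = ν • pm e P' g.1 := by
  have hf := sf_herm (n := 3) hF
  have hc : Nat.card L = q := Nat.pow_left_injective two_ne_zero (by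
    simp only [← hL, ← hF, Nat.card_eq_fintype_card])
  have : Fact q.Prime := ⟨by rcases hq with rfl | rfl <;> decide⟩
  have := Fintype.ofFinite L
  have hc' : Fintype.card L = q := by rw [← hc, Nat.card_eq_fintype_card]
  let ψ : ZMod q ≃+* L := ZMod.ringEquivOfPrime L Fact.out hc'
  let ι : ZMod q →+* F := L.subtype.comp ψ.toRingHom
  have hι : ∀ z, ι z ∈ L := fun z => (ψ z).2
  have hι' : ∀ a ∈ L, ∃ z, ι z = a := fun a ha => ⟨ψ.symm ⟨a, ha⟩, by simp [ι]⟩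
  have hσ : ∀ a ∈ L, conj hF a = a := fun a ha => by
    have := congrArg Subtype.val (FiniteField.pow_card (⟨a, ha⟩ : L))
    rw [hc'] at this
    exact this
  have hf' := hf.pf (.refl _) P
  have hG : ∀ i j, gramMatrix (pf (.refl _) P (hermForm 3 F q)) i j ∈ L := fun i j => by
    have := h1 (Pi.single i 1) (Pi.single j 1) (fun k => by by_cases h : k = i <;> simp [h])
      fun k => by by_cases h : k = j <;> simp [h]
    rw [one_mul] at this
    exact this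
  choose G0 hG0 using fun i j => hι' _ (hG i j)
  have e0 : (of G0).map ι = gramMatrix (pf (.refl _) P (hermForm 3 F q)) := Matrix.ext hG0
  obtain ⟨k, δ, hδ, hk⟩ := sym3 hq (of G0) (Matrix.ext fun i j => ι.injective (by
    have := congrFun₂ hf'.gram_symm i j
    simp only [transpose_apply, Matrix.smul_apply, map_apply, one_smul, hσ _ (hG _ _)] at this
    simpa only [transpose_apply, of_apply, hG0] using this)) fun h => by
      have := (isUnit_iff_isUnit_det _).1 hf'.isUnit_gram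
      rw [← e0, ← RingHom.mapMatrix_apply, ← RingHom.map_det, h, map_zero] at this
      exact not_isUnit_zero this
  obtain ⟨l, hl⟩ := exists_norm_eq hF (μ := (ι δ)⁻¹) (hσ _ (L.inv_mem (hι δ)))
  have hv : ∀ a b, hermForm 3 F q (l • P.1 *ᵥ fun i => ι (k i a)) (l • P.1 *ᵥ fun i => ι (k i b)) =
      (1 : Matrix (Fin 3) (Fin 3) F) a b := fun a b => by
    have e1 : hermForm 3 F q (P.1 *ᵥ fun i => ι (k i a)) (P.1 *ᵥ fun i => ι (k i b)) = ι ((kᵀ * of G0 * k) a b) := by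
      refine (congrFun₂ hf'.eq_gram (fun i => ι (k i a)) fun i => ι (k i b)).trans ?_
      rw [← e0]
      simp only [formOfGram, hσ _ (hι _), mul_apply, map_sum, map_mul, map_apply, transpose_apply, Finset.sum_mul]
      exact Finset.sum_comm
    rw [hf.smul_left, hf.smul_right, e1, hk, conj_apply, ← mul_assoc, mul_comm l, hl]
    have : ι δ ≠ 0 := by simpa using hδ
    by_cases h : a = b <;> simp [h, one_apply, this]
  obtain ⟨e, P', c1, c2, -⟩ := exists_cols hf.toSq (fun a => l • P.1 *ᵥ fun i => ι (k i a)) rfl hv (by simp)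
  refine ⟨e, P', c1, fun g hg => ?_⟩
  obtain ⟨c, c0, hc⟩ := mem_subfieldSubgroup_iff.1 hg
  refine ⟨c / conj hF c, Matrix.ext fun a b => ?_⟩
  have c3 : ∀ a, lq e P' (Pi.single a 1) = l • P.1 *ᵥ fun i => ι (k i a) := fun a => by simp [c2, Pi.single_apply]
  obtain ⟨u, u1, u2⟩ := hc _ ⟨fun i => ι (k i b), fun i => hι _, rfl⟩
  have : c * pm e P' g.1 a b ∈ L := by
    rw [pm_entry hf.toSq e P' c1, c3, c3, ← hf.smul_left, mulVec_smul, smul_comm, ← u2, hf.smul_left, hf.smul_right, conj_apply,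
      ← mul_assoc, mul_comm l, hl]
    exact L.mul_mem (L.inv_mem (hι δ)) (by simpa using h1 u _ u1 fun i => hι (k i a))
  have := hσ _ this
  rw [map_mul] at this
  rw [map_apply, Matrix.smul_apply, smul_eq_mul, div_mul_eq_mul_div, ← this, mul_div_cancel_left₀ _ (by simpa)]

theorem so3_gen (hq : q = 3 ∨ q = 5) (hH : IsMaximalIn (GU 3 F q ⊓ specialLinear (Fin 3) F) H) {L : Subfield F}
    {P : GL (Fin 3) F} (hL : Fintype.card F = Nat.card L ^ 2) (h1 : IsFormRationalStructure (hermForm 3 F q) L 1 P)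
    (h : H ≤ subfieldSubgroup L P) {K : Type} [Field K] (φ : F ≃+* K) (τ : K →+* K) (hτ : ∀ a, a ^ q = τ a)
    (Ψ : (Fin 3 → K) → Prop) (hΨ : ∀ {M : Matrix (Fin 3) (Fin 3) K} {ν : K}, M.map τ = ν • M → Mᵀ * 1 * M.map τ = 1 →
      det M = 1 → ∀ x, Ψ x → Ψ (M *ᵥ x)) {a b : Matrix (Fin 3) (Fin 3) K} (ha : aᵀ * 1 * a.map τ = 1 ∧ det a = 1)
    (hb : bᵀ * 1 * b.map τ = 1 ∧ det b = 1) (ha' : ∀ x, Ψ x → Ψ (a *ᵥ x)) {x} (hb' : Ψ x ∧ ¬ Ψ (b *ᵥ x))
    (hn : ∀ ν : K, a.map τ ≠ ν • a) : False := by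
  have hf := sf_herm (n := 3) hF
  obtain ⟨e, P', a1, a2⟩ := sub_coords hF hq hL h1
  have t : ∀ a, φ (conj hF a) = τ (φ a) := fun a => by rw [conj_apply, map_pow, hτ]
  have a3 : ∀ g ∈ H, ∃ ν : K, ((pm e P' g.1).map φ).map τ = ν • (pm e P' g.1).map φ := fun g hg =>
    (a2 g (h hg)).elim fun ν hν => ⟨φ ν, Matrix.ext fun i j => by
      have := congrArg φ (congrFun₂ hν i j)
      simpa [t] using this⟩
  obtain ⟨g, i1, rfl⟩ := nm_coords φ (τ := τ) t hf.toSq hH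
    (fun g a b => ⟨fun u v => (a u v).trans (one_mul _), H09.mem_specialLinear.2 b⟩) e P' (G := 1) (by rw [a1]; simp)
    (fun x _ => Ψ x) (fun g hg x _ => by
      obtain ⟨ν, hν⟩ := a3 g hg
      have := congrArg (·.map φ) ((sim_iff hf.toSq e P').1 (su_sim (hH.1.le.trans inf_le_left) g hg))
      simp only [a1, Matrix.map_mul (f := φ)] at this
      refine hΨ hν ?_ ?_ x
      · convert this using 2
        · ext; simp
        · ext; simp [t]
        · simp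
      · rw [← RingEquiv.mapMatrix_apply, ← RingEquiv.map_det, det_pm, H09.mem_specialLinear.1 (hH.1.le hg).2, map_one])
    ha hb (fun x _ => ha' x) (y := x) hb'
  exact (a3 g i1).elim hn

/-- the coordinate points, orthogonal description -/
def P3 (x : Fin 3 → K3) : Prop := x ⬝ᵥ starRingEnd K3 ∘ x ≠ 0 ∧ Re3 (starRingEnd K3) x ∧
  ((x ⬝ᵥ x) ^ 3) ^ 2 = x ⬝ᵥ starRingEnd K3 ∘ x

omit hF in
theorem p3_iff (x : Fin 3 → K3) : P3 x ↔ (x 0 ≠ 0 ∧ x 1 = 0 ∧ x 2 = 0) ∨ (x 0 = 0 ∧ x 1 ≠ 0 ∧ x 2 = 0) ∨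
    (x 0 = 0 ∧ x 1 = 0 ∧ x 2 ≠ 0) := by
  simp only [P3, re3_iff, dotProduct, Fin.sum_univ_three, Function.comp, starRingEnd_apply]
  generalize x 0 = a, x 1 = b, x 2 = c
  revert a b c; decide +kernel

theorem so3 (hq : q = 3 ∨ q = 5) (hH : IsMaximalIn (GU 3 F q ⊓ specialLinear (Fin 3) F) H) {L : Subfield F}
    {P : GL (Fin 3) F} (hL : Fintype.card F = Nat.card L ^ 2) (h1 : IsFormRationalStructure (hermForm 3 F q) L 1 P)
    (h : H ≤ subfieldSubgroup L P) : False := by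
  rcases hq with rfl | rfl
  · obtain ⟨φ⟩ := exists_qa (p := 3) (-1) 0 (F := F) (by simpa using hF)
    refine so3_gen hF (.inl rfl) hH hL h1 h φ (starRingEnd K3) st3 P3 (fun h1 h2 h3 x h => ?_)
      (a := diagonal ![⟨0, 1⟩, ⟨0, 2⟩, 1]) (b := !![⟨1,0⟩, ⟨0,1⟩, ⟨2,1⟩; ⟨0,2⟩, ⟨1,0⟩, ⟨2,2⟩; ⟨2,2⟩, ⟨2,1⟩, ⟨0,0⟩])
      (by decide +kernel) (by decide +kernel) (fun x => ?_) (x := ![1, 0, 0]) (by simp only [p3_iff]; decide +kernel)
      (by decide +kernel)
    · obtain ⟨a, b, c⟩ := real_inv _ h1 h2 h3 x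
      exact ⟨b ▸ h.1, c h.2.1, by rw [a, b]; exact h.2.2⟩
    · have a : (⟨0, 1⟩ : K3) ≠ 0 := by decide
      have b : (⟨0, 2⟩ : K3) ≠ 0 := by decide
      simp [p3_iff, mulVec_diagonal, a, b]
  · obtain ⟨φ⟩ := exists_qa (p := 5) (-1) (-1) (F := F) (by simpa using hF)
    exact so3_gen hF (.inr rfl) hH hL h1 h φ (starRingEnd K5) st5 Pa pa_real (a := mo 1 ![⟨0, 4⟩, ⟨1, 1⟩, 1])
      (b := !![⟨1,0⟩, ⟨0,4⟩, ⟨0,3⟩; ⟨1,1⟩, ⟨2,0⟩, ⟨1,0⟩; ⟨2,2⟩, ⟨1,0⟩, ⟨1,0⟩]) (by decide +kernel) (by decide +kernel)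
      (fun x => pa_mo _ _ x (by decide +kernel) (by decide +kernel)) (x := ![0, 0, 1]) (by decide +kernel) (by decide +kernel)

end Cfsg.Agent.H16.Su3
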