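import Cfsg.Agent.H16.Su3c

/-!
# Small exceptions in `SU_3(3)`, `SU_3(5)`, IV : coordinates for the cubic extension field subgroups
-/

namespace Cfsg.Agent.H16.Su3
open Matrix Module Cfsg Cfsg.Geo Subgroup H10 H10.As Algebra

section
variable {ι : Type} [Fintype ι] [DecidableEq ι] {F : Type*} [Field F] {σ : F →+* F}
  {f : (ι → F) → (ι → F) → F} {E : Type*} [Field E] [Algebra F E] [Finite E]

theorem det_gal3 (h : finrank F E = 3) (α : E ≃ₐ[F] E) : LinearMap.det α.toLinearMap = 1 := by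
  classical
  have := Finite.of_injective _ (algebraMap F E).injective
  have h3 : α ^ 3 = 1 := by rw [← h, ← IsGalois.card_aut_eq_finrank]; exact pow_card_eq_one'
  have h4 : LinearMap.det α.toLinearMap ^ 3 = 1 := by
    rw [← map_pow, show α.toLinearMap ^ 3 = (α ^ 3).toLinearMap by ext; simp [pow_succ], h3]
    exact map_one _
  suffices LinearMap.det α.toLinearMap ^ 2 = 1 by rw [← h4, pow_succ, this, one_mul]
  let b := IsGalois.normalBasis F E
  rw [← LinearMap.det_toMatrix b, show LinearMap.toMatrix b b α.toLinearMap = (Equiv.mulLeft α⁻¹).permMatrix F by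
    ext i j
    rw [LinearMap.toMatrix_apply, show α.toLinearMap (b j) = b (α * j) by
      simp only [b]; rw [IsGalois.normalBasis_apply j, IsGalois.normalBasis_apply (α * j)]; rfl]
    simp [PEquiv.toMatrix_apply, Finsupp.single_apply, inv_mul_eq_iff_eq_mul, @eq_comm _ i], det_permutation]
  rcases Int.units_eq_one_or (Equiv.Perm.sign (Equiv.mulLeft α⁻¹)) with e | e <;> simp [e]

theorem fld_herm3 [Module E (ι → F)] [IsScalarTower F E (ι → F)] (hf : SF σ 1 f) (hσ : σ ≠ .id F) (h2 : ∀ α : E ≃ₐ[F] E, LinearMap.det α.toLinearMap = 1)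
    (h : ∀ e : E, ∃ e' : E, ∀ u v : ι → F, f (e • u) v = f u (e' • v)) {m : ℕ} (hm : finrank E (ι → F) = m + 1) :
    ∃ (τ : E →+* E) (Q : ℕ) (T : (Fin (m + 1) → E) ≃ₗ[E] (ι → F)), Nat.card E = Q ^ 2 ∧ (∀ a, τ a = a ^ Q) ∧ (∀ a, τ (τ a) = a) ∧
      (∀ x y, f (T x) (T y) = Algebra.trace F E (x ⬝ᵥ τ ∘ y)) ∧
      ∀ g : GL ι F, (∀ e : E, ∃ e' : E, ∀ y, g.1 *ᵥ (e • y) = e' • g.1 *ᵥ y) → Sim f g 1 → det g.1 = 1 →
        ∃ (α : E ≃ₐ[F] E) (G : Matrix _ _ E), (∀ x, g.1 *ᵥ T x = T (G *ᵥ (α ∘ x))) ∧ det G ^ (Q + 1) = 1 ∧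
          Algebra.norm F (det G) = 1 := by
  have := Finite.of_injective _ (algebraMap F E).injective
  have : Nontrivial (ι → F) := nontrivial_of_finrank_eq_succ hm
  have := finite_of_finrank_eq_succ hm
  obtain ⟨v, hv⟩ := exists_ne (0 : ι → F)
  have ex : ∀ {a b : E}, (∀ u, f u (a • v) = f u (b • v)) → a = b := fun h => smul_left_injective E hv (hf.ext_right h)
  obtain ⟨τ, ht⟩ : ∃ τ : E →+* E, ∀ e u v, f (e • u) v = f u (τ e • v) := by
    choose t ht using h
    exact ⟨{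
      toFun := t, map_one' := ex fun u => by rw [← ht, one_smul, one_smul]
      map_mul' a b := ex fun u => by rw [← ht, mul_comm a, mul_smul, ht, ht, mul_smul]
      map_zero' := ex fun u => by rw [← ht, zero_smul, zero_smul, hf.zero_left, hf.zero_right]
      map_add' a b := ex fun u => by rw [← ht, add_smul, add_smul, hf.add_left, hf.add_right, ht, ht] }, ht⟩
  have a1 : ∀ a, τ (τ a) = a := fun a => ex fun u => by rw [← ht, hf.symm, ← ht, ← hf.symm]
  have a2 : ∀ c, τ (algebraMap F E c) = algebraMap F E (σ c) := fun c => ex fun u => by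
    rw [← ht, algebraMap_smul, algebraMap_smul, hf.smul_left, hf.smul_right, hf.σσ]
  have a3 : τ ≠ .id E := fun e => hσ (RingHom.ext fun c => (algebraMap F E).injective ((a2 c).symm.trans (RingHom.congr_fun e _)))
  let T := (finBasisOfFinrankEq E _ hm).equivFun.symm
  have : ∀ x y, ∃ z, ∀ c : E, Algebra.trace F E (z * c) = f (c • T x) (T y) := fun x y =>
    ⟨_, LinearMap.BilinForm.apply_toDual_symm_apply (hB := traceForm_nondegenerate F E)
      { toFun c := f (c • T x) (T y), map_add' a b := by rw [add_smul, hf.add_left]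
        map_smul' a b := by rw [smul_assoc, hf.smul_left]; rfl }⟩
  choose ψ hψ using this
  have a4 : ∀ x y, f (T x) (T y) = Algebra.trace F E (ψ x y) := fun x y => by simpa using (hψ x y 1).symm
  have a5 : SF τ 1 ψ := sf_of_herm a1 (fun x y v => tr_ext (F := F) fun c => by simp [hψ, add_mul, hf.add_left])
    (fun c x v => tr_ext (F := F) fun d => by rw [mul_comm c, mul_assoc, hψ, hψ, map_smul, smul_smul, mul_comm])
    (fun v w => tr_ext (F := F) fun c => by
      rw [hψ, ← a1 c, ← map_mul, tr_hom τ a2, hψ, ht, hf.symm, one_mul, a1]) fun x hx =>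
    (hf.isNondeg _ (T.map_ne_zero_iff.2 hx)).imp (fun ⟨u, h⟩ => ⟨T.symm u, fun e => h (by
      rw [← T.apply_symm_apply u, a4, e, map_zero])⟩) fun ⟨u, h⟩ => ⟨T.symm u, fun e => h (by
      rw [← T.apply_symm_apply u, a4, e, map_zero])⟩
  obtain ⟨k, hk⟩ := exists_orthonormal a5 a3
  obtain ⟨Q, q1, q2⟩ := exists_q_of_involutive a3 a1
  have a6 : ∀ x y, f (((glEquiv k).trans T) x) (((glEquiv k).trans T) y) = Algebra.trace F E (x ⬝ᵥ τ ∘ y) := fun x y => by
    refine (a4 (k.1 *ᵥ x) (k.1 *ᵥ y)).trans ?_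
    rw [a5.eq_gram, formOfGram_mulVec, hk, formOfGram_eq, one_smul, one_mulVec]
  refine ⟨τ, Q, _, q1, q2, a1, a6, fun g h1 h3 h4 => ?_⟩
  generalize (glEquiv k).trans T = T at a6
  have ex : ∀ {a b : E}, a • g.1 *ᵥ v = b • g.1 *ᵥ v → a = b := fun h =>
    smul_left_injective E (fun e => hv (eq_zero_of_mulVec_eq_zero g.det_ne_zero e)) h
  obtain ⟨α, hs⟩ : ∃ α : E ≃ₐ[F] E, ∀ (e : E) y, g.1 *ᵥ (e • y) = α e • g.1 *ᵥ y := by
    choose s hs using h1
    let α : E →ₐ[F] E :=
      { toFun := s, map_one' := ex (by rw [← hs, one_smul, one_smul]), map_mul' a b := ex (by rw [← hs, mul_smul, hs, hs, mul_smul])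
        map_zero' := ex (by rw [← hs, zero_smul, zero_smul, mulVec_zero])
        map_add' a b := ex (by rw [← hs, add_smul, add_smul, mulVec_add, hs, hs])
        commutes' c := ex (by rw [← hs, algebraMap_smul, algebraMap_smul, mulVec_smul]) }
    exact ⟨.ofBijective α (Finite.injective_iff_bijective.1 α.toRingHom.injective), hs⟩
  obtain ⟨G, b1⟩ : ∃ G : Matrix _ _ E, ∀ x, g.1 *ᵥ T x = T (G *ᵥ (α ∘ x)) :=
    ⟨of fun i j => T.symm (g.1 *ᵥ T (Pi.single j 1)) i, fun x => by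
      rw [← T.symm_apply_eq]
      conv_lhs => rw [pi_eq_sum_univ' x]
      simp only [map_sum, mulVec_sum, hs, map_smul]
      ext i; simp [mulVec, dotProduct, mul_comm]⟩
  refine ⟨α, G, b1, ?_, ?_⟩
  · have : Gᵀ * G.map τ = 1 := Matrix.ext fun i j => tr_ext (F := F) fun c => by
      have := h3 (T (Pi.single i (α.symm c))) (T (Pi.single j 1))
      rw [b1, b1, a6, a6, one_mul] at this
      refine Eq.trans (congrArg _ ?_) (this.trans ((tr_hom (σ := .id F) (α : E →+* E) α.commutes _).symm.trans (congrArg _ ?_))) <;>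
        simp [mul_apply, dotProduct, Finset.mul_sum, mulVec, Pi.single_apply, apply_ite α, apply_ite τ, one_apply, mul_comm,
          mul_left_comm, mul_assoc]
    rw [pow_succ', ← q2, RingHom.map_det, ← det_transpose, ← det_mul]; exact this ▸ det_one
  · have : toLin' g.1 = (T.restrictScalars F : _ →ₗ[F] _) ∘ₗ (((toLin' G).restrictScalars F ∘ₗ
        LinearMap.pi fun i => α.toLinearMap ∘ₗ LinearMap.proj i)) ∘ₗ ((T.restrictScalars F).symm : _ →ₗ[F] _) :=
      LinearMap.ext fun x => by rw [← T.apply_symm_apply x, toLin'_apply, b1]; simp; rfl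
    rw [← LinearMap.det_toLin', this, LinearMap.det_conj, LinearMap.det_comp, LinearMap.det_pi, LinearMap.det_restrictScalars] at h4
    simpa [h2] using h4

end

universe u
variable {F : Type u} [Field F] [Fintype F] {q : ℕ} (hF : Nat.card F = q ^ 2) {H : Subgroup (GL (Fin 3) F)}
  {K : Subalgebra F (Matrix (Fin 3) (Fin 3) F)} (hK : IsFieldSubalgebra 3 K) (h1 : IsAdjointClosedFor (hermForm 3 F q) K)
  (h : H ≤ subalgebraNormalizer K)
include hF hK h1 h

theorem fld_su3 (hH : H ≤ GU 3 F q ⊓ specialLinear (Fin 3) F) {P : Prop}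
    (hP : ∀ (E : Type u) [Field E] [Algebra F E] [Finite E] (τ : E →+* E) (T : (Fin 1 → E) ≃ₗ[F] (Fin 3 → F)),
      finrank F E = 3 → (∀ a, τ a = a ^ q ^ 3) →
      (∀ x y, hermForm 3 F q (T x) (T y) = Algebra.trace F E (x ⬝ᵥ τ ∘ y)) →
      (∀ g ∈ H, ∃ (α : E ≃ₐ[F] E) (G : Matrix _ _ E), (∀ x, g.1 *ᵥ T x = T (G *ᵥ (α ∘ x))) ∧ det G ^ (q ^ 3 + 1) = 1 ∧
        det G ^ (((q ^ 3) ^ 2 - 1) / (q ^ 2 - 1)) = 1) → P) : P := by
  refine Mx.fld_bridge hK fun E _ _ _ _ _ hE a b => ?_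
  have := Module.finite_of_finite F (M := E)
  have c : Nat.card E = (q ^ 3) ^ 2 := by rw [Module.natCard_eq_pow_finrank (K := F), hF, hE, ← pow_mul, ← pow_mul, mul_comm]
  obtain ⟨τ, Q, T, c1, c2, c3, c4, c5⟩ := fld_herm3 (E := E) (sf_herm hF) (conj_ne_id hF) (det_gal3 hE) (fun e => by
    obtain ⟨k, c, d⟩ := b e
    obtain ⟨k', c', d'⟩ := h1 k c
    exact ((a k').1 c').imp fun e' l u v => by rw [← d, d', l]) (m := 0) (by
      have := finrank_mul_finrank F E (Fin 3 → F)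
      rw [hE, finrank_fin_fun] at this
      omega)
  obtain rfl : Q = q ^ 3 := Nat.pow_left_injective two_ne_zero (c1.symm.trans c)
  refine hP E τ (T.restrictScalars F) hE c2 c4 fun g hg => ?_
  obtain ⟨α, G, d⟩ := c5 g ((Mx.mem_nrm_iff a b).1 (h hg)) (su_sim (hH.trans inf_le_left) g hg) (H09.mem_specialLinear.1 (hH hg).2)
  refine ⟨α, G, d.1, d.2.1, ?_⟩
  have := FiniteField.algebraMap_norm_eq_pow (K := F) (x := det G)
  rwa [d.2.2, map_one, c, hF, eq_comm] at this

end Cfsg.Agent.H16.Su3
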