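import Cfsg.Agent.H16.Su3d

/-!
# Small exceptions in `SU_3(3)`, `SU_3(5)`, V : the cubic extension field subgroups lie in `L_2(7)`
-/

namespace Cfsg.Agent.H16.Su3
open Matrix Module Cfsg Cfsg.Geo Subgroup H10 H10.As Algebra

/-- coordinates of the seventh roots of unity -/
def S7 {R : Type*} [Ring R] (t : R) : Fin 7 → Fin 3 → R :=
  ![![1, 0, 0], ![0, 1, 0], ![0, 0, 1], ![1, 1 + t, t], ![t, -1, -1], ![-1, -1, -1 - t], ![-1 - t, -t, 1]]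

/-- the Gram matrix -/
def G7 {R : Type*} [Ring R] (t : R) : Matrix (Fin 3) (Fin 3) R := !![3, -1 - t, -1 - t; t, 3, -1 - t; t, t, 3]

/-- the group `7 : 3` -/
def MM {R : Type*} [Ring R] (t : R) (j m : Fin 7) : Matrix (Fin 3) (Fin 3) R := of fun i k => S7 t (![j, j + m, j + m + m] k) i

theorem pt_map {K : Type*} [Field K] {N : ℕ} {R : Fin N → Fin 3 → K} {M : Matrix (Fin 3) (Fin 3) K}
    (h : ∀ k, ∃ l, ∃ c : K, M *ᵥ R k = c • R l) (d : K) (x : Fin 3 → K) (hx : ∃ k, ∃ c : K, x = c • R k) :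
    ∃ k, ∃ c : K, (d • M) *ᵥ x = c • R k := by
  obtain ⟨k, c, rfl⟩ := hx
  obtain ⟨l, c', h⟩ := h k
  exact ⟨l, d * (c * c'), by rw [smul_mulVec, mulVec_smul, h, smul_smul, smul_smul, mul_assoc]⟩

universe u
variable {F : Type u} [Field F] [Fintype F] {q : ℕ} (hF : Nat.card F = q ^ 2) {H : Subgroup (GL (Fin 3) F)}
  {K : Subalgebra F (Matrix (Fin 3) (Fin 3) F)} (hK : IsFieldSubalgebra 3 K) (h1 : IsAdjointClosedFor (hermForm 3 F q) K)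
  (h : H ≤ subalgebraNormalizer K)
include hF hK h1 h

set_option maxHeartbeats 1000000 in
theorem fld_coords (hq : q = 3 ∨ q = 5) (hH : H ≤ GU 3 F q ⊓ specialLinear (Fin 3) F) {θ ω : F} (hθ : θ * θ + θ + 2 = 0)
    (hω : ω * ω + ω + 1 = 0) (h7 : (7 : F) ≠ 0) : ∃ (e : Fin 3 ≃ Fin 3) (P : GL (Fin 3) F),
      gramMatrix (pf e P (hermForm 3 F q)) = G7 θ ∧
      ∀ g ∈ H, ∃ (d : F) (j m : Fin 7), (m = 1 ∨ m = 2 ∨ m = 4) ∧ pm e P g.1 = d • MM θ j m := by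
  refine fld_su3 hF hK h1 h hH fun E _ _ _ τ T a1 a2 a6 a7 => ?_
  have hf := sf_herm (n := 3) hF
  have a5 := congrArg (algebraMap F E) hθ
  have a4 := congrArg (algebraMap F E) hω
  simp only [map_mul, map_add, map_one, map_zero, map_ofNat] at a4 a5
  obtain ⟨ζ, b1, b2⟩ : ∃ ζ : E, orderOf ζ = 7 ∧ ζ + ζ ^ 2 + ζ ^ 4 = algebraMap F E θ := by
    obtain ⟨y, hy⟩ := exists_prime_orderOf_dvd_card' (G := Eˣ) 7 (hp := ⟨by decide⟩) (by
      rw [Nat.card_units, Module.natCard_eq_pow_finrank (K := F), hF, a1]; rcases hq with rfl | rfl <;> decide)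
    rw [← orderOf_units] at hy
    have c : y.1 ^ 7 = 1 := hy ▸ pow_orderOf_eq_one _
    have d : y.1 - 1 ≠ 0 := fun h => by simp [sub_eq_zero.1 h] at hy
    generalize algebraMap F E θ = w at a5
    refine (mul_eq_zero.1 (mul_left_cancel₀ d (?_ : _ * ((y.1 + y.1 ^ 2 + y.1 ^ 4 - w) *
      (y.1 ^ 3 + (y.1 ^ 3) ^ 2 + (y.1 ^ 3) ^ 4 - w)) = _ * 0))).elim
      (fun h => ⟨_, hy, sub_eq_zero.1 h⟩) fun h => ⟨_, (Nat.Coprime.orderOf_pow (by rw [hy]; decide)).trans hy, sub_eq_zero.1 h⟩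
    grind
  have b3 : ζ ^ 7 = 1 := b1 ▸ pow_orderOf_eq_one _
  have b4 : ζ - 1 ≠ 0 := fun h => by simp [sub_eq_zero.1 h] at b1
  have b5 : 1 + ζ + ζ ^ 2 + ζ ^ 3 + ζ ^ 4 + ζ ^ 5 + ζ ^ 6 = 0 := mul_left_cancel₀ b4 (by linear_combination b3)
  obtain ⟨e, P, c1, c2, c4⟩ := exists_cols hf.toSq (fun i : Fin 3 => T fun _ => ζ ^ i.1) rfl (G := G7 θ) (fun i j =>
    (algebraMap F E).injective (by
      simp only [a6, FiniteField.algebraMap_trace_eq_sum_pow, a1, hF, dotProduct, Fin.sum_univ_succ, Function.comp, a2,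
        Finset.univ_eq_empty, Finset.sum_empty, add_zero, ← pow_mul, ← pow_add]
      rw [Finset.sum_congr rfl fun i _ => pow_eq_pow_mod _ b3]
      rcases hq with rfl | rfl <;> fin_cases i <;> fin_cases j <;> simp [G7, Finset.sum_range_succ, ← b2, map_ofNat] <;>
        first | ring1 | linear_combination b5)) (by
    rw [show det (G7 θ) = 7 by simp [G7, det_fin_three]; linear_combination (10 : F) * hθ]; exact h7)
  have c3 : ∀ k : Fin 7, (T fun _ => ζ ^ k.1) = ∑ b, S7 θ k b • T fun _ => ζ ^ b.1 := fun k => by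
    simp only [← map_smul, ← map_sum]; congr 1; ext
    fin_cases k <;> simp [S7, Fin.sum_univ_succ, Algebra.smul_def, ← b2] <;> grind
  refine ⟨e, P, c1, fun g hg => ?_⟩
  obtain ⟨α, G, d1, d2, d3⟩ := a7 g hg
  rw [det_eq_elem_of_card_eq_one rfl 0] at d2 d3
  have d4 : G 0 0 ^ 21 = 1 := by
    rcases hq with rfl | rfl
    · rw [show 21 = Nat.gcd (3 ^ 3 + 1) (((3 ^ 3) ^ 2 - 1) / (3 ^ 2 - 1)) * 3 by decide, pow_mul, pow_gcd_eq_one.2 ⟨d2, d3⟩, one_pow]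
    · rw [show 21 = Nat.gcd (5 ^ 3 + 1) (((5 ^ 3) ^ 2 - 1) / (5 ^ 2 - 1)) by decide, pow_gcd_eq_one.2 ⟨d2, d3⟩]
  obtain ⟨j, j1, j2⟩ := (b1 ▸ IsPrimitiveRoot.orderOf ζ).eq_pow_of_pow_eq_one (ξ := G 0 0 ^ 15) (by
    rw [← pow_mul, show 15 * 7 = 21 * 5 by rfl, pow_mul, d4, one_pow])
  obtain ⟨d, hd⟩ : ∃ d, algebraMap F E d = G 0 0 ^ 7 := by
    have : (1 - G 0 0 ^ 7) * ((algebraMap F E ω - G 0 0 ^ 7) * (algebraMap F E ω * algebraMap F E ω - G 0 0 ^ 7)) = 0 := by grind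
    simp only [mul_eq_zero, sub_eq_zero] at this
    rcases this with e | e | e
    exacts [⟨1, by simpa⟩, ⟨ω, e⟩, ⟨ω * ω, by simpa⟩]
  have d5 : G 0 0 = algebraMap F E d * ζ ^ j := by rw [hd, j2, ← pow_add, show 7 + 15 = 21 + 1 by rfl, pow_add, d4]; simp
  obtain ⟨m, m1, m2⟩ : ∃ m : Fin 7, (m = 1 ∨ m = 2 ∨ m = 4) ∧ α ζ = ζ ^ m.1 := by
    have e1 : ζ ^ 3 = 1 + (1 + algebraMap F E θ) * ζ + algebraMap F E θ * ζ ^ 2 := by rw [← b2]; grind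
    have e2 := congrArg α e1
    simp only [map_pow, map_add, map_mul, map_one, AlgEquiv.commutes] at e2
    rw [← b2] at e2
    have : (α ζ - ζ) * ((α ζ - ζ ^ 2) * (α ζ - ζ ^ 4)) = 0 := by grind
    simp only [mul_eq_zero, sub_eq_zero] at this
    rcases this with e | e | e
    exacts [⟨1, .inl rfl, by simpa⟩, ⟨2, .inr (.inl rfl), e⟩, ⟨4, .inr (.inr rfl), e⟩]
  refine ⟨d, ⟨j, j1⟩, m, m1, c4 _ _ fun a => ?_⟩
  have pa : ∀ x y : Fin 7, ζ ^ (x + y).1 = ζ ^ x.1 * ζ ^ y.1 := fun x y => by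
    rw [Fin.val_add, ← pow_eq_pow_mod _ b3, pow_add]
  simp only [Matrix.smul_apply, MM, of_apply, smul_eq_mul, mul_smul, ← Finset.smul_sum, ← c3]
  rw [d1, ← map_smul]; congr 1; ext i
  fin_cases a <;> simp [mulVec, dotProduct, Fin.fin_one_eq_zero i, d5, m2, pa, Algebra.smul_def, mul_assoc, sq]

theorem fld_gen (hq : q = 3 ∨ q = 5) (hH : IsMaximalIn (GU 3 F q ⊓ specialLinear (Fin 3) F) H)
    {L : Type} [Field L] (φ : F ≃+* L) {τ : L → L} (hτ : ∀ a, a ^ q = τ a) {θ ω : L} (hθ : θ * θ + θ + 2 = 0)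
    (hω : ω * ω + ω + 1 = 0) (h7 : (7 : L) ≠ 0) (R : Fin 21 → Fin 3 → L)
    (hR : ∀ j m, (m = 1 ∨ m = 2 ∨ m = 4) → ∀ k, ∃ l, MM θ j m *ᵥ R k = R l) {a b : Matrix (Fin 3) (Fin 3) L}
    (ha : aᵀ * G7 θ * a.map τ = G7 θ ∧ det a = 1) (hb : bᵀ * G7 θ * b.map τ = G7 θ ∧ det b = 1)
    (ha' : ∀ k, ∃ l, a *ᵥ R k = R l ∨ a *ᵥ R k = -R l) (hb' : ∀ k, ∀ c : L, b *ᵥ R 0 ≠ c • R k)
    (hn : ∀ (d : L) j m, a ≠ d • MM θ j m) : False := by
  have hf := sf_herm (n := 3) hF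
  obtain ⟨θ, rfl⟩ := φ.surjective θ
  obtain ⟨ω, rfl⟩ := φ.surjective ω
  obtain ⟨e, P, a1, a2⟩ := fld_coords hF hK h1 h hq hH.1.le (θ := θ) (ω := ω) (φ.injective (by simpa [map_ofNat] using hθ))
    (φ.injective (by simpa using hω)) (fun e => h7 (by simpa [map_ofNat] using congrArg φ e))
  have c4 : ∀ k i, φ (S7 θ k i) = S7 (φ θ) k i := fun k i => by fin_cases k <;> fin_cases i <;> simp [S7]
  have a3 : ∀ g ∈ H, ∃ (d : L) (j m : Fin 7), (m = 1 ∨ m = 2 ∨ m = 4) ∧ (pm e P g.1).map φ = d • MM (φ θ) j m := fun g hg => by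
    obtain ⟨d, j, m, b1, b2⟩ := a2 g hg
    exact ⟨φ d, j, m, b1, by rw [b2]; ext; simp [MM, c4]⟩
  obtain ⟨g, i1, rfl⟩ := nm_coords φ (τ := τ) (fun a => by rw [conj_apply, map_pow, hτ]) hf.toSq hH
    (fun g a b => ⟨fun u v => (a u v).trans (one_mul _), H09.mem_specialLinear.2 b⟩) e P (G := G7 (φ θ))
    (by rw [a1]; ext1 i j; fin_cases i <;> fin_cases j <;> simp [G7, map_ofNat])
    (fun x _ => ∃ k, ∃ c : L, x = c • R k) (fun g hg x _ hx => by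
      obtain ⟨d, j, m, b1, b2⟩ := a3 g hg
      rw [b2]
      exact pt_map (fun k => (hR j m b1 k).imp fun l hl => ⟨1, by rw [hl, one_smul]⟩) d x hx) ha hb
    (fun x _ hx => by
      rw [← one_smul L a]
      exact pt_map (fun k => (ha' k).imp fun l hl => hl.elim (fun hl => ⟨1, by rw [hl, one_smul]⟩)
        fun hl => ⟨-1, by rw [hl, neg_one_smul]⟩) 1 x hx) (x := R 0) (y := 0)
    ⟨⟨0, 1, (one_smul _ _).symm⟩, fun ⟨k, c, e⟩ => hb' k c e⟩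
  obtain ⟨d, j, m, -, b2⟩ := a3 g i1
  exact hn d j m b2

end Cfsg.Agent.H16.Su3
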