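import Cfsg.Agent.H16.Su3e

/-!
# Small exceptions in `SU_3(3)`, `SU_3(5)`, VI : the 21 points of `L_2(7)`
-/

namespace Cfsg.Agent.H16.Su3
open Matrix Module Cfsg Cfsg.Geo Subgroup H10 H10.As Algebra

/-- the points over the field of order 9 -/
def R3 : Fin 21 → Fin 3 → K3 :=
  ![![⟨0,0⟩, ⟨1,0⟩, ⟨0,2⟩], ![⟨2,2⟩, ⟨0,1⟩, ⟨1,1⟩], ![⟨1,2⟩, ⟨2,2⟩, ⟨2,0⟩],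
    ![⟨0,2⟩, ⟨2,1⟩, ⟨0,2⟩], ![⟨1,1⟩, ⟨2,0⟩, ⟨2,1⟩], ![⟨2,0⟩, ⟨2,0⟩, ⟨1,0⟩],
    ![⟨0,2⟩, ⟨2,0⟩, ⟨1,0⟩], ![⟨2,1⟩, ⟨0,1⟩, ⟨2,2⟩], ![⟨1,0⟩, ⟨1,2⟩, ⟨0,2⟩],
    ![⟨1,0⟩, ⟨2,1⟩, ⟨0,2⟩], ![⟨2,2⟩, ⟨2,0⟩, ⟨1,1⟩], ![⟨0,2⟩, ⟨0,1⟩, ⟨0,1⟩],
    ![⟨0,2⟩, ⟨0,1⟩, ⟨1,0⟩], ![⟨1,1⟩, ⟨2,0⟩, ⟨1,0⟩], ![⟨0,1⟩, ⟨1,1⟩, ⟨1,2⟩],
    ![⟨1,0⟩, ⟨2,1⟩, ⟨1,0⟩], ![⟨1,0⟩, ⟨0,0⟩, ⟨0,2⟩], ![⟨1,2⟩, ⟨1,1⟩, ⟨1,2⟩],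
    ![⟨1,0⟩, ⟨0,2⟩, ⟨0,0⟩], ![⟨0,2⟩, ⟨0,1⟩, ⟨2,2⟩], ![⟨1,2⟩, ⟨2,2⟩, ⟨1,2⟩]]

/-- the points over the field of order 25 -/
def R5 : Fin 21 → Fin 3 → K5 :=
  ![![⟨1,0⟩, ⟨0,2⟩, ⟨1,0⟩], ![⟨4,2⟩, ⟨4,0⟩, ⟨4,2⟩], ![⟨2,2⟩, ⟨1,3⟩, ⟨0,3⟩],
    ![⟨1,0⟩, ⟨0,2⟩, ⟨3,4⟩], ![⟨4,2⟩, ⟨1,4⟩, ⟨2,0⟩], ![⟨0,3⟩, ⟨1,3⟩, ⟨0,1⟩],
    ![⟨3,4⟩, ⟨0,4⟩, ⟨1,2⟩], ![⟨2,0⟩, ⟨2,1⟩, ⟨2,3⟩], ![⟨0,1⟩, ⟨3,0⟩, ⟨4,4⟩],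
    ![⟨1,2⟩, ⟨3,0⟩, ⟨4,3⟩], ![⟨2,3⟩, ⟨4,0⟩, ⟨2,3⟩], ![⟨4,4⟩, ⟨3,2⟩, ⟨2,2⟩],
    ![⟨4,3⟩, ⟨1,1⟩, ⟨4,1⟩], ![⟨2,3⟩, ⟨4,3⟩, ⟨4,2⟩], ![⟨2,2⟩, ⟨3,2⟩, ⟨0,3⟩],
    ![⟨4,1⟩, ⟨3,3⟩, ⟨1,0⟩], ![⟨4,2⟩, ⟨4,0⟩, ⟨2,3⟩], ![⟨0,3⟩, ⟨1,3⟩, ⟨2,0⟩],
    ![⟨1,0⟩, ⟨3,3⟩, ⟨1,0⟩], ![⟨2,3⟩, ⟨1,2⟩, ⟨4,2⟩], ![⟨2,0⟩, ⟨3,2⟩, ⟨2,2⟩]]

universe u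
variable {F : Type u} [Field F] [Fintype F] {q : ℕ} (hF : Nat.card F = q ^ 2) {H : Subgroup (GL (Fin 3) F)}
  {K : Subalgebra F (Matrix (Fin 3) (Fin 3) F)} (hK : IsFieldSubalgebra 3 K) (h1 : IsAdjointClosedFor (hermForm 3 F q) K)
  (h : H ≤ subalgebraNormalizer K)
include hF hK h1 h

theorem fld35 (hq : q = 3 ∨ q = 5) (hH : IsMaximalIn (GU 3 F q ⊓ specialLinear (Fin 3) F) H) : False := by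
  rcases hq with rfl | rfl
  · obtain ⟨φ⟩ := exists_qa (p := 3) (-1) 0 (F := F) (by simpa using hF)
    exact fld_gen hF hK h1 h (.inl rfl) hH φ st3 (θ := ⟨1, 2⟩) (ω := 1) (by decide) (by decide) (by decide) R3
      (by decide +kernel) (a := !![⟨2,0⟩, ⟨0,0⟩, ⟨0,0⟩; ⟨0,1⟩, ⟨0,2⟩, ⟨2,1⟩; ⟨1,0⟩, ⟨2,2⟩, ⟨0,1⟩])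
      (b := !![⟨2,0⟩, ⟨0,0⟩, ⟨0,0⟩; ⟨2,0⟩, ⟨0,2⟩, ⟨1,2⟩; ⟨0,2⟩, ⟨1,1⟩, ⟨0,1⟩]) (by decide +kernel) (by decide +kernel)
      (by decide +kernel) (by decide +kernel) (by decide +kernel)
  · obtain ⟨φ⟩ := exists_qa (p := 5) (-1) (-1) (F := F) (by simpa using hF)
    exact fld_gen hF hK h1 h (.inr rfl) hH φ st5 (θ := ⟨3, 2⟩) (ω := ⟨0, 1⟩) (by decide) (by decide) (by decide) R5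
      (by decide +kernel) (a := !![⟨3,3⟩, ⟨4,2⟩, ⟨2,3⟩; ⟨4,2⟩, ⟨0,4⟩, ⟨4,3⟩; ⟨4,3⟩, ⟨4,2⟩, ⟨1,3⟩])
      (b := !![⟨4,0⟩, ⟨0,0⟩, ⟨0,0⟩; ⟨0,0⟩, ⟨4,0⟩, ⟨0,0⟩; ⟨4,2⟩, ⟨4,2⟩, ⟨1,0⟩]) (by decide +kernel) (by decide +kernel)
      (by decide +kernel) (by decide +kernel) (by decide +kernel)

end Cfsg.Agent.H16.Su3
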