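import Cfsg.Agent.H16.Su3g

/-!
# Small exceptions in `SU_3(5)`, VIII : the normaliser of the extraspecial group of order 27
-/

namespace Cfsg.Agent.H16.Su3
open Matrix Module Cfsg Cfsg.Geo Subgroup H10 H10.As

theorem scalar_of_comm {N : Matrix (Fin 3) (Fin 3) K5} (h1 : N * RR (0, 1, 0) = RR (0, 1, 0) * N)
    (h2 : N * RR (0, 0, 1) = RR (0, 0, 1) * N) : N = N 0 0 • 1 := by
  have a : ∀ i j, i ≠ j → N i j = 0 := fun i j h => by
    have e : pw3 j - pw3 i ≠ 0 := (by decide : ∀ i j, i ≠ j → pw3 j - pw3 i ≠ 0) i j h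
    rw [show RR (0, 1, 0) = diagonal pw3 by decide +kernel] at h1
    have := congrFun₂ h1 i j
    rw [mul_diagonal, diagonal_mul] at this
    exact mul_left_cancel₀ e (by linear_combination this)
  have b := congrFun₂ h2 1 0
  have c := congrFun₂ h2 2 1
  simp [mul_apply, RR, Fin.sum_univ_three, pw3] at b c
  ext1 i j
  by_cases h : i = j
  · subst h; fin_cases i <;> simp [b, c]
  · simp [a i j h, h]

theorem norm_pt {M : Matrix (Fin 3) (Fin 3) K5} (hM : det M = 1) {u v : Fin 3 × Fin 3 × Fin 3}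
    (h1 : M * RR (0, 1, 0) = RR u * M) (h2 : M * RR (0, 0, 1) = RR v * M) (x : Fin 3 → K5)
    (hx : ∃ k, ∃ c : K5, x = c • S36 k) : ∃ k, ∃ c : K5, M *ᵥ x = c • S36 k := by
  have hu : IsUnit (det M) := hM ▸ isUnit_one
  have a1 := rr_comm u v (((isUnit_iff_isUnit_det _).2 hu).mul_right_cancel (by
    rw [mul_assoc, ← h2, ← mul_assoc, ← h1, smul_mul_assoc, mul_assoc (RR v), ← h1, ← mul_assoc, ← h2, mul_assoc, mul_assoc,
      ← Matrix.mul_smul]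
    congr 1; decide +kernel))
  obtain ⟨b1, b2, b3⟩ := ww1 u v a1
  have b4 : IsUnit (det (WW u v)) := b3.isUnit
  have c : ∀ {X r : Matrix (Fin 3) (Fin 3) K5}, M * X = r * M → WW u v * X = r * WW u v →
      (WW u v)⁻¹ * M * X = X * ((WW u v)⁻¹ * M) := fun {X r} e1 e2 => by
    have : (WW u v)⁻¹ * r = X * (WW u v)⁻¹ := by
      calc _ = (WW u v)⁻¹ * (r * WW u v) * (WW u v)⁻¹ := by rw [mul_assoc, mul_nonsing_inv_cancel_right _ _ b4]
        _ = _ := by rw [← e2, nonsing_inv_mul_cancel_left _ _ b4]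
    rw [mul_assoc, e1, ← mul_assoc, this, mul_assoc]
  have d := scalar_of_comm (c h1 b1) (c h2 b2)
  generalize ((WW u v)⁻¹ * M) 0 0 = s at d
  have e : M = s • WW u v := by
    rw [← mul_nonsing_inv_cancel_left _ M b4, d, Matrix.mul_smul, mul_one]
  rw [e, det_smul, Fintype.card_fin] at hM
  rw [e]
  refine pt_map (fun k => (ww2 u v a1 ?_ k).imp fun l hl => ⟨_, hl⟩) s x hx
  exact (by decide +kernel : ∀ s d : K5, s ^ 3 * d = 1 → d ^ 8 = 1) s _ hM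

variable {F : Type*} [Field F] [Fintype F] {R : Subgroup (GL (Fin 3) F)}

omit [Fintype F] in
theorem ex_gens (h1 : IsSymplecticTypeGroup 3 R) (h2 : ActsAbsolutelyIrreducibly (matrixSet R)) (h3 : Nat.card R = 27)
    (h4 : Nat.card (center R) = 3) {ω : F} (hω : ω * ω + ω + 1 = 0) :
    ∃ x y z : R, x.1.1 * y.1.1 = ω • (y.1.1 * x.1.1) ∧ z.1.1 = ω • 1 := by
  have : Finite R := Nat.finite_of_card_ne_zero (by omega)
  have a1 : Nat.card (R ⧸ center R) = 3 ^ 2 := by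
    have := card_eq_card_quotient_mul_card_subgroup (center R)
    rw [h3, h4] at this
    omega
  have a2 := IsPGroup.isMulCommutative_of_card_eq_prime_sq (p := 3) a1
  obtain ⟨x, y, h⟩ : ∃ x y : R, x * y ≠ y * x := by
    by_contra! h
    have : center R = ⊤ := eq_top_iff.2 fun x _ => mem_center_iff.2 fun y => h y x
    rw [this, card_top] at h4; omega
  have a3 : (y * x)⁻¹ * (x * y) ∈ center R := QuotientGroup.eq.1 (by
    rw [QuotientGroup.mk_mul, QuotientGroup.mk_mul]; exact a2.is_comm.comm _ _)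
  obtain ⟨z, hz⟩ : ∃ z, z = (y * x)⁻¹ * (x * y) := ⟨_, rfl⟩
  rw [← hz] at a3
  obtain ⟨c, hc⟩ := h2.2 z.1.1 (by
    rintro _ ⟨s, hs, rfl⟩
    exact congrArg (fun g : R => g.1.1) (mem_center_iff.1 a3 ⟨s, hs⟩).symm)
  have a4 : x.1.1 * y.1.1 = c • (y.1.1 * x.1.1) := by
    have := congrArg (fun g : R => g.1.1) (show x * y = y * x * z by rw [hz]; group)
    simpa [hc] using this
  have a5 : c ^ 3 = 1 := by
    have := congrArg (fun g : R => g.1.1) (Monoid.pow_exponent_eq_one z)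
    simp only [h1.exponent_eq, SubgroupClass.coe_pow, Units.val_pow_eq_pow_val, hc, OneMemClass.coe_one, Units.val_one,
      _root_.smul_pow, one_pow] at this
    simpa using congrFun₂ this 0 0
  have a6 : c - 1 ≠ 0 := fun e => h (Subtype.ext (Units.ext (by simpa [sub_eq_zero.1 e] using a4)))
  have a7 : (c - ω) * (c - ω * ω) = 0 := mul_left_cancel₀ a6 (by grind)
  rcases mul_eq_zero.1 a7 with e | e <;> rw [sub_eq_zero] at e
  · exact ⟨x, y, z, e ▸ a4, e ▸ hc⟩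
  · have a8 : ω * c = 1 := by grind
    refine ⟨y, x, z * z, by rw [a4, smul_smul, a8, one_smul], ?_⟩
    simp only [Subgroup.coe_mul, Units.val_mul, hc, smul_mul_smul_comm, mul_one]
    congr 1; grind

theorem ex_vec (hF : Nat.card F = 5 ^ 2) {A B : Matrix (Fin 3) (Fin 3) F} {ω : F} (hω : ω * ω + ω + 1 = 0) (h3 : (3 : F) ≠ 0)
    (hA : ∀ u v, hermForm 3 F 5 (A *ᵥ u) (A *ᵥ v) = hermForm 3 F 5 u v) (hA3 : A * (A * A) = 1) (hB : IsUnit B)
    (h : A * B = ω • (B * A)) : ∃ v, A *ᵥ v = v ∧ hermForm 3 F 5 v v = 1 := by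
  have hf := sf_herm (n := 3) hF
  have a1 : ∀ u, A *ᵥ ((1 + A + A * A) *ᵥ u) = (1 + A + A * A) *ᵥ u := fun u => by
    rw [mulVec_mulVec, mul_add, mul_add, hA3, mul_one]; congr 1; abel
  obtain ⟨v, a2, a3⟩ : ∃ v, A *ᵥ v = v ∧ hermForm 3 F 5 v v ≠ 0 := by
    by_contra! H
    obtain ⟨γ, hγ⟩ : ∃ γ, conj hF γ ≠ γ := by
      by_contra! e; exact conj_ne_id hF (RingHom.ext e)
    have b1 : ∀ s t, A *ᵥ s = s → A *ᵥ t = t → hermForm 3 F 5 s t = 0 := fun s t hs ht => by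
      have c1 := H (s + t) (by rw [mulVec_add, hs, ht])
      have c2 := H (s + γ • t) (by rw [mulVec_add, mulVec_smul, hs, ht])
      simp only [hf.add_left, hf.add_right, hf.smul_left, hf.smul_right, H s hs, H t ht] at c1 c2
      exact mul_left_cancel₀ (sub_ne_zero.2 hγ) (by linear_combination c2 - γ * c1)
    have b2 : 1 + A + A * A = 0 := matrix_eq_iff_mulVec.2 fun u => by
      rw [zero_mulVec]
      refine hf.nondeg _ fun w => hf.zero_comm.1 (mul_left_cancel₀ h3 ?_)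
      have c1 := b1 _ _ (a1 u) (a1 w)
      have c2 : ∀ w, hermForm 3 F 5 ((1 + A + A * A) *ᵥ u) (A *ᵥ w) = hermForm 3 F 5 ((1 + A + A * A) *ᵥ u) w := fun w => by
        rw [← hA _ w, a1]
      rw [add_mulVec _ _ w, add_mulVec _ _ w, one_mulVec, ← mulVec_mulVec w, hf.add_right, hf.add_right, c2, c2, c2] at c1
      linear_combination c1
    have b3 : ∀ a b : F, 1 + a • A + b • (A * A) = 0 → 1 + (a * ω) • A + (b * ω * ω) • (A * A) = 0 := fun a b e => by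
      refine hB.mul_left_cancel ?_
      have := congrArg (· * B) e
      simp only [add_mul, one_mul, smul_mul_assoc, mul_assoc, h, Matrix.mul_smul, smul_smul, zero_mul] at this
      rw [← mul_assoc A B, h] at this
      simpa only [mul_add, mul_one, Matrix.mul_smul, mul_zero, smul_mul_assoc, smul_smul, mul_assoc] using this
    have b4 := b3 1 1 (by simpa using b2)
    have b5 := b3 _ _ b4
    have c1 := congrFun₂ b2 0 0
    have c2 := congrFun₂ b4 0 0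
    have c3 := congrFun₂ b5 0 0
    simp only [Matrix.add_apply, Matrix.smul_apply, one_apply_eq, Matrix.zero_apply, smul_eq_mul] at c1 c2 c3
    exact h3 (by grind)
  obtain ⟨s, l⟩ := exists_norm_eq hF (μ := (hermForm 3 F 5 v v)⁻¹) (by
    rw [inv_pow, ← conj_apply hF, ← one_mul (conj hF _), ← hf.symm])
  exact ⟨s • v, by rw [mulVec_smul, a2], by
    rw [hf.smul_left, hf.smul_right, conj_apply, ← mul_assoc, mul_comm s, l, inv_mul_cancel₀ a3]⟩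

theorem extra25 {q : ℕ} (hF : Nat.card F = q ^ 2) (hq : q = 5) {H : Subgroup (GL (Fin 3) F)}
    (hH : IsMaximalIn (GU 3 F q ⊓ specialLinear (Fin 3) F) H) (h1 : IsSymplecticTypeGroup 3 R)
    (h2 : ActsAbsolutelyIrreducibly (matrixSet R)) (h3 : Nat.card R = 27) (h4 : Nat.card (center R) = 3)
    (h5 : R ≤ GU 3 F q) (h : H ≤ subgroupNormalizer R) : False := by
  subst hq
  have hf := sf_herm (n := 3) hF
  obtain ⟨φ⟩ := exists_qa (p := 5) (-1) (-1) (F := F) (by simpa using hF)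
  obtain ⟨ω, hω⟩ := φ.surjective ⟨0, 1⟩
  have a1 : ω * ω + ω + 1 = 0 := φ.injective (by rw [map_add, map_add, map_mul, map_one, map_zero, hω]; decide)
  have a2 : (3 : F) ≠ 0 := fun e => by
    have := congrArg φ e
    rw [map_ofNat, map_zero] at this; revert this; decide
  obtain ⟨x, y, z, b1, b2⟩ := ex_gens h1 h2 h3 h4 a1
  have b3 : ∀ r : R, r.1.1 * (r.1.1 * r.1.1) = 1 := fun r => by
    have := congrArg (fun g : R => g.1.1) (Monoid.pow_exponent_eq_one r)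
    simpa [h1.exponent_eq, pow_succ'] using this
  have b4 : ∀ r : R, ∀ u v, hermForm 3 F 5 (r.1.1 *ᵥ u) (r.1.1 *ᵥ v) = hermForm 3 F 5 u v := fun r u v =>
    (su_sim h5 r.1 r.2 u v).trans (one_mul _)
  obtain ⟨v, c1, c2⟩ := ex_vec hF a1 a2 (b4 x) (b3 x) y.1.isUnit b1
  have c3 : ∀ w, x.1.1 *ᵥ (y.1.1 *ᵥ w) = ω • y.1.1 *ᵥ (x.1.1 *ᵥ w) := fun w => by
    rw [mulVec_mulVec, mulVec_mulVec, b1, smul_mulVec]
  have c4 : y.1.1 *ᵥ (y.1.1 *ᵥ (y.1.1 *ᵥ v)) = v := by rw [mulVec_mulVec, mulVec_mulVec, mul_assoc, b3, one_mulVec]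
  have c5 : hermForm 3 F 5 (y.1.1 *ᵥ v) v = 0 := by
    have := b4 x (y.1.1 *ᵥ v) v
    rw [c3, c1, hf.smul_left] at this
    exact mul_left_cancel₀ (a := ω - 1) (fun e => a2 (by rw [sub_eq_zero.1 e] at a1; linear_combination a1)) (by
      linear_combination this)
  have c6 : hermForm 3 F 5 v (y.1.1 *ᵥ v) = 0 := hf.zero_comm.1 c5
  have c7 : hermForm 3 F 5 v (y.1.1 *ᵥ (y.1.1 *ᵥ v)) = 0 := by rw [← b4 y, c4, c5]
  have c8 : hermForm 3 F 5 (y.1.1 *ᵥ (y.1.1 *ᵥ v)) v = 0 := hf.zero_comm.1 c7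
  obtain ⟨e, P, d1, -, d2⟩ := exists_cols hf.toSq ![v, y.1.1 *ᵥ v, y.1.1 *ᵥ (y.1.1 *ᵥ v)] rfl (G := 1) (fun a b => by
    fin_cases a <;> fin_cases b <;> simp [-mulVec_mulVec, b4, c2, c5, c6, c7, c8]) (by simp)
  have m : ∀ a b : Matrix (Fin 3) (Fin 3) F, (pm e P (a * b)).map φ = (pm e P a).map φ * (pm e P b).map φ := fun a b => by
    rw [map_mul]; exact Matrix.map_mul (f := φ)
  have d3 : (pm e P x.1.1).map φ = RR (0, 1, 0) := by
    rw [d2 x.1.1 (diagonal ![1, ω, ω * ω]) fun a => by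
      fin_cases a <;> simp [-mulVec_mulVec, Fin.sum_univ_three, c3, c1, mulVec_smul, smul_smul]]
    ext1 i j; fin_cases i <;> fin_cases j <;> simp [hω] <;> decide
  have d4 : (pm e P y.1.1).map φ = RR (0, 0, 1) := by
    rw [d2 y.1.1 !![0, 0, 1; 1, 0, 0; 0, 1, 0] fun a => by
      fin_cases a <;> simp [-mulVec_mulVec, Fin.sum_univ_three, c4]]
    ext1 i j; fin_cases i <;> fin_cases j <;> simp <;> decide
  have d5 : (pm e P z.1.1).map φ = RR (1, 0, 0) := by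
    rw [b2, map_smul, map_one]
    ext1 i j; fin_cases i <;> fin_cases j <;> simp [hω] <;> decide
  have d6 : ∀ u : Fin 3 × Fin 3 × Fin 3, (pm e P (z ^ u.1.1 * x ^ u.2.1.1 * y ^ u.2.2.1).1.1).map φ = RR u := fun u => by
    have p : ∀ (r : R) (n : ℕ), (pm e P (r ^ n).1.1).map φ = (pm e P r.1.1).map φ ^ n := fun r n => by
      rw [SubgroupClass.coe_pow, Units.val_pow_eq_pow_val, map_pow]; exact map_pow φ.mapMatrix _ n
    rw [Subgroup.coe_mul, Subgroup.coe_mul, Units.val_mul, Units.val_mul, m, m, p, p, p, d3, d4, d5, rr_eq]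
  have d7 : ∀ r : R, ∃ u, (pm e P r.1.1).map φ = RR u := fun r => by
    have : Finite R := Nat.finite_of_card_ne_zero (by omega)
    obtain ⟨u, rfl⟩ := ((Nat.bijective_iff_injective_and_card
      (fun u : Fin 3 × Fin 3 × Fin 3 => z ^ u.1.1 * x ^ u.2.1.1 * y ^ u.2.2.1)).2
      ⟨fun u v e => rr_inj (by rw [← d6, ← d6]; exact congrArg (fun r : R => (pm _ P r.1.1).map φ) e), by simp [h3]⟩).2 r
    exact ⟨u, d6 u⟩
  have d8 : ∀ g ∈ H, ∀ r : R, ∃ u, (pm e P g.1).map φ * (pm e P r.1.1).map φ = RR u * (pm e P g.1).map φ := fun g hg r => by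
    obtain ⟨u, hu⟩ := d7 ⟨_, (mem_normalizer_iff.1 (h hg) r.1).1 r.2⟩
    refine ⟨u, ?_⟩
    rw [← hu, ← m, ← m, ← Units.val_mul, ← Units.val_mul, inv_mul_cancel_right]
  obtain ⟨g, i1, i2⟩ := nm_coords φ (τ := star) (fun a => by rw [conj_apply, map_pow, st5]) hf.toSq hH
    (fun g a b => ⟨fun u v => (a u v).trans (one_mul _), H09.mem_specialLinear.2 b⟩) e P (G := 1) (by rw [d1]; simp)
    (fun x _ => ∃ k, ∃ c : K5, x = c • S36 k) (fun g hg w _ hw => by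
      obtain ⟨u, hu⟩ := d8 g hg x
      obtain ⟨u', hu'⟩ := d8 g hg y
      rw [d3] at hu; rw [d4] at hu'
      refine norm_pt ?_ hu hu' w hw
      rw [← RingEquiv.mapMatrix_apply, ← RingEquiv.map_det, det_pm, H09.mem_specialLinear.1 (hH.1.le hg).2, map_one])
    (a := !![⟨1,0⟩, ⟨3,3⟩, ⟨1,1⟩; ⟨0,2⟩, ⟨1,0⟩, ⟨4,0⟩; ⟨0,4⟩, ⟨4,0⟩, ⟨2,0⟩])
    (b := !![⟨4,0⟩, ⟨0,0⟩, ⟨0,0⟩; ⟨0,0⟩, ⟨4,0⟩, ⟨0,0⟩; ⟨0,0⟩, ⟨0,0⟩, ⟨1,0⟩]) (by decide +kernel) (by decide +kernel)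
    (fun x _ hx => by
      rw [← one_smul K5 (!![⟨1,0⟩, ⟨3,3⟩, ⟨1,1⟩; ⟨0,2⟩, ⟨1,0⟩, ⟨4,0⟩; ⟨0,4⟩, ⟨4,0⟩, ⟨2,0⟩] : Matrix (Fin 3) (Fin 3) K5)]
      refine pt_map (fun k => ?_) 1 x hx
      refine Exists.imp (fun l hl => ⟨_, hl⟩) ((?_ : ∀ k, ∃ l,
        (!![⟨1,0⟩, ⟨3,3⟩, ⟨1,1⟩; ⟨0,2⟩, ⟨1,0⟩, ⟨4,0⟩; ⟨0,4⟩, ⟨4,0⟩, ⟨2,0⟩] : Matrix (Fin 3) (Fin 3) K5) *ᵥ S36 k =
        ((!![⟨1,0⟩, ⟨3,3⟩, ⟨1,1⟩; ⟨0,2⟩, ⟨1,0⟩, ⟨4,0⟩; ⟨0,4⟩, ⟨4,0⟩, ⟨2,0⟩] : Matrix (Fin 3) (Fin 3) K5) *ᵥ S36 k) 0 • S36 l) k)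
      decide +kernel) (x := S36 0) (y := 0) ⟨⟨0, 1, (one_smul _ _).symm⟩, by decide +kernel⟩
  obtain ⟨u, hu⟩ := d8 g i1 x
  obtain ⟨u', hu'⟩ := d8 g i1 y
  rw [d3, i2] at hu; rw [d4, i2] at hu'
  revert u u'; decide +kernel

end Cfsg.Agent.H16.Su3
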