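import Mathlib
import Cfsg.Agent.H12.FrE
import Cfsg.Agent.H10.SpN

/-!
# Geometric maximal subgroups of `SU_6(q)`, I
* `su6_1`, `su6_2`, `su6_4`, `su6_5`, `su6_6`
-/

namespace H16.Su6

open Module H10 H10.Form H12.Xf H12.Fr
open scoped commutatorElement

section
variable {F V : Type*} [Field F] [AddCommGroup V] [Module F V] {φ : Form F V} {q : ℕ} [φ.Nondeg] [FiniteDimensional F V]
  {M : Subgroup φ.Isom} {g : φ.Isom}

theorem nd_le (hq : φ.IsUnitary q) {U : Submodule F V} (hU : φ.NondegOn U) (h4 : 4 ≤ finrank F U)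
    (hM : φ.E ⊓ φ.stab U ≤ M) (hg : g ∈ M) (h1 : g ∉ φ.stab U) (h2 : ¬ U.map (g.1 : V →ₗ[F] V) ≤ φ.perp U) : φ.E ≤ M := by
  have hφ := hq.herm
  have hn : 3 ≤ finrank F V := by have := U.finrank_le; omega
  have hA : ∀ x ∈ U, ∀ w ∈ U, ∀ s, φ.Q x = 0 → φ.B x w = 0 → φ.T s = φ.Q w → φ.siegel x w s ∈ M :=
    fun x hx w hw s h3 h4 h5 => hM ⟨φ.siegel_mem_E h3 h4 h5, siegel_mem_stab h3 h4 h5 hx (Or.inl hw)⟩
  have tf : ∀ p ∈ U, φ.Q p = 0 → TF M p := fun p hp h0 t ht => hA p hp 0 (zero_mem _) t h0 (by simp) (by simpa)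
  obtain ⟨x, hx, x1, x2, x3⟩ : ∃ x, φ.Q x = 0 ∧ TF M x ∧ x ∉ U ∧ x ∉ φ.perp U := by
    by_contra! G
    have G' : ∀ w ∈ U, φ.Q w = 0 → g.1 w ∈ U ∨ g.1 w ∈ φ.perp U := fun w hw s =>
      or_iff_not_imp_left.2 (G _ (by simpa) ((tf w hw s).map s hg))
    obtain ⟨u, hu, u0, u1⟩ := hq.exists_singular (W := U) (by omega)
    rcases G' u hu u1 with r | r
    · refine h1 (φ.mem_stab_of_le (span_iso hφ (A := U.comap (g.1 : V →ₗ[F] V)) hU hu u0 u1 r fun w hw s t => ?_))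
      exact (G' w hw s).resolve_right fun e => t (by simpa using e _ r)
    · refine h2 (Submodule.map_le_iff_le_comap.2 (span_iso hφ hU hu u0 u1 r fun w hw s t => ?_))
      exact (G' w hw s).resolve_left fun e => t (φ.B_symm_zero (by simpa using r _ e))
  obtain ⟨a, ha, b, hb, rfl⟩ := spl hU x
  have a0 : a ≠ 0 := by rintro rfl; exact x3 (by simpa)
  have b0 : b ≠ 0 := by rintro rfl; exact x2 (by simpa)
  obtain ⟨C, c1, c2, c3, c4⟩ := exists_le_orth (φ := φ) U (F ∙ a) [a]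
  obtain ⟨p, hp, p0, hQ⟩ := hq.exists_singular (W := C) (by
    have := finrank_span_singleton_le (F := F) a; simp at c4; omega)
  have pa : φ.B a p = 0 := c3 p hp a (by simp)
  have pn : a ∉ F ∙ p := not_mem_span_singleton_symm a0 fun e => p0 (Submodule.disjoint_def.1 c2 p hp e)
  replace hp := c1 hp
  have hX := tf p hp hQ
  have h5 : ∀ y ∈ U, φ.B p y = 0 → y ∈ sgSub M hQ hX := fun y hy h5 =>
    mem_sgSub_of h5 fun c s hs => hA p hp _ (U.smul_mem c hy) s hQ (by simp [h5]) hs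
  obtain ⟨w, w1, w2⟩ := φ.exists_sep' pn
  obtain ⟨y, hy, y', hy', rfl⟩ := spl hU w
  have h6 : a + b ∈ sgSub M hQ hX := mem_sg_tv hq hx (by simp [pa, φ.B_symm_zero (hb p hp)]) x1
    (h5 y hy (by simpa [hy' p hp] using w1 p (Submodule.mem_span_singleton_self p)))
    (by
      have : φ.B a y = 1 := by simpa [hy' a ha] using w2
      simp [this, φ.B_symm_zero (hb y hy)])
  obtain ⟨f, hf, hyp⟩ := hyp_in hU hp p0 hQ
  have hP : Submodule.span F {p, f} ≤ U := by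
    rw [Submodule.span_le]; rintro y (rfl | rfl) <;> assumption
  have hW := hU.inf_perp hyp.nondegOn hP
  have hW' := finrank_le_inf_perp (φ := φ) U (Submodule.span F {p, f})
  rw [hyp.finrank_span] at hW'
  have h8 : φ.perp U ≤ sgSub M hQ hX := by
    refine hq.le_of_wittClosed (fun x hx hxA hx0 y hy hy0 hxy => ?_) hU.perp hb
      ((add_mem_cancel_left (h5 a ha (φ.B_symm_zero pa))).1 h6) b0
    obtain ⟨k, hk, hk'⟩ := hU.perp.exists_fix_map hx hy hx0 hy0 hxy.symm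
    rw [perp_perp] at hk
    obtain ⟨r, hr, hr'⟩ := (hq.std hn).adj _ hW (by omega) k
    have h9 := φ.fix_anti (φ.perp_anti inf_le_left) hr
    have := map_mem_sgSub (hM ⟨hr', mul_mem (φ.fix_le_stab U hk)
      (φ.stab_perp U ▸ φ.fix_le_stab _ h9)⟩) (by
        rw [Isom.mul_apply, hr p fun y hy => φ.B_symm_zero (φ.mem_perp_pair.1 hy.2).1, hk p hp]) hxA
    rwa [Isom.mul_apply, h9 x hx, hk'] at this
  obtain ⟨t, t0, ht⟩ := hq.exists_skew
  refine (full_of_le_sgSub (hp := hQ) (hX := hX) fun v hv => ?_).E_le hQ (tf f hf hyp.Qf t ht) ?_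
  · obtain ⟨c, hc, d, hd, rfl⟩ := spl hU v
    exact add_mem (h5 c hc (by simpa [hd p hp] using φ.mem_perp_singleton.1 hv)) (h8 hd)
  · simp [tv_apply hφ hyp.Qf ht, hyp.Bee, hyp.Bef, hyp.Bfe, t0, hφ.ε_eq]

variable {κ : Type*} {D : κ → Submodule F V} {k : ℕ} {a b : κ}

theorem dec_le2 (hq : φ.IsUnitary q) (hn : 3 ≤ finrank F V) [Finite κ] [Nonempty κ] (od : φ.ODec D) (rk : ∀ i, finrank F (D i) = k)
    (h2 : 2 ≤ k) (hex : ¬ (k = 2 ∧ q = 2)) (hM : φ.E ⊓ φ.dstab D ≤ M) (hg : g ∈ M) (hg' : g ∉ φ.dstab D) : φ.E ≤ M := by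
  have eq := hq.E_eq_SIsom hn
  refine Bk.E_le ⟨hq, od, rk, h2, fun g a b => hM ⟨eq ▸ a, b⟩⟩ (or_iff_not_imp_left.2 fun r => ?_) hg hg'
  have := hq.finite
  have := hq.two_le
  by_contra! H
  have := Nat.card_le_card_of_injective (fun x : {x : F // x ≠ 0 ∧ x ^ q = x} => ()) fun a b _ =>
    Subtype.ext ((H a (hq.σ_eq _ ▸ a.2.2) a.2.1).trans (H b (hq.σ_eq _ ▸ b.2.2) b.2.1).symm)
  rw [card_fixed_ne hq.card] at this
  simp at this; omega

theorem dec_ne6 (hq : φ.IsUnitary q) (hn : 6 ≤ finrank F V) (od : φ.ODec D) (rk : ∀ i, finrank F (D i) = k) (k0 : 0 < k)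
    (r : a ≠ b) : ¬ φ.E ≤ φ.dstab D := fun H => by
  obtain ⟨u, hu, u1⟩ := hq.exists_Q_eq (od.nondeg a) (fun r => by have := rk a; rw [r, finrank_bot] at this; omega) (c := 1) (map_one _)
  have u0 : u ≠ 0 := by rintro rfl; simp at u1
  obtain ⟨p, hp, p0, p1⟩ := hq.exists_singular (W := φ.perp (D a)) (by
    have := φ.finrank_perp (D a)
    have := Submodule.finrank_mono (od.orth a b r)
    rw [rk] at *; omega)
  have G : ∀ i, u + p ∉ D i := fun i hi => by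
    by_cases s : a = i
    · exact p0 (od.nondeg a p ((add_mem_cancel_left hu).1 (s ▸ hi)) fun y hy => φ.B_symm_zero (hp y hy))
    · exact u0 (od.nondeg a u hu fun y hy => φ.B_symm_zero ((add_mem_cancel_right hp).1 (od.orth a i s hi) y hy))
  obtain ⟨g, g1, g2⟩ := (hq.std (by omega)).exists_E_map (by omega) u0 (v := u + p) (fun s => G a (s ▸ zero_mem _))
    (by rw [φ.Q_add_of_orth (hp u hu), p1, add_zero])
  obtain ⟨σ, hσ⟩ := H g1
  exact G _ (g2 ▸ (hσ a).le (Submodule.mem_map_of_mem hu))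

section pair
variable {W₁ W₂ : Submodule F V} (h : φ.TSPair W₁ W₂) (hq : φ.IsUnitary q) (hk : 3 ≤ finrank F W₁)
  (hM : φ.E ⊓ (φ.stab W₁ ⊓ φ.stab W₂) ≤ M) {k t : φ.Isom} {p w : V}
include h hq

omit h in
theorem sg0 {p w : V} (hp : φ.Q p = 0) (hw : φ.Q w = 0) (h0 : φ.B p w = 0) (x : V) :
    (φ.siegel p w 0).1 x = x + φ.B w x • p - φ.B p x • w := by
  rw [φ.siegel_apply hp h0 (by simp [hw]), hq.herm.ε_eq]; simp

include hk hM

theorem tr3 {u : V} (hp : p ∈ W₁) (p0 : p ≠ 0) (hu : u ∈ W₁) (u0 : u ≠ 0) : ∃ g ∈ M, g.1 p = u := by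
  have H : ∀ p ∈ W₁, ∀ u ∈ W₁, p ≠ 0 → u ∉ F ∙ p → ∃ g ∈ M, g.1 p = u := fun p hp u hu p0 i => by
    obtain ⟨w, a, b, c⟩ := h.exists_sep (Z := F ∙ (u - p)) (by simpa using sub_mem hu hp) hp fun e => by
      obtain ⟨c, e⟩ := Submodule.mem_span_singleton.1 e
      have c0 : c ≠ 0 := by rintro rfl; exact p0 (by simpa using e.symm)
      exact i ((Submodule.smul_mem_iff _ c0).1 (Submodule.mem_span_singleton.2 ⟨1 + c, by linear_combination (norm := module) -e⟩))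
    have d := φ.B_symm_zero (b _ (Submodule.mem_span_singleton_self _))
    exact ⟨_, hM (h.siegel_mem (sub_mem hu hp) a d), by
      simp [sg0 hq (h.ts₁.Q _ (sub_mem hu hp)) (h.ts₂.Q _ a) d, c, h.ts₁.B _ (sub_mem hu hp) p hp, -map_sub]⟩
  obtain ⟨e, a, b, -⟩ := φ.exists_orth W₁ ((F ∙ p) ⊔ F ∙ u) [] (by
    have := Submodule.finrank_add_le_finrank_add_finrank (F ∙ p) (F ∙ u)
    have := finrank_span_singleton_le (F := F) p
    have := finrank_span_singleton_le (F := F) u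
    simp; omega)
  obtain ⟨g, i, rfl⟩ := H p hp e a p0 fun e => b (Submodule.mem_sup_left e)
  obtain ⟨g', i', j⟩ := H _ a u hu (by simpa) (not_mem_span_singleton_symm u0 fun e => b (Submodule.mem_sup_right e))
  exact ⟨g' * g, mul_mem i' i, j⟩

variable (hk' : k ∈ M) (hk₁ : ∀ x ∈ W₁, k.1 x ∈ W₂) (hE : ¬ φ.E ≤ M)
include hk' hk₁ hE

theorem tv3 (hp : p ∈ W₁) (p0 : p ≠ 0) {s : F} (hs : φ.T s = 0) (H : φ.siegel p 0 s ∈ M) : s = 0 := by
  by_contra s0
  have hφ := hq.herm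
  have hQ := h.ts₁.Q p hp
  have h2 : TF M p := fun t ht => by
    by_cases t0 : t = 0
    · simp [t0, φ.siegel_zero hQ, one_mem]
    rw [hφ.T_eq] at hs ht
    obtain ⟨c, hc⟩ := hq.exists_norm (c := t / s) (by
      rw [map_div₀, eq_neg_of_add_eq_zero_right hs, eq_neg_of_add_eq_zero_right ht, neg_div_neg_eq])
    have c0 : c ≠ 0 := by rintro rfl; exact div_ne_zero t0 s0 (by simpa using hc.symm)
    obtain ⟨g, a, b⟩ := tr3 h hq hk hM hp p0 (W₁.smul_mem c hp) (smul_ne_zero c0 p0)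
    have T : φ.T s = φ.Q 0 := by simpa [hφ.T_eq] using hs
    simpa [b, siegel_smul hQ (map_zero _) T, hc, s0] using siegel_conj_mem a hQ (by simp) T H
  have h5 : ∀ y ∈ W₂, φ.B p y = 0 → y ∈ sgSub M hQ h2 := fun w hw h0 =>
    ⟨h0, fun c => ⟨0, by simp [h.ts₂.Q _ (W₂.smul_mem c hw)], hM (h.siegel_mem hp (W₂.smul_mem c hw) (by simp [h0]))⟩⟩
  have h6 : ∀ u ∈ W₁, u ∈ sgSub M hQ h2 := fun u hu => by
    by_cases e : u ∈ F ∙ p
    · obtain ⟨c, rfl⟩ := Submodule.mem_span_singleton.1 e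
      exact Submodule.smul_mem _ _ self_mem_sgSub
    obtain ⟨y, y1, y2, y3⟩ := h.exists_sep (by simpa using hp) hu e
    obtain ⟨g, a, b⟩ := tr3 h hq hk hM hp p0 hu (by rintro rfl; simp at e)
    exact mem_sg_tv hq (h.ts₁.Q u hu) (h.ts₁.B u hu p hp) (b ▸ h2.map hQ a)
      (h5 y y1 (φ.B_symm_zero (y2 p (Submodule.mem_span_singleton_self p)))) (mt φ.B_symm_zero (by simp [y3]))
  refine hE (h.E_le_of_full hM hk' hp p0 (hk₁ p hp) (full_of_le_sgSub (hp := hQ) (hX := h2) fun v hv => ?_))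
  obtain ⟨⟨a, i⟩, ⟨b, j⟩, rfl⟩ := exists_add_of_isCompl h.compl v
  exact add_mem (h6 a i) (h5 b j (by simpa [h.ts₁.B p hp a i] using φ.mem_perp_singleton.1 hv))

theorem mp3 (ht : t ∈ M) (hp : p ∈ W₁) (p0 : p ≠ 0) (h1 : t.1 p ∈ W₁) (hw : w ∈ W₂) (h0 : φ.B p w = 0) : t.1 w ∈ W₂ := by
  have hφ := hq.herm
  obtain ⟨ω, hω⟩ := hq.exists_σ_ne
  have h2 : ∀ c : F, φ.siegel (t.1 p) (c • t.1 w) 0 ∈ M := fun c => by
    simpa using siegel_conj_mem ht (h.ts₁.Q p hp) (w := c • w) (s := 0) (by simp [h0]) (by simp [h.ts₂.Q _ (W₂.smul_mem c hw)])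
      (hM (h.siegel_mem hp (W₂.smul_mem c hw) (by simp [h0])))
  have hw' : φ.Q (t.1 w) = 0 := by simp [h.ts₂.Q w hw]
  rw [← Isom.B_map t] at h0
  have p1 : t.1 p ≠ 0 := by simpa
  generalize t.1 p = r at *
  have hr := h.ts₁.Q r h1
  obtain ⟨⟨a, i⟩, ⟨b, j⟩, e⟩ := exists_add_of_isCompl h.compl (t.1 w)
  rw [e] at h0 h2 hw' ⊢
  have h3 : φ.B r b = 0 := by simpa [h.ts₁.B r h1 a i] using h0
  by_cases m : a ∈ F ∙ r
  · obtain ⟨c, rfl⟩ := Submodule.mem_span_singleton.1 m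
    by_cases c0 : c = 0
    · simpa [c0] using j
    have T : φ.T (ω - φ.σ ω) = 0 := by simp [hφ.T_eq]
    have := tv3 h hq hk hM hk' hk₁ hE h1 p1 T (by
      convert mul_mem (h2 (ω / c)) (inv_mem (hM (h.siegel_mem h1 (W₂.smul_mem (ω / c) j) (by simp [h3])))) using 1
      rw [eq_mul_inv_iff_mul_eq]
      refine Isom.ext fun x => ?_
      rw [Isom.mul_apply, tv_apply hφ hr T, sg0 hq hr (h.ts₂.Q _ (W₂.smul_mem _ j)) (by simp [h3]),
        sg0 hq hr (φ.Q_smul_of_sing hw' _) (by simp only [map_smul, h0, smul_zero])]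
      have c1 : φ.σ c ≠ 0 := by simpa
      simp [φ.B_self_eq_zero hr, h3, φ.B_smul_left]
      match_scalars <;> field_simp <;> ring)
    exact absurd (sub_eq_zero.1 this).symm hω
  obtain ⟨y, n, o, r'⟩ := h.exists_sep (by simpa using h1) i m
  have o' := φ.B_symm_zero (o _ (Submodule.mem_span_singleton_self _))
  have := Subgroup.commutator_le_self M (Subgroup.commutator_mem_commutator
    (hM (h.siegel_mem h1 (W₂.smul_mem ω n) (by simp [o']))) (h2 1))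
  rw [siegel_commutator hr (by simp [o']) (by simp [h.ts₂.Q _ (W₂.smul_mem ω n)]) (by simpa using h0) (by simpa using hw'.symm)] at this
  have := tv3 h hq hk hM hk' hk₁ hE h1 p1 (by rw [map_sub, φ.T_B_comm, sub_self]) this
  exfalso
  apply hω
  simpa [hφ.B_comm y a, r', h.ts₂.B y n b j, h.ts₂.B b j y n, φ.B_smul_left, sub_eq_zero] using this

theorem st3 (hk₂ : ∀ x ∈ W₂, k.1 x ∈ W₁) (ht : t ∈ M) (hp : p ∈ W₁) (p0 : p ≠ 0) (h1 : t.1 p ∈ W₁) :
    t ∈ φ.stab W₁ ⊓ φ.stab W₂ := by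
  have he := h.finrank_eq
  have H : ∀ x ∈ W₁, t.1 x ∈ W₁ := fun x hx => by
    obtain ⟨w, a, b, c⟩ := φ.exists_orth W₂ ⊥ [p, x] (by simp; omega)
    exact mp3 h.symm hq (he ▸ hk) (inf_comm (φ.stab W₁) _ ▸ hM) hk' hk₂ hE ht a (by simpa using b)
      (mp3 h hq hk hM hk' hk₁ hE ht hp p0 h1 a (c p (by simp))) hx (φ.B_symm_zero (c x (by simp)))
  refine ⟨φ.mem_stab_of_le H, φ.mem_stab_of_le fun y hy => ?_⟩
  obtain ⟨w, a, b, c⟩ := φ.exists_orth W₁ ⊥ [y] (by simp; omega)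
  exact mp3 h hq hk hM hk' hk₁ hE ht a (by simpa using b) (H w a) hy (φ.B_symm_zero (c y (by simp)))

omit hk' hk₁ hE in
theorem pair_le (hk' : k ∈ M) (hk₁ : ∀ x ∈ W₁, k.1 x ∈ W₂) (hk₂ : ∀ x ∈ W₂, k.1 x ∈ W₁) {g : φ.Isom} (hg : g ∈ M)
    (h₁ : ¬ (W₁.map (g.1 : V →ₗ[F] V) = W₁ ∧ W₂.map (g.1 : V →ₗ[F] V) = W₂))
    (h₂ : ¬ (W₁.map (g.1 : V →ₗ[F] V) = W₂ ∧ W₂.map (g.1 : V →ₗ[F] V) = W₁)) : φ.E ≤ M := by
  by_contra hE
  have hφ := hq.herm
  have he := h.finrank_eq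
  have hd := Submodule.disjoint_def.1 h.compl.disjoint
  have S := fun {t p} => st3 h hq hk hM (t := t) (p := p) hk' hk₁ hE hk₂
  obtain ⟨p, hp, p0⟩ := Submodule.exists_mem_ne_zero_of_ne_bot (p := W₁) (by rintro rfl; simp at hk)
  obtain ⟨⟨a, i⟩, ⟨b, j⟩, e⟩ := exists_add_of_isCompl h.compl (g.1 p)
  by_cases b0 : b = 0
  · exact h₁ ((S hg hp p0 (by simpa [e, b0])).imp φ.mem_stab_iff_map.1 φ.mem_stab_iff_map.1)
  by_cases a0 : a = 0
  · have := S (mul_mem hk' hg) hp p0 (hk₂ _ (by simpa [e, a0]))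
    have H : ∀ X Y : Submodule F V, IsCompl X Y → finrank F X = finrank F Y → (∀ x ∈ X, k.1 x ∈ Y) → (∀ x ∈ Y, k.1 x ∈ X) →
        k * g ∈ φ.stab X → X.map (g.1 : V →ₗ[F] V) = Y := fun X Y c d m n o => by
      refine Submodule.eq_of_le_of_finrank_eq ?_ (by rw [LinearEquiv.finrank_map_eq, d])
      rintro _ ⟨x, hx, rfl⟩
      obtain ⟨⟨u, r⟩, ⟨v, s⟩, e⟩ := exists_add_of_isCompl c (g.1 x)
      have := (o x).1 hx
      rw [Isom.mul_apply, e, map_add, add_mem_cancel_right (n v s)] at this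
      simpa [e, show u = 0 by simpa using Submodule.disjoint_def.1 c.disjoint _ this (m u r)]
    exact h₂ ⟨H _ _ h.compl he hk₁ hk₂ this.1, H _ _ h.compl.symm he.symm hk₂ hk₁ this.2⟩
  obtain ⟨y, y1, -, y2⟩ := h.symm.exists_sep bot_le j (by simpa)
  obtain ⟨z, z1, -, z2⟩ := h.exists_sep bot_le i (by simpa)
  have pQ := h.ts₁.Q p hp
  have H : ((W₂ ⊓ φ.perp (F ∙ p)) ⊔ F ∙ p).map (g.1 : V →ₗ[F] V) ≤ Submodule.span F {a, b} := by
    rw [Submodule.map_sup]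
    refine sup_le ?_ (by rw [Submodule.map_span, Set.image_singleton, Submodule.span_singleton_le_iff_mem]
                         exact Submodule.mem_span_pair.2 ⟨1, 1, by simp [e]⟩)
    rintro _ ⟨w, ⟨m, n⟩, rfl⟩
    have n' := φ.mem_perp_singleton.1 n
    have wQ : φ.Q (g.1 w) = 0 := by simp [h.ts₂.Q w m]
    have gQ : φ.Q (g.1 p) = 0 := by simp [pQ]
    have o : φ.B (a + b) (g.1 w) = 0 := by rw [← Isom.B_map g] at n'; exact e ▸ n'
    obtain ⟨x, x1, x2, x3⟩ := φ.exists_orth W₁ ⊥ [g.1 p, g.1 w] (by simp; omega)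
    have := S (siegel_conj_mem hg pQ n' (by simp [h.ts₂.Q w m]) (hM (h.siegel_mem hp m n'))) x1
      (by simpa using x2) (by rwa [siegel_apply_of_orth gQ (by simpa) (by simp [wQ]) (x3 _ (by simp)) (x3 _ (by simp))])
    have r := sub_mem y1 ((this.1 y).1 y1)
    have r' := sub_mem z1 ((this.2 z).1 z1)
    rw [e] at gQ
    rw [e, sg0 hq gQ wQ o] at r r'
    simp only [map_add, LinearMap.add_apply, hφ.B_comm y b, hφ.B_comm z a, y2, z2, h.ts₁.B a i y y1,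
      h.ts₂.B b j z z1, map_one] at r r'
    refine Submodule.mem_span_pair.2 ⟨φ.B (g.1 w) z, φ.B (g.1 w) y, (sub_eq_zero.1 (hd _ ?_ ?_)).symm⟩
    · convert add_mem r (W₁.smul_mem (φ.B (g.1 w) y - φ.B (g.1 w) z) i) using 1; simp; module
    · convert add_mem r' (W₂.smul_mem (φ.B (g.1 w) z - φ.B (g.1 w) y) j) using 1; simp; module
  have d := (Submodule.finrank_mono H).trans (finrank_span_pair_le a b)
  rw [LinearEquiv.finrank_map_eq, finrank_sup_singleton (W := W₂ ⊓ φ.perp (F ∙ p)) fun m => p0 (hd p hp (Submodule.mem_inf.1 m).1)] at d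
  have := finrank_le_inf_perp (φ := φ) W₂ (F ∙ p)
  have := finrank_span_singleton_le (F := F) p
  omega

end pair
end

open Cfsg Cfsg.Geo

variable {F : Type*} [Field F] [Fintype F] {q : ℕ} (hF : Fintype.card F = q ^ 2)
include hF

theorem su6_1 (W : Submodule F (Fin 6 → F)) (hW0 : W ≠ ⊥) (hW : IsTotallySingularFor (hermForm 6 F q) W) :
    IsMaximalIn (GU 6 F q ⊓ specialLinear (Fin 6) F) (subspaceStabilizer W ⊓ (GU 6 F q ⊓ specialLinear (Fin 6) F)) := by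
  have hF' : Nat.card F = q ^ 2 := by rw [Nat.card_eq_fintype_card, hF]
  have h0 := H10.stdU_isUnitary hF' 6
  rw [H10.SU_eq_E hF' (by omega)]
  exact H10.isMaximalIn_TS (h0.std (by simp)) (by simp) hW0
    (h0.herm.ts fun x hx y hy => hW y hy x hx) fun _ _ _ _ => Or.inl h0.exists_skew

theorem su6_2 (W : Submodule F (Fin 6 → F)) (hW0 : W ≠ ⊥) (hW : IsNondegenerateOn (hermForm 6 F q) W)
    (hdim : 2 * finrank F W < 6) :
    IsMaximalIn (GU 6 F q ⊓ specialLinear (Fin 6) F) (subspaceStabilizer W ⊓ (GU 6 F q ⊓ specialLinear (Fin 6) F)) := by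
  have hF' : Nat.card F = q ^ 2 := by rw [Nat.card_eq_fintype_card, hF]
  have h0 := H10.stdU_isUnitary hF' 6
  have h1 := H10.nondegOn_herm hF' hW
  have h2 := (H10.stdU hF' 6).finrank_perp W
  simp only [Module.finrank_fintype_fun_eq_card, Fintype.card_fin] at h2
  rw [H10.SU_eq_E hF' (by omega)]
  have h3 : (subspaceStabilizer W).comap (stdU hF' 6).toGL = (stdU hF' 6).stab ((stdU hF' 6).perp W) := by
    rw [comap_subspaceStabilizer, (stdU hF' 6).stab_perp W]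
  refine isMaximalIn_map _ ?_ fun M hM g hg _ hg' => ?_
  · rw [comap_subspaceStabilizer]
    exact (h0.std (by simp)).not_E_le_stab (by simp) hW0 (by rintro rfl; simp at hdim)
  · rw [h3] at hM
    exact nd_le h0 h1.perp (by omega) hM hg (fun h4 => hg' (h3.ge h4)) (H10.not_map_le_perp (by simp; omega) g)

theorem su6_dec {t : ℕ} (k : ℕ) (h2 : 2 ≤ k) (D : Fin t → Submodule F (Fin 6 → F))
    (hD : IsNondegenerateMDecomposition (hermForm 6 F q) k D) (hex : ¬ (k = 2 ∧ q = 2)) :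
    IsMaximalIn (GU 6 F q ⊓ specialLinear (Fin 6) F) (decompositionStabilizer D ⊓ (GU 6 F q ⊓ specialLinear (Fin 6) F)) := by
  have hF' : Nat.card F = q ^ 2 := by rw [Nat.card_eq_fintype_card, hF]
  have h0 := stdU_isUnitary hF' 6
  have od : (stdU hF' 6).ODec D := oDec_of (fun _ _ => .inr rfl) (fun x y => (stdU hF' 6).B_eq_zero_comm) hD
  have := hD.decomp.two_le
  have : Nonempty (Fin t) := ⟨⟨0, by omega⟩⟩
  rw [SU_eq_E hF' (by omega)]
  refine isMaximalIn_map _ ?_ fun M hM g hg hg1 hg2 => ?_ <;> rw [comap_decompositionStabilizer] at *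
  · exact dec_ne6 h0 (by simp) od hD.decomp.finrank_eq hD.decomp.pos (a := ⟨0, by omega⟩) (b := ⟨1, by omega⟩) (by simp)
  · exact dec_le2 h0 (by simp) od hD.decomp.finrank_eq h2 hex hM hg
      fun r => hg2 ((comap_decompositionStabilizer D).ge r)

theorem su6_6 (D : Fin 2 → Submodule F (Fin 6 → F)) (hD : IsMDecomposition 3 D)
    (hts : ∀ i, IsTotallySingularFor (hermForm 6 F q) (D i)) :
    IsMaximalIn (GU 6 F q ⊓ specialLinear (Fin 6) F) (decompositionStabilizer D ⊓ (GU 6 F q ⊓ specialLinear (Fin 6) F)) := by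
  have hF' : Nat.card F = q ^ 2 := by rw [Nat.card_eq_fintype_card, hF]
  have h0 := H10.stdU_isUnitary hF' 6
  have h : (H10.stdU hF' 6).TSPair (D 0) (D 1) := ⟨h0.herm.ts fun x hx y hy => hts 0 y hy x hx,
    h0.herm.ts fun x hx y hy => hts 1 y hy x hx, H10.isCompl_of_fin_two hD.indep hD.iSup_eq_top⟩
  rw [H10.SU_eq_E hF' (by omega)]
  have hs := h.exists_swap_E_unitary h0 (by simp)
  have hk : 3 ≤ finrank F (D 0) := by rw [hD.finrank_eq]
  set φ := stdU hF' 6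
  have he := h.finrank_eq
  refine isMaximalIn_map _ (fun h0 => ?_) fun M hM g hg _ hg' => ?_
  · obtain ⟨p, hp, hp0⟩ := Submodule.exists_mem_ne_zero_of_ne_bot (p := D 0)
      (by intro h1; rw [h1, finrank_bot] at hk; omega)
    obtain ⟨w, hw, hw', -⟩ := φ.exists_orth (D 0) (F ∙ p) []
      (by have := finrank_span_singleton_le (F := F) p; simp; omega)
    obtain ⟨z, hz, h1, h2⟩ := h.exists_sep (by simpa using hp) hw hw'
    have h3 := h.ts₁.B p hp w hw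
    have h4 : φ.T 0 = φ.Q w := by simp [h.ts₁.Q w hw]
    have h5 : (φ.siegel p w 0).1 z = z + φ.ε • p := by
      rw [φ.siegel_apply (h.ts₁.Q p hp) h3 h4, φ.symm z w, h2,
        φ.B_symm_zero (h1 p (Submodule.mem_span_singleton_self p))]
      simp
    have hd := Submodule.disjoint_def.1 h.compl.disjoint
    rcases toGL_mem_decomp_two.1 (h0 (φ.siegel_mem_E (h.ts₁.Q p hp) h3 h4)) with h6 | h6
    · have h7 := h6.2.le ⟨z, hz, h5⟩
      exact hp0 (hd p hp (((D 1).smul_mem_iff φ.ε_ne_zero).1 ((add_mem_cancel_left hz).1 h7)))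
    · have h7 := h6.2.le ⟨z, hz, h5⟩
      simp [hd z ((add_mem_cancel_right ((D 0).smul_mem _ hp)).1 h7) hz] at h2
  · obtain ⟨k, h1, h2, h3⟩ := hs
    rw [toGL_mem_decomp_two, not_or] at hg'
    refine pair_le h h0 hk (fun x hx => hM ⟨hx.1, toGL_mem_decomp_two.2 (Or.inl
      ⟨φ.mem_stab_iff_map.1 hx.2.1, φ.mem_stab_iff_map.1 hx.2.2⟩)⟩) (hM ⟨h1, toGL_mem_decomp_two.2
        (Or.inr ⟨?_, ?_⟩)⟩) h2 h3 hg hg'.1 hg'.2
    · exact Submodule.eq_of_le_of_finrank_eq (by rintro _ ⟨x, hx, rfl⟩; exact h2 x hx)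
        (by rw [LinearEquiv.finrank_map_eq, he])
    · exact Submodule.eq_of_le_of_finrank_eq (by rintro _ ⟨x, hx, rfl⟩; exact h3 x hx)
        (by rw [LinearEquiv.finrank_map_eq, he])

end H16.Su6
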