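import Mathlib
import Cfsg.Agent.H16.Su6A

/-!
# Geometric maximal subgroups of `SU_n(q)`, `n ≥ 5` : the symplectic subfield group
* `su6_10`
-/

namespace H16.Su6

open Module H10 H10.Form H12.Xf H12.Fr

section
variable {F V : Type*} [Field F] [AddCommGroup V] [Module F V] {φ : Form F V} {q : ℕ}
  {M : Subgroup φ.Isom} {g : φ.Isom} {K : Subfield F} {L : Submodule K V} {ω : F}

variable (φ) in
/-- a symplectic rational structure of a unitary space -/
structure SpR (q : ℕ) (K : Subfield F) (L : Submodule K V) (ω : F) : Prop where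
  hq : φ.IsUnitary q
  hK : ∀ a, a ∈ K ↔ φ.σ a = a
  hω : φ.σ ω ≠ ω
  sk : ∀ x ∈ L, ∀ y ∈ L, φ.σ (φ.B x y) = -φ.B x y
  Q0 : ∀ x ∈ L, φ.Q x = 0
  dec : ∀ v, ∃ a ∈ L, ∃ b ∈ L, v = a + ω • b
  dim : 5 ≤ finrank F V

namespace SpR
variable (h : SpR φ q K L ω)
include h

theorem smul {c : F} (hc : φ.σ c = c) {x : V} (hx : x ∈ L) : c • x ∈ L := L.smul_mem ⟨c, (h.hK c).2 hc⟩ hx

theorem inj {s t r : F} (hs : φ.σ s = -s) (ht : φ.σ t = -t) (hr : φ.σ r = -r) (e : s + ω * t = r) : s = r ∧ t = 0 := by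
  have e' := congrArg φ.σ e
  rw [map_add, map_mul, hs, ht, hr] at e'
  have : (φ.σ ω - ω) * t = 0 := by linear_combination -e' - e
  have t0 := (mul_eq_zero.1 this).resolve_left (sub_ne_zero.2 h.hω)
  exact ⟨by simpa [t0] using e, t0⟩

theorem fdec {θ : F} (hθ : φ.σ θ ≠ θ) (c : F) : ∃ a b, φ.σ a = a ∧ φ.σ b = b ∧ c = a + θ * b :=
  K0_dec (K := F) (τ := φ.σ) (fun _ => rfl) hθ φ.σσ φ.σσ c

variable [φ.Nondeg] [FiniteDimensional F V]

theorem sep (l : List V) (hl : ∀ x ∈ l, x ∈ L) {u : V} (hu : u ∈ L) (hu' : u ∉ Submodule.span F {x | x ∈ l}) {t : F}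
    (ht : φ.σ t = -t) : ∃ w ∈ L, (∀ x ∈ l, φ.B x w = 0) ∧ φ.B u w = t := by
  obtain ⟨w, w1, w2⟩ := φ.exists_sep' hu'
  obtain ⟨a, ha, b, hb, e⟩ := h.dec (t • w)
  refine ⟨a, ha, fun x hx => (h.inj (h.sk x (hl x hx) a ha) (h.sk x (hl x hx) b hb) (by simp) ?_).1,
    (h.inj (h.sk u hu a ha) (h.sk u hu b hb) ht ?_).1⟩
  · have := congrArg (φ.B x) e
    simpa [w1 x (Submodule.subset_span hx)] using this.symm
  · have := congrArg (φ.B u) e
    simpa [w2] using this.symm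

theorem orth (l : List V) (hl : ∀ x ∈ l, x ∈ L) (h2 : l.length ≤ 2) :
    ∃ p ∈ L, p ∉ Submodule.span F {x | x ∈ l} ∧ ∀ x ∈ l, φ.B x p = 0 := by
  obtain ⟨v, -, v1, v2⟩ := φ.exists_orth ⊤ (Submodule.span F {x | x ∈ l}) l (by
    have := finrank_span_list_le (F := F) l
    have := h.dim
    rw [finrank_top]; omega)
  obtain ⟨a, ha, b, hb, rfl⟩ := h.dec v
  have H := fun x hx => h.inj (h.sk x (hl x hx) a ha) (h.sk x (hl x hx) b hb) (r := 0) (by simp) (by simpa using v2 x hx)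
  by_cases e : a ∈ Submodule.span F {x | x ∈ l}
  · exact ⟨b, hb, fun e' => v1 (add_mem e (Submodule.smul_mem _ _ e')), fun x hx => (H x hx).2⟩
  · exact ⟨a, ha, e, fun x hx => (H x hx).1⟩

theorem skew : ∃ t, t ≠ 0 ∧ φ.σ t = -t := h.hq.exists_skew.imp fun t ht =>
  ⟨ht.1, by have := ht.2; rw [h.hq.herm.T_eq] at this; linear_combination this⟩

/-- the coefficient of a rational vector in a rational combination is rational -/
theorem coef {u v : V} (hu : u ∈ L) (hv : v ∈ L) (e : u ∉ F ∙ v) {c d : F} (H : c • u + d • v ∈ L) : φ.σ c = c := by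
  obtain ⟨t, t0, ht⟩ := h.skew
  obtain ⟨w, w1, w2, w3⟩ := h.sep [v] (by simpa) hu (by simpa) ht
  have := h.sk _ H w w1
  simp only [map_add, LinearMap.add_apply, φ.B_smul_left, w3, w2 v (by simp), mul_zero, add_zero, map_mul, σ_σ, ht] at this
  exact (mul_right_cancel₀ t0 (by linear_combination -this)).symm

theorem unif (H : ∀ y ∈ L, ∃ c : F, c ≠ 0 ∧ c • g.1 y ∈ L) : ∃ c : F, c ≠ 0 ∧ ∀ y ∈ L, c • g.1 y ∈ L := by
  obtain ⟨p, hp, p0, -⟩ := h.orth [] (by simp) (by simp)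
  replace p0 : p ≠ 0 := by simpa using p0
  obtain ⟨c, c0, hc⟩ := H p hp
  refine ⟨c, c0, fun y hy => ?_⟩
  by_cases e : y ∈ F ∙ p
  · obtain ⟨d, rfl⟩ := Submodule.mem_span_singleton.1 e
    have := h.coef hp L.zero_mem (by simpa) (c := d) (d := 0) (by simpa)
    rw [map_smul, smul_comm]; exact h.smul this hc
  obtain ⟨d, d0, hd⟩ := H y hy
  obtain ⟨a, a0, ha⟩ := H _ (L.add_mem hp hy)
  have := h.coef hc hd (fun r => by
    obtain ⟨b, r⟩ := Submodule.mem_span_singleton.1 r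
    refine not_mem_span_singleton_symm p0 e (Submodule.mem_span_singleton.2 ⟨c⁻¹ * b * d, g.1.injective ?_⟩)
    rw [map_smul, mul_smul, mul_smul, r, smul_smul, inv_mul_cancel₀ c0, one_smul]) (c := a / c) (d := a / d)
    (by convert ha using 1; rw [map_add, smul_add, smul_smul, smul_smul, div_mul_cancel₀ _ c0, div_mul_cancel₀ _ d0])
  have h2 := L.sub_mem (h.smul (c := (a / c)⁻¹) (by rw [map_inv₀, this]) ha) hc
  convert h2 using 1
  rw [smul_smul, map_add, smul_add, show (a / c)⁻¹ * a = c by field_simp]; abel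

theorem nonrat : ∃ x, φ.Q x = 0 ∧ ∀ c : F, c ≠ 0 → c • x ∉ L := by
  obtain ⟨a, ha, a0, -⟩ := h.orth [] (by simp) (by simp)
  replace a0 : a ≠ 0 := by simpa using a0
  obtain ⟨b, hb, b0, b1⟩ := h.orth [a] (by simpa) (by simp)
  replace b0 : b ∉ F ∙ a := by simpa using b0
  refine ⟨a + ω • b, by rw [φ.Q_add_of_orth (by simp [b1 a (by simp)]), h.Q0 a ha, φ.Q_smul_of_sing (h.Q0 b hb), add_zero],
    fun c c0 H => h.hω ?_⟩
  rw [smul_add, smul_smul] at H
  have h1 := h.coef ha hb (not_mem_span_singleton_symm a0 b0) H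
  have h2 := h.coef hb ha b0 (add_comm (c • a) _ ▸ H)
  rw [map_mul, h1] at h2
  exact mul_left_cancel₀ c0 h2

theorem E_le (hM : ∀ p ∈ L, TF M p) {x : V} (hx : φ.Q x = 0) (x1 : TF M x) (x2 : ∀ c : F, c ≠ 0 → c • x ∉ L) : φ.E ≤ M := by
  have hφ := h.hq.herm
  obtain ⟨a, ha, b, hb, rfl⟩ := h.dec x
  obtain ⟨t, t0, ht⟩ := h.skew
  have ht' : φ.T t = 0 := by rw [hφ.T_eq, ht, add_neg_cancel]
  have ab : φ.B a b = 0 := by
    rw [hφ.Q_eq] at hx
    simp only [map_add, LinearMap.add_apply, φ.B_smul_left, map_smul, smul_eq_mul, ← hφ.Q_eq, h.Q0 a ha, h.Q0 b hb,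
      hφ.B_comm a b, h.sk a ha b hb] at hx
    exact (mul_eq_zero.1 (show (φ.σ ω - ω) * φ.B a b = 0 by linear_combination -hx)).resolve_left (sub_ne_zero.2 h.hω)
  have n1 : a ∉ F ∙ b := fun e => by
    obtain ⟨c, rfl⟩ := Submodule.mem_span_singleton.1 e
    by_cases r : c + ω = 0
    · exact x2 1 one_ne_zero (by rw [← add_smul, r]; simp)
    · exact x2 _ (inv_ne_zero r) (by rwa [← add_smul, smul_smul, inv_mul_cancel₀ r, one_smul])
  have n2 : b ∉ F ∙ a := fun e => by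
    obtain ⟨c, rfl⟩ := Submodule.mem_span_singleton.1 e
    have e' : a + ω • c • a = (1 + ω * c) • a := by module
    by_cases r : 1 + ω * c = 0
    · exact x2 1 one_ne_zero (by rw [e', r]; simp)
    · exact x2 _ (inv_ne_zero r) (by rwa [e', smul_smul, inv_mul_cancel₀ r, one_smul])
  obtain ⟨p, hp, p1, p2⟩ := h.orth [a, b] (by simp [ha, hb]) le_rfl
  have pa := p2 a (by simp)
  have pb := p2 b (by simp)
  have G : ∀ a b : V, a ∉ F ∙ b → p ∉ Submodule.span F {x | x ∈ [a, b]} → a ∉ Submodule.span F {x | x ∈ [p, b]} :=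
    fun a b n p1 e => by
      rw [show {x | x ∈ [p, b]} = {p, b} by ext; simp] at e
      rw [show {x | x ∈ [a, b]} = {a, b} by ext; simp] at p1
      obtain ⟨c, d, e⟩ := Submodule.mem_span_pair.1 e
      by_cases c0 : c = 0
      · exact n (Submodule.mem_span_singleton.2 ⟨d, by simpa [c0] using e⟩)
      · exact p1 (Submodule.mem_span_pair.2 ⟨c⁻¹, -(c⁻¹ * d), by
          rw [← e, smul_add, smul_smul, smul_smul, inv_mul_cancel₀ c0]; module⟩)
  have m1 := G a b n1 p1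
  have m2 := G b a n2 (by rwa [show {x | x ∈ [b, a]} = {x | x ∈ [a, b]} by ext; simp [or_comm]])
  obtain ⟨w1, a1, a2, a3⟩ := h.sep [p, b] (by simp [hp, hb]) ha m1 ht
  obtain ⟨w2, b1, b2, b3⟩ := h.sep [p, a] (by simp [hp, ha]) hb m2 ht
  have hQ := h.Q0 p hp
  have hX := hM p hp
  have A0 : ∀ w ∈ L, φ.B p w = 0 → InA M p (t • w) := fun w hw e =>
    inA_add hφ hQ (h.Q0 w hw) e hX (hM w hw) (hM _ (L.add_mem hp hw)) ht'
  have neg : ∀ {u}, InA M p u → InA M p (-u) := fun hu => by simpa using (hu.sub hQ hu).sub hQ hu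
  have A1 : ∀ c : F, InA M p (c • (a + ω • b)) := fun c => by
    obtain ⟨α, β, e1, e2, e⟩ := h.fdec (θ := φ.σ ω) (by simpa using h.hω.symm) (c / (t * t * t))
    have := inA_tv hφ hQ hx (by simp [pa, pb, φ.B_smul_left]) x1 (A0 _ (L.add_mem (h.smul e1 a1) (h.smul e2 b1))
      (by simp [a2 p (by simp), b2 p (by simp)])) ht'
    convert this using 2
    simp only [map_add, LinearMap.add_apply, φ.B_smul_left, map_smul, smul_eq_mul, a3, b3, a2 b (by simp), b2 a (by simp)]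
    rw [div_eq_iff (by simp [t0])] at e
    linear_combination e
  have ω0 : ω ≠ 0 := by rintro rfl; exact h.hω (map_zero _)
  have A2 : a ∈ sgSub M hQ hX := mem_sg.2 fun c => by
    obtain ⟨α, β, e1, e2, e⟩ := h.fdec (θ := ω⁻¹) (by simpa using h.hω) (c / t)
    rw [div_eq_iff t0] at e
    have := (A0 _ (h.smul e1 ha) (by simp [φ.B_symm_zero pa])).sub hQ
      ((A0 _ (h.smul e2 hb) (by simp [φ.B_symm_zero pb])).sub hQ (A1 (t * β / ω)))
    convert this using 1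
    rw [e]; match_scalars <;> field_simp <;> ring
  have A3 : ∀ w ∈ L, φ.B p w = 0 → φ.B a w ≠ 0 → w ∈ sgSub M hQ hX := fun w hw e e' =>
    mem_sg_tv h.hq (h.Q0 w hw) (φ.B_symm_zero e) (hM w hw) A2 (mt φ.B_symm_zero e')
  have A4 : ∀ w ∈ L, φ.B p w = 0 → w ∈ sgSub M hQ hX := fun w hw e => by
    by_cases r : φ.B a w = 0
    · simpa using sub_mem (A3 _ (L.add_mem hw a1) (by simp [e, a2 p (by simp)]) (by simp [r, a3, t0]))
        (A3 _ a1 (a2 p (by simp)) (by simp [a3, t0]))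
    · exact A3 w hw e r
  obtain ⟨f, f1, -, f2⟩ := h.sep [] (by simp) hp (by rintro r; simp at r; simp [r] at p1) ht
  refine (full_of_le_sgSub (hp := hQ) (hX := hX) fun v hv => ?_).E_le hQ (hM f f1 t ht') ?_
  · obtain ⟨c, hc, d, hd, rfl⟩ := h.dec v
    have := h.inj (h.sk p hp c hc) (h.sk p hp d hd) (r := 0) (by simp) (by simpa using φ.mem_perp_singleton.1 hv)
    exact add_mem (A4 c hc this.1) (Submodule.smul_mem _ _ (A4 d hd this.2))
  · simp [tv_apply hφ (h.Q0 f f1) ht', φ.B_self_eq_zero hQ, hφ.B_comm p f, f2, t0]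

end SpR
end

open Cfsg Cfsg.Geo Matrix

theorem su6_10 {F : Type*} [Field F] [Fintype F] {q : ℕ} (hF : Fintype.card F = q ^ 2) (F₀ : Subfield F)
    (P : Matrix.GeneralLinearGroup (Fin 6) F) (ζ : F) (hcard : Fintype.card F = Nat.card F₀ ^ 2) (hζ0 : ζ ≠ 0)
    (hζ : ζ + ζ ^ q = 0) (hP : IsFormRationalStructure (hermForm 6 F q) F₀ ζ P)
    (halt : ∀ u : Fin 6 → F, (∀ i, u i ∈ F₀) → hermForm 6 F q (Matrix.mulVec (P : Matrix (Fin 6) (Fin 6) F) u)
      (Matrix.mulVec (P : Matrix (Fin 6) (Fin 6) F) u) = 0) :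
    IsMaximalIn (GU 6 F q ⊓ specialLinear (Fin 6) F) (subfieldSubgroup F₀ P ⊓ (GU 6 F q ⊓ specialLinear (Fin 6) F)) := by
  have hF' : Nat.card F = q ^ 2 := by rw [Nat.card_eq_fintype_card, hF]
  have h0 := H10.stdU_isUnitary hF' 6
  have hq : Nat.card F₀ = q := (Nat.pow_left_injective two_ne_zero (hF.symm.trans hcard)).symm
  have h1 : ∀ a ∈ F₀, a ^ q = a := fun a ha => by
    have := Fintype.ofFinite F₀
    rw [← hq, Nat.card_eq_fintype_card]
    exact congrArg Subtype.val (FiniteField.pow_card (⟨a, ha⟩ : F₀))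
  have h2 : ∀ a, a ∈ F₀ ↔ (stdU hF' 6).σ a = a := fun a => by
    rw [h0.σ_eq]
    refine ⟨h1 a, fun ha => ?_⟩
    have := (Function.Injective.bijective_of_nat_card_le (f := fun x : F₀ => (⟨x.1, h1 _ x.2⟩ : {x : F // x ^ q = x}))
      (fun x y e => Subtype.ext (congrArg (fun z : {x : F // x ^ q = x} => z.1) e)) (by rw [card_fixed hF', hq])).2 ⟨a, ha⟩
    obtain ⟨x, e⟩ := this
    have e' : x.1 = a := congrArg (fun z : {x : F // x ^ q = x} => z.1) e
    exact e' ▸ x.2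
  have hz : (stdU hF' 6).σ ζ = -ζ := by rw [h0.σ_eq]; linear_combination hζ
  obtain ⟨ω, hω⟩ := h0.exists_σ_ne
  have h : SpR (stdU hF' 6) q F₀ (ratL F₀ P) ω := ⟨h0, h2, hω, by
    rintro _ ⟨u, hu, rfl⟩ _ ⟨v, hv, rfl⟩
    have := (h2 _).1 (hP v u hv hu)
    rw [map_mul, hz] at this
    exact mul_left_cancel₀ hζ0 (by rw [stdU_B]; linear_combination -this), by
    rintro _ ⟨u, hu, rfl⟩
    exact halt u hu, fun v => by
    choose α β e1 e2 e using fun i => K0_dec (K := F) (τ := (stdU hF' 6).σ) (fun _ => rfl) hω (stdU hF' 6).σσ (stdU hF' 6).σσ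
      (((P⁻¹).1 *ᵥ v) i)
    refine ⟨_, ⟨α, fun i => (h2 _).2 (e1 i), rfl⟩, _, ⟨β, fun i => (h2 _).2 (e2 i), rfl⟩, ?_⟩
    rw [← mulVec_smul, ← mulVec_add, show α + ω • β = (P⁻¹).1 *ᵥ v from funext fun i => (e i).symm]
    simp [mulVec_mulVec], by simp⟩
  rw [H10.SU_eq_E hF' (by omega)]
  set φ := stdU hF' 6
  refine isMaximalIn_map _ (fun r => ?_) fun M hM g hg _ hg' => ?_
  · obtain ⟨x, x1, x2⟩ := h.nonrat
    obtain ⟨p, hp, p0, -⟩ := h.orth [] (by simp) (by simp)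
    obtain ⟨g, g1, rfl⟩ := (h0.big (by simp)).exists_E_map_sing (h.Q0 p hp) (by simpa using p0) x1
      (by rintro rfl; exact x2 1 one_ne_zero (by simp))
    obtain ⟨c, c0, hc⟩ := mem_subfieldSubgroup_iff.1 (r g1)
    exact x2 c c0 (by simpa only [toGL_mulVec] using hc p hp)
  have tf : ∀ p ∈ ratL F₀ P, TF M p := fun p hp t ht =>
    hM ⟨φ.siegel_mem_E (h.Q0 p hp) (by simp) (by simpa), mem_subfieldSubgroup_iff.2 ⟨1, one_ne_zero, fun x hx => by
      rw [toGL_mulVec, one_smul, tv_apply h0.herm (h.Q0 p hp) ht]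
      rw [h0.herm.T_eq] at ht
      exact sub_mem hx (h.smul (by rw [map_mul, h.sk p hp x hx]; linear_combination -φ.B p x * ht) hp)⟩⟩
  by_contra hE
  refine hg' (mem_subfieldSubgroup_iff.2 ?_)
  simp only [toGL_mulVec]
  refine h.unif fun y hy => ?_
  by_contra! r
  exact hE (h.E_le tf (by simp [h.Q0 y hy]) ((tf y hy).map (h.Q0 y hy) hg) r)

end H16.Su6
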