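import Mathlib
import Cfsg.Agent.H12.TnG

/-!
# Quadratic self-normalising subgroups; linear algebra for the `2 ⊗ 3` tensor stabiliser
* `frob`, `frobV`, `lin_det`, `quad0`
-/

set_option autoImplicit false

namespace H16.Su6

open Module H10 H10.Form

theorem frob {G F V : Type*} [Group G] [Finite G] [Field F] [AddCommGroup V] [Module F V] {p : ℕ} [hp : Fact p.Prime]
    [CharP F p] (ρ : G →* End F V) (hρ : Function.Injective ρ) (X : Subgroup G) (hX : IsPGroup p X)
    (hc : ∀ a ∈ X, ∀ b ∈ X, a * b = b * a) {x y : G} (hx : x ∈ X)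
    (h1 : ∀ g, g * x * g⁻¹ ∈ X → g ∈ X) (h2 : ∀ g, g * y * g⁻¹ = y → g ∈ X) {c : F} (c1 : c ≠ 1)
    (e : ρ y = c • ρ x + (1 - c) • 1) : X = ⊤ := by
  classical
  obtain ⟨P, hP⟩ := hX.exists_le_sylow
  have h4 : X.subgroupOf P = ⊤ := by
    have := P.2.isNilpotent
    by_contra h5
    obtain ⟨z, a, b⟩ := SetLike.exists_of_lt (normalizerCondition_of_isNilpotent _ (lt_top_iff_ne_top.2 h5))
    exact b (h1 z ((Subgroup.mem_normalizer_iff.1 a ⟨x, hP hx⟩).1 hx))
  have h5 : (P : Subgroup G) = X := le_antisymm (Subgroup.subgroupOf_eq_top.1 h4) hP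
  have hN : Subgroup.normalizer (P : Set G) ≤ Subgroup.centralizer (P : Set G) := fun g hg a ha => by
    have := (Subgroup.mem_normalizer_iff.1 hg x).1 (hP hx)
    exact hc a (h5.le ha) g (h1 g (h5.le this))
  have h6 := MonoidHom.ker_transferSylow_isComplement' P hN
  have h7 := MonoidHom.not_dvd_card_ker_transferSylow P hN
  set N := (MonoidHom.transferSylow P hN).ker
  have := Fintype.ofFinite N
  have hd : ∀ n : N, (n : G) ∈ X → n = 1 := fun n hn => Subtype.ext (Subgroup.disjoint_def.1 h6.disjoint n.2 (h5.ge hn))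
  have key : ∀ z : G, (∀ g, g * z * g⁻¹ = z → g ∈ X) → (∑ n : N, ρ n) * ρ z = ∑ n : N, ρ n * ρ z * ρ (n⁻¹ : N) := fun z hz => by
    let f : N → N := fun n => ⟨n * (z * (n : G)⁻¹ * z⁻¹), mul_mem n.2 (Subgroup.Normal.conj_mem inferInstance _ (inv_mem n.2) z)⟩
    have hf : Function.Injective f := fun a b q => by
      have q' : (a : G) * (z * (a : G)⁻¹ * z⁻¹) = b * (z * (b : G)⁻¹ * z⁻¹) := congrArg Subtype.val q
      have := hd (b⁻¹ * a) (hz _ (by
        rw [Subgroup.coe_mul, Subgroup.coe_inv]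
        calc (b : G)⁻¹ * a * z * ((b : G)⁻¹ * a)⁻¹ = (b : G)⁻¹ * (a * (z * (a : G)⁻¹ * z⁻¹)) * z * b := by group
          _ = z := by rw [q']; group))
      exact (inv_mul_eq_one.1 this).symm
    rw [← (Finite.injective_iff_bijective.1 hf).sum_comp fun n : N => ρ n, Finset.sum_mul]
    refine Finset.sum_congr rfl fun n _ => ?_
    rw [← map_mul, ← map_mul, ← map_mul]; congr 1; simp [f, mul_assoc]
  have k1 := key x fun g q => h1 g (q.symm ▸ hx)
  have k2 := key y h2
  have k3 : (∑ n : N, ρ n) = (Fintype.card N : F) • 1 := by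
    refine smul_right_injective _ (sub_ne_zero.2 c1.symm) ?_
    simp only [e, mul_add, add_mul, mul_smul_comm, smul_mul_assoc, mul_one, Finset.sum_add_distrib, ← Finset.smul_sum, k1,
      ← map_mul] at k2
    simpa [Nat.cast_smul_eq_nsmul] using k2
  have k4 : (Fintype.card N : F) ≠ 0 := by rwa [Ne, CharP.cast_eq_zero_iff F p, ← Nat.card_eq_fintype_card]
  have k5 : ∀ n : N, n = 1 := fun n => by
    have : ρ n * ∑ m : N, ρ m = ∑ m : N, ρ m := by
      rw [Finset.mul_sum, ← Equiv.sum_comp (Equiv.mulLeft n) fun m : N => ρ m]; simp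
    rw [k3, mul_smul_comm, mul_one] at this
    exact Subtype.ext (hρ ((smul_right_injective _ k4 this).trans (map_one ρ).symm))
  refine eq_top_iff.2 fun g _ => ?_
  obtain ⟨⟨n, z⟩, rfl⟩ := h6.2 g
  have := k5 n
  simpa [this] using h5.le z.2

variable {F V : Type*} [Field F] [AddCommGroup V] [Module F V]

theorem frobV [Finite F] {φ : Form F V} [φ.Nondeg] [FiniteDimensional F V] {G : Subgroup φ.Isom} {A : Submodule F V}
    {T : V →ₗ[F] V} (hT : ∀ v, T (T v) = 0) (hA : ∀ v, T v ∈ A) (hA' : ∀ a ∈ A, ∃ v, T v = a)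
    (hX : ∀ h ∈ G, h ∈ φ.stab A → ∃ c : F, ∀ v, h.1 v = v + c • T v) {x y : φ.Isom} (hx : x ∈ G) (hy : y ∈ G) {s c : F}
    (s0 : s ≠ 0) (c0 : c ≠ 0) (c1 : c ≠ 1) (e1 : ∀ v, x.1 v = v + s • T v) (e2 : ∀ v, y.1 v = v + (c * s) • T v) :
    G ≤ φ.stab A := by
  have hp := Fact.mk (CharP.char_is_prime F (ringChar F))
  let ρ : G →* End F V := ⟨⟨fun g => (g.1.1 : V →ₗ[F] V), rfl⟩, fun _ _ => rfl⟩
  have H : ∀ {x : φ.Isom} {s : F}, s ≠ 0 → (∀ v, x.1 v = v + s • T v) → ∀ g ∈ G, g * x * g⁻¹ ∈ G → g * x * g⁻¹ ∈ φ.stab A →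
      g ∈ φ.stab A := fun {x s} s0 e g _ a b => φ.mem_stab_of_le fun u hu => by
    obtain ⟨d, hd⟩ := hX _ a b
    obtain ⟨v, rfl⟩ := hA' u hu
    have := hd (g.1 v)
    rw [Isom.mul_apply, Isom.mul_apply, Isom.inv_apply_apply, e, map_add, map_smul, add_right_inj] at this
    exact (A.smul_mem_iff s0).1 (this ▸ A.smul_mem d (hA _))
  have S : ∀ {x : φ.Isom} {s : F}, (∀ v, x.1 v = v + s • T v) → x ∈ φ.stab A := fun e =>
    φ.mem_stab_of_le fun u hu => by rw [e]; exact add_mem hu (A.smul_mem _ (hA _))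
  have := frob (p := ringChar F) ρ (fun a b q => Subtype.ext (Isom.ext fun v => LinearMap.congr_fun q v))
    ((φ.stab A).subgroupOf G) (fun g => ⟨1, by
      obtain ⟨d, hd⟩ := hX _ g.1.2 g.2
      have : ∀ n : ℕ, ∀ v, (g.1.1 ^ n).1 v = v + (n * d) • T v := fun n => by
        induction n with
        | zero => simp
        | succ n ih => intro v; rw [pow_succ, Isom.mul_apply, ih, hd]; simp [hT]; module
      exact Subtype.ext (Subtype.ext (Isom.ext fun v => by simpa using this (ringChar F) v))⟩)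
    (fun a ha b hb => by
      obtain ⟨d, hd⟩ := hX _ a.2 ha
      obtain ⟨d', hd'⟩ := hX _ b.2 hb
      exact Subtype.ext (Isom.ext fun v => by simp [Isom.mul_apply, hd, hd', hT]; module))
    (x := ⟨x, hx⟩) (y := ⟨y, hy⟩) (S e1) (fun g q => H s0 e1 g g.2 (g * ⟨x, hx⟩ * g⁻¹).2 q)
    (fun g q => by
      have q' : g.1 * y * g.1⁻¹ = y := congrArg Subtype.val q
      exact H (mul_ne_zero c0 s0) e2 g g.2 (q'.symm ▸ hy) (q'.symm ▸ S e2)) c1
    (LinearMap.ext fun v => by
      change y.1 v = c • x.1 v + (1 - c) • v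
      rw [e1, e2]; module)
  exact Subgroup.subgroupOf_eq_top.1 this

theorem lin_aux {a b c d : Dual F V} (h : ∀ w, a w * d w = b w * c w) (a0 : a ≠ 0) (hk : LinearMap.ker a ≤ LinearMap.ker b) :
    ∃ k : F, (∀ w, b w = k * a w) ∧ ∀ w, d w = k * c w := by
  obtain ⟨u, hu⟩ := LinearMap.surjective a0 1
  have h1 : ∀ w, b w = b u * a w := fun w => by
    have := hk (show w - a w • u ∈ LinearMap.ker a by simp [hu])
    simp only [LinearMap.mem_ker, map_sub, map_smul, smul_eq_mul] at this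
    linear_combination this
  refine ⟨b u, h1, ?_⟩
  rcases le_or_le_of_forall (X := ⊤) (A := LinearMap.ker a) (B := LinearMap.ker (d - b u • c)) (fun w _ => by
    have := h w
    rw [h1 w] at this
    simpa using mul_eq_zero.1 (show a w * (d w - b u * c w) = 0 by linear_combination this)) with e | e
  · exact absurd (LinearMap.ext fun w => e Submodule.mem_top) a0
  · exact fun w => by simpa [sub_eq_zero] using e (Submodule.mem_top (x := w))

theorem lin_det {a b c d : Dual F V} (h : ∀ w, a w * d w = b w * c w) :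
    (∃ x y : F, (x ≠ 0 ∨ y ≠ 0) ∧ (∀ w, x * a w + y * b w = 0) ∧ ∀ w, x * c w + y * d w = 0) ∨
    ∃ x y : F, (x ≠ 0 ∨ y ≠ 0) ∧ (∀ w, x * a w + y * c w = 0) ∧ ∀ w, x * b w + y * d w = 0 := by
  have H := le_or_le_of_forall (X := LinearMap.ker a) (A := LinearMap.ker b) (B := LinearMap.ker c) fun w hw => by
    have := h w
    rw [LinearMap.mem_ker.1 hw, zero_mul] at this
    simpa using this
  by_cases a0 : a = 0
  · subst a0
    rcases H with H | H
    · exact .inr ⟨1, 0, .inl one_ne_zero, by simp, fun w => by simpa using H (show w ∈ _ by simp)⟩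
    · exact .inl ⟨1, 0, .inl one_ne_zero, by simp, fun w => by simpa using H (show w ∈ _ by simp)⟩
  rcases H with H | H
  · obtain ⟨k, h1, h2⟩ := lin_aux h a0 H
    exact .inl ⟨-k, 1, .inr one_ne_zero, fun w => by simp [h1], fun w => by simp [h2]⟩
  · obtain ⟨k, h1, h2⟩ := lin_aux (b := c) (c := b) (d := d) (fun w => (h w).trans (mul_comm _ _)) a0 H
    exact .inr ⟨-k, 1, .inr one_ne_zero, fun w => by simp [h1], fun w => by simp [h2]⟩

theorem quad0 {β : Form F V} [β.Nondeg] [FiniteDimensional F V] {q : ℕ} (hβ : β.IsUnitary q) (h2 : 2 ≤ finrank F V)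
    {a b c d : Dual F V} (h : ∀ w, β.Q w = 0 → a w * d w = b w * c w) (w : V) : a w * d w = b w * c w := by
  by_cases w0 : w = 0
  · simp [w0]
  obtain ⟨e, he, e1⟩ : ∃ e, β.Q e = 0 ∧ β.B e w ≠ 0 := by
    by_contra! H
    obtain ⟨e, f, hy⟩ := hβ.exists_hyp_of_two_le h2
    exact w0 (β.eq_zero_of_B_right fun x => β.B_symm_zero (β.mem_perp_singleton.1 (H12.Tn.eq_top_of_sing hy (S := β.perp (F ∙ w))
      (β.mem_perp_singleton.2 (β.B_symm_zero (H e hy.Qe))) (fun x hx _ => β.mem_perp_singleton.2 (β.B_symm_zero (H x hx))) x)))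
  obtain ⟨k, hy⟩ := β.isHyp_of_B he (w := (β.B e w)⁻¹ • w) (by simp [e1])
  obtain ⟨t, t0, ht⟩ := hβ.exists_skew
  set f := (β.B e w)⁻¹ • w + k • e with hf
  have e2 : w = β.B e w • f - (β.B e w * k) • e := by rw [hf]; match_scalars <;> field_simp <;> ring
  have h1 := h e he
  have h3 := h f hy.Qf
  have h4 := h (e + t • f) (by rw [β.Q_add, β.Q_smul_of_sing hy.Qf, he]; simp [hy.Bef, ht])
  generalize β.B e w = l at e2
  rw [e2]
  simp only [map_add, map_sub, map_smul, smul_eq_mul] at h4 ⊢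
  have h5 : a e * d f + a f * d e = b e * c f + b f * c e := mul_left_cancel₀ t0 (by linear_combination h4 - h1 - t * t * h3)
  linear_combination l * l * h3 - l * l * k * h5 + l * l * k * k * h1

end H16.Su6
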