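import Mathlib
import Cfsg.Agent.H16.Su6C
import Cfsg.Agent.H12.XfB

/-!
# The `2 ⊗ 3` tensor stabiliser in `SU_6(q)`, I
* `T23`, `T23.spread`, `T23.tfall`, `T23.good`, `T23.exc`
-/

set_option autoImplicit false
set_option linter.unusedSectionVars false
set_option linter.unusedSimpArgs false

namespace H16.Su6

open Module H10 H10.Form H12.Tn H12.Tn.Ten H12.Xf

variable {F U W V : Type*} [Field F] [AddCommGroup U] [Module F U] [AddCommGroup W] [Module F W]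
  [AddCommGroup V] [Module F V] {α : Form F U} {β : Form F W} {φ : Form F V}
  [α.Nondeg] [β.Nondeg] [φ.Nondeg] [FiniteDimensional F U] [FiniteDimensional F W] [FiniteDimensional F V]

theorem perp_le_of {x : W} (x0 : x ≠ 0) {S : Submodule F W} (hS : S ≤ β.perp (F ∙ x)) (hd : finrank F S + 1 = finrank F W)
    {y : W} (hy : β.B x y = 0) : y ∈ S := by
  have := β.finrank_perp (F ∙ x)
  rw [finrank_span_singleton x0] at this
  exact (Submodule.eq_of_le_of_finrank_le hS (by omega)).ge (β.mem_perp_singleton.2 hy)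

theorem perp_pair {x r r' : W} (x0 : x ≠ 0) (r0 : r ≠ 0) (h : r' ∉ F ∙ r) (h1 : β.B x r = 0) (h2 : β.B x r' = 0)
    (hd : finrank F W = 3) {y : W} (hy : β.B x y = 0) : ∃ c d : F, y = c • r + d • r' := by
  obtain ⟨_, a, _, b, e⟩ := Submodule.mem_sup.1 (perp_le_of x0 (S := (F ∙ r) ⊔ F ∙ r') (sup_le
    (by simpa using β.mem_perp_singleton.2 h1) (by simpa using β.mem_perp_singleton.2 h2))
    (by rw [finrank_sup_singleton h, finrank_span_singleton r0, hd]) hy)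
  obtain ⟨c, rfl⟩ := Submodule.mem_span_singleton.1 a
  obtain ⟨d, rfl⟩ := Submodule.mem_span_singleton.1 b
  exact ⟨c, d, e.symm⟩

theorem mem_A_of (t : Ten α β φ) {x : W} (x0 : x ≠ 0) {v : V} (hv : ∀ w, β.B x w = 0 → t.ct w v = 0) : v ∈ t.A x := by
  obtain ⟨f, h⟩ := β.exists_B_eq_one x0
  refine ⟨β.ε • t.ct f v, (sub_eq_zero.1 (t.eq_zero_of_ct fun w => ?_)).symm⟩
  have := hv (w - β.B x w • f) (by simp [h])
  rw [ct_sub, ct_smul, sub_eq_zero] at this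
  rw [map_sub, this, LinearMap.flip_apply, ct_τ, smul_smul, β.symm x w, t.σ₂, mul_right_comm, β.ε_mul_ε, one_mul, sub_self]

/-- the standing hypotheses -/
structure T23 (t : Ten α β φ) (M : Subgroup φ.Isom) (q : ℕ) : Prop where
  ov : t.Ov M
  hα : α.IsUnitary q
  hβ : β.IsUnitary q
  hφ : φ.IsUnitary q
  hU : finrank F U = 2
  hW : finrank F W = 3
  hq : q ≠ 2

namespace T23
variable {t : Ten α β φ} {M : Subgroup φ.Isom} {q : ℕ} (h : T23 t M q)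
include h

theorem dec2 {a a' : U} (hy : α.IsHyp a a') (u : U) : u = α.B a' u • a + α.B a u • a' := by
  have := hy.proj_mem u
  rw [Submodule.eq_top_of_finrank_eq (hy.finrank_span.trans h.hU.symm), perp_top, Submodule.mem_bot, h.hα.herm.ε_eq] at this
  linear_combination (norm := module) this

theorem Tβ {s : F} : β.T s = φ.T s := by rw [h.hβ.herm.T_eq, h.hφ.herm.T_eq, t.σ₂]
theorem Tα {s : F} : α.T s = φ.T s := by rw [h.hα.herm.T_eq, h.hφ.herm.T_eq, t.σ₁]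

theorem orth {b : W} : ∃ x, β.B b x = 0 ∧ x ∉ F ∙ b := by
  obtain ⟨x, -, a, c⟩ := β.exists_orth ⊤ (F ∙ b) [b] (by
    have := finrank_span_singleton_le (F := F) b; simp [h.hW]; omega)
  exact ⟨x, c b (by simp), a⟩

theorem spread (hX : ∀ a b, α.Q a = 0 → β.Q b = 0 → TF M (t.τ a b)) : φ.E ≤ M := by
  have hφ := h.hφ.herm
  have εα := h.hα.herm.ε_eq
  have εβ := h.hβ.herm.ε_eq
  obtain ⟨s, s0, hs⟩ := h.hφ.exists_skew
  let L := fun a b (ha : α.Q a = 0) (hb : β.Q b = 0) => sgSub M (t.Q_τ₂ a hb) (hX a b ha hb)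
  have k0 : ∀ a b f ha (hy : β.IsHyp b f) w, β.B b w = 0 → t.τ a w ∈ L a b ha hy.Qe := fun a b f ha hy => by
    have hp := t.Q_τ₂ a hy.Qe
    have A1 := inA_add hφ hp (w := s • t.τ a f) (φ.Q_smul_of_sing (t.Q_τ₁ f ha) s) (by simp [α.B_self_eq_zero ha])
      (hX a b ha hy.Qe) ((hX a f ha hy.Qf).smul (t.Q_τ₁ f ha) s) (by
        simpa using hX a (b + s • f) ha (by rw [β.Q_add, β.Q_smul_of_sing hy.Qf, hy.Qe]; simp [hy.Bef, h.Tβ, hs])) hs
    have A2 : ∀ w, β.B b w = 0 → InA M (t.τ a b) (t.τ a w) := fun w hw => by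
      obtain ⟨s', hs', -⟩ := β.half ((s * s)⁻¹ • w)
      have hw' : β.B b ((s * s)⁻¹ • w) = 0 := by simp [hw]
      have := A1.map hp (h.ov.rt (β.siegel_mem_E hy.Qe hw' hs'))
      rw [rt_τ, siegel_apply_self hy.Qe hw' hs', map_smul, map_smul, rt_τ, β.siegel_apply hy.Qe hw' hs'] at this
      convert (A1.sub hp this).sub hp (mem_sg.1 (self_mem_sgSub (hp := hp) (hX := hX a b ha hy.Qe))
        (s * s * (s' - β.B ((s * s)⁻¹ • w) f))) using 1
      simp only [map_add, map_sub, map_smul (t.τ a), hy.Bef, εβ]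
      match_scalars <;> field_simp <;> ring
    exact fun w hw => mem_sg.2 fun c => by simpa using A2 (c • w) (by simp [hw])
  have k4 : ∀ a a' b f, α.IsHyp a a' → β.IsHyp b f → φ.Full M (t.τ a b) := fun a a' b f hy hy' => by
    have y2 : ∀ w, β.B b w = 0 → ∀ v ∈ L a b hy.Qe hy'.Qe,
        φ.B (t.τ a' w) v • t.τ a' b - φ.B (t.τ a' b) v • t.τ a' w ∈ L a b hy.Qe hy'.Qe := fun w hw v hv => by
      have a1 := t.Q_τ₁ b hy.Qf
      have a2 : φ.B (t.τ a' b) (t.τ a' w) = 0 := by simp [hw]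
      have a3 : φ.T 0 = φ.Q (t.τ a' w) := by rw [t.Q_τ₁ w hy.Qf, map_zero]
      convert sub_mem (map_mem_sgSub (siegel_mem_of_mem_sgSub (k0 a' b f hy.Qf hy' w hw) a3)
        (siegel_apply_of_orth a1 a2 a3 (by simp [hy'.Bee]) (by simp [β.B_symm_zero hw])) hv) hv using 1
      rw [φ.siegel_apply a1 a2 a3, hφ.ε_eq]; module
    obtain ⟨x, x1, x2⟩ := h.orth (b := b)
    obtain ⟨y, y0, y1⟩ := exists_partner' (β := β) x2
    have m1 : t.τ a' b ∈ L a b hy.Qe hy'.Qe := by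
      simpa [y0, y1, hy.Bfe, εα] using y2 x x1 _ (k0 a b f hy.Qe hy' y y0)
    have m2 : t.τ a f ∈ L a b hy.Qe hy'.Qe := mem_sg_tv h.hφ (t.Q_τ₁ f hy.Qe) (by simp [hy.Bee]) (hX a f hy.Qe hy'.Qf) m1
      (by simp [hy.Bef, hy'.Bfe, εβ])
    have m3 : ∀ w, β.B b w = 0 → t.τ a' w ∈ L a b hy.Qe hy'.Qe := fun w hw => by
      simpa [hy.Bfe, hy'.Bef, εα] using sub_mem (Submodule.smul_mem _ (φ.B (t.τ a' w) (t.τ a f)) m1) (y2 w hw _ m2)
    refine full_of_le_sgSub (hX := hX a b hy.Qe hy'.Qe) (hp := t.Q_τ₂ a hy'.Qe) fun v hv => ?_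
    have a0 := φ.mem_perp_singleton.1 hv
    rw [t.B_τ] at a0
    have b4 : t.τ (t.ct b v) f ∈ L a b hy.Qe hy'.Qe := by
      rw [h.dec2 hy (t.ct b v), a0]; simpa using Submodule.smul_mem _ _ m2
    have := add_mem b4 (t.perp_ind hy' (P := (· ∈ L a b hy.Qe hy'.Qe)) (fun u w hw => by
      rw [h.dec2 hy u]
      simpa using add_mem (Submodule.smul_mem _ (α.B a' u) (k0 a b f hy.Qe hy' w hw)) (Submodule.smul_mem _ (α.B a u) (m3 w hw)))
      (fun _ _ => add_mem) (v := v - t.τ (t.ct b v) f) (by simp [hy'.Bef]))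
    rwa [add_sub_cancel] at this
  obtain ⟨a, a', hy⟩ := h.hα.exists_hyp_of_two_le h.hU.ge
  obtain ⟨b, f, hy'⟩ := h.hβ.exists_hyp_of_two_le (by rw [h.hW]; omega)
  exact E_le_of_full (k4 _ _ _ _ hy hy') (t.Q_τ₂ _ hy'.Qe) (k4 _ _ _ _ hy.symm hy'.symm) (t.Q_τ₂ _ hy'.Qf)
    (by simp [hy.Bef, hy'.Bef])

theorem map {b b' : W} (hb : β.Q b = 0) (h0 : b ≠ 0) (hb' : β.Q b' = 0) (h0' : b' ≠ 0) : ∃ g ∈ β.E, g.1 b = b' :=
  (h.hβ.big h.hW.ge).exists_E_map_sing hb h0 hb' h0'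

theorem tfall {b₀ : W} {hb₀ : β.Q b₀ = 0} (b0 : b₀ ≠ 0) {ζ : U →ₗ[F] U} (hζ : ζ ∈ t.ZZ M hb₀)
    (hn : ¬ ∃ c : F, ∀ u, ζ u = c • u) : φ.E ≤ M := by
  have := h.hα.finite
  have sk : ∀ s, φ.T s = 0 → α.T (-(φ.ε * s)) = 0 := fun s e => by simp [h.Tα, h.hφ.herm.ε_eq, e]
  refine h.spread fun a b ha hb s hs => ?_
  by_cases b0' : b = 0
  · rw [b0', map_zero, siegel_zero_left (by simpa)]; exact one_mem _
  obtain ⟨g, hg, e⟩ := h.map hb₀ b0 hb b0'
  refine zz_siegel (hb := hb) (t.Q_τ₂ a hb) hs (su_adj h.hα h.hU.ge (fun r => h.hq r.2) (fun _ a _ => h.ov.zz_cj a)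
    (fun ζ a c => ?_) (ζ := ζ) (by simpa using h.ov.zz_map hζ hg hb (c := 1) (by simpa))
    (fun x u => by simpa [h.hβ.herm.ε_eq] using zz_skew b0 hζ x u) hn ha (sk s hs))
  by_cases c0 : c = 0
  · simp [c0]
  obtain ⟨g, hg, e⟩ := h.map hb b0' (β.Q_smul_of_sing hb c) (smul_ne_zero c0 b0')
  exact t.σ₁ c ▸ h.ov.zz_map a hg hb e

theorem ntU : Nontrivial U := Module.nontrivial_of_finrank_pos (R := F) (by rw [h.hU]; omega)

variable (H : ∀ b hb, b ≠ 0 → ∀ ζ ∈ t.ZZ M (b := b) hb, ∃ c : F, ∀ u, ζ u = c • u)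
include H

theorem h0 : H0 t M := fun b hb b0 k hk hk' => by
  have := h.ntU
  obtain ⟨θ, hθ⟩ := h.hφ.exists_σ_ne
  obtain ⟨f, hy⟩ := β.exists_hyp hb b0
  obtain ⟨x, a1, a2⟩ := h.orth (b := b)
  refine h.ov.stab_PT hy a1 a2 (fun y hM hr => ?_) hk hk'
  obtain ⟨δ, hδ⟩ := exists_dl hy hr
  refine h.ov.rad_PT_of hy hM hδ (LinearMap.ext fun u => t.τ_eq_zero b0 (by
    simpa [hr.1 _ (t.τ_mem u b)] using hδ b hy.Bee u)) (fun w hw => ?_) (H b hb b0)
  obtain ⟨δ', hδ'⟩ := exists_adj (α := α) (δ w)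
  obtain ⟨c, e⟩ := H b hb b0 _ (h.ov.comm_mem hb hM hr hw (hδ w hw) hδ')
  obtain ⟨c', e'⟩ := H b hb b0 _ (h.ov.comm_mem hb hM hr (w := θ • w) (δ' := φ.σ θ • δ') (by simp [hw]) (hδ _ (by simp [hw]))
    fun x u => by simp [hδ', t.σ₁])
  refine ⟨(c' - φ.σ θ * c) / (φ.σ θ - θ), fun u => smul_right_injective _ (sub_ne_zero.2 hθ) ?_⟩
  have e := e u
  have e' := e' u
  simp only [h.hβ.herm.ε_eq, one_smul, map_smul, LinearMap.sub_apply, LinearMap.smul_apply, smul_smul,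
    mul_div_cancel₀ _ (sub_ne_zero.2 hθ)] at e e' ⊢
  linear_combination (norm := module) e' - φ.σ θ • e

variable {g : φ.Isom} (hg : g ∈ M) {b : W} (hb : β.Q b = 0) (b0 : b ≠ 0)
include hg hb b0

theorem of_map {x : W} (x0 : x ≠ 0) (e : ∀ u, g.1 (t.τ u b) ∈ t.A x) : g ∈ t.PT := by
  have := h.ntU
  have := h.hα.finite
  have hx : β.Q x = 0 := sing_of_ts (t := t) (fun w => (h.hβ.herm.Q_eq w).trans) hb g⁻¹ fun u => by
    obtain ⟨v, hv, e'⟩ := (Submodule.eq_of_le_of_finrank_le (S₁ := (t.A b).map (g.1 : V →ₗ[F] V))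
      (by rintro _ ⟨_, ⟨u, rfl⟩, rfl⟩; exact e u) (by
        rw [LinearEquiv.finrank_map_eq, t.finrank_A b0, t.finrank_A x0])).ge (t.τ_mem u x)
    rw [← e']; erw [Isom.inv_apply_apply]; exact hv
  obtain ⟨η, h1, h2⟩ := h.map hx x0 hb b0
  simpa using mul_mem (inv_mem (t.rt_mem η)) (h.h0 H b hb b0 _ (mul_mem (h.ov.rt h1) hg) (φ.mem_stab_of_le (by
    rintro _ ⟨u, rfl⟩
    obtain ⟨u', e⟩ := e u
    exact ⟨u', by rw [Isom.mul_apply]; erw [← e]; simp [h2]⟩)))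

theorem good {w : W} (hw : β.Q w = 0) (G1 : ∀ u, t.ct w (g.1 (t.τ u b)) = 0 → u = 0)
    (G2 : ∀ r, β.B w r = 0 → (∀ u, t.ct r (g.1 (t.τ u b)) = 0) → r = 0) : g ∈ t.PT := by
  have := h.ntU
  have := h.hα.finite
  have εβ := h.hβ.herm.ε_eq
  obtain ⟨u₀, hu⟩ := exists_ne (0 : U)
  have w0 : w ≠ 0 := by rintro rfl; exact hu (G1 u₀ (by simp))
  obtain ⟨f, hy⟩ := β.exists_hyp hw w0
  obtain ⟨s, s0, hs⟩ := h.hβ.exists_skew
  obtain ⟨c, c1, c2, c3⟩ := exists_fixed_ne h.hβ h.hq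
  have hs' : β.T (c * s) = 0 := by
    rw [h.hβ.herm.T_eq] at hs ⊢; rw [map_mul, c1]; linear_combination c * hs
  set B := (t.A b).map (g.1 : V →ₗ[F] V)
  let T : V →ₗ[F] V := t.τ.flip w ∘ₗ t.ct w
  let γ : W → U →ₗ[F] U := fun w => t.ct w ∘ₗ (g.1 : V →ₗ[F] V) ∘ₗ t.τ.flip b
  have xM : ∀ w s, β.Q w = 0 → β.T s = 0 → t.rt (β.siegel w 0 s) ∈ M := fun w s hw hs =>
    h.ov.rt (β.siegel_mem_E hw (by simp) (by simpa))
  have xG : ∀ s, β.T s = 0 → t.rt (β.siegel w 0 s) ∈ M ⊓ φ.fix (φ.perp (t.A w ⊔ B)) := fun s hs =>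
    ⟨xM w s hw hs, mem_fix_perp fun v => Submodule.mem_sup_left (tv_sub hw hs v)⟩
  have hX : ∀ k ∈ M ⊓ φ.fix (φ.perp (t.A w ⊔ B)), k ∈ φ.stab (t.A w) → ∃ c : F, ∀ v, k.1 v = v + c • T v := by
    rintro k ⟨k1, k2⟩ k3
    obtain ⟨a, η, e⟩ := h.h0 H w hw w0 k k1 k3
    obtain ⟨r₀, r1, r2⟩ := h.orth (b := w)
    let γ₁ := LinearEquiv.ofInjectiveEndo (γ w) ((injective_iff_map_eq_zero _).2 G1)
    obtain ⟨θ, hθ⟩ := exists_adj (α := α) (γ r₀ ∘ₗ γ₁.symm)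
    have c0 : ∀ u u', α.B (θ u) (γ w u') = α.B u (γ r₀ u') := fun u u' => by
      rw [hθ]; exact congrArg (fun x => α.B u (γ r₀ x)) (γ₁.symm_apply_apply u')
    have d1 : ∀ u, t.τ u r₀ - t.τ (θ u) w ∈ φ.perp B := fun u => φ.mem_perp'.2 (by
      rintro _ ⟨_, ⟨u', rfl⟩, rfl⟩
      rw [map_sub, LinearMap.sub_apply, t.B_τ, t.B_τ, sub_eq_zero]; exact (c0 u u').symm)
    have d0 : ∀ u, t.ct w (t.τ u r₀ - t.τ (θ u) w) = 0 := fun u => by simp [β.B_self_eq_zero hw, r1]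
    have d2 := fun u => k2 _ (by rw [perp_sup]; exact ⟨t.mem_perp_A.2 (d0 u), d1 u⟩)
    obtain ⟨ξ, e1, e2⟩ := exists_dual₂ r2
    have d3 : ∀ (u : U) (x : W), u ≠ 0 → k.1 (t.τ u₀ w) = t.τ u x → ∃ l : F, x = l • w := fun u x u0 e => by
      obtain ⟨u', e'⟩ := (k3 _).1 (t.τ_mem u₀ w)
      obtain ⟨ξ', e3⟩ := exists_dual (F := F) u0
      exact ⟨ξ' u', by simpa [e3] using congrArg (t.cu ξ') (e.symm.trans e'.symm)⟩
    obtain ⟨l, hl⟩ := d3 _ _ (by simpa) (e u₀ w)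
    have d4 : ∀ u, ξ (η r₀) • a u = u := fun u => by
      simpa [e, hl, e1, e2] using congrArg (t.flip.cu ξ) (d2 u)
    have d5 : ξ (η r₀) ≠ 0 := fun r => hu (by rw [← d4 u₀, r, zero_smul])
    obtain ⟨η', e'⟩ := t.exists_of_scalar e (c := (ξ (η r₀))⁻¹) fun u => by rw [eq_inv_smul_iff₀ d5, d4]
    obtain ⟨l', hl'⟩ := d3 _ _ hu (e' u₀ w)
    have d6 : ∀ u, t.τ u (η' r₀ - r₀) = (l' - 1) • t.τ (θ u) w := fun u => by
      have := d2 u
      rw [map_sub, e', e', hl', map_smul] at this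
      rw [map_sub]; linear_combination (norm := module) this
    by_cases l1 : l' = 1
    · have d7 : η' r₀ = r₀ := sub_eq_zero.1 (t.flip.τ_eq_zero hu (by simpa [l1] using d6 u₀))
      obtain ⟨ζ, a1, a2⟩ := exists_zz (t := t) hy k1 fun u x hx => by
        obtain ⟨c, d, rfl⟩ := perp_pair w0 w0 r2 hy.Bee r1 h.hW hx
        simp [e', hl', l1, d7]
      obtain ⟨c, hc⟩ := H w hw w0 ζ a1
      exact ⟨c, fun v => by simp [a2, hc, T]⟩
    exfalso
    have d7 : ∀ u, t.τ u (r₀ - (l' - 1)⁻¹ • (η' r₀ - r₀)) = t.τ u r₀ - t.τ (θ u) w := fun u => by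
      rw [map_sub, map_smul, d6, inv_smul_smul₀ (sub_ne_zero.2 l1)]
    have d8 := G2 (r₀ - (l' - 1)⁻¹ • (η' r₀ - r₀)) (by
      have := d0 u₀
      rw [← d7, ct_τ] at this
      exact (smul_eq_zero.1 this).resolve_right hu) fun u' => α.eq_zero_of_B_right fun u => by
        rw [← t.B_τ, d7]; exact φ.mem_perp'.1 (d1 u) _ ⟨_, t.τ_mem u' b, rfl⟩
    have := congrArg (t.flip.cu ξ) (d7 u₀)
    rw [d8] at this
    exact hu (by simpa [e1, e2] using this.symm)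
  have hG := frobV (T := T) (fun v => by simp [T, hy.Bee]) (fun v => t.τ_mem _ w) (by
    rintro _ ⟨u, rfl⟩; exact ⟨t.τ u f, by simp [T, hy.Bef]⟩) hX (xG s hs) (xG _ hs') (s := -s) (by simpa) c2 c3
    (fun v => by simp [tv_apply hw hs, εβ, T, sub_eq_add_neg]) fun v => by simp [tv_apply hw hs', εβ, T, sub_eq_add_neg]
  have x1 : g * t.rt (β.siegel b 0 s) * g⁻¹ ∈ M ⊓ φ.fix (φ.perp (t.A w ⊔ B)) :=
    ⟨M.mul_mem (M.mul_mem hg (xM b s hb hs)) (M.inv_mem hg), mem_fix_perp fun v => Submodule.mem_sup_right (conj_sub (tv_sub hb hs) v)⟩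
  obtain ⟨d, hd⟩ := hX _ x1 (hG x1)
  obtain ⟨f', hf'⟩ := β.exists_B_eq_one b0
  refine h.of_map H hg hb b0 w0 fun u => ?_
  have := hd (g.1 (t.τ u f'))
  rw [Isom.mul_apply, Isom.mul_apply, Isom.inv_apply_apply, tv_apply hb hs, map_sub, sub_eq_add_neg, add_right_inj] at this
  rw [← Submodule.smul_mem_iff _ (neg_ne_zero.2 s0)]
  convert (t.A w).smul_mem d (t.τ_mem (t.ct w (g.1 (t.τ u f'))) w) using 1
  simpa [hf', εβ, T] using this

theorem exc {e : U} (e0 : e ≠ 0) (hB : ∀ u, g.1 (t.τ u b) ∈ t.flip.A e) : False := by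
  have := h.ntU
  have := h.hα.finite
  have εβ := h.hβ.herm.ε_eq
  set B := (t.A b).map (g.1 : V →ₗ[F] V)
  have hB' : B ≤ t.flip.A e := by rintro _ ⟨_, ⟨u, rfl⟩, rfl⟩; exact hB u
  have tB : φ.TS B := (t.ts_A hb).map g
  have rB : finrank F B = 2 := by rw [LinearEquiv.finrank_map_eq, t.finrank_A b0, h.hU]
  have he : α.Q e = 0 := by
    by_contra r
    rw [h.hα.herm.Q_eq] at r
    have a1 := (h.hβ.herm.ts (W := B.comap (t.τ e)) fun x hx y hy => by simpa [r] using tB.2 _ hx _ hy).finrank_le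
    have a2 := (Submodule.finrank_mono (show B ≤ (B.comap (t.τ e)).map (t.τ e) from fun v hv => by
      obtain ⟨w, rfl⟩ := hB' hv; exact ⟨w, hv, rfl⟩)).trans (Submodule.finrank_map_le _ _)
    rw [h.hW] at a1; omega
  obtain ⟨e', hy⟩ := α.exists_hyp he e0
  obtain ⟨s, s0, hs⟩ := h.hβ.exists_skew
  have xM : ∀ s, β.T s = 0 → g * t.rt (β.siegel b 0 s) * g⁻¹ ∈ M := fun s hs =>
    mul_mem (mul_mem hg (h.ov.rt (β.siegel_mem_E hb (by simp) (by simpa)))) (inv_mem hg)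
  have x1 := conj_sub (g := g) (tv_sub (t := t) hb hs)
  obtain ⟨ζ, a1, a2⟩ := exists_zz (t := t.flip) hy (xM s hs) fun w u hu => mem_fix_perp x1 _
    (φ.perp_anti hB' (t.flip.mem_perp_A.2 (by rw [ct_τ, hu, zero_smul])))
  let Z : AddSubgroup (W →ₗ[F] W) :=
    { carrier := {ζ | ∀ c : F, β.σ c = c → c • ζ ∈ t.flip.ZZ M he}
      zero_mem' := fun c _ => by simp
      add_mem' := fun a b c hc => by rw [smul_add]; exact add_mem (a c hc) (b c hc)
      neg_mem' := fun a c hc => by rw [smul_neg]; exact neg_mem (a c hc) }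
  have hs2 : φ.T s = 0 := h.Tβ.symm.trans hs
  have a3 := su_adj h.hβ (by rw [h.hW]; omega) (by rw [h.hW]; omega) (Z := Z)
    (fun ζ a k hk c hc => by rw [← cj_smul]; exact h.ov.flip.zz_cj (a c hc) hk)
    (fun ζ a c d hd => by rw [smul_smul]; exact a _ (by simp [hd, mul_comm])) (ζ := ζ)
    (fun c hc => by
      have hs' : β.T (c * s) = 0 := by
        rw [h.hβ.herm.T_eq] at hs ⊢; rw [map_mul, hc]; linear_combination c * hs
      refine ⟨_, xM _ hs', fun v => ?_⟩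
      have := a2 v
      simp only [Isom.mul_apply, tv_apply hb hs, tv_apply hb hs', map_sub, map_smul, Isom.apply_inv_apply, εβ, one_mul,
        LinearMap.smul_apply] at this ⊢
      linear_combination (norm := module) c • this)
    (fun x u => by simpa [h.hα.herm.ε_eq] using zz_skew e0 a1 x u) (fun ⟨c, hc⟩ => by
      by_cases c0 : c = 0
      · obtain ⟨f, hf⟩ := β.exists_B_eq_one b0
        have := a2 (g.1 (t.τ e f))
        rw [Isom.mul_apply, Isom.mul_apply, Isom.inv_apply_apply, hc, c0, zero_smul, map_zero, LinearMap.zero_apply, add_zero,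
          g.1.injective.eq_iff] at this
        simpa [hf, e0] using tv_fix hb b0 hs s0 this
      have := Submodule.finrank_mono (show t.flip.A e ≤ B by
        rintro _ ⟨w, rfl⟩
        have := x1 (t.flip.τ w e')
        rw [a2, ct_τ, hy.Bef, one_smul, add_sub_cancel_left, hc, map_smul, LinearMap.smul_apply] at this
        exact (B.smul_mem_iff c0).1 this)
      rw [t.flip.finrank_A e0, h.hW, rB] at this; omega) hb (r := -(φ.ε * s)) (by simp [h.hφ.herm.ε_eq, hs])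
  have a4 := zz_siegel (t := t.flip) (hb := he) (t.flip.Q_τ₂ b he) hs2 (by simpa using a3 1 (map_one _))
  obtain ⟨c, hc⟩ := H b hb b0 (-(φ.ε * s) • br α e e) ⟨_, a4, fun v => by
    rw [φ.siegel_apply (t.flip.Q_τ₂ b he) (by simp) (hs2.trans φ.Q_zero.symm)]; simp [t.B_τ]; module⟩
  obtain rfl : c = 0 := by simpa [hy.Bee, e0] using (hc e).symm
  simpa [hy.Bef, e0, s0, h.hφ.herm.ε_eq] using hc e'

end T23
end H16.Su6
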