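import Mathlib
import Cfsg.Agent.H16.Su6D

/-!
# The `2 ⊗ 3` tensor stabiliser in `SU_6(q)`, II
* `T23.main`, `su6_8`
-/

set_option autoImplicit false
set_option linter.unusedSectionVars false
set_option linter.unusedSimpArgs false

namespace H16.Su6

open Module H10 H10.Form H12.Tn H12.Tn.Ten H12.Xf

section
variable {F U W V : Type*} [Field F] [AddCommGroup U] [Module F U] [AddCommGroup W] [Module F W]
  [AddCommGroup V] [Module F V] {α : Form F U} {β : Form F W} {φ : Form F V}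
  [α.Nondeg] [β.Nondeg] [φ.Nondeg] [FiniteDimensional F U] [FiniteDimensional F W] [FiniteDimensional F V]

theorem three_eig (hU : finrank F U = 2) {a b : U →ₗ[F] U} (hb : ∀ u, b u = 0 → u = 0) (μ : Fin 3 → F)
    (hμ : Function.Injective μ) : ∃ i, ∀ u, a u + μ i • b u = 0 → u = 0 := by
  by_contra! H
  choose v h1 h2 using H
  let e := LinearEquiv.ofInjectiveEndo b ((injective_iff_map_eq_zero _).2 hb)
  have := (Module.End.eigenvectors_linearIndependent' ((e.symm : U →ₗ[F] U) ∘ₗ (-a)) μ hμ v fun i =>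
    ⟨Module.End.mem_eigenspace_iff.2 (by
      rw [LinearMap.comp_apply, LinearEquiv.coe_coe, LinearEquiv.symm_apply_eq, map_smul, LinearMap.neg_apply]
      exact neg_eq_of_add_eq_zero_right (h1 i)), h2 i⟩).fintype_card_le_finrank
  simp [hU] at this

namespace T23
variable {t : Ten α β φ} {M : Subgroup φ.Isom} {q : ℕ} (h : T23 t M q)
include h

theorem main : M ≤ t.PT ∨ φ.E ≤ M := by
  by_cases H : ∀ b hb, b ≠ 0 → ∀ ζ ∈ t.ZZ M (b := b) hb, ∃ c : F, ∀ u, ζ u = c • u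
  swap
  · push Not at H
    obtain ⟨b₀, hb₀, b0, ζ, hζ, hn⟩ := H
    exact .inr (h.tfall b0 hζ (by simpa using hn))
  refine .inl fun g hg => by_contra fun hg' => ?_
  have := h.ntU
  obtain ⟨b, f₀, hy₀⟩ := h.hβ.exists_hyp_of_two_le (by rw [h.hW]; omega)
  have hb := hy₀.Qe
  have b0 := hy₀.e_ne_zero
  let γ : W → U →ₗ[F] U := fun w => t.ct w ∘ₗ (g.1 : V →ₗ[F] V) ∘ₗ t.τ.flip b
  have K1 : ∀ r r', (∀ u, γ r u = 0) → (∀ u, γ r' u = 0) → r ≠ 0 → r' ∈ F ∙ r := fun r r' a a' r0 => by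
    by_contra n
    obtain ⟨x, -, x0, x1⟩ := β.exists_orth ⊤ ⊥ [r, r'] (by simp [h.hW])
    replace x0 : x ≠ 0 := by simpa using x0
    refine hg' (h.of_map H hg hb b0 x0 fun u => mem_A_of t x0 fun y hy => ?_)
    obtain ⟨c, d, rfl⟩ := perp_pair x0 r0 n (β.B_symm_zero (x1 r (by simp))) (β.B_symm_zero (x1 r' (by simp))) h.hW hy
    have a1 : t.ct r (g.1 (t.τ u b)) = 0 := a u
    have a2 : t.ct r' (g.1 (t.τ u b)) = 0 := a' u
    simp [ct_add, ct_smul, a1, a2]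
  by_cases ex : ∃ w, β.Q w = 0 ∧ ∀ u, γ w u = 0 → u = 0
  swap
  · push Not at ex
    obtain ⟨a, a', hy⟩ := h.hα.exists_hyp_of_two_le h.hU.ge
    let l : U → U → Dual F W := fun x y => φ.B (g.1 (t.τ y b)) ∘ₗ t.τ x
    have D := quad0 h.hβ (by rw [h.hW]; omega) (a := l a a) (b := l a a') (c := l a' a) (d := l a' a') fun w hw => by
      obtain ⟨u, u1, u0⟩ := ex w hw
      have e : ∀ x, φ.σ (α.B a' u) * l x a w + φ.σ (α.B a u) * l x a' w = 0 := fun x => by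
        have : φ.B (g.1 (t.τ u b)) (t.τ x w) = 0 := φ.B_symm_zero (by rw [t.B_τ]; exact (congrArg (α.B x) u1).trans (map_zero _))
        rw [h.dec2 hy u] at this
        simpa [l, φ.B_smul_left] using this
      have e1 := e a
      have e2 := e a'
      by_contra r
      refine u0 ?_
      have c1 : φ.σ (α.B a' u) = 0 := (mul_eq_zero.1 (show φ.σ (α.B a' u) * (l a a w * l a' a' w - l a a' w * l a' a w) = 0 by
        linear_combination l a' a' w * e1 - l a a' w * e2)).resolve_right (sub_ne_zero.2 r)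
      have c2 : φ.σ (α.B a u) = 0 := (mul_eq_zero.1 (show φ.σ (α.B a u) * (l a a w * l a' a' w - l a a' w * l a' a w) = 0 by
        linear_combination l a a w * e2 - l a' a w * e1)).resolve_right (sub_ne_zero.2 r)
      rw [h.dec2 hy u, φ.σ_eq_zero.1 c1, φ.σ_eq_zero.1 c2]; simp
    have ne : ∀ x y : F, (x ≠ 0 ∨ y ≠ 0) → x • a + y • a' ≠ 0 := fun x y r e => by
      have e1 := congrArg (α.B a) e
      have e2 := congrArg (α.B a') e
      simp [hy.Bee, hy.Bef, hy.Bfe, hy.Bff, α.ε_ne_zero] at e1 e2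
      tauto
    rcases lin_det D with ⟨x, y, r, e1, e2⟩ | ⟨x, y, r, e1, e2⟩
    · refine ne (φ.σ x) (φ.σ y) (by simpa using r) (t.τ_eq_zero b0 (g.1.injective ((φ.eq_zero_of_B_left
        (t.ind (fun u w => ?_) fun _ _ a b => by rw [map_add, a, b, add_zero])).trans (map_zero _).symm)))
      rw [h.dec2 hy u]
      have e1 := e1 w
      have e2 := e2 w
      simp only [l, LinearMap.comp_apply] at e1 e2
      simp only [map_add, map_smul, LinearMap.add_apply, LinearMap.smul_apply, φ.B_smul_left, φ.σ_σ, smul_eq_mul]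
      linear_combination α.B a' u * e1 + α.B a u * e2
    obtain ⟨e, -, e0, e3⟩ := α.exists_orth ⊤ ⊥ [x • a + y • a'] (by simp [h.hU])
    replace e0 : e ≠ 0 := by simpa using e0
    refine h.exc H hg hb b0 e0 fun u => mem_A_of t.flip e0 fun z hz => ?_
    obtain ⟨c, rfl⟩ := Submodule.mem_span_singleton.1 (perp_le_of e0 (S := F ∙ (x • a + y • a'))
      (by simpa using α.mem_perp_singleton.2 (α.B_symm_zero (e3 _ (by simp))))
      (by rw [finrank_span_singleton (ne x y r), h.hU]) hz)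
    rw [ct_smul]
    refine smul_eq_zero_of_right _ (β.eq_zero_of_B_right fun w => ?_)
    rw [← t.flip.B_τ, flip_τ]
    refine φ.B_symm_zero ?_
    rw [h.dec2 hy u]
    have e1 := e1 w
    have e2 := e2 w
    simp only [l, LinearMap.comp_apply] at e1 e2
    simp only [map_add, map_smul, LinearMap.add_apply, LinearMap.smul_apply, φ.B_smul_left, smul_eq_mul]
    linear_combination φ.σ (α.B a' u) * e1 + φ.σ (α.B a u) * e2
  obtain ⟨w, hw, G1⟩ := ex
  refine hg' (h.good H hg hb b0 hw G1 fun r r1 r2 => by_contra fun r0 => ?_)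
  obtain ⟨u₀, hu⟩ := exists_ne (0 : U)
  have w0 : w ≠ 0 := by rintro rfl; exact hu (G1 u₀ (by simp [γ]))
  have n : w ∉ F ∙ r := fun e => by
    obtain ⟨c, rfl⟩ := Submodule.mem_span_singleton.1 e
    exact hu (G1 u₀ (by simp [γ, ct_smul, r2]))
  have hr : β.Q r ≠ 0 := fun e => by
    have := (h.hβ.herm.ts (W := (F ∙ r) ⊔ F ∙ w) fun x hx y hy => by
      obtain ⟨_, a, _, b, rfl⟩ := Submodule.mem_sup.1 hx
      obtain ⟨_, c, _, d, rfl⟩ := Submodule.mem_sup.1 hy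
      obtain ⟨a, rfl⟩ := Submodule.mem_span_singleton.1 a
      obtain ⟨b, rfl⟩ := Submodule.mem_span_singleton.1 b
      obtain ⟨c, rfl⟩ := Submodule.mem_span_singleton.1 c
      obtain ⟨d, rfl⟩ := Submodule.mem_span_singleton.1 d
      simp [β.B_self_eq_zero e, β.B_self_eq_zero hw, r1, β.B_symm_zero r1]).finrank_le
    rw [finrank_sup_singleton n, finrank_span_singleton r0, h.hW] at this; omega
  obtain ⟨f, f1, hy⟩ := β.exists_partner (W := F ∙ r) hw n (β.mem_perp_singleton.2 (β.B_symm_zero r1))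
  replace f1 := β.mem_perp_singleton.1 f1
  obtain ⟨s, s0, hs⟩ := h.hβ.exists_skew
  obtain ⟨c, c1, c2, c3⟩ := exists_fixed_ne h.hβ h.hq
  obtain ⟨s₀, hs₀⟩ := h.hβ.exists_T_eq (c := -β.Q r) (by simp [h.hβ.herm.σ_Q])
  have hs' : β.T (c * s) = 0 := by
    rw [h.hβ.herm.T_eq] at hs ⊢; rw [map_mul, c1]; linear_combination c * hs
  obtain ⟨i, hi⟩ := three_eig h.hU (a := γ f) G1 ![s₀, s₀ + s, s₀ + c * s] (by
    intro i j; fin_cases i <;> fin_cases j <;> simp [s0, c2, c3, c3.symm, eq_comm])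
  obtain ⟨μ, m1, m2⟩ : ∃ μ, β.T μ = -β.Q r ∧ ∀ u, γ f u + μ • γ w u = 0 → u = 0 :=
    ⟨_, by fin_cases i <;> simp [hs, hs', hs₀], hi⟩
  have hQ := hy.Q_comb (β.σ μ) 1 (w := r) (β.mem_perp_pair.2 ⟨r1, β.B_symm_zero f1⟩)
  rw [β.σ_σ, mul_one, m1, neg_add_cancel, one_smul] at hQ
  refine hg' (h.good H hg hb b0 hQ (fun u e => m2 u ?_) fun r' a1 a2 => ?_)
  · rw [ct_add, ct_add, ct_smul, r2, add_zero, t.σ₂, φ.σ_σ, add_comm] at e
    exact e
  obtain ⟨k, rfl⟩ := Submodule.mem_span_singleton.1 (K1 r r' r2 a2 r0)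
  rw [h.hβ.herm.Q_eq] at hr
  obtain rfl : k = 0 := by simpa [r1, β.B_symm_zero f1, hr] using a1
  simp

end T23

theorem not_E_le23 (t : Ten α β φ) {q : ℕ} (hα : α.IsUnitary q) (hβ : β.IsUnitary q) (hφ : φ.Big) (hU : finrank F U = 2)
    (hW : finrank F W = 3) : ¬ φ.E ≤ t.PT := fun h => by
  obtain ⟨b, f, hy⟩ := hβ.exists_hyp_of_two_le (by rw [hW]; omega)
  obtain ⟨u, u', hy'⟩ := hα.exists_hyp_of_two_le hU.ge
  have hb := hy.Qe
  have b0 := hy.e_ne_zero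
  have hu := hy'.e_ne_zero
  obtain ⟨x, -, a3, a2⟩ := β.exists_orth ⊤ (F ∙ b) [b] (by
    have := finrank_span_singleton_le (F := F) b; simp [hW]; omega)
  replace a2 := a2 b (by simp)
  have hu' : u' ∉ F ∙ u := fun e => by
    obtain ⟨c, rfl⟩ := Submodule.mem_span_singleton.1 e
    simpa [hy'.Bee] using hy'.Bef
  obtain ⟨ξ, e1, e2⟩ := exists_dual₂ hu'
  obtain ⟨ξ', e3, e4⟩ := exists_dual₂ (not_mem_span_singleton_symm hu hu')
  obtain ⟨g, hg, e⟩ := hφ.exists_E_map_sing (t.Q_τ₂ u hb) (t.τ_ne hu b0) (z := t.τ u b + t.τ u' x) (by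
    rw [φ.Q_add_of_orth (by simp [a2]), t.Q_τ₂ _ hb, t.Q_τ₁ _ hy'.Qf, add_zero]) fun e => b0 (by
      simpa [e3, e4] using congrArg (t.cu ξ') e)
  obtain ⟨a, η, e'⟩ := h hg
  rw [e'] at e
  have b1 : ξ (a u) • η b = x := by simpa [e1, e2] using congrArg (t.cu ξ) e
  have b2 : ξ' (a u) • η b = b := by simpa [e3, e4] using congrArg (t.cu ξ') e
  have b3 : ξ' (a u) ≠ 0 := fun e => b0 (by rw [← b2, e, zero_smul])
  exact a3 (Submodule.mem_span_singleton.2 ⟨ξ (a u) / ξ' (a u), by rw [← b1]; nth_rw 1 [← b2]; simp [smul_smul, b3]⟩)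

end

open H10.As H24.NM Cfsg Cfsg.Geo Matrix

theorem su6_8 {F : Type*} [Field F] [Fintype F] {q : ℕ} (hF : Fintype.card F = q ^ 2) (hq : 3 ≤ q)
    (e : Fin 6 ≃ Fin 2 × Fin 3) (P : GL (Fin 6) F) (f₁ : (Fin 2 → F) → (Fin 2 → F) → F) (f₂ : (Fin 3 → F) → (Fin 3 → F) → F)
    (hf₁ : IsUnitaryFormPow q f₁) (hf₂ : IsUnitaryFormPow q f₂)
    (hT : IsTensorFormStructure (fun x : F => x ^ q) (hermForm 6 F q) f₁ f₂ e P) :
    IsMaximalIn (GU 6 F q ⊓ specialLinear (Fin 6) F)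
      (tensorProductSubgroup 2 3 e P ⊓ (GU 6 F q ⊓ specialLinear (Fin 6) F)) := by
  have hF' : Nat.card F = q ^ 2 := by rw [Nat.card_eq_fintype_card, hF]
  have s1 := sf_of_herm (conj_conj hF') hf₁.1 hf₁.2 hf₁.3 hf₁.4
  have s2 := sf_of_herm (conj_conj hF') hf₂.1 hf₂.2 hf₂.3 hf₂.4
  obtain ⟨c, hc, h⟩ := tau_form s1.toSq s2.toSq hT
  have hφ := stdU_isUnitary hF' 6
  have hσ : conj hF' c = c := by
    obtain ⟨x, hx⟩ := (hf₁.4 (Pi.single ⟨0, by omega⟩ 1) (by simp)).2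
    obtain ⟨y, hy⟩ := (hf₂.4 (Pi.single ⟨0, by omega⟩ 1) (by simp)).2
    have := hφ.herm.B_comm (tau e P x y) (tau e P (Pi.single ⟨0, by omega⟩ 1) (Pi.single ⟨0, by omega⟩ 1))
    rw [stdU_B, stdU_B, h, h, s1.symm x, s2.symm y] at this
    change _ = conj hF' _ at this
    exact ((by simpa using this.symm : _ ∨ _ ∨ _).resolve_right (not_or.2 ⟨hx, hy⟩))
  have H : ∀ {l : ℕ} {f : (Fin l → F) → (Fin l → F) → F}, SF (conj hF') 1 f → ∃ ψ : Form F (Fin l → F), ψ.Nondeg ∧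
      ψ.IsUnitary q ∧ ∀ x y, ψ.B x y = f y x := fun s => by
    obtain ⟨σ, h1⟩ := s.unit (conj_ne_id hF')
    obtain ⟨q', ψ, a, h2, -, h3⟩ := exists_ofHerm h1
    obtain rfl : q' = q := Nat.pow_left_injective two_ne_zero (h2.card.symm.trans hF')
    exact ⟨ψ, a, h2, h3⟩
  obtain ⟨α, _, a1, a2⟩ := H (s1.smul hc hσ)
  obtain ⟨β, _, b1, b2⟩ := H s2
  rw [SU_eq_E hF' (by omega)]
  exact isMaximalIn_tens (α := α) (β := β) (fun a => by rw [a1.σ_eq, hφ.σ_eq]) (fun a => by rw [b1.σ_eq, hφ.σ_eq])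
    (by simp [a1.herm.ε_eq, b1.herm.ε_eq, hφ.herm.ε_eq]) (fun _ _ _ _ => by rw [stdU_B, h, a2, b2, mul_assoc])
    (fun _ _ _ _ => id) fun t => ⟨not_E_le23 t a1 b1 (hφ.big (by simp)) (by simp) (by simp), fun M h =>
      T23.main ⟨h, a1, b1, hφ, by simp, by simp, by omega⟩⟩

end H16.Su6
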