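import Cfsg.Agent.L.Jt0
import Cfsg.Agent.H01.Generation

/-! Part G of the 3-local cluster: coprime generation by centralisers of hyperplanes (`H16.TG.g`). -/

set_option autoImplicit false
open Cfsg BG Subgroup

namespace H16.TG
universe u

theorem two {G : Type u} [Group G] [Finite G] (W B : Subgroup G) (a : G) (h2 : ∀ x ∈ W, x * x = 1)
    (hc : ∀ x ∈ W, ∀ y ∈ W, x * y = y * x) (hB : B ≤ W) (ha : a ∈ W) (hs : B ⊔ zpowers a = W) :
    Nat.card W ≤ Nat.card B * 2 := by
  classical
  let S : Subgroup G :=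
    { carrier := {x | x ∈ W ∧ (x ∈ B ∨ x * a ∈ B)}
      one_mem' := ⟨W.one_mem, Or.inl B.one_mem⟩
      mul_mem' := by
        rintro x y ⟨hx, hx'⟩ ⟨hy, hy'⟩
        refine ⟨W.mul_mem hx hy, ?_⟩
        rcases hx' with hx' | hx' <;> rcases hy' with hy' | hy'
        · exact Or.inl (B.mul_mem hx' hy')
        · right; rw [mul_assoc]; exact B.mul_mem hx' hy'
        · right
          have : x * y * a = (x * a) * y := by rw [mul_assoc, mul_assoc, hc y hy a ha]
          rw [this]; exact B.mul_mem hx' hy'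
        · left
          have : x * y = (x * a) * (y * a) := by
            rw [hc y hy a ha, mul_assoc, ← mul_assoc a a y, h2 a ha, one_mul]
          rw [this]; exact B.mul_mem hx' hy'
      inv_mem' := by
        rintro x ⟨hx, hx'⟩
        have : x⁻¹ = x := inv_eq_of_mul_eq_one_right (h2 x hx)
        rw [this]; exact ⟨hx, hx'⟩ }
  have hWS : W ≤ S := by
    rw [← hs]
    refine sup_le (fun x hx => ⟨hB hx, Or.inl hx⟩) ?_
    rw [zpowers_le]
    exact ⟨ha, Or.inr (by rw [h2 a ha]; exact B.one_mem)⟩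
  let F : B × Bool → W := fun p => if p.2 then ⟨p.1, hB p.1.2⟩ else ⟨p.1 * a, W.mul_mem (hB p.1.2) ha⟩
  have hF : Function.Surjective F := by
    rintro ⟨x, hx⟩
    rcases (hWS hx).2 with h | h
    · exact ⟨(⟨x, h⟩, true), rfl⟩
    · refine ⟨(⟨x * a, h⟩, false), Subtype.ext ?_⟩
      show x * a * a = x
      rw [mul_assoc, h2 a ha, mul_one]
  have := Nat.card_le_card_of_surjective F hF
  simpa [Nat.card_prod] using this

theorem g : L.Jt.GStmt.{u} := by
  intro G _ _ W R H h2 h32 hR hN hU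
  have hc : ∀ x ∈ W, ∀ y ∈ W, x * y = y * x := by
    intro x hx y hy
    have e := h2 _ (W.mul_mem hx hy)
    have ix : x⁻¹ = x := inv_eq_of_mul_eq_one_right (h2 x hx)
    have iy : y⁻¹ = y := inv_eq_of_mul_eq_one_right (h2 y hy)
    have := inv_eq_of_mul_eq_one_right e
    rw [mul_inv_rev, ix, iy] at this
    exact this.symm
  have : IsMulCommutative W := ⟨⟨fun x y => Subtype.ext (hc _ x.2 _ y.2)⟩⟩
  refine H01.le_of_cocyclic_centralizer_le (A := W) hN ?_ ?_
  · rw [h32, show (32 : ℕ) = 2 ^ 5 by norm_num]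
    exact Nat.Coprime.pow_left _ (Nat.coprime_two_left.mpr hR)
  · rintro B hB ⟨a, ha, hs⟩
    have h1 := two W B a h2 hc hB ha hs
    have hd : Nat.card B ∣ 2 ^ 5 := by
      have := Subgroup.card_dvd_of_le hB
      rwa [h32] at this
    obtain ⟨k, hk, e⟩ := (Nat.dvd_prime_pow Nat.prime_two).mp hd
    have h16 : 2 ^ 4 ∣ Nat.card B := by
      rw [h32, e] at h1
      rw [e]
      interval_cases k <;> simp_all
    have : Fact (Nat.Prime 2) := ⟨Nat.prime_two⟩
    obtain ⟨K, hK⟩ := Sylow.exists_subgroup_card_pow_prime 2 h16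
    have hKB : K.map B.subtype ≤ B := map_subtype_le K
    have hKc : Nat.card ↥(K.map B.subtype) = 16 := by
      rw [Subgroup.card_map_of_injective B.subtype_injective, hK]; norm_num
    refine le_trans (inf_le_inf_left _ (Subgroup.centralizer_le ?_)) (hU _ (hKB.trans hB) hKc)
    exact hKB

end H16.TG
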