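import Mathlib

/-! Poisson summation for Gaussians attached to a positive definite real quadratic form on `ℤ^n`. -/

namespace H16
namespace Theta

open Complex Real Finset

/-- complex value of the quadratic form with real matrix `A`. -/
noncomputable def qf {n : ℕ} (A : Fin n → Fin n → ℝ) (z : Fin n → ℂ) : ℂ :=
  ∑ i, ∑ j, (A i j : ℂ) * z i * z j

/-- real value of the quadratic form with real matrix `A`. -/
noncomputable def qr {n : ℕ} (A : Fin n → Fin n → ℝ) (x : Fin n → ℝ) : ℝ :=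
  ∑ i, ∑ j, A i j * x i * x j

/-- `A` is symmetric positive semidefinite with symmetric inverse `M`. -/
structure Good {n : ℕ} (A M : Fin n → Fin n → ℝ) : Prop where
  symA : ∀ i j, A i j = A j i
  symM : ∀ i j, M i j = M j i
  mul : ∀ i j, ∑ k, A i k * M k j = if i = j then 1 else 0
  psd : ∀ x, 0 ≤ qr A x

lemma qf_ofReal {n : ℕ} (A : Fin n → Fin n → ℝ) (x : Fin n → ℝ) :
    qf A (fun i => (x i : ℂ)) = (qr A x : ℝ) := by
  simp [qf, qr]

lemma qr_sub {n : ℕ} (A : Fin n → Fin n → ℝ) (hA : ∀ i j, A i j = A j i) (x u : Fin n → ℝ) (t : ℝ) :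
    qr A (fun i => x i - t * u i) =
      qr A x - 2 * t * (∑ i, x i * ∑ j, A i j * u j) + t ^ 2 * ∑ i, u i * ∑ j, A i j * u j := by
  have h1 : ∑ i, ∑ j, A i j * u i * x j = ∑ i, ∑ j, A i j * x i * u j := by
    rw [Finset.sum_comm]
    refine Finset.sum_congr rfl fun i _ => Finset.sum_congr rfl fun j _ => ?_
    rw [hA j i]; ring
  have h2 : ∑ i, x i * ∑ j, A i j * u j = ∑ i, ∑ j, A i j * x i * u j := by
    refine Finset.sum_congr rfl fun i _ => ?_
    rw [Finset.mul_sum]
    exact Finset.sum_congr rfl fun j _ => by ring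
  have h3 : ∑ i, u i * ∑ j, A i j * u j = ∑ i, ∑ j, A i j * u i * u j := by
    refine Finset.sum_congr rfl fun i _ => ?_
    rw [Finset.mul_sum]
    exact Finset.sum_congr rfl fun j _ => by ring
  have h4 : qr A (fun i => x i - t * u i) = qr A x - t * (∑ i, ∑ j, A i j * u i * x j)
      - t * (∑ i, ∑ j, A i j * x i * u j) + t ^ 2 * ∑ i, ∑ j, A i j * u i * u j := by
    simp only [qr, Finset.mul_sum, ← Finset.sum_sub_distrib, ← Finset.sum_add_distrib]
    exact Finset.sum_congr rfl fun i _ => Finset.sum_congr rfl fun j _ => by ring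
  rw [h4, h1, h2, h3]; ring

lemma Good.lower {n : ℕ} {A M : Fin n → Fin n → ℝ} (h : Good A M) :
    ∃ ε : ℝ, 0 < ε ∧ ∀ x : Fin n → ℝ, ε * ∑ i, x i ^ 2 ≤ qr A x := by
  set K : ℝ := 1 + ∑ i, |M i i| with hK
  have hK0 : 0 < K := by
    have : 0 ≤ ∑ i, |M i i| := Finset.sum_nonneg fun i _ => abs_nonneg _
    linarith
  have key : ∀ (x : Fin n → ℝ) (k : Fin n), x k ^ 2 ≤ K * qr A x := by
    intro x k
    have h1 := h.psd (fun i => x i - (x k / K) * M i k)
    rw [qr_sub A h.symA x (fun i => M i k)] at h1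
    simp only [h.mul, mul_ite, mul_one, mul_zero, Finset.sum_ite_eq', Finset.mem_univ, if_true] at h1
    have h2 : M k k ≤ K := by
      have : |M k k| ≤ ∑ i, |M i i| :=
        Finset.single_le_sum (f := fun i => |M i i|) (fun i _ => abs_nonneg _) (Finset.mem_univ k)
      have := le_abs_self (M k k)
      linarith
    have h3 : (x k / K) ^ 2 * M k k ≤ (x k / K) ^ 2 * K := by gcongr
    have h4 : (x k / K) ^ 2 * K = x k / K * x k := by field_simp
    have h5 : x k / K * x k ≤ qr A x := by linarith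
    have h6 : x k ^ 2 = K * (x k / K * x k) := by field_simp
    rw [h6]; gcongr
  refine ⟨1 / ((n + 1) * K), by positivity, fun x => ?_⟩
  have h1 : ∑ i, x i ^ 2 ≤ ∑ _i : Fin n, K * qr A x := Finset.sum_le_sum fun i _ => key x i
  simp only [Finset.sum_const, Finset.card_univ, Fintype.card_fin, nsmul_eq_mul] at h1
  have h2 := h.psd x
  rw [div_mul_eq_mul_div, one_mul, div_le_iff₀ (by positivity)]
  have : 0 ≤ K * qr A x := by positivity
  nlinarith

lemma Good.symm {n : ℕ} {A M : Fin n → Fin n → ℝ} (h : Good A M) : Good M A where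
  symA := h.symM
  symM := h.symA
  mul i j := by
    have := h.mul j i
    rw [show (if i = j then (1 : ℝ) else 0) = if j = i then 1 else 0 by simp [eq_comm], ← this]
    exact Finset.sum_congr rfl fun k _ => by rw [h.symM i k, h.symA k j]; ring
  psd y := by
    have h1 := h.psd (fun i => ∑ k, M i k * y k)
    have h2 : ∀ i, ∑ j, A i j * ∑ k, M j k * y k = y i := by
      intro i
      simp only [Finset.mul_sum]
      rw [Finset.sum_comm]
      have : ∀ k, ∑ j, A i j * (M j k * y k) = (if i = k then 1 else 0) * y k := by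
        intro k
        rw [← h.mul, Finset.sum_mul]
        exact Finset.sum_congr rfl fun j _ => by ring
      simp [this]
    have h3 : qr A (fun i => ∑ k, M i k * y k) = ∑ i, (∑ k, M i k * y k) * y i := by
      unfold qr
      refine Finset.sum_congr rfl fun i _ => ?_
      rw [← h2 i, Finset.mul_sum]
      exact Finset.sum_congr rfl fun j _ => by beta_reduce; ring
    rw [h3] at h1
    refine h1.trans_eq ?_
    unfold qr
    refine Finset.sum_congr rfl fun i _ => ?_
    rw [Finset.sum_mul]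
    exact Finset.sum_congr rfl fun j _ => by ring

lemma summable_gauss1 {ε : ℝ} (hε : 0 < ε) (β : ℝ) :
    Summable (fun m : ℤ => Real.exp (-ε * (m : ℝ) ^ 2 + β * m)) := by
  have h0 : Summable (fun m : ℤ => Real.exp (-|(m : ℝ)|)) := by
    apply Summable.of_nat_of_neg
    · simpa using Real.summable_exp_neg_nat
    · simpa using Real.summable_exp_neg_nat
  refine Summable.of_nonneg_of_le (fun _ => (Real.exp_pos _).le) (fun m => ?_)
    (h0.mul_left (Real.exp ((|β| + 1) ^ 2 / (4 * ε))))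
  rw [← Real.exp_add, Real.exp_le_exp]
  have h1 : β * m ≤ |β| * |(m : ℝ)| := by rw [← abs_mul]; exact le_abs_self _
  have h2 : (m : ℝ) ^ 2 = |(m : ℝ)| ^ 2 := (sq_abs _).symm
  rw [h2]
  set t := |(m : ℝ)|
  set B := |β| + 1
  have h3 : -ε * t ^ 2 + B * t ≤ B ^ 2 / (4 * ε) := by
    rw [le_div_iff₀ (by positivity)]
    nlinarith [sq_nonneg (B - 2 * ε * t)]
  have : B * t = |β| * t + t := by simp only [B]; ring
  linarith

lemma summable_gauss {n : ℕ} {ε : ℝ} (hε : 0 < ε) (β : Fin n → ℝ) :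
    Summable (fun x : Fin n → ℤ => Real.exp (-ε * ∑ i, (x i : ℝ) ^ 2 + ∑ i, β i * x i)) := by
  induction n with
  | zero => exact Summable.of_finite
  | succ n ih =>
    have h1 := (summable_gauss1 hε (β 0)).mul_of_nonneg (ih (fun i => β i.succ))
      (fun _ => (Real.exp_pos _).le) (fun _ => (Real.exp_pos _).le)
    rw [← (Fin.consEquiv (fun _ : Fin (n + 1) => ℤ)).summable_iff]
    refine h1.congr fun p => ?_
    simp only [Function.comp, Fin.consEquiv_apply, Fin.sum_univ_succ, Fin.cons_zero, Fin.cons_succ]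
    rw [← Real.exp_add]
    congr 1; ring

/-- the general term of the theta series -/
noncomputable def TT {n : ℕ} (A : Fin n → Fin n → ℝ) (s : ℂ) (b : Fin n → ℂ) (x : Fin n → ℤ) : ℂ :=
  cexp (-π * s * qf A (fun i => (x i : ℂ)) + 2 * π * ∑ i, b i * x i)

/-- the general term of the dual theta series -/
noncomputable def RR {n : ℕ} (M : Fin n → Fin n → ℝ) (s : ℂ) (b : Fin n → ℂ) (y : Fin n → ℤ) : ℂ :=
  cexp (-π / s * qf M (fun i => (y i : ℂ) + I * b i))

lemma norm_TT {n : ℕ} (A : Fin n → Fin n → ℝ) (s : ℂ) (b : Fin n → ℂ) (x : Fin n → ℤ) :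
    ‖TT A s b x‖ = Real.exp (-π * s.re * qr A (fun i => (x i : ℝ)) + 2 * π * ∑ i, (b i).re * x i) := by
  have h1 : qf A (fun i => (x i : ℂ)) = (qr A (fun i => (x i : ℝ)) : ℝ) := by
    rw [← qf_ofReal]; simp
  rw [TT, Complex.norm_exp, h1]
  congr 1
  simp [Complex.re_sum]

lemma Good.summable_TT {n : ℕ} {A M : Fin n → Fin n → ℝ} (h : Good A M) {s : ℂ} (hs : 0 < s.re)
    (b : Fin n → ℂ) : Summable (fun x => ‖TT A s b x‖) := by
  obtain ⟨ε, hε, hl⟩ := h.lower
  have h1 := summable_gauss (n := n) (ε := π * s.re * ε) (by positivity) (fun i => 2 * π * (b i).re)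
  refine Summable.of_nonneg_of_le (fun _ => norm_nonneg _) (fun x => ?_) h1
  rw [norm_TT, Real.exp_le_exp]
  have h2 := hl (fun i => (x i : ℝ))
  have h3 : ∑ i, 2 * π * (b i).re * x i = 2 * π * ∑ i, (b i).re * x i := by
    rw [Finset.mul_sum]; exact Finset.sum_congr rfl fun i _ => by ring
  rw [h3]
  have h4 : π * s.re * (ε * ∑ i, (x i : ℝ) ^ 2) ≤ π * s.re * qr A (fun i => (x i : ℝ)) := by
    have : 0 < π * s.re := by positivity
    gcongr
  linarith

lemma qf_add {n : ℕ} (A : Fin n → Fin n → ℝ) (hA : ∀ i j, A i j = A j i) (x u : Fin n → ℂ) :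
    qf A (fun i => x i + u i) =
      qf A x + 2 * (∑ i, (∑ j, (A i j : ℂ) * u j) * x i) + qf A u := by
  have h1 : ∑ i, ∑ j, (A i j : ℂ) * u i * x j = ∑ i, ∑ j, (A i j : ℂ) * x i * u j := by
    rw [Finset.sum_comm]
    refine Finset.sum_congr rfl fun i _ => Finset.sum_congr rfl fun j _ => ?_
    rw [hA j i]; ring
  have h2 : ∑ i, (∑ j, (A i j : ℂ) * u j) * x i = ∑ i, ∑ j, (A i j : ℂ) * x i * u j := by
    refine Finset.sum_congr rfl fun i _ => ?_
    rw [Finset.sum_mul]
    exact Finset.sum_congr rfl fun j _ => by ring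
  have h4 : qf A (fun i => x i + u i) = qf A x + (∑ i, ∑ j, (A i j : ℂ) * u i * x j)
      + (∑ i, ∑ j, (A i j : ℂ) * x i * u j) + qf A u := by
    simp only [qf, ← Finset.sum_add_distrib]
    exact Finset.sum_congr rfl fun i _ => Finset.sum_congr rfl fun j _ => by ring
  rw [h4, h1, h2]; ring

lemma Good.summable_RR {n : ℕ} {A M : Fin n → Fin n → ℝ} (h : Good A M) {s : ℂ} (hs : 0 < s.re)
    (b : Fin n → ℂ) : Summable (fun y => ‖RR M s b y‖) := by
  have hs0 : s ≠ 0 := by rintro rfl; simp at hs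
  have hs' : 0 < (s⁻¹).re := by
    rw [Complex.inv_re]; exact div_pos hs (Complex.normSq_pos.mpr hs0)
  have h1 := (h.symm.summable_TT hs' (fun i => -s⁻¹ * ∑ j, (M i j : ℂ) * (I * b j))).mul_right
    ‖cexp (-π / s * qf M (fun i => I * b i))‖
  refine h1.congr fun y => ?_
  rw [← norm_mul, TT, RR, ← Complex.exp_add, qf_add M h.symM]
  congr 2
  have : ∑ i, (-s⁻¹ * ∑ j, (M i j : ℂ) * (I * b j)) * y i =
      -s⁻¹ * ∑ i, (∑ j, (M i j : ℂ) * (I * b j)) * y i := by
    rw [Finset.mul_sum]; exact Finset.sum_congr rfl fun i _ => by ring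
  rw [this]; ring

lemma qf_cons {n : ℕ} (A : Fin (n + 1) → Fin (n + 1) → ℝ) (hA : ∀ i j, A i j = A j i)
    (z : Fin (n + 1) → ℂ) :
    qf A z = A 0 0 * z 0 ^ 2 + 2 * z 0 * (∑ j : Fin n, (A 0 j.succ : ℂ) * z j.succ)
      + qf (fun i j : Fin n => A i.succ j.succ) (fun i => z i.succ) := by
  simp only [qf, Fin.sum_univ_succ, Finset.sum_add_distrib]
  have h1 : ∑ i : Fin n, (A i.succ 0 : ℂ) * z i.succ * z 0 =
      z 0 * ∑ j : Fin n, (A 0 j.succ : ℂ) * z j.succ := by
    rw [Finset.mul_sum]; exact Finset.sum_congr rfl fun i _ => by rw [hA i.succ 0]; ring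
  have h2 : ∑ i : Fin n, (A 0 i.succ : ℂ) * z 0 * z i.succ =
      z 0 * ∑ j : Fin n, (A 0 j.succ : ℂ) * z j.succ := by
    rw [Finset.mul_sum]; exact Finset.sum_congr rfl fun i _ => by ring
  rw [h1, h2]; ring

/-- the Schur complement -/
noncomputable def schur {n : ℕ} (A : Fin (n + 1) → Fin (n + 1) → ℝ) : Fin n → Fin n → ℝ :=
  fun i j => A i.succ j.succ - A 0 i.succ * A 0 j.succ / A 0 0

lemma qf_schur {n : ℕ} (A : Fin (n + 1) → Fin (n + 1) → ℝ) (z : Fin n → ℂ) :
    qf (schur A) z = qf (fun i j : Fin n => A i.succ j.succ) z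
      - (∑ j : Fin n, (A 0 j.succ : ℂ) * z j) ^ 2 / A 0 0 := by
  rw [sq, Finset.sum_mul_sum]
  simp only [qf, schur, Finset.sum_div, ← Finset.sum_sub_distrib]
  refine Finset.sum_congr rfl fun i _ => Finset.sum_congr rfl fun j _ => ?_
  push_cast; ring

lemma Good.pos00 {n : ℕ} {A M : Fin (n + 1) → Fin (n + 1) → ℝ} (h : Good A M) : 0 < A 0 0 := by
  obtain ⟨ε, hε, hl⟩ := h.lower
  have := hl (Pi.single 0 1)
  simp [qr, Fin.sum_univ_succ] at this
  linarith

lemma Good.row0 {n : ℕ} {A M : Fin (n + 1) → Fin (n + 1) → ℝ} (h : Good A M) (j : Fin n) :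
    ∑ k : Fin n, A 0 k.succ * M k.succ j.succ = -(A 0 0 * M 0 j.succ) := by
  have := h.mul 0 j.succ
  rw [Fin.sum_univ_succ, if_neg (Fin.succ_ne_zero j).symm] at this
  linarith

lemma Good.schur {n : ℕ} {A M : Fin (n + 1) → Fin (n + 1) → ℝ} (h : Good A M) :
    Good (schur A) (fun i j => M i.succ j.succ) where
  symA i j := by simp only [Theta.schur]; rw [h.symA i.succ j.succ]; ring
  symM i j := h.symM _ _
  mul i j := by
    have h0 := h.pos00.ne'
    have h1 := h.mul i.succ j.succ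
    rw [Fin.sum_univ_succ] at h1
    simp only [Fin.succ_inj] at h1
    have h2 := h.row0 j
    have h3 : ∑ k, Theta.schur A i k * M k.succ j.succ = ∑ k : Fin n, A i.succ k.succ * M k.succ j.succ
        - A 0 i.succ / A 0 0 * ∑ k : Fin n, A 0 k.succ * M k.succ j.succ := by
      rw [Finset.mul_sum, ← Finset.sum_sub_distrib]
      exact Finset.sum_congr rfl fun k _ => by simp only [Theta.schur]; ring
    rw [h3, h2, ← h1, h.symA i.succ 0]
    field_simp; ring
  psd x := by
    have h0 := h.pos00.ne'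
    have h0' : (A 0 0 : ℂ) ≠ 0 := by exact_mod_cast h0
    set t : ℝ := -(∑ j : Fin n, A 0 j.succ * x j) / A 0 0
    have h1 := h.psd (Fin.cons t x)
    have h2 : ((qr A (Fin.cons t x) : ℝ) : ℂ) = (qr (Theta.schur A) x : ℝ) := by
      rw [← qf_ofReal, ← qf_ofReal, qf_cons A h.symA, qf_schur]
      simp only [Fin.cons_zero, Fin.cons_succ, t]
      push_cast
      field_simp; ring
    have h3 : qr A (Fin.cons t x) = qr (Theta.schur A) x := by exact_mod_cast h2
    rwa [← h3]

lemma Good.qf_dual {n : ℕ} {A M : Fin (n + 1) → Fin (n + 1) → ℝ} (h : Good A M)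
    (z : Fin (n + 1) → ℂ) :
    qf M z = z 0 ^ 2 / A 0 0 + qf (fun i j : Fin n => M i.succ j.succ)
      (fun i => z i.succ + -(z 0 * A 0 i.succ / A 0 0)) := by
  have h0' : (A 0 0 : ℂ) ≠ 0 := by exact_mod_cast h.pos00.ne'
  have hr : ∀ i : Fin n, ∑ j : Fin n, (M i.succ j.succ : ℂ) * (-(z 0 * A 0 j.succ / A 0 0))
      = z 0 * M 0 i.succ := by
    intro i
    have h1 : ((∑ k : Fin n, A 0 k.succ * M k.succ i.succ : ℝ) : ℂ) = (-(A 0 0 * M 0 i.succ) : ℝ) := by
      rw [h.row0]
    push_cast at h1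
    have h2 : ∑ j : Fin n, (M i.succ j.succ : ℂ) * (-(z 0 * A 0 j.succ / A 0 0)) =
        -(z 0 / A 0 0) * ∑ k : Fin n, (A 0 k.succ : ℂ) * M k.succ i.succ := by
      rw [Finset.mul_sum]
      exact Finset.sum_congr rfl fun k _ => by rw [h.symM i.succ k.succ]; ring
    rw [h2, h1]; field_simp
  have h00 : ∑ k : Fin n, (A 0 k.succ : ℂ) * M 0 k.succ = 1 - A 0 0 * M 0 0 := by
    have h1 := h.mul 0 0
    rw [Fin.sum_univ_succ, if_pos rfl] at h1
    have h2 : ∑ k : Fin n, A 0 k.succ * M 0 k.succ = 1 - A 0 0 * M 0 0 := by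
      rw [← h1]
      simp only [h.symM 0]
      ring
    exact_mod_cast h2
  rw [qf_cons M h.symM, qf_add _ (fun i j => h.symM _ _)]
  simp only [hr]
  have h3 : qf (fun i j : Fin n => M i.succ j.succ) (fun i => -(z 0 * A 0 i.succ / A 0 0)) =
      -(z 0 ^ 2 / A 0 0) * ∑ k : Fin n, (A 0 k.succ : ℂ) * M 0 k.succ := by
    unfold qf
    rw [Finset.mul_sum]
    refine Finset.sum_congr rfl fun i _ => ?_
    have := hr i
    calc _ = -(z 0 * A 0 i.succ / A 0 0) *
          ∑ j : Fin n, (M i.succ j.succ : ℂ) * (-(z 0 * A 0 j.succ / A 0 0)) := by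
          rw [Finset.mul_sum]; exact Finset.sum_congr rfl fun j _ => by ring
      _ = _ := by rw [this]; ring
  have h4 : ∑ i : Fin n, z 0 * (M 0 i.succ : ℂ) * z i.succ =
      z 0 * ∑ j : Fin n, (M 0 j.succ : ℂ) * z j.succ := by
    rw [Finset.mul_sum]; exact Finset.sum_congr rfl fun i _ => by ring
  rw [h3, h00, h4]
  field_simp; ring

lemma summable_quad1 {α : ℂ} (hα : 0 < α.re) (β γ : ℂ) :
    Summable (fun m : ℤ => ‖cexp (-α * (m : ℂ) ^ 2 + β * m + γ)‖) := by
  refine ((summable_gauss1 hα β.re).mul_right (Real.exp γ.re)).congr fun m => ?_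
  rw [← Real.exp_add, Complex.norm_exp]
  congr 1
  have : ((m : ℂ) ^ 2) = (((m : ℝ) ^ 2 : ℝ) : ℂ) := by push_cast; ring
  rw [this]
  simp only [Complex.add_re, Complex.mul_re, Complex.neg_re, Complex.ofReal_re, Complex.ofReal_im,
    Complex.intCast_re, Complex.intCast_im]
  ring

/-- Poisson summation for Gaussians on `ℤ^n`, up to a constant depending on the form only. -/
theorem poisson : ∀ {n : ℕ} {A M : Fin n → Fin n → ℝ}, Good A M →
    ∃ C : ℂ, ∀ s : ℂ, 0 < s.re → ∀ b : Fin n → ℂ,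
      ∑' x, TT A s b x = C / (s ^ (1 / 2 : ℂ)) ^ n * ∑' y, RR M s b y := by
  intro n
  induction n with
  | zero =>
    intro A M _
    refine ⟨1, fun s _ b => ?_⟩
    simp [TT, RR, qf]
  | succ n ih =>
    intro A M h
    obtain ⟨C, hC⟩ := ih h.schur
    have ha := h.pos00
    have ha' : (A 0 0 : ℂ) ≠ 0 := by exact_mod_cast ha.ne'
    refine ⟨C / (A 0 0 : ℂ) ^ (1 / 2 : ℂ), fun s hs b => ?_⟩
    have hs0 : s ≠ 0 := by rintro rfl; simp at hs
    set a : ℝ := A 0 0 with ha_def
    have hsa : 0 < (s * a).re := by simp; positivity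
    -- the intermediate double series
    let b2 : ℤ → Fin n → ℂ := fun y j => b j.succ + I * (y + I * b 0) * A 0 j.succ / a
    let e : ℤ → ℂ := fun y => cexp (-π / (s * a) * (y + I * b 0) ^ 2)
    have he : Summable (fun y => ‖e y‖) := by
      have h1 : 0 < (π / (s * a) : ℂ).re := by
        rw [div_eq_mul_inv, Complex.re_ofReal_mul, Complex.inv_re]
        have : 0 < Complex.normSq (s * a) := Complex.normSq_pos.mpr (mul_ne_zero hs0 ha')
        positivity
      refine (summable_quad1 h1 (-π / (s * a) * (2 * I * b 0))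
        (-π / (s * a) * (I * b 0) ^ 2)).congr fun y => ?_
      simp only [e]
      congr 2; ring
    have hnorm : ∀ y x, ‖TT (Theta.schur A) s (b2 y) x‖ = ‖TT (Theta.schur A) s (b2 0) x‖ := by
      intro y x
      rw [norm_TT, norm_TT]
      congr 3
      refine Finset.sum_congr rfl fun j _ => ?_
      congr 1
      have : b2 y j = b2 0 j + I * ((y * A 0 j.succ / a : ℝ) : ℂ) := by
        simp only [b2]; push_cast; ring
      rw [this]
      simp only [Complex.add_re, Complex.mul_re, Complex.I_re, Complex.I_im, Complex.ofReal_re,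
        Complex.ofReal_im]
      ring
    have hG : Summable (fun p : ℤ × (Fin n → ℤ) => e p.1 * TT (Theta.schur A) s (b2 p.1) p.2) := by
      refine Summable.of_norm ?_
      have := he.mul_of_nonneg (h.schur.summable_TT hs (b2 0)) (fun _ => norm_nonneg _)
        (fun _ => norm_nonneg _)
      refine this.congr fun p => ?_
      rw [norm_mul, hnorm p.1]
    -- one dimensional Poisson summation
    have step1 : ∀ x : Fin n → ℤ, ∑' m : ℤ, TT A s b (Fin.cons m x) =
        1 / (s * a) ^ (1 / 2 : ℂ) * ∑' y : ℤ, e y * TT (Theta.schur A) s (b2 y) x := by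
      intro x
      set L : ℂ := ∑ j : Fin n, (A 0 j.succ : ℂ) * x j with hL
      set W : ℂ := cexp (-π * s * qf (fun i j : Fin n => A i.succ j.succ) (fun i => (x i : ℂ))
        + 2 * π * ∑ i : Fin n, b i.succ * x i) with hW
      have h1 : ∀ m : ℤ, TT A s b (Fin.cons m x) =
          cexp (-π * (s * a) * (m : ℂ) ^ 2 + 2 * π * (b 0 - s * L) * m) * W := by
        intro m
        rw [TT, hW, ← Complex.exp_add, qf_cons A h.symA, Fin.sum_univ_succ]
        simp only [Fin.cons_zero, Fin.cons_succ]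
        congr 1
        rw [← hL, ← ha_def]; ring
      have h2 : ∀ y : ℤ, e y * TT (Theta.schur A) s (b2 y) x =
          cexp (-π / (s * a) * (y + I * (b 0 - s * L)) ^ 2) * W := by
        intro y
        simp only [e]
        rw [TT, hW, ← Complex.exp_add, ← Complex.exp_add, qf_schur]
        congr 1
        have h3 : ∑ i : Fin n, b2 y i * x i =
            ∑ i : Fin n, b i.succ * x i + I * (y + I * b 0) / a * L := by
          rw [hL, Finset.mul_sum, ← Finset.sum_add_distrib]
          exact Finset.sum_congr rfl fun i _ => by simp only [b2]; ring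
        rw [h3, ← hL, ← ha_def]
        field_simp
        linear_combination (s ^ 2 * L ^ 2) * Complex.I_sq
      simp only [h1, h2, tsum_mul_right]
      rw [Complex.tsum_exp_neg_quadratic hsa, mul_assoc]
    have hF : Summable (fun p : ℤ × (Fin n → ℤ) => TT A s b (Fin.cons p.1 p.2)) := by
      have := (h.summable_TT hs b).of_norm
      rw [← (Fin.consEquiv (fun _ : Fin (n + 1) => ℤ)).summable_iff] at this
      exact this
    have hR : Summable (fun p : ℤ × (Fin n → ℤ) => RR M s b (Fin.cons p.1 p.2)) := by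
      have := (h.summable_RR hs b).of_norm
      rw [← (Fin.consEquiv (fun _ : Fin (n + 1) => ℤ)).summable_iff] at this
      exact this
    have step3 : ∀ (y : ℤ) (w : Fin n → ℤ), RR M s b (Fin.cons y w) =
        e y * RR (fun i j : Fin n => M i.succ j.succ) s (b2 y) w := by
      intro y w
      simp only [e, RR]
      rw [← Complex.exp_add, h.qf_dual]
      simp only [Fin.cons_zero, Fin.cons_succ]
      congr 1
      have h3 : (fun i : Fin n => (w i : ℂ) + I * b i.succ + -((y + I * b 0) * A 0 i.succ / A 0 0)) =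
          fun i => (w i : ℂ) + I * b2 y i := by
        funext i
        simp only [b2, ← ha_def]
        linear_combination (-((y + I * b 0) * A 0 i.succ / a)) * Complex.I_sq
      rw [h3, ← ha_def]
      field_simp
      ring
    rw [← (Fin.consEquiv (fun _ : Fin (n + 1) => ℤ)).tsum_eq,
      ← (Fin.consEquiv (fun _ : Fin (n + 1) => ℤ)).tsum_eq]
    change ∑' p : ℤ × (Fin n → ℤ), TT A s b (Fin.cons p.1 p.2) =
      _ * ∑' p : ℤ × (Fin n → ℤ), RR M s b (Fin.cons p.1 p.2)
    have hcomm0 := Summable.tsum_comm (f := fun (m : ℤ) (x : Fin n → ℤ) => TT A s b (Fin.cons m x)) hF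
    have hcomm := Summable.tsum_comm
      (f := fun (y : ℤ) (x : Fin n → ℤ) => e y * TT (Theta.schur A) s (b2 y) x) hG
    rw [hF.tsum_prod, hR.tsum_prod, ← hcomm0]
    simp only [step1, step3]
    rw [tsum_mul_left, hcomm]
    simp only [tsum_mul_left]
    simp only [hC s hs]
    have h5 : ∀ y : ℤ, e y * (C / (s ^ (1 / 2 : ℂ)) ^ n *
        ∑' w, RR (fun i j : Fin n => M i.succ j.succ) s (b2 y) w) =
        C / (s ^ (1 / 2 : ℂ)) ^ n * (e y * ∑' w, RR (fun i j : Fin n => M i.succ j.succ) s (b2 y) w) :=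
      fun y => by ring
    simp only [h5, tsum_mul_left]
    have h6 : (s * a) ^ (1 / 2 : ℂ) = s ^ (1 / 2 : ℂ) * (a : ℂ) ^ (1 / 2 : ℂ) := by
      rw [Complex.cpow_def_of_ne_zero (mul_ne_zero hs0 ha'), Complex.cpow_def_of_ne_zero hs0,
        Complex.cpow_def_of_ne_zero ha', Complex.log_mul_ofReal _ ha _ hs0, ← Complex.exp_add,
        Complex.ofReal_log ha.le]
      congr 1; ring
    rw [h6, pow_succ]
    ring

end Theta
end H16
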