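import Mathlib
import Cfsg.Agent.H16.Theta1

/-! The theta series of an even unimodular lattice of rank 24 is a modular form of weight 12. -/

namespace H16
namespace Theta

open Complex Real Finset Matrix

lemma qr_int {n : ℕ} (B : Matrix (Fin n) (Fin n) ℤ) (x : Fin n → ℤ) :
    qr (fun i j => (B i j : ℝ)) (fun i => (x i : ℝ)) = ((x ⬝ᵥ (B *ᵥ x) : ℤ) : ℝ) := by
  simp only [qr, dotProduct, mulVec]
  push_cast
  refine Finset.sum_congr rfl fun i _ => ?_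
  rw [Finset.mul_sum]
  exact Finset.sum_congr rfl fun j _ => by ring

lemma qf_int {n : ℕ} (B : Matrix (Fin n) (Fin n) ℤ) (x : Fin n → ℤ) :
    qf (fun i j => (B i j : ℝ)) (fun i => (x i : ℂ)) = ((x ⬝ᵥ (B *ᵥ x) : ℤ) : ℂ) := by
  have := qf_ofReal (fun i j => (B i j : ℝ)) (fun i => (x i : ℝ))
  rw [qr_int] at this
  simpa using this

lemma psd_of_int {n : ℕ} (B : Matrix (Fin n) (Fin n) ℤ)
    (hpos : ∀ x : Fin n → ℤ, 0 ≤ x ⬝ᵥ (B *ᵥ x)) (x : Fin n → ℝ) :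
    0 ≤ qr (fun i j => (B i j : ℝ)) x := by
  have hc : Continuous (fun x : Fin n → ℝ => qr (fun i j => (B i j : ℝ)) x) := by
    unfold qr; fun_prop
  have hd : DenseRange (fun (y : Fin n → ℚ) (i : Fin n) => (y i : ℝ)) :=
    DenseRange.piMap (f := fun _ : Fin n => ((↑) : ℚ → ℝ)) fun _ => Rat.denseRange_cast
  refine hd.induction_on x (isClosed_le continuous_const hc) fun y => ?_
  obtain ⟨b, hb⟩ := IsLocalization.exist_integer_multiples_of_finite (nonZeroDivisors ℤ) y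
  choose z hz using hb
  have hb0 : ((b : ℤ) : ℝ) ≠ 0 := by exact_mod_cast nonZeroDivisors.coe_ne_zero b
  have h1 : ∀ i, (z i : ℝ) = (b : ℤ) * (y i : ℝ) := by
    intro i
    have := hz i
    simp only [algebraMap_int_eq, eq_intCast, zsmul_eq_mul] at this
    exact_mod_cast this
  have h2 : qr (fun i j => (B i j : ℝ)) (fun i => (z i : ℝ)) =
      ((b : ℤ) : ℝ) ^ 2 * qr (fun i j => (B i j : ℝ)) (fun i => (y i : ℝ)) := by
    simp only [qr, h1, Finset.mul_sum]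
    exact Finset.sum_congr rfl fun i _ => Finset.sum_congr rfl fun j _ => by ring
  have h3 := qr_int B z
  have h4 : (0 : ℝ) ≤ ((z ⬝ᵥ (B *ᵥ z) : ℤ) : ℝ) := by exact_mod_cast hpos z
  rw [← h3, h2] at h4
  exact nonneg_of_mul_nonneg_right h4 (by positivity) |> fun h => by
    rcases (mul_nonneg_iff_of_pos_left (by positivity : (0:ℝ) < ((b : ℤ) : ℝ) ^ 2)).mp h4 with h'
    exact h'

lemma good_of_int {n : ℕ} (B : Matrix (Fin n) (Fin n) ℤ) (hsymm : B.IsSymm)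
    (hpos : ∀ x : Fin n → ℤ, 0 ≤ x ⬝ᵥ (B *ᵥ x)) (hdet : B.det = 1) :
    Good (fun i j => (B i j : ℝ)) (fun i j => (B.adjugate i j : ℝ)) where
  symA i j := by rw [hsymm.apply i j]
  symM i j := by
    have : B.adjugate.IsSymm := by
      unfold Matrix.IsSymm
      rw [Matrix.adjugate_transpose, hsymm.eq]
    rw [this.apply i j]
  mul i j := by
    have h := congrFun (congrFun (Matrix.mul_adjugate B) i) j
    rw [hdet, one_smul, Matrix.mul_apply, Matrix.one_apply] at h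
    exact_mod_cast h
  psd := psd_of_int B hpos

/-- the theta series as a function of `s = -iτ` -/
noncomputable def th {n : ℕ} (B : Matrix (Fin n) (Fin n) ℤ) (s : ℂ) : ℂ :=
  ∑' x : Fin n → ℤ, cexp (-π * s * ((x ⬝ᵥ (B *ᵥ x) : ℤ) : ℂ))

lemma TT_int {n : ℕ} (B : Matrix (Fin n) (Fin n) ℤ) (s : ℂ) (x : Fin n → ℤ) :
    TT (fun i j => (B i j : ℝ)) s 0 x = cexp (-π * s * ((x ⬝ᵥ (B *ᵥ x) : ℤ) : ℂ)) := by
  rw [TT, qf_int]; simp

lemma summable_th {n : ℕ} (B : Matrix (Fin n) (Fin n) ℤ) (hsymm : B.IsSymm)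
    (hpos : ∀ x : Fin n → ℤ, 0 ≤ x ⬝ᵥ (B *ᵥ x)) (hdet : B.det = 1) {s : ℂ} (hs : 0 < s.re) :
    Summable (fun x : Fin n → ℤ => ‖cexp (-π * s * ((x ⬝ᵥ (B *ᵥ x) : ℤ) : ℂ))‖) := by
  simpa only [TT_int] using (good_of_int B hsymm hpos hdet).summable_TT hs 0

theorem th_inv {n : ℕ} (B : Matrix (Fin n) (Fin n) ℤ) (hsymm : B.IsSymm)
    (hpos : ∀ x : Fin n → ℤ, 0 ≤ x ⬝ᵥ (B *ᵥ x)) (hdet : B.det = 1) {s : ℂ} (hs : 0 < s.re) :
    th B s = 1 / (s ^ (1 / 2 : ℂ)) ^ n * th B s⁻¹ := by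
  obtain ⟨C, hC⟩ := poisson (good_of_int B hsymm hpos hdet)
  have h1 : B * B.adjugate = 1 := by rw [Matrix.mul_adjugate, hdet, one_smul]
  have h2 : B.adjugate * B = 1 := by rw [Matrix.adjugate_mul, hdet, one_smul]
  let E : (Fin n → ℤ) ≃ (Fin n → ℤ) :=
    { toFun := fun x => B *ᵥ x
      invFun := fun y => B.adjugate *ᵥ y
      left_inv := fun x => by simp only [Matrix.mulVec_mulVec, h2, Matrix.one_mulVec]
      right_inv := fun x => by simp only [Matrix.mulVec_mulVec, h1, Matrix.one_mulVec] }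
  have key : ∀ s : ℂ, 0 < s.re → th B s = C / (s ^ (1 / 2 : ℂ)) ^ n * th B s⁻¹ := by
    intro s hs
    have := hC s hs 0
    simp only [TT_int] at this
    rw [th, this, th, ← E.tsum_eq]
    congr 1
    refine tsum_congr fun x => ?_
    simp only [RR, Pi.zero_apply, mul_zero, add_zero]
    rw [qf_int]
    congr 1
    have h3 : E x ⬝ᵥ (B.adjugate *ᵥ E x) = x ⬝ᵥ (B *ᵥ x) := by
      change (B *ᵥ x) ⬝ᵥ (B.adjugate *ᵥ (B *ᵥ x)) = _
      rw [Matrix.mulVec_mulVec, h2, Matrix.one_mulVec, dotProduct_comm]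
    rw [h3, div_eq_mul_inv]
  have h4 := key 1 (by simp)
  have h5 : th B 1 ≠ 0 := by
    have h6 := summable_th B hsymm hpos hdet (s := 1) (by simp)
    have h7 : ∀ x : Fin n → ℤ, cexp (-π * 1 * ((x ⬝ᵥ (B *ᵥ x) : ℤ) : ℂ)) =
        ((‖cexp (-π * 1 * ((x ⬝ᵥ (B *ᵥ x) : ℤ) : ℂ))‖ : ℝ) : ℂ) := by
      intro x
      have : (-π * 1 * ((x ⬝ᵥ (B *ᵥ x) : ℤ) : ℂ)) = ((-π * ((x ⬝ᵥ (B *ᵥ x) : ℤ) : ℝ) : ℝ) : ℂ) := by
        push_cast; ring
      rw [this, ← Complex.ofReal_exp, Complex.norm_real, Real.norm_of_nonneg (Real.exp_pos _).le]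
    rw [th, tsum_congr h7, ← Complex.ofReal_tsum]
    have h8 := h6.tsum_pos (fun _ => norm_nonneg _) 0 (norm_pos_iff.mpr (Complex.exp_ne_zero _))
    exact_mod_cast h8.ne'
  have hC1 : C = 1 := by
    simp only [Complex.one_cpow, one_pow, div_one, inv_one] at h4
    exact (mul_right_cancel₀ h5 (h4.symm.trans (one_mul _).symm))
  rw [key s hs, hC1]

open UpperHalfPlane ModularForm MatrixGroups in
/-- the theta series on the upper half plane -/
noncomputable def theta {n : ℕ} (B : Matrix (Fin n) (Fin n) ℤ) (τ : ℍ) : ℂ := th B (-Complex.I * τ)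

open UpperHalfPlane in
lemma re_pos (τ : ℍ) : 0 < (-Complex.I * (τ : ℂ)).re := by
  simpa using τ.im_pos

open UpperHalfPlane in
lemma hasSum_theta {n : ℕ} (B : Matrix (Fin n) (Fin n) ℤ) (hsymm : B.IsSymm)
    (hpos : ∀ x : Fin n → ℤ, 0 ≤ x ⬝ᵥ (B *ᵥ x)) (hdet : B.det = 1)
    (heven : ∀ x : Fin n → ℤ, (2 : ℤ) ∣ x ⬝ᵥ (B *ᵥ x)) (τ : ℍ) :
    HasSum (fun m : ℕ => (({x : Fin n → ℤ | x ⬝ᵥ (B *ᵥ x) = 2 * m}.ncard : ℕ) : ℂ) •
      Function.Periodic.qParam 1 (τ : ℂ) ^ m) (theta B τ) := by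
  have h1 := (summable_th B hsymm hpos hdet (re_pos τ)).of_norm.hasSum.tsum_fiberwise
    (fun x => ((x ⬝ᵥ (B *ᵥ x)) / 2).toNat)
  suffices H : (fun m : ℕ => (({x : Fin n → ℤ | x ⬝ᵥ (B *ᵥ x) = 2 * m}.ncard : ℕ) : ℂ) •
      Function.Periodic.qParam 1 (τ : ℂ) ^ m) = _ by rw [H]; exact h1
  funext m
  have h2 : (fun x : Fin n → ℤ => ((x ⬝ᵥ (B *ᵥ x)) / 2).toNat) ⁻¹' {m} =
      {x : Fin n → ℤ | x ⬝ᵥ (B *ᵥ x) = 2 * m} := by
    ext x
    obtain ⟨k, hk⟩ := heven x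
    have := hpos x
    simp only [Set.mem_preimage, Set.mem_singleton_iff, Set.mem_setOf_eq]
    omega
  rw [h2]
  have h3 : ∀ x : {x : Fin n → ℤ | x ⬝ᵥ (B *ᵥ x) = 2 * m},
      cexp (-π * (-Complex.I * τ) * ((x.1 ⬝ᵥ (B *ᵥ x.1) : ℤ) : ℂ)) =
        Function.Periodic.qParam 1 (τ : ℂ) ^ m := by
    rintro ⟨x, hx⟩
    simp only [Set.mem_setOf_eq] at hx
    simp only [hx, Function.Periodic.qParam, ← Complex.exp_nat_mul]
    congr 1
    push_cast; ring
  rw [tsum_congr h3, tsum_const, Nat.card_coe_set_eq]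
  simp

open UpperHalfPlane ModularForm MatrixGroups in
lemma theta_T {n : ℕ} (B : Matrix (Fin n) (Fin n) ℤ)
    (heven : ∀ x : Fin n → ℤ, (2 : ℤ) ∣ x ⬝ᵥ (B *ᵥ x)) (k : ℤ) :
    (theta B ∣[k] ModularGroup.T) = theta B := by
  ext z
  rw [SL_slash_apply, modular_T_smul]
  have h1 : denom ModularGroup.T z = 1 := by
    rw [ModularGroup.denom_apply]
    have e0 : ModularGroup.T 1 0 = 0 := rfl
    have e1 : ModularGroup.T 1 1 = 1 := rfl
    rw [e0, e1]; simp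
  rw [h1]
  simp only [theta, th, _root_.one_zpow, mul_one]
  refine tsum_congr fun x => ?_
  obtain ⟨m, hm⟩ := heven x
  rw [hm, ← Complex.exp_periodic.int_mul m (-π * (-Complex.I * z) * ((2 * m : ℤ) : ℂ))]
  congr 1
  simp only [coe_vadd]
  push_cast; ring

open UpperHalfPlane ModularForm MatrixGroups in
lemma theta_S (B : Matrix (Fin 24) (Fin 24) ℤ) (hsymm : B.IsSymm)
    (hpos : ∀ x : Fin 24 → ℤ, 0 ≤ x ⬝ᵥ (B *ᵥ x)) (hdet : B.det = 1) :
    (theta B ∣[(12 : ℤ)] ModularGroup.S) = theta B := by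
  ext z
  have hz := z.ne_zero
  suffices th B (-Complex.I * (-(z : ℂ)⁻¹)) * ((z : ℂ) ^ 12)⁻¹ = th B (-Complex.I * z) by
    rw [SL_slash_apply, UpperHalfPlane.modular_S_smul, ModularGroup.denom_S]
    simpa [theta]
  rw [th_inv B hsymm hpos hdet (re_pos z)]
  have h1 : (-Complex.I * (z : ℂ))⁻¹ = -Complex.I * (-(z : ℂ)⁻¹) := by
    rw [mul_inv, inv_neg, Complex.inv_I]; ring
  have h2 : ((-Complex.I * (z : ℂ)) ^ (1 / 2 : ℂ)) ^ 24 = (z : ℂ) ^ 12 := by
    rw [show 24 = 2 * 12 by norm_num, pow_mul, one_div, Complex.cpow_ofNat_inv_pow, mul_pow]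
    have : (-Complex.I) ^ 12 = 1 := by
      rw [show 12 = 4 * 3 by norm_num, pow_mul, neg_pow, Complex.I_pow_four]; norm_num
    rw [this, one_mul]
  rw [h1, h2]; ring

open UpperHalfPlane ModularForm MatrixGroups Manifold in
lemma theta_holo {n : ℕ} (B : Matrix (Fin n) (Fin n) ℤ) (hsymm : B.IsSymm)
    (hpos : ∀ x : Fin n → ℤ, 0 ≤ x ⬝ᵥ (B *ᵥ x)) (hdet : B.det = 1) :
    MDifferentiable 𝓘(ℂ) 𝓘(ℂ) (theta B) := by
  rw [UpperHalfPlane.mdifferentiable_iff]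
  have key : ∀ z : ℂ, 0 < z.im → DifferentiableAt ℂ (fun w => th B (-Complex.I * w)) z := by
    intro z hz
    have hU : IsOpen {w : ℂ | z.im / 2 < w.im} := isOpen_lt continuous_const Complex.continuous_im
    have h1 := summable_th B hsymm hpos hdet (s := ((z.im / 2 : ℝ) : ℂ)) (by simpa using hz)
    have h2 := Complex.differentiableOn_tsum_of_summable_norm
      (F := fun (x : Fin n → ℤ) (w : ℂ) => cexp (-π * (-Complex.I * w) * ((x ⬝ᵥ (B *ᵥ x) : ℤ) : ℂ)))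
      h1 (fun x => by fun_prop) hU (fun x w hw => by
        rw [Complex.norm_exp, Complex.norm_exp, Real.exp_le_exp]
        have h3 : (0 : ℝ) ≤ ((x ⬝ᵥ (B *ᵥ x) : ℤ) : ℝ) := by exact_mod_cast hpos x
        have h4 : z.im / 2 < w.im := hw
        generalize (x ⬝ᵥ (B *ᵥ x) : ℤ) = N at h3
        simp only [Complex.mul_re, Complex.neg_re, Complex.ofReal_re, Complex.neg_im,
          Complex.ofReal_im, Complex.I_re, Complex.I_im, Complex.mul_im, Complex.intCast_re,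
          Complex.intCast_im]
        have := Real.pi_pos
        have h5 : π * (z.im / 2) * N ≤ π * w.im * N := by gcongr
        linarith)
    exact h2.differentiableAt (hU.mem_nhds (by simp; linarith))
  refine .congr (fun z hz => (key z hz).differentiableWithinAt) fun z hz => ?_
  simp [theta, ofComplex_apply_of_im_pos hz]

open UpperHalfPlane ModularForm MatrixGroups SlashInvariantForm in
/-- the theta series as a modular form of weight 12 and level one -/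
noncomputable def thetaMF (B : Matrix (Fin 24) (Fin 24) ℤ) (hsymm : B.IsSymm)
    (hpos : ∀ x : Fin 24 → ℤ, 0 ≤ x ⬝ᵥ (B *ᵥ x)) (hdet : B.det = 1)
    (heven : ∀ x : Fin 24 → ℤ, (2 : ℤ) ∣ x ⬝ᵥ (B *ᵥ x)) : ModularForm 𝒮ℒ 12 where
  toFun := theta B
  slash_action_eq' A hA := by
    obtain ⟨A, rfl⟩ := hA
    exact slash_action_generators_SL2Z (theta_S B hsymm hpos hdet) (theta_T B heven 12) A
  holo' := theta_holo B hsymm hpos hdet
  bdd_at_cusps' hc := by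
    rw [Subgroup.IsArithmetic.isCusp_iff_isCusp_SL2Z] at hc
    rw [OnePoint.isBoundedAt_iff_forall_SL2Z hc]
    intro γ _
    rw [slash_action_generators_SL2Z (theta_S B hsymm hpos hdet) (theta_T B heven 12)]
    exact isBoundedAtImInfty_of_hasSum_qExpansion one_pos (hasSum_theta B hsymm hpos hdet heven)

open UpperHalfPlane ModularForm MatrixGroups EisensteinSeries in
lemma E4_coeff : (qExpansion 1 E₄).coeff 0 = 1 ∧ (qExpansion 1 E₄).coeff 1 = 240 ∧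
    (qExpansion 1 E₄).coeff 2 = 2160 ∧ (qExpansion 1 E₄).coeff 3 = 6720 ∧
    (qExpansion 1 E₄).coeff 4 = 17520 := by
  have h2 : ArithmeticFunction.sigma 3 2 = 9 := by decide
  have h3 : ArithmeticFunction.sigma 3 3 = 28 := by decide
  have h4 : ArithmeticFunction.sigma 3 4 = 73 := by decide
  refine ⟨?_, ?_, ?_, ?_, ?_⟩ <;>
  norm_num [E_qExpansion_coeff _ ⟨2, rfl⟩, show bernoulli 4 = -1 / 30 by decide +kernel, h2, h3, h4]

open UpperHalfPlane ModularForm MatrixGroups EisensteinSeries in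
lemma E6_coeff : (qExpansion 1 E₆).coeff 0 = 1 ∧ (qExpansion 1 E₆).coeff 1 = -504 ∧
    (qExpansion 1 E₆).coeff 2 = -16632 ∧ (qExpansion 1 E₆).coeff 3 = -122976 ∧
    (qExpansion 1 E₆).coeff 4 = -532728 := by
  have h2 : ArithmeticFunction.sigma 5 2 = 33 := by decide
  have h3 : ArithmeticFunction.sigma 5 3 = 244 := by decide
  have h4 : ArithmeticFunction.sigma 5 4 = 1057 := by decide
  refine ⟨?_, ?_, ?_, ?_, ?_⟩ <;>
  norm_num [E_qExpansion_coeff _ ⟨3, rfl⟩, show bernoulli 6 = 1 / 42 by decide +kernel, h2, h3, h4]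

open UpperHalfPlane ModularForm MatrixGroups EisensteinSeries in
/-- a weight 12 form with expansion `1 + 0 q + …` has the Leech coefficients -/
theorem wt12 (f : ModularForm 𝒮ℒ 12) (h0 : (qExpansion 1 f).coeff 0 = 1)
    (h1 : (qExpansion 1 f).coeff 1 = 0) :
    (qExpansion 1 f).coeff 2 = 196560 ∧ (qExpansion 1 f).coeff 3 = 16773120 ∧
      (qExpansion 1 f).coeff 4 = 398034000 := by
  let g : ModularForm 𝒮ℒ 12 := (7 / 12 : ℂ) • ModularForm.mcast (by decide) (E₄.pow 3) +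
    (5 / 12 : ℂ) • ModularForm.mcast (by decide) (E₆.pow 2)
  have hg : qExpansion 1 g = (7 / 12 : ℂ) • (qExpansion 1 E₄ * qExpansion 1 E₄ * qExpansion 1 E₄) +
      (5 / 12 : ℂ) • (qExpansion 1 E₆ * qExpansion 1 E₆) := by
    simp only [g]
    rw [FunLike.coe_add, ModularForm.qExpansion_add one_pos one_mem_strictPeriods_SL]
    simp only [FunLike.coe_smul, ModularForm.qExpansion_smul one_pos one_mem_strictPeriods_SL,
      coe_mcast, ModularForm.qExpansion_pow one_pos one_mem_strictPeriods_SL]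
    ring
  obtain ⟨a0, a1, a2, a3, a4⟩ := E4_coeff
  obtain ⟨b0, b1, b2, b3, b4⟩ := E6_coeff
  have hc : (qExpansion 1 g).coeff 0 = 1 ∧ (qExpansion 1 g).coeff 1 = 0 ∧
      (qExpansion 1 g).coeff 2 = 196560 ∧ (qExpansion 1 g).coeff 3 = 16773120 ∧
      (qExpansion 1 g).coeff 4 = 398034000 := by
    rw [hg]
    refine ⟨?_, ?_, ?_, ?_, ?_⟩ <;>
    norm_num [PowerSeries.coeff_mul, Finset.Nat.antidiagonal_succ, a0, a1, a2, a3, a4, b0, b1, b2, b3, b4,
      -PowerSeries.coeff_zero_eq_constantCoeff]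
  have hfg : f - g = 0 := by
    refine sturm_bound_levelOne ?_
    have : qExpansion 1 ⇑(f - g) = qExpansion 1 f - qExpansion 1 g := by
      simp only [FunLike.coe_sub, ModularForm.qExpansion_sub one_pos one_mem_strictPeriods_SL]
    rw [this]
    refine lt_of_lt_of_le (b := ((2 : ℕ) : ℕ∞)) (by decide) (PowerSeries.nat_le_order _ 2 ?_)
    intro i hi
    interval_cases i
    · rw [map_sub, h0, hc.1, sub_self]
    · rw [map_sub, h1, hc.2.1, sub_self]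
  rw [sub_eq_zero.mp hfg]
  exact hc.2.2

theorem leech_counts (B : Matrix (Fin 24) (Fin 24) ℤ) (hsymm : B.IsSymm)
    (hpos : ∀ x : Fin 24 → ℤ, x ≠ 0 → 0 < x ⬝ᵥ (B *ᵥ x))
    (heven : ∀ x : Fin 24 → ℤ, (2 : ℤ) ∣ x ⬝ᵥ (B *ᵥ x)) (hdet : B.det = 1)
    (h2 : ∀ x : Fin 24 → ℤ, x ⬝ᵥ (B *ᵥ x) ≠ 2) :
    {x : Fin 24 → ℤ | x ⬝ᵥ (B *ᵥ x) = 4}.ncard = 196560 ∧
      {x : Fin 24 → ℤ | x ⬝ᵥ (B *ᵥ x) = 6}.ncard = 16773120 ∧
      {x : Fin 24 → ℤ | x ⬝ᵥ (B *ᵥ x) = 8}.ncard = 398034000 := by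
  have hpos' : ∀ x : Fin 24 → ℤ, 0 ≤ x ⬝ᵥ (B *ᵥ x) := by
    intro x
    by_cases hx : x = 0
    · simp [hx]
    · exact (hpos x hx).le
  have hq := ModularFormClass.qExpansion_coeff_unique (f := thetaMF B hsymm hpos' hdet heven) one_pos
    one_mem_strictPeriods_SL (hasSum_theta B hsymm hpos' hdet heven)
  have e0 : {x : Fin 24 → ℤ | x ⬝ᵥ (B *ᵥ x) = 2 * ((0 : ℕ) : ℤ)} = {0} := by
    ext x
    simp only [Set.mem_setOf_eq, Set.mem_singleton_iff]
    constructor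
    · intro h
      by_contra hx
      have := hpos x hx
      omega
    · rintro rfl; simp
  have e1 : {x : Fin 24 → ℤ | x ⬝ᵥ (B *ᵥ x) = 2 * ((1 : ℕ) : ℤ)} = ∅ := by
    ext x
    simpa using h2 x
  obtain ⟨c2, c3, c4⟩ := wt12 (thetaMF B hsymm hpos' hdet heven)
    (by rw [← hq 0, e0]; simp) (by rw [← hq 1, e1]; simp)
  rw [← hq] at c2 c3 c4
  exact ⟨by exact_mod_cast c2, by exact_mod_cast c3, by exact_mod_cast c4⟩

end Theta
end H16
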