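import Cfsg.Agent.H11.K89
import Cfsg.Agent.H08.WP

/-! Part Pb of S5569 (with the hypothesis `[A, t] ≤ W`): `H16.YPb.pb`. -/

set_option autoImplicit false
open Cfsg BG Subgroup

namespace H16.YPb
universe u

theorem pb {G : Type u} [Group G] [Finite G] {A N B W : Subgroup G} {D : Set G} {z t g : G} {Ω : Type u}
    {τ : Ω → Ω → G} {σ : N →* Equiv.Perm Ω} (c : _root_.L.Fz.Cf A N B D z) (tr : _root_.L.Fz.Tr N D τ σ) (tN : t ∈ N)
    (_t2 : t * t = 1) (c128 : Nat.card ↥(A ⊓ C_[t]) = 128) (WA : W ≤ A ⊓ C_[t]) (c64 : Nat.card W = 64)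
    (hW : ∀ a ∈ A, t * a * t⁻¹ * a ∈ W) (gN : g ∈ N) (gA : g ∉ A) (g7 : g ^ 7 ∈ A) (gt : t⁻¹ * (g * t * g⁻¹) ∈ A) :
    ∃ w ∈ W, g * w * g⁻¹ ∉ W := by
  by_contra! n
  have : Fact (Nat.Prime 7) := ⟨by norm_num⟩
  have cm : ∀ a ∈ A, ∀ b ∈ A, a * b = b * a := fun a ha b hb => by
    have h1 := c.sq _ (mul_mem ha hb)
    have h2 : a⁻¹ = a := inv_eq_of_mul_eq_one_right (c.sq a ha)
    have h3 : b⁻¹ = b := inv_eq_of_mul_eq_one_right (c.sq b hb)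
    rw [← inv_eq_of_mul_eq_one_right h1, mul_inv_rev, h2, h3]
  obtain ⟨x, hx⟩ : ∃ x, x = g * g ^ 7 := ⟨_, rfl⟩
  have x7 : x ^ 7 = 1 := by
    have e : g ^ 14 = 1 := by rw [show 14 = 7 + 7 by norm_num, pow_add]; exact c.sq _ g7
    rw [hx, ← pow_succ', ← pow_mul, show (7 + 1) * 7 = 14 * 4 by norm_num, pow_mul, e, one_pow]
  have xN : x ∈ N := hx ▸ mul_mem gN (pow_mem gN 7)
  have x1 : x ≠ 1 := fun e => gA ((mul_mem_cancel_right g7).1 (hx ▸ e ▸ one_mem A))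
  have xg : ∀ v ∈ A, x * v * x⁻¹ = g * v * g⁻¹ := fun v hv => by
    calc x * v * x⁻¹ = g * (g ^ 7 * v) * (g ^ 7)⁻¹ * g⁻¹ := by rw [hx]; group
      _ = _ := by rw [cm _ g7 v hv]; group
  let φ : A →* G := MonoidHom.mk' (fun v => t * v * t⁻¹ * v) fun a b => by
    change t * (a * b) * t⁻¹ * (a * b) = t * a * t⁻¹ * a * (t * b * t⁻¹ * b)
    calc _ = t * a * t⁻¹ * ((t * b * t⁻¹) * a) * b := by group
      _ = _ := by rw [cm _ (c.nM t tN b b.2) a a.2]; group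
  have hφ : ∀ v : A, φ v = t * v * t⁻¹ * v := fun v => rfl
  have k1 : φ.ker = (A ⊓ C_[t]).subgroupOf A := by
    ext v
    rw [MonoidHom.mem_ker, hφ, mem_subgroupOf, mem_inf, mem_cent1, mul_eq_one_iff_eq_inv,
      inv_eq_of_mul_eq_one_right (c.sq v v.2), mul_inv_eq_iff_eq_mul]
    exact ⟨fun h => ⟨v.2, h.symm⟩, fun h => h.2.symm⟩
  have c16 : Nat.card φ.range = 16 := by
    have c3 := φ.ker.card_mul_index
    rw [index_ker, c.cA, k1, Nat.card_congr (subgroupOfEquivOfLe inf_le_left).toEquiv, c128] at c3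
    omega
  have RW : φ.range ≤ W := by
    rintro _ ⟨v, rfl⟩
    exact hW v v.2
  have m1 := H11.K89.md (W := φ.range) x7 (by
    rintro _ ⟨v, rfl⟩
    refine ⟨⟨g * v * g⁻¹, c.nM g gN v v.2⟩, ?_⟩
    rw [xg _ (WA (RW ⟨v, rfl⟩)).1, hφ, hφ]
    have e := cm _ gt _ (c.nM g gN v v.2)
    calc t * (g * v * g⁻¹) * t⁻¹ * (g * v * g⁻¹)
        = t * (g * v * g⁻¹ * (t⁻¹ * (g * t * g⁻¹))) * (g * t * g⁻¹)⁻¹ * (g * v * g⁻¹) := by group
      _ = _ := by rw [← e]; group)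
  have m2 := H11.K89.md (W := W) x7 fun w hw => by rw [xg w (WA hw).1]; exact n w hw
  have p4 := H08.WP.pu tr (W ⊓ C_[x]) fun v hv v1 => by
    by_contra vD
    obtain ⟨m, hm, rfl⟩ := c.trZ v (WA hv.1).1 v1 vD
    have h1 := mem_cent1.1 hv.2
    have i : m⁻¹ * x * m ∈ N ⊓ C_[z] := ⟨N.mul_mem (N.mul_mem (N.inv_mem hm) xN) hm, mem_cent1.2 (by
      calc m⁻¹ * x * m * z = m⁻¹ * (x * (m * z * m⁻¹)) * m := by group
        _ = _ := by rw [← h1]; group)⟩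
    have o : orderOf (m⁻¹ * x * m) = 7 := orderOf_eq_prime (by
      rw [show m⁻¹ * x * m = m⁻¹ * x * m⁻¹⁻¹ by rw [inv_inv], conj_pow, x7]; simp) fun e => x1 (by
      rw [show x = m * (m⁻¹ * x * m) * m⁻¹ by group, e]; simp)
    have := (o ▸ orderOf_dvd_natCard _ i).trans c.cN
    norm_num at this
  have l := card_le_of_le (inf_le_inf_right C_[x] RW)
  rw [c16] at m1
  rw [c64] at m2
  unfold Nat.ModEq at m1 m2
  omega

end H16.YPb
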